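import Mathlib
import Cfsg.Agent.H10.Subf

/-!
# Tensor products of formed spaces: basics
`Ten α β φ` (`V = U ⊗ W` with product form), pure tensors `τ`, contraction `ct`, `A b = U ⊗ b`,
`PT` (tensor-preserving isometries), `rt : β.Isom →* φ.Isom`, `Rad` and `Rad.mem_E`.
-/

set_option autoImplicit false

namespace H12.Tn
open Module H10 H10.Form
open scoped TensorProduct

variable {F U W V : Type*} [Field F] [AddCommGroup U] [Module F U] [AddCommGroup W] [Module F W]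
  [AddCommGroup V] [Module F V]

/-- `y` lies in the unipotent radical of the stabiliser of `A` -/
def Rad (φ : Form F V) (A : Submodule F V) (y : φ.Isom) : Prop :=
  (∀ v ∈ A, y.1 v = v) ∧ ∀ v ∈ φ.perp A, y.1 v - v ∈ A

theorem sub_mem_perp {φ : Form F V} {A : Submodule F V} {y : φ.Isom} (h : y ∈ φ.fix A) (v : V) :
    y.1 v - v ∈ φ.perp A := φ.mem_perp.2 fun x hx => by
  rw [map_sub]; nth_rw 1 [← h x hx]; rw [Isom.B_map, sub_self]

theorem Rad.mem_E {φ : Form F V} [φ.Nondeg] [FiniteDimensional F V] (n : ℕ) : ∀ {A : Submodule F V},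
    finrank F A = n → φ.TS A → ∀ {y : φ.Isom}, Rad φ A y → y ∈ φ.E := by
  induction n with
  | zero =>
    intro A hA _ y hy
    obtain rfl := Submodule.finrank_eq_zero.1 hA
    rw [show y = 1 from Isom.ext fun x => sub_eq_zero.1 (by simpa using hy.2 x (by simp))]; exact one_mem _
  | succ n ih =>
    intro A hA hT y hy
    obtain ⟨a, ha, a0⟩ := (Submodule.ne_bot_iff A).1 (by rintro rfl; simp at hA)
    obtain ⟨f, hf⟩ := φ.exists_hyp (hT.1 a ha) a0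
    have h1 := sub_mem_perp (show y ∈ φ.fix A from hy.1) f
    have h2 : φ.B a (y.1 f) = φ.B a f := by nth_rw 1 [← hy.1 a ha]; rw [Isom.B_map]
    obtain ⟨s, h3, h4, h5⟩ := exists_siegel_map hf.Qe (Isom.Q_map y f) h2 (by rw [h2, hf.Bef]; simp)
    set w := (φ.ε / φ.B a (y.1 f)) • (y.1 f - f)
    have hw : w ∈ φ.perp A := Submodule.smul_mem _ _ h1
    have h6 : ∀ v ∈ φ.perp A, (φ.siegel a w s).1 v = v + φ.B w v • a := fun v hv => by
      rw [φ.siegel_apply hf.Qe h3 h4, hv a ha]; simp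
    have h7 : ∀ v ∈ A, (φ.siegel a w s * y).1 v = v := fun v hv => by
      rw [Isom.mul_apply, hy.1 v hv, h6 v (hT.le_perp hv), φ.B_symm_zero (hw v hv)]; simp
    let A₀ := A ⊓ φ.perp (F ∙ f)
    have h8 : finrank F A₀ = n := by
      have := φ.finrank_le_inf_perp A (F ∙ f)
      have := finrank_span_singleton_le (F := F) f
      have := Submodule.finrank_lt_finrank_of_lt (show A₀ < A from lt_of_le_of_ne inf_le_left fun e => by
        have := φ.mem_perp_singleton.1 (e.ge ha).2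
        rw [hf.Bfe] at this; exact φ.ε_ne_zero this)
      simp only [A₀] at *; omega
    have h9 : Rad φ A₀ (φ.siegel a w s * y) := ⟨fun v hv => h7 v hv.1, fun v hv => by
      have e1 : v - φ.B a v • f ∈ φ.perp A := φ.mem_perp.2 fun x hx => by
        have := hv (x - (φ.ε * φ.B f x) • a) ⟨sub_mem hx (A.smul_mem _ ha), φ.mem_perp_singleton.2 (by
          simp [hf.Bfe, mul_right_comm])⟩
        rw [map_sub, LinearMap.sub_apply, φ.B_smul_left, map_mul, φ.σ_ε, φ.σ_B, φ.ε_mul_ε_mul] at this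
        rw [map_sub, map_smul, smul_eq_mul]; linear_combination this
      have e2 : (φ.siegel a w s * y).1 f = f := h5
      have e3 : (φ.siegel a w s * y).1 v - v ∈ A := by
        have := hy.2 _ e1
        rw [show (φ.siegel a w s * y).1 v - v = (φ.siegel a w s * y).1 (v - φ.B a v • f) - (v - φ.B a v • f) by
          rw [map_sub, map_smul, e2]; abel, Isom.mul_apply, h6 _ (by
            simpa using add_mem (hT.le_perp this) e1), add_sub_right_comm]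
        exact add_mem this (A.smul_mem _ ha)
      refine ⟨e3, φ.mem_perp_singleton.2 ?_⟩
      rw [map_sub]; nth_rw 1 [← e2]; rw [Isom.B_map, sub_self]⟩
    simpa using mul_mem (inv_mem (φ.siegel_mem_E hf.Qe h3 h4)) (ih h8 (hT.mono inf_le_left) h9)

/-- tensor product structure on a formed space -/
structure Ten (α : Form F U) (β : Form F W) (φ : Form F V) where
  e : U ⊗[F] W ≃ₗ[F] V
  σ₁ : ∀ a, α.σ a = φ.σ a
  σ₂ : ∀ a, β.σ a = φ.σ a
  ε : φ.ε = α.ε * β.ε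
  B : ∀ u w u' w', φ.B (e (u ⊗ₜ w)) (e (u' ⊗ₜ w')) = α.B u u' * β.B w w'
  Q : ∀ u w u' w', φ.B (e (u ⊗ₜ w)) (e (u ⊗ₜ w)) = φ.B (e (u' ⊗ₜ w')) (e (u' ⊗ₜ w')) →
    φ.Q (e (u ⊗ₜ w)) = φ.Q (e (u' ⊗ₜ w'))

namespace Ten
variable {α : Form F U} {β : Form F W} {φ : Form F V} (t : Ten α β φ)

/-- pure tensors -/
def τ : U →ₗ[F] W →ₗ[F] V := (TensorProduct.mk F U W).compr₂ t.e
/-- contraction with a vector of `W` -/
noncomputable def ct (w : W) : V →ₗ[F] U :=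
  (TensorProduct.rid F U : _ →ₗ[F] U) ∘ₗ LinearMap.lTensor U (β.B w) ∘ₗ (t.e.symm : V →ₗ[F] _)
/-- contraction with a functional on `U` -/
noncomputable def cu (ξ : Dual F U) : V →ₗ[F] W :=
  (TensorProduct.lid F W : _ →ₗ[F] W) ∘ₗ LinearMap.rTensor W ξ ∘ₗ (t.e.symm : V →ₗ[F] _)
/-- tensor product of linear maps -/
noncomputable def tm (a : U →ₗ[F] U) (b : W →ₗ[F] W) : V →ₗ[F] V :=
  (t.e : _ →ₗ[F] V) ∘ₗ TensorProduct.map a b ∘ₗ (t.e.symm : V →ₗ[F] _)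
/-- exchange the factors -/
noncomputable def flip : Ten β α φ :=
  ⟨TensorProduct.comm F W U ≪≫ₗ t.e, t.σ₂, t.σ₁, t.ε.trans (mul_comm _ _),
    fun _ _ _ _ => (t.B _ _ _ _).trans (mul_comm _ _), fun _ _ _ _ => t.Q _ _ _ _⟩

theorem τ_eq (u : U) (w : W) : t.τ u w = t.e (u ⊗ₜ w) := rfl
@[simp] theorem flip_τ (u : U) (w : W) : t.flip.τ w u = t.τ u w := rfl
@[simp] theorem B_ττ (u w u' w') : φ.B (t.τ u w) (t.τ u' w') = α.B u u' * β.B w w' := t.B _ _ _ _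
@[simp] theorem ct_τ (w : W) (u w') : t.ct w (t.τ u w') = β.B w w' • u := by simp [ct, τ_eq]
@[simp] theorem cu_τ (ξ : Dual F U) (u w) : t.cu ξ (t.τ u w) = ξ u • w := by simp [cu, τ_eq]
@[simp] theorem tm_τ (a b u w) : t.tm a b (t.τ u w) = t.τ (a u) (b w) := by simp [tm, τ_eq]

theorem ind {P : V → Prop} (hp : ∀ u w, P (t.τ u w)) (ha : ∀ x y, P x → P y → P (x + y)) (v : V) : P v := by
  obtain ⟨v, rfl⟩ := t.e.surjective v
  induction v with
  | zero => simpa using hp 0 0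
  | tmul u w => exact hp u w
  | add x y h1 h2 => rw [map_add]; exact ha _ _ h1 h2

theorem ext' {Z : Type*} [AddCommGroup Z] [Module F Z] {X Y : V →ₗ[F] Z}
    (h : ∀ u w, X (t.τ u w) = Y (t.τ u w)) (v : V) : X v = Y v :=
  t.ind (P := fun v => X v = Y v) h (fun _ _ h1 h2 => by simp [h1, h2]) v

theorem B_τ (u : U) (w : W) (v : V) : φ.B (t.τ u w) v = α.B u (t.ct w v) :=
  t.ext' (X := φ.B (t.τ u w)) (Y := α.B u ∘ₗ t.ct w) (fun _ _ => by simp [mul_comm]) v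

theorem B_cu (ξ : Dual F U) (w : W) (v : V) : β.B w (t.cu ξ v) = ξ (t.ct w v) :=
  t.ext' (X := β.B w ∘ₗ t.cu ξ) (Y := ξ ∘ₗ t.ct w) (fun _ _ => by simp [mul_comm]) v

theorem ct_add (w w' : W) (v : V) : t.ct (w + w') v = t.ct w v + t.ct w' v :=
  t.ext' (Y := t.ct w + t.ct w') (fun _ _ => by simp [add_smul]) v
theorem ct_smul (c : F) (w : W) (v : V) : t.ct (c • w) v = φ.σ c • t.ct w v :=
  t.ext' (Y := φ.σ c • t.ct w) (fun _ _ => by simp [mul_smul, t.σ₂]) v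
@[simp] theorem ct_zero (v : V) : t.ct 0 v = 0 := by simpa using t.ct_smul 0 0 v
theorem ct_neg (w : W) (v : V) : t.ct (-w) v = -t.ct w v := by simpa using t.ct_smul (-1) w v
theorem ct_sub (w w' : W) (v : V) : t.ct (w - w') v = t.ct w v - t.ct w' v := by
  rw [sub_eq_add_neg, ct_add, ct_neg, sub_eq_add_neg]

theorem eq_zero_of_ct [φ.Nondeg] {v : V} (h : ∀ w, t.ct w v = 0) : v = 0 :=
  φ.eq_zero_of_B_right (t.ind (fun u w => by simp [B_τ, h]) fun _ _ h1 h2 => by simp [h1, h2])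

theorem Q_τ {u : U} {w : W} (h : α.B u u * β.B w w = 0) : φ.Q (t.τ u w) = 0 :=
  (t.Q u w 0 0 (by simpa [← τ_eq] using h)).trans (by simp)
theorem Q_τ₂ (u : U) {w : W} (h : β.Q w = 0) : φ.Q (t.τ u w) = 0 := t.Q_τ (by simp [β.B_self_eq_zero h])
theorem Q_τ₁ {u : U} (w : W) (h : α.Q u = 0) : φ.Q (t.τ u w) = 0 := t.Q_τ (by simp [α.B_self_eq_zero h])

theorem τ_eq_zero [β.Nondeg] {u : U} {w : W} (hw : w ≠ 0) (h : t.τ u w = 0) : u = 0 := by
  obtain ⟨y, hy⟩ := β.exists_B_ne_zero hw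
  simpa [mt β.B_symm_zero hy] using congrArg (t.ct y) h
theorem τ_inj [β.Nondeg] {u u' : U} {w : W} (hw : w ≠ 0) (h : t.τ u w = t.τ u' w) : u = u' :=
  sub_eq_zero.1 (t.τ_eq_zero hw (by simp [h]))
theorem τ_ne [β.Nondeg] {u : U} {w : W} (hu : u ≠ 0) (hw : w ≠ 0) : t.τ u w ≠ 0 := mt (t.τ_eq_zero hw) hu

/-- the subspace `U ⊗ b` -/
def A (b : W) : Submodule F V := LinearMap.range (t.τ.flip b)
theorem mem_A {b : W} {v : V} : v ∈ t.A b ↔ ∃ u, t.τ u b = v := Iff.rfl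
theorem τ_mem (u : U) (b : W) : t.τ u b ∈ t.A b := ⟨u, rfl⟩
theorem mem_perp_A [α.Nondeg] {b : W} {v : V} : v ∈ φ.perp (t.A b) ↔ t.ct b v = 0 :=
  ⟨fun h => α.eq_zero_of_B_right fun u => t.B_τ u b v ▸ h _ ⟨u, rfl⟩, fun h => by
    rintro _ ⟨u, rfl⟩; simp [B_τ, h]⟩
theorem ts_A {b : W} (hb : β.Q b = 0) : φ.TS (t.A b) :=
  ⟨by rintro _ ⟨u, rfl⟩; exact t.Q_τ₂ u hb, by
    rintro _ ⟨u, rfl⟩ _ ⟨u', rfl⟩; simp [β.B_self_eq_zero hb]⟩
theorem finrank_A [β.Nondeg] {b : W} (hb : b ≠ 0) : finrank F (t.A b) = finrank F U :=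
  LinearMap.finrank_range_of_inj fun _ _ h => t.τ_inj hb h
theorem A_smul (b : W) {c : F} (hc : c ≠ 0) : t.A (c • b) = t.A b :=
  le_antisymm (by rintro _ ⟨u, rfl⟩; exact ⟨c • u, by simp⟩) (by
    rintro _ ⟨u, rfl⟩; exact ⟨c⁻¹ • u, by simp [smul_smul, hc]⟩)

theorem eq_τ_of [φ.Nondeg] {b f : W} (h : β.IsHyp b f) {v : V} (hv : ∀ w, β.B b w = 0 → t.ct w v = 0) :
    v = t.τ (β.ε • t.ct f v) b := by
  refine sub_eq_zero.1 (t.eq_zero_of_ct fun w => ?_)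
  have := hv (w - β.B b w • f) (by simp [h.Bef])
  rw [ct_sub, ct_smul, sub_eq_zero] at this
  rw [map_sub, this, ct_τ, smul_smul, β.symm b w, t.σ₂, mul_right_comm, β.ε_mul_ε, one_mul, sub_self]

theorem perp_ind [φ.Nondeg] {b f : W} (h : β.IsHyp b f) {P : V → Prop}
    (hp : ∀ u w, β.B b w = 0 → P (t.τ u w)) (ha : ∀ x y, P x → P y → P (x + y)) {v : V} (hv : t.ct b v = 0) : P v := by
  have := t.ind (P := fun v => P (v - t.τ (t.ct b v) f)) (fun u w => by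
    convert hp u (w - β.B b w • f) (by simp [h.Bef]) using 1; simp) (fun x y h1 h2 => by
    convert ha _ _ h1 h2 using 1; simp; abel) v
  simpa [hv] using this

theorem isIsom_tm {a : U →ₗ[F] U} {b : W →ₗ[F] W}
    (h : ∀ u u' w w', α.B (a u) (a u') * β.B (b w) (b w') = α.B u u' * β.B w w') : φ.IsIsom (t.tm a b) := by
  have h1 : ∀ x y, φ.B (t.tm a b x) (t.tm a b y) = φ.B x y := t.ind (fun u w =>
    t.ext' (X := φ.B (t.tm a b (t.τ u w)) ∘ₗ t.tm a b) fun _ _ => by simp [h]) fun _ _ h1 h2 y => by simp [h1, h2]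
  exact ⟨h1, t.ind (fun u w => by rw [tm_τ]; exact t.Q _ _ _ _ (by simp [← τ_eq, h])) fun x y h2 h3 => by
    rw [map_add, φ.Q_add, φ.Q_add, h1, h2, h3]⟩

/-- tensor product of two automorphisms -/
noncomputable def te (a : U ≃ₗ[F] U) (b : W ≃ₗ[F] W) : V ≃ₗ[F] V :=
  t.e.symm ≪≫ₗ TensorProduct.congr a b ≪≫ₗ t.e
@[simp] theorem te_τ (a b u w) : t.te a b (t.τ u w) = t.τ (a u) (b w) := by simp [te, τ_eq]

/-- isometries preserving the tensor structure -/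
def PT : Subgroup φ.Isom where
  carrier := {g | ∃ (a : U ≃ₗ[F] U) (b : W ≃ₗ[F] W), ∀ u w, g.1 (t.τ u w) = t.τ (a u) (b w)}
  mul_mem' := by
    rintro g h ⟨a, b, h1⟩ ⟨a', b', h2⟩
    exact ⟨a * a', b * b', fun u w => by rw [Isom.mul_apply, h2, h1]; rfl⟩
  one_mem' := ⟨1, 1, fun _ _ => rfl⟩
  inv_mem' := by
    rintro g ⟨a, b, h⟩
    exact ⟨a.symm, b.symm, fun u w => by rw [Isom.inv_apply_eq, h]; simp⟩

theorem flip_PT : t.flip.PT = t.PT := by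
  ext g; exact ⟨fun ⟨a, b, h⟩ => ⟨b, a, fun u w => h w u⟩, fun ⟨a, b, h⟩ => ⟨b, a, fun u w => h w u⟩⟩

/-- `1 ⊗ η` -/
noncomputable def rt : β.Isom →* φ.Isom :=
  MonoidHom.mk' (fun η => ⟨t.te 1 η.1, t.isIsom_tm (a := .id) (b := η.1) fun _ _ _ _ => by simp⟩) fun _ _ =>
    Isom.ext (t.ext' (X := (t.te 1 _ : V →ₗ[F] V)) (Y := (t.te 1 _ * t.te 1 _ : V ≃ₗ[F] V)) fun _ _ => by
      simp [LinearEquiv.mul_apply])
@[simp] theorem rt_τ (η : β.Isom) (u w) : (t.rt η).1 (t.τ u w) = t.τ u (η.1 w) := t.te_τ _ _ _ _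
theorem rt_mem (η : β.Isom) : t.rt η ∈ t.PT := ⟨1, η.1, t.rt_τ η⟩
theorem ct_rt (η : β.Isom) (w : W) (v : V) : t.ct (η.1 w) ((t.rt η).1 v) = t.ct w v :=
  t.ext' (X := t.ct (η.1 w) ∘ₗ (t.rt η).1) (fun _ _ => by simp) v
@[simp] theorem lt_τ (a : α.Isom) (u w) : (t.flip.rt a).1 (t.τ u w) = t.τ (a.1 u) w := t.flip.rt_τ a w u
theorem lt_mem (a : α.Isom) : t.flip.rt a ∈ t.PT := t.flip_PT ▸ t.flip.rt_mem a
theorem ct_lt (a : α.Isom) (w : W) (v : V) : t.ct w ((t.flip.rt a).1 v) = a.1 (t.ct w v) :=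
  t.ext' (X := t.ct w ∘ₗ (t.flip.rt a).1) (Y := a.1 ∘ₗ t.ct w) (fun _ _ => by simp) v

variable [β.Nondeg] [FiniteDimensional F W]

theorem rt_siegel {b w : W} {s : F} (hb : β.Q b = 0) (hw : β.B b w = 0) (hs : β.T s = β.Q w) (v : V) :
    (t.rt (β.siegel b w s)).1 v = v + t.τ (t.ct w v) b - β.ε • t.τ (t.ct b v) w - (β.ε * s) • t.τ (t.ct b v) b :=
  t.ext' (X := (t.rt _).1) (Y := .id + t.τ.flip b ∘ₗ t.ct w - β.ε • t.τ.flip w ∘ₗ t.ct b -
    (β.ε * s) • t.τ.flip b ∘ₗ t.ct b) (fun _ _ => by simp [β.siegel_apply hb hw hs, mul_smul]) v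

variable [α.Nondeg] [φ.Nondeg] [FiniteDimensional F V]

theorem rad_siegel {b w : W} {s : F} (hb : β.Q b = 0) (hw : β.B b w = 0) (hs : β.T s = β.Q w) :
    Rad φ (t.A b) (t.rt (β.siegel b w s)) :=
  ⟨by rintro _ ⟨u, rfl⟩; simp [siegel_apply_self hb hw hs], fun v hv => by
    simp [t.rt_siegel hb hw hs, t.mem_perp_A.1 hv, t.τ_mem]⟩

theorem rt_mem_E {η : β.Isom} (h : η ∈ β.E) : t.rt η ∈ φ.E :=
  (Subgroup.closure_le (φ.E.comap t.rt)).2 (by
    rintro _ ⟨b, w, s, hb, hw, hs, rfl⟩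
    exact (t.rad_siegel hb hw hs).mem_E _ rfl (t.ts_A hb)) h

end Ten
end H12.Tn
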