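import Mathlib
import Cfsg.Agent.H12.TnA

/-!
# Overgroups of tensor stabilisers: the stabiliser of `U ⊗ b`, spreading root elements
`Wd`, `Ten.Ov`, `Ov.stab_PT` (if `M` meets the radical inside `PT`), `Ov.spread`.
-/

set_option autoImplicit false
set_option linter.unusedSectionVars false

namespace H12.Tn
open Module H10 H10.Form

variable {F U W V : Type*} [Field F] [AddCommGroup U] [Module F U] [AddCommGroup W] [Module F W]
  [AddCommGroup V] [Module F V] {α : Form F U} {β : Form F W} {φ : Form F V}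
  [α.Nondeg] [β.Nondeg] [φ.Nondeg] [FiniteDimensional F U] [FiniteDimensional F W] [FiniteDimensional F V]

variable (β) in
/-- Witt index at least two, and large enough -/
structure Wd : Prop where
  big : β.Big
  hd : (∃ t, t ≠ 0 ∧ β.T t = 0) ∨ 5 ≤ finrank F W
  two : ∀ b, β.Q b = 0 → ∃ x, β.Q x = 0 ∧ β.B b x = 0 ∧ x ∉ F ∙ b

theorem exists_dual {u : U} (hu : u ≠ 0) : ∃ ξ : Dual F U, ξ u = 1 := by
  obtain ⟨ξ, -, h⟩ := exists_dual_sep (W := (⊥ : Submodule F U)) (u := u) (by simpa)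
  exact ⟨ξ, h⟩

theorem exists_partner' {b x : W} (hx : x ∉ F ∙ b) : ∃ y, β.B b y = 0 ∧ β.B x y = 1 := by
  obtain ⟨y, h1, h2⟩ := β.exists_sep' hx
  exact ⟨y, h1 b (Submodule.mem_span_singleton_self b), h2⟩

theorem Wd.sing (h : Wd β) : ∃ b, β.Q b = 0 ∧ b ≠ 0 := by
  obtain ⟨x, h1, -, h2⟩ := h.two 0 (by simp)
  exact ⟨x, h1, by simpa using h2⟩

theorem Wd.map (h : Wd β) {b b' : W} (hb : β.Q b = 0) (h0 : b ≠ 0) (hb' : β.Q b' = 0) (h0' : b' ≠ 0) :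
    ∃ g ∈ β.E, g.1 b = b' := h.big.exists_E_map_sing hb h0 hb' h0'

theorem Wd.two' (h : Wd β) {b f : W} (hy : β.IsHyp b f) : ∃ x, β.Q x = 0 ∧ β.B b x = 0 ∧ β.B f x = 0 ∧ x ∉ F ∙ b := by
  obtain ⟨x, h1, h2, h3⟩ := h.two b hy.Qe
  refine ⟨x - (β.ε * β.B f x) • b, ?_, by simp [h2, hy.Bee], by simp [hy.Bfe, mul_right_comm], fun h4 => h3 ?_⟩
  · rw [sub_eq_add_neg, ← neg_smul, β.Q_add_of_orth (by simp [β.B_symm_zero h2]), h1, β.Q_smul_of_sing hy.Qe, add_zero]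
  · simpa using add_mem h4 (Submodule.smul_mem _ (β.ε * β.B f x) (Submodule.mem_span_singleton_self b))

theorem perp_le_of_sing (hd : (∃ t, t ≠ 0 ∧ β.T t = 0) ∨ 5 ≤ finrank F W) {b x : W} (hb : β.Q b = 0)
    {S : Submodule F W} (hS : ∀ g ∈ β.E, g.1 b = b → ∀ w ∈ S, g.1 w ∈ S) (hx : x ∈ S) (hQ : β.Q x = 0)
    (h1 : β.B b x = 0) (h2 : x ∉ F ∙ b) {w : W} (hw : β.B b w = 0) : w ∈ S := by
  obtain ⟨g, hg, h3, h4⟩ := exists_move (W := F ∙ b) (β.mem_perp_singleton.2 h1) h2 hQ (hd.imp_right fun h => by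
    have := finrank_span_singleton_le (F := F) b; omega)
  have h5 := h3 b (Submodule.mem_span_singleton_self b)
  have h6 := hS g hg h5 x hx
  have h7 : β.B b (g.1 x) = 0 := by rw [← h5, Isom.B_map, h1]
  set y := g.1 x
  obtain ⟨s, hs, -⟩ := β.half (w - (β.B x w / β.B x y) • y)
  have h8 : β.B x (w - (β.B x w / β.B x y) • y) = 0 := by simp [h4]
  have := hS _ (β.siegel_mem_E hQ h8 hs) (siegel_apply_of_orth hQ h8 hs (β.B_symm_zero h1)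
    (β.B_symm_zero (by simp [hw, h7]))) y h6
  rw [β.siegel_apply hQ h8 hs] at this
  have h9 := sub_mem (add_mem h6 (S.smul_mem (β.B (w - (β.B x w / β.B x y) • y) y) hx))
    (add_mem this (S.smul_mem (β.ε * s * β.B x y) hx))
  rw [sub_add_cancel, sub_sub_cancel, S.smul_mem_iff (mul_ne_zero β.ε_ne_zero h4)] at h9
  simpa using add_mem h9 (S.smul_mem (β.B x w / β.B x y) h6)

theorem eq_top_of_sing {a a' : U} (h : α.IsHyp a a') {S : Submodule F U} (ha : a ∈ S)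
    (hS : ∀ x, α.Q x = 0 → α.B a x = 1 → x ∈ S) (u : U) : u ∈ S := by
  have h1 := α.mem_perp_pair.1 (h.proj_mem u)
  set w := u - (α.ε * α.B a' u) • a - α.B a u • a' with hw
  obtain ⟨s, hs, -⟩ := α.half w
  have h2 := hS ((α.siegel a w s).1 a') (by rw [Isom.Q_map, h.Qf]) (by
    nth_rw 1 [← siegel_apply_self h.Qe h1.1 hs]; rw [Isom.B_map, h.Bef])
  have h3 := hS a' h.Qf h.Bef
  rw [α.siegel_apply h.Qe h1.1 hs, h.Bef] at h2
  have h4 := sub_mem (add_mem h3 (S.smul_mem (α.B w a') ha)) (add_mem h2 (S.smul_mem (α.ε * s * 1) ha))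
  rw [sub_add_cancel, sub_sub_cancel, S.smul_mem_iff (by simpa using α.ε_ne_zero)] at h4
  simpa [hw] using add_mem (add_mem h4 (S.smul_mem (α.B a u) h3)) (S.smul_mem (α.ε * α.B a' u) ha)

namespace Ten
variable (t : Ten α β φ)

theorem mem_PT_of [Nontrivial U] [Nontrivial W] {g : φ.Isom} (a : U →ₗ[F] U) (η : W →ₗ[F] W)
    (h : ∀ u w, g.1 (t.τ u w) = t.τ (a u) (η w)) : g ∈ t.PT := by
  obtain ⟨u₀, hu⟩ := exists_ne (0 : U)
  obtain ⟨w₀, hw⟩ := exists_ne (0 : W)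
  exact ⟨.ofInjectiveEndo a ((injective_iff_map_eq_zero _).2 fun u e => t.τ_eq_zero hw (by
    simpa [e] using h u w₀)), .ofInjectiveEndo η ((injective_iff_map_eq_zero _).2 fun w e =>
    t.flip.τ_eq_zero hu (by simpa [e] using h u₀ w)), h⟩

theorem exists_of_scalar {y : φ.Isom} {a : U ≃ₗ[F] U} {η : W ≃ₗ[F] W} (h : ∀ u w, y.1 (t.τ u w) = t.τ (a u) (η w))
    {c : F} (hc : ∀ u, a u = c • u) : ∃ η : W →ₗ[F] W, ∀ u w, y.1 (t.τ u w) = t.τ u (η w) :=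
  ⟨c • (η : W →ₗ[F] W), fun u w => by simp [h, hc]⟩

theorem pt_fix [Nontrivial U] {y : φ.Isom} (hy : y ∈ t.PT) {b : W} (hb : b ≠ 0) (h : ∀ u, y.1 (t.τ u b) = t.τ u b) :
    ∃ η : W →ₗ[F] W, η b = b ∧ ∀ u w, y.1 (t.τ u w) = t.τ u (η w) := by
  obtain ⟨a, η, hy⟩ := hy
  obtain ⟨f, hf⟩ := β.exists_B_eq_one hb
  obtain ⟨u₀, hu⟩ := exists_ne (0 : U)
  have h1 : ∀ u, β.B f (η b) • a u = β.B f b • u := fun u => by simpa [hy] using congrArg (t.ct f) (h u)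
  have h2 : β.B f b ≠ 0 := fun e => by simp [β.B_symm_zero e] at hf
  have h3 : β.B f (η b) ≠ 0 := fun e => by simpa [e, h2, hu] using (h1 u₀).symm
  obtain ⟨η', h4⟩ := t.exists_of_scalar hy (c := (β.B f (η b))⁻¹ * β.B f b) fun u => by
    rw [mul_smul, ← h1, inv_smul_smul₀ h3]
  exact ⟨η', t.flip.τ_inj hu ((h4 u₀ b).symm.trans (h u₀)), h4⟩

theorem rad_PT [Nontrivial U] {y : φ.Isom} (hy : y ∈ t.PT) {b f : W} (h : β.IsHyp b f) (hr : Rad φ (t.A b) y) :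
    ∃ w, β.B b w = 0 ∧ ∀ z, t.ct b z = 0 → y.1 z = z + t.τ (t.ct w z) b := by
  obtain ⟨η, h1, h2⟩ := t.pt_fix hy h.e_ne_zero fun u => hr.1 _ (t.τ_mem u b)
  obtain ⟨u₀, hu⟩ := exists_ne (0 : U)
  obtain ⟨ξ, hξ⟩ := exists_dual (F := F) hu
  obtain ⟨w, hw⟩ := β.exists_B_eq (β.ε • β.B f ∘ₗ (η - .id))
  refine ⟨w, β.B_symm_zero (by simp [hw, h1]), fun z hz => t.perp_ind h
    (P := fun z => y.1 z = z + t.τ (t.ct w z) b) (fun u x hx => ?_) (fun _ _ a b => by simp [a, b]; abel) hz⟩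
  obtain ⟨u₁, e⟩ := hr.2 (t.τ u₀ x) (t.mem_perp_A.2 (by simp [hx]))
  have e1 : η x = x + ξ u₁ • b := by
    have := congrArg (t.cu ξ) e
    simp only [h2, LinearMap.flip_apply, cu_τ, map_sub, hξ, one_smul] at this
    rw [this]; abel
  simp [h2, hw, e1, h.Bfe, mul_left_comm β.ε]

variable (M : Subgroup φ.Isom)
/-- `M` is an overgroup of the tensor stabiliser in `E` -/
structure Ov : Prop where
  le : M ≤ φ.E
  pt : ∀ g ∈ φ.E, g ∈ t.PT → g ∈ M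

variable {t M}
theorem Ov.flip (h : t.Ov M) : t.flip.Ov M := ⟨h.le, fun g a b => h.pt g a (t.flip_PT ▸ b)⟩
theorem Ov.rt (h : t.Ov M) {η : β.Isom} (hη : η ∈ β.E) : t.rt η ∈ M := h.pt _ (t.rt_mem_E hη) (t.rt_mem η)
theorem Ov.lt (h : t.Ov M) {η : α.Isom} (hη : η ∈ α.E) : t.flip.rt η ∈ M := h.flip.rt hη

theorem ct_stab {b : W} {k : φ.Isom} (hk : k ∈ φ.stab (t.A b)) {z : V} (hz : t.ct b z = 0) : t.ct b (k.1 z) = 0 :=
  t.mem_perp_A.1 ((φ.stab_le_stab_perp _ hk z).1 (t.mem_perp_A.2 hz))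

theorem Rad.conj {A : Submodule F V} {y k : φ.Isom} (h : Rad φ A y) (hk : k ∈ φ.stab A) : Rad φ A (k * y * k⁻¹) :=
  ⟨fun v hv => by rw [Isom.mul_apply, Isom.mul_apply, h.1 _ ((inv_mem hk v).1 hv), Isom.apply_inv_apply], fun v hv => by
    have := (hk _).1 (h.2 _ ((φ.stab_le_stab_perp _ (inv_mem hk) v).1 hv))
    rwa [map_sub, Isom.apply_inv_apply] at this⟩

theorem Ov.stab_PT [Nontrivial U] (h : t.Ov M) {b f : W} (hy : β.IsHyp b f) {w₁ : W} (h1 : β.B b w₁ = 0)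
    (h1' : w₁ ∉ F ∙ b) (hR : ∀ y ∈ M, Rad φ (t.A b) y → y ∈ t.PT) {k : φ.Isom} (hk : k ∈ M)
    (hk' : k ∈ φ.stab (t.A b)) : k ∈ t.PT := by
  have : Nontrivial W := ⟨b, 0, hy.e_ne_zero⟩
  obtain ⟨w₂, h2, h12⟩ := exists_partner' (β := β) h1'
  let γ : U →ₗ[F] U := β.ε • t.ct f ∘ₗ (k.1 : V →ₗ[F] V) ∘ₗ t.τ.flip b
  have e1 : ∀ u, k.1 (t.τ u b) = t.τ (γ u) b := fun u => by
    obtain ⟨u', e⟩ := (hk' _).1 (t.τ_mem u b)
    simp [γ, ← show t.τ u' b = _ from e, hy.Bfe, smul_smul]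
  have e2 : ∀ w, β.B b w = 0 → ∃ w', β.B b w' = 0 ∧ ∀ z, t.ct b z = 0 → t.ct w (k.1 z) = γ (t.ct w' z) := fun w hw => by
    obtain ⟨s, hs, -⟩ := β.half w
    have := Rad.conj (t.rad_siegel hy.Qe hw hs) (inv_mem hk')
    obtain ⟨w', a, e⟩ := t.rad_PT (hR _ (mul_mem (mul_mem (inv_mem hk) (h.rt (β.siegel_mem_E hy.Qe hw hs)))
      (inv_mem (inv_mem hk))) this) hy this
    refine ⟨w', a, fun z hz => t.τ_inj hy.e_ne_zero ?_⟩
    have := e z hz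
    rw [inv_inv, Isom.mul_apply, Isom.mul_apply, Isom.inv_apply_eq, t.rt_siegel hy.Qe hw hs, ct_stab hk' hz,
      map_add k.1, e1] at this
    simpa using this
  obtain ⟨u₀, hu⟩ := exists_ne (0 : U)
  obtain ⟨ξ, hξ⟩ := exists_dual (F := F) (show γ u₀ ≠ 0 from fun e => t.τ_ne hu hy.e_ne_zero (by simpa [e] using e1 u₀))
  let ν : W →ₗ[F] W := t.cu ξ ∘ₗ (k.1 : V →ₗ[F] V) ∘ₗ t.τ u₀
  have e3 : ∀ w, β.B b w = 0 → β.B b (ν w) = 0 := fun w hw => by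
    simp [ν, t.B_cu, ct_stab hk' (show t.ct b (t.τ u₀ w) = 0 by simp [hw])]
  have e4 : ∀ u w, β.B b w = 0 → ∃ u', k.1 (t.τ u w) = t.τ (γ u) (ν w) + t.τ u' b := fun u w hw =>
    ⟨_, eq_add_of_sub_eq' (t.eq_τ_of hy fun x hx => by
      obtain ⟨x', -, e⟩ := e2 x hx
      simp [ν, t.B_cu, e _ (show t.ct b (t.τ u₀ w) = 0 by simp [hw]), e _ (show t.ct b (t.τ u w) = 0 by simp [hw]), hξ])⟩
  have e5 : ∀ u u' w w', β.B b w = 0 → β.B b w' = 0 →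
      α.B (γ u) (γ u') * β.B (ν w) (ν w') = α.B u u' * β.B w w' := fun u u' w w' a a' => by
    obtain ⟨x, e⟩ := e4 u w a
    obtain ⟨x', e'⟩ := e4 u' w' a'
    rw [← t.B_ττ u, ← Isom.B_map k, e, e']
    simp [e3 _ a', β.B_symm_zero (e3 _ a), hy.Bee]
  obtain ⟨u₁, hu₁⟩ := α.exists_B_eq_one hu
  set κ := β.B (ν w₁) (ν w₂) with hκ
  have e6 : ∀ u u', α.B (γ u) (γ u') * κ = α.B u u' := fun u u' => by rw [e5 _ _ _ _ h1 h2, h12, mul_one]
  have e7 : ∀ w w', β.B b w = 0 → β.B b w' = 0 → β.B (ν w) (ν w') = κ * β.B w w' := fun w w' a a' => by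
    have := e5 u₀ u₁ w w' a a'
    linear_combination κ * this - β.B (ν w) (ν w') * (e6 u₀ u₁) + (κ * β.B w w' - β.B (ν w) (ν w')) * hu₁
  have e8 : β.σ κ = κ := by
    have := e7 w₂ w₁ h2 h1
    rw [β.symm, β.symm w₁, h12, ← hκ, map_one, mul_one, mul_comm] at this
    exact mul_right_cancel₀ β.ε_ne_zero this
  let π : W →ₗ[F] W := .id - (β.B b).smulRight f
  let η : W →ₗ[F] W := ν ∘ₗ π + (β.ε • β.B f ∘ₗ (π - ν ∘ₗ π)).smulRight b + (κ • β.B b).smulRight f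
  have π0 : ∀ x, β.B b (π x) = 0 := fun x => by simp [π, hy.Bef]
  have e9 : ∀ x y, β.B (η x) (η y) = κ * β.B x y := fun x y => by
    have a1 : x = π x + β.B b x • f := by simp [π]
    have a2 : y = π y + β.B b y • f := by simp [π]
    conv_rhs => rw [a1, a2]
    simp only [η, LinearMap.add_apply, LinearMap.comp_apply, LinearMap.smulRight_apply, LinearMap.smul_apply,
      LinearMap.sub_apply, map_add, map_sub, map_smulₛₗ, smul_eq_mul, RingHom.id_apply, map_mul, e7 _ _ (π0 x) (π0 y),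
      e3 _ (π0 _), β.B_symm_zero (e3 _ (π0 _)), hy.Bee, hy.Bff, hy.Bef, hy.Bfe, e8, β.σ_ε, β.σ_B _ (π x),
      β.σ_B _ (ν (π x)), β.ε_mul_ε_mul]
    linear_combination (β.σ (β.B b x) * κ * (β.B f (π y) - β.B f (ν (π y))) +
      κ * β.B b y * (β.B (π x) f - β.B (ν (π x)) f)) * β.ε_mul_ε
  have e10 : φ.IsIsom (t.tm γ η) := t.isIsom_tm fun u u' w w' => by rw [e9, ← mul_assoc, e6]
  have e11 : ∀ u w, (φ.toIsom (t.tm γ η)).1 (t.τ u w) = t.τ (γ u) (η w) := fun u w => by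
    rw [φ.toIsom_apply e10, tm_τ]
  set g := φ.toIsom (t.tm γ η)
  have hg := t.mem_PT_of γ η e11
  have e12 : ∀ u, g.1 (t.τ u b) = t.τ (γ u) b := fun u => by
    have : ν b = b := by simp [ν, e1, hξ]
    simp [e11, η, π, hy.Bee, this]
  have e13 : g ∈ φ.stab (t.A b) := φ.mem_stab_of_le (by rintro _ ⟨u, rfl⟩; exact ⟨_, (e12 u).symm⟩)
  have hr : Rad φ (t.A b) (g⁻¹ * k) := ⟨by
    rintro _ ⟨u, rfl⟩; rw [Isom.mul_apply, Isom.inv_apply_eq]; exact (e1 u).trans (e12 u).symm, fun v hv =>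
    t.perp_ind hy (P := fun v => (g⁻¹ * k).1 v - v ∈ t.A b) (fun u w hw => by
      obtain ⟨x, e⟩ := e4 u w hw
      rw [e13, map_sub, Isom.mul_apply, Isom.apply_inv_apply, e, e11]
      exact ⟨x - (β.ε * (β.B f w - β.B f (ν w))) • γ u, by simp [η, π, hw]⟩)
      (fun _ _ a b => by convert add_mem a b using 1; rw [map_add]; abel) (t.mem_perp_A.1 hv)⟩
  have hE := hr.mem_E _ rfl (t.ts_A hy.Qe)
  have hM : g ∈ M := h.pt _ (by simpa using mul_mem (h.le hk) (inv_mem hE)) hg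
  simpa using mul_mem hg (hR _ (mul_mem (inv_mem hM) hk) hr)

theorem Ov.spread (h : t.Ov M) (hW : Wd β) (hd : (∃ s, s ≠ 0 ∧ φ.T s = 0) ∨ 5 ≤ finrank F W) {a₀ : U}
    (ha₀ : α.Q a₀ = 0) (h0 : a₀ ≠ 0)
    (hX : ∀ a b, α.Q a = 0 → β.Q b = 0 → ∀ s, φ.T s = 0 → φ.siegel (t.τ a b) 0 s ∈ M)
    (hK : ∀ a b w, α.Q a = 0 → β.Q b = 0 → β.B b w = 0 → φ.siegel (t.τ a b) (t.τ a w) 0 ∈ M) : φ.E ≤ M := by
  let L := fun a b (ha : α.Q a = 0) (hb : β.Q b = 0) => sgSub M (t.Q_τ₂ a hb) (hX a b ha hb)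
  have k0 : ∀ a b ha hb w, β.B b w = 0 → t.τ a w ∈ L a b ha hb := fun a b ha hb w hw =>
    mem_sgSub.2 ⟨by simp [hw], fun c => ⟨0, by rw [← map_smul, t.Q_τ₁ _ ha, map_zero], by
      rw [← map_smul]; exact hK _ _ _ ha hb (by simp [hw])⟩⟩
  have k1 : ∀ a b ha hb z w s v, φ.Q z = 0 → φ.B z w = 0 → φ.T s = φ.Q w → φ.siegel z w s ∈ M →
      φ.B z (t.τ a b) = 0 → φ.B w (t.τ a b) = 0 → v ∈ L a b ha hb →
      (φ.B w v - φ.ε * s * φ.B z v) • z - (φ.ε * φ.B z v) • w ∈ L a b ha hb := fun a b ha hb z w s v a1 a2 a3 a4 a5 a6 a7 => by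
    convert sub_mem (map_mem_sgSub a4 (siegel_apply_of_orth a1 a2 a3 a5 a6) a7) a7 using 1
    rw [φ.siegel_apply a1 a2 a3]; module
  have k2 : ∀ a a' b (hy : α.IsHyp a a') hb w, β.Q w = 0 → β.B b w = 0 → w ∉ F ∙ b → ∀ u, t.τ u w ∈ L a b hy.Qe hb :=
    fun a a' b hy hb w a1 a2 a3 => eq_top_of_sing hy (S := (L a b hy.Qe hb).comap (t.τ.flip w)) (k0 _ _ hy.Qe hb _ a2)
      fun x a4 a5 => by
      have a6 : α.B x a ≠ 0 := fun e => by simp [α.B_symm_zero e] at a5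
      rcases hd with ⟨s, s0, hs⟩ | hd
      · obtain ⟨y, b1, b2⟩ := exists_partner' (β := β) a3
        simpa [b2, Submodule.smul_mem_iff, φ.ε_ne_zero, s0, a6] using k1 a b hy.Qe hb (t.τ x w) 0 s _ (t.Q_τ₂ _ a1)
          (by simp) (by simpa) (hX _ _ a4 a1 s hs) (by simp [β.B_symm_zero a2]) (by simp) (k0 a b hy.Qe hb y b1)
      · obtain ⟨w₂, -, b1, b2⟩ := β.exists_orth ⊤ (Submodule.span F {b, w}) [b, w] (by
          have := finrank_span_pair_le (F := F) b w; simp; omega)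
        obtain ⟨w₃, b3, b4⟩ := β.exists_sep' b1
        have b5 := b3 w (Submodule.subset_span (by simp))
        simpa [b4, b5, Submodule.smul_mem_iff, a6] using k1 a b hy.Qe hb (t.τ x w) (t.τ x w₂) 0 _ (t.Q_τ₂ _ a1)
          (by simp [b2 w]) (by simp [t.Q_τ₁ _ a4]) (hK _ _ _ a4 a1 (b2 w (by simp))) (by simp [β.B_symm_zero a2])
          (by simp [β.B_symm_zero (b2 b (by simp))]) (k0 a b hy.Qe hb w₃ (b3 b (Submodule.subset_span (by simp))))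
  have k3 : ∀ a a' b (hy : α.IsHyp a a') hb w, β.B b w = 0 → ∀ u, t.τ u w ∈ L a b hy.Qe hb := fun a a' b hy hb w hw u => by
    obtain ⟨x, a1, a2, a3⟩ := hW.two b hb
    exact perp_le_of_sing hW.hd hb (S := (L a b hy.Qe hb).comap (t.τ u)) (fun g hg e w hw => by
      simpa using map_mem_sgSub (h.rt hg) (by simp [e]) hw) (k2 a a' b hy hb x a1 a2 a3 u) a1 a2 a3 hw
  have k4 : ∀ a a' b f, α.IsHyp a a' → β.IsHyp b f → φ.Full M (t.τ a b) := fun a a' b f hy hy' => by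
    refine full_of_le_sgSub (hX := hX a b hy.Qe hy'.Qe) (hp := t.Q_τ₂ a hy'.Qe) fun v hv => ?_
    have a0 := φ.mem_perp_singleton.1 hv
    rw [t.B_τ] at a0
    obtain ⟨x, a1, a2, a3, a4⟩ := hW.two' hy'
    obtain ⟨y, b1, b2⟩ := exists_partner' (β := β) a4
    have b3 := k3 _ _ x hy.symm a1 f (β.B_symm_zero a3) (t.ct b v)
    obtain ⟨s, hs, -⟩ := φ.half (t.τ (t.ct b v) f)
    have b4 := k1 a b hy.Qe hy'.Qe _ _ s _ (t.Q_τ₂ _ a1) (mem_sgSub.1 b3).1 hs (siegel_mem_of_mem_sgSub b3 hs)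
      (by simp [β.B_symm_zero a2]) (by simp [α.B_symm_zero a0]) (k0 a b hy.Qe hy'.Qe y b1)
    rw [Submodule.sub_mem_iff_right _ (Submodule.smul_mem _ _ (k3 _ _ _ hy hy'.Qe _ a2 _)), Submodule.smul_mem_iff _ (by
      simp [b2, hy.Bfe, φ.ε_ne_zero, α.ε_ne_zero])] at b4
    have := add_mem b4 (t.perp_ind hy' (P := (· ∈ L a b hy.Qe hy'.Qe)) (fun u w hw => k3 _ _ _ hy hy'.Qe _ hw u)
      (fun _ _ => add_mem) (v := v - t.τ (t.ct b v) f) (by simp [hy'.Bef]))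
    rwa [add_sub_cancel] at this
  obtain ⟨a', hy⟩ := α.exists_hyp ha₀ h0
  obtain ⟨b, hb, b0⟩ := hW.sing
  obtain ⟨f, hy'⟩ := β.exists_hyp hb b0
  exact E_le_of_full (k4 _ _ _ _ hy hy') (t.Q_τ₂ _ hb) (k4 _ _ _ _ hy.symm hy'.symm) (t.Q_τ₂ _ hy'.Qf)
    (by simp [hy.Bef, hy'.Bef])

end Ten
end H12.Tn
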