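import Mathlib
import Cfsg.Agent.H12.TnB

/-!
# Overgroups of tensor stabilisers: strong embedding
`exists_conj_mem` (Sylow argument), rank lemmas, `H0`, `Ov.le_PT_tv` (factor `W` with transvections).
-/

set_option autoImplicit false
set_option linter.unusedSectionVars false

namespace H12.Tn
open Module H10 H10.Form

theorem exists_conj_mem {G : Type*} [Group G] [Finite G] {p n : ℕ} [Fact p.Prime] {M H : Subgroup G} {x y : G}
    (hx : x ∈ M) (hy : y ∈ M) (hxH : x ∈ H) (px : x ^ p ^ n = 1) (py : y ^ p ^ n = 1)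
    (se : ∀ g ∈ M, g⁻¹ * x * g ∈ H → g ∈ H) : ∃ k ∈ Subgroup.closure {x, y}, k * y * k⁻¹ ∈ H ∧
      ∃ P : Subgroup G, IsPGroup p P ∧ x ∈ P ∧ k * y * k⁻¹ ∈ P := by
  set L := Subgroup.closure {x, y}
  have hL : L ≤ M := (Subgroup.closure_le _).2 (by simp [Set.insert_subset_iff, hx, hy])
  have H1 : ∀ z : L, z.1 ^ p ^ n = 1 → ∃ P : Sylow p L, z ∈ P := fun z hz => by
    obtain ⟨P, hP⟩ := IsPGroup.exists_le_sylow (P := Subgroup.zpowers z) (p := p) (by
      rintro ⟨_, m, rfl⟩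
      exact ⟨n, Subtype.ext (show (z ^ m) ^ p ^ n = 1 by
        rw [← zpow_natCast, ← zpow_mul, mul_comm, zpow_mul, zpow_natCast, show z ^ p ^ n = 1 from Subtype.ext hz, one_zpow])⟩)
    exact ⟨P, hP (Subgroup.mem_zpowers z)⟩
  obtain ⟨P, hP⟩ := H1 ⟨x, Subgroup.subset_closure (by simp)⟩ px
  obtain ⟨Q, hQ⟩ := H1 ⟨y, Subgroup.subset_closure (by simp)⟩ py
  obtain ⟨k, rfl⟩ := MulAction.exists_smul_eq L Q P
  set P' := (k • Q : Sylow p L).1.map L.subtype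
  have h1 : IsPGroup p P' := (k • Q).2.map _
  have h2 : x ∈ P' := ⟨_, hP, rfl⟩
  have h3 : k * y * k⁻¹ ∈ P' := ⟨_, Subgroup.smul_mem_pointwise_smul _ (MulAut.conj k) _ hQ, rfl⟩
  have h4 : H.subgroupOf P' = ⊤ := by
    have := h1.isNilpotent
    by_contra h5
    obtain ⟨z, a, b⟩ := SetLike.exists_of_lt (normalizerCondition_of_isNilpotent _ (lt_top_iff_ne_top.2 h5))
    exact b (se z (hL (Subgroup.map_subtype_le _ z.2)) ((Subgroup.mem_normalizer_iff''.1 a ⟨x, h2⟩).1 hxH))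
  exact ⟨k, k.2, Subgroup.subgroupOf_eq_top.1 h4 h3, P', h1, h2, h3⟩

variable {F U W V : Type*} [Field F] [AddCommGroup U] [Module F U] [AddCommGroup W] [Module F W]
  [AddCommGroup V] [Module F V] {α : Form F U} {β : Form F W} {φ : Form F V}
  [α.Nondeg] [β.Nondeg] [φ.Nondeg] [FiniteDimensional F U] [FiniteDimensional F W] [FiniteDimensional F V]

theorem scalar_or (a : U →ₗ[F] U) : (∃ c : F, ∀ u, a u = c • u) ∨ ∃ u, a u ∉ F ∙ u := by
  refine or_iff_not_imp_right.2 fun h => ?_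
  push Not at h
  obtain ⟨c, hc⟩ := a.exists_eq_smul_id_of_forall_notLinearIndependent fun v hv => by
    obtain ⟨c, hc⟩ := Submodule.mem_span_singleton.1 (h v)
    exact (LinearIndependent.pair_iff' (hv.ne_zero 0)).1 hv c hc
  exact ⟨c, fun u => by simp [hc]⟩

theorem exists_dual₂ {u v : U} (h : v ∉ F ∙ u) : ∃ ξ : Dual F U, ξ u = 0 ∧ ξ v = 1 := by
  obtain ⟨ξ, a, b⟩ := exists_dual_sep h
  exact ⟨ξ, a _ (Submodule.mem_span_singleton_self u), b⟩

theorem exists_adj (X : U →ₗ[F] U) : ∃ Y : U →ₗ[F] U, ∀ x u, α.B (Y x) u = α.B x (X u) := by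
  choose Y hY using fun x => α.exists_B_eq (α.B x ∘ₗ X)
  exact ⟨⟨⟨Y, fun x y => α.B_injective (by simp [hY, LinearMap.add_comp])⟩, fun c x => α.B_injective (by
    simp [hY, LinearMap.smul_comp])⟩, fun x u => LinearMap.congr_fun (hY x) u⟩

/-- unipotent elements -/
def IsP (y : φ.Isom) : Prop := y ^ ringChar F ^ 2 = 1

theorem IsP.conj {y : φ.Isom} (h : IsP y) (g : φ.Isom) : IsP (g * y * g⁻¹) := by
  rw [IsP, conj_pow, h]; simp

theorem fix_sub {Y : Submodule F V} {k : φ.Isom} (h : k ∈ φ.fix (φ.perp Y)) (v : V) : k.1 v - v ∈ Y := by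
  simpa using sub_mem_perp h v

theorem mem_fix_perp {Y : Submodule F V} {k : φ.Isom} (h : ∀ v, k.1 v - v ∈ Y) : k ∈ φ.fix (φ.perp Y) := fun v hv =>
  φ.ext_B_right fun z => by
    obtain ⟨z, rfl⟩ := k.1.surjective z
    have := hv _ (h z)
    rw [map_sub, LinearMap.sub_apply, sub_eq_zero] at this
    rw [Isom.B_map, this]

variable [Finite F]

theorem Rad.isP {A : Submodule F V} {y : φ.Isom} (h : Rad φ A y) : IsP y := by
  have hp := Fact.mk (CharP.char_is_prime F (ringChar F))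
  cases subsingleton_or_nontrivial V
  · exact Isom.ext fun _ => Subsingleton.elim _ _
  have : CharP (Module.End F V) (ringChar F) := charP_of_injective_algebraMap (algebraMap F _).injective _
  have h1 : ((y.1 : Module.End F V) - 1) ^ 3 = 0 := LinearMap.ext fun v => by
    simpa [pow_succ, sub_eq_zero] using h.1 _ (h.2 _ (sub_mem_perp h.1 v))
  have h2 := sub_pow_char_pow_of_commute (ringChar F) 2 (Commute.one_right (y.1 : Module.End F V))
  rw [pow_eq_zero_of_le (by nlinarith [hp.1.two_le]) h1, one_pow, eq_comm, sub_eq_zero] at h2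
  exact Isom.ext fun v => by simpa [LinearEquiv.pow_apply, Module.End.pow_apply] using LinearMap.congr_fun h2 v

instance finIsom : Finite φ.Isom := by
  have := Module.finite_of_finite F (M := V)
  exact Finite.of_injective (fun g : φ.Isom => (g.1 : V → V)) fun _ _ h => Isom.ext (congrFun h)

theorem exists_k {M H : Subgroup φ.Isom} {x y : φ.Isom} (hx : x ∈ M) (hy : y ∈ M) (hxH : x ∈ H) (px : IsP x)
    (py : IsP y) (se : ∀ g ∈ M, g⁻¹ * x * g ∈ H → g ∈ H) : ∃ k ∈ M, k * y * k⁻¹ ∈ H ∧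
      (∀ Z, x ∈ φ.fix Z → y ∈ φ.fix Z → k ∈ φ.fix Z) ∧ ∀ Y : Submodule F V, Y ≠ ⊥ → (∀ v, x.1 v - v ∈ Y) →
      (∀ v, (k * y * k⁻¹).1 v - v ∈ Y) → ∃ v ∈ Y, v ≠ 0 ∧ x.1 v = v ∧ (k * y * k⁻¹).1 v = v := by
  have := Fact.mk (CharP.char_is_prime F (ringChar F))
  have := Module.finite_of_finite F (M := V)
  obtain ⟨k, hk, h1, P, h2, h3, h4⟩ := exists_conj_mem hx hy hxH px py se
  have H : ∀ {a b : φ.Isom} {K : Subgroup φ.Isom}, a ∈ K → b ∈ K → Subgroup.closure {a, b} ≤ K := fun a b =>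
    (Subgroup.closure_le _).2 (by simp [Set.insert_subset_iff, a, b])
  refine ⟨k, H hx hy hk, h1, fun Z a b => H a b hk, fun Y h0 a b => ?_⟩
  let S : SubMulAction (Subgroup.closure {x, k * y * k⁻¹}) V := ⟨Y, fun g v hv => show g.1.1 v ∈ Y by
    simpa using add_mem (fix_sub (H (mem_fix_perp a) (mem_fix_perp b) g.2) v) hv⟩
  obtain ⟨v, c, d⟩ := (h2.to_le (H h3 h4)).exists_fixed_point_of_prime_dvd_card_of_fixed_point S (a := ⟨0, Y.zero_mem⟩)
    (by
      have := Fintype.ofFinite F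
      obtain ⟨n, -, e⟩ := FiniteField.card F (ringChar F)
      rw [show Nat.card S = Nat.card Y from rfl, Module.natCard_eq_pow_finrank (K := F), Nat.card_eq_fintype_card, e,
        ← pow_mul]
      exact dvd_pow_self _ (mul_ne_zero n.ne_zero (mt Submodule.finrank_eq_zero.1 h0)))
    fun g => Subtype.ext (map_zero g.1.1)
  exact ⟨v, v.2, fun e => d (Subtype.ext e.symm), congrArg Subtype.val (c ⟨x, Subgroup.subset_closure (by simp)⟩),
    congrArg Subtype.val (c ⟨_, Subgroup.subset_closure (by simp)⟩)⟩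

namespace Ten
variable {t : Ten α β φ} {M : Subgroup φ.Isom} {y : φ.Isom} {a : U ≃ₗ[F] U} {η : W ≃ₗ[F] W}
  (hy : ∀ u w, y.1 (t.τ u w) = t.τ (a u) (η w))

@[simp] theorem flip_cu (ξ : Dual F W) (u : U) (w : W) : t.flip.cu ξ (t.τ u w) = ξ w • u := t.flip.cu_τ ξ w u

section rank
include hy

theorem scalar_of_rank {Y : Submodule F V} (hY : ∀ v, y.1 v - v ∈ Y) (hn : finrank F Y < finrank F W) :
    ∃ c : F, ∀ u, a u = c • u := by
  refine (scalar_or (a : U →ₗ[F] U)).resolve_right fun ⟨u, hu⟩ => hn.not_ge ?_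
  obtain ⟨ξ, h1, h2⟩ := exists_dual₂ hu
  exact LinearMap.finrank_le_finrank_of_injective (f := (((y.1 : V →ₗ[F] V) - .id) ∘ₗ t.τ u).codRestrict Y fun _ => hY _)
    ((injective_iff_map_eq_zero _).2 fun w e => by
      simpa [hy, h1, show ξ (a u) = 1 from h2] using congrArg (t.cu ξ) (congrArg Subtype.val e))

theorem two_mul_le {Y : Submodule F V} (hY : ∀ v, y.1 v - v ∈ Y) {u₁ u₂ : U} (h1 : a u₁ ∉ F ∙ u₁)
    (h2 : a u₂ ∉ Submodule.span F {u₁, u₂, a u₁}) : 2 * finrank F W ≤ finrank F Y := by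
  obtain ⟨ξ, a1, a2⟩ := exists_dual₂ h1
  obtain ⟨ξ', a3, a4⟩ := exists_dual_sep h2
  rw [two_mul, ← Module.finrank_prod]
  exact LinearMap.finrank_le_finrank_of_injective
    (f := (((y.1 : V →ₗ[F] V) - .id) ∘ₗ (t.τ u₁).coprod (t.τ u₂)).codRestrict Y fun _ => hY _)
    ((injective_iff_map_eq_zero _).2 fun ⟨w, w'⟩ e => by
      have e := congrArg Subtype.val e
      obtain rfl : w' = 0 := by
        simpa [hy, a3 u₁ (Submodule.subset_span (by simp)), a3 u₂ (Submodule.subset_span (by simp)),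
          a3 (a u₁) (Submodule.subset_span (by simp)), a4] using congrArg (t.cu ξ') e
      simpa [hy, a1, a2] using congrArg (t.cu ξ) e)

theorem scalar_or_scalar (h2 : (2 : F) ≠ 0) (h : ∀ v, y.1 (y.1 v - v) = y.1 v - v) :
    (∃ c : F, ∀ u, a u = c • u) ∨ ∃ c : F, ∀ w, η w = c • w := by
  refine (scalar_or (η : W →ₗ[F] W)).symm.imp_left fun ⟨w, hw⟩ => ?_
  obtain ⟨ξ, h1, h3⟩ := exists_dual₂ hw
  have H : ∀ u, ξ (η (η w)) • a (a u) = (2 : F) • a u := fun u => by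
    have := congrArg (t.flip.cu ξ) (h (t.τ u w))
    simp only [map_sub, hy, flip_cu, h1, show ξ (η w) = 1 from h3] at this
    linear_combination (norm := module) this
  refine ⟨2 / ξ (η (η w)), fun u => ?_⟩
  obtain ⟨u, rfl⟩ := a.surjective u
  by_cases h0 : ξ (η (η w)) = 0
  · have := H u
    rw [h0, zero_smul, eq_comm, smul_eq_zero_iff_right h2] at this; simp [this]
  rw [div_eq_inv_mul, mul_smul, ← H, inv_smul_smul₀ h0]

theorem sim_left [Nontrivial W] : ∃ μ, μ ≠ 0 ∧ ∀ u u', α.B (a u) (a u') * μ = α.B u u' := by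
  obtain ⟨w, hw⟩ := exists_ne (0 : W)
  obtain ⟨w', hw'⟩ := β.exists_B_eq_one hw
  have H : ∀ u u', α.B (a u) (a u') * β.B (η w) (η w') = α.B u u' := fun u u' => by
    rw [← t.B_ττ, ← hy, ← hy, Isom.B_map, t.B_ττ, hw', mul_one]
  by_cases h : β.B (η w) (η w') = 0
  · exact ⟨1, one_ne_zero, fun u u' => by rw [← H (a u), ← H u, h]; simp⟩
  exact ⟨_, h, H⟩

theorem map_A (b : W) : (t.A b).map (y.1 : V →ₗ[F] V) = t.A (η b) :=
  le_antisymm (by rintro _ ⟨_, ⟨u, rfl⟩, rfl⟩; exact ⟨a u, (hy u b).symm⟩) (by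
    rintro _ ⟨u, rfl⟩; exact ⟨_, t.τ_mem (a.symm u) b, by simp [hy]⟩)
end rank

theorem exists_two (hq : α.IsQuad) (h2 : (2 : F) ≠ 0) (ha : ∀ u u', α.B (a u) (a u') = α.B u u') {u₁ : U}
    (h1 : a u₁ ≠ u₁) (h3 : ∀ u, a (a u - u) = a u - u) :
    a u₁ ∉ F ∙ u₁ ∧ ∃ u₂, a u₂ ∉ Submodule.span F {u₁, u₂, a u₁} := by
  have H : ∀ (c : F) u, a u = c • u → a u = u := fun c u e => by
    have := h3 u
    rw [map_sub, e, map_smul, e, smul_smul, ← sub_eq_zero, show (c * c) • u - c • u - (c • u - u) =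
      ((c - 1) * (c - 1)) • u by module, smul_eq_zero, mul_self_eq_zero, sub_eq_zero] at this
    rcases this with rfl | rfl <;> simp [e]
  refine ⟨fun e => (Submodule.mem_span_singleton.1 e).elim fun c e => h1 (H c _ e.symm), by_contra fun h => ?_⟩
  push Not at h
  set v := a u₁ - u₁ with hv
  have v0 : v ≠ 0 := sub_ne_zero.2 h1
  have k1 : ∀ u, ∃ c : F, a u - u = c • v := fun u => by
    obtain ⟨x, y, z, e⟩ : ∃ x y z : F, a u - u = x • u₁ + y • u + z • v := by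
      obtain ⟨x, y, z, e⟩ := Submodule.mem_span_triple.1 (h u)
      exact ⟨x + z, y - 1, z, by rw [← e, hv]; module⟩
    have e2 : x • v + y • (a u - u) = 0 := by
      have := h3 u
      rw [e, map_add, map_add, map_smul, map_smul, map_smul, h3 u₁] at this
      rw [hv]; linear_combination (norm := module) this
    by_cases hy : y = 0
    · obtain rfl : x = 0 := by simpa [hy, v0] using e2
      exact ⟨z, by simp [e, hy]⟩
    · exact ⟨-x / y, smul_right_injective _ hy (by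
        simp only [smul_smul, mul_div_cancel₀ _ hy]; linear_combination (norm := module) e2)⟩
  have k2 : ∀ u, α.B (a u - u) v = 0 := fun u => by
    rw [map_sub α.B, LinearMap.sub_apply]; nth_rw 1 [← show a v = v from h3 u₁]; rw [ha, sub_self]
  have k3 : ∀ u, a u = u ∨ α.B v u = 0 := fun u => by
    obtain ⟨c, e⟩ := k1 u
    have := ha u u
    rw [eq_add_of_sub_eq e] at this
    simp only [map_add, map_smulₛₗ, LinearMap.add_apply, LinearMap.smul_apply, smul_eq_mul, hq.σ_eq, RingHom.id_apply,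
      show α.B v v = 0 from k2 u₁, hq.B_comm u v] at this
    exact (mul_eq_zero.1 (mul_left_cancel₀ h2 (show 2 * (c * α.B v u) = 2 * 0 by linear_combination this))).imp_left
      fun h => by simpa [h, sub_eq_zero] using e
  rcases le_or_le_of_forall (X := ⊤) (A := LinearMap.ker ((a : U →ₗ[F] U) - .id)) (B := LinearMap.ker (α.B v))
    (fun u _ => by simpa [sub_eq_zero] using k3 u) with e | e
  · exact h1 (by simpa [sub_eq_zero] using e (Submodule.mem_top (x := u₁)))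
  · exact v0 (α.eq_zero_of_B_left fun u => e Submodule.mem_top)

variable (t M) in
/-- the stabilisers of the subspaces `U ⊗ b` preserve the tensor structure -/
def H0 : Prop := ∀ b, β.Q b = 0 → b ≠ 0 → ∀ k ∈ M, k ∈ φ.stab (t.A b) → k ∈ t.PT

theorem H0.of_map (h0 : H0 t M) (h : t.Ov M) (hW : Wd β) {g : φ.Isom} (hg : g ∈ M) {b b' : W} (hb : β.Q b = 0)
    (b0 : b ≠ 0) (hb' : β.Q b' = 0) (b0' : b' ≠ 0) (e : ∀ u, g.1 (t.τ u b) ∈ t.A b') : g ∈ t.PT := by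
  obtain ⟨η, h1, h2⟩ := hW.map hb' b0' hb b0
  simpa using mul_mem (inv_mem (t.rt_mem η)) (h0 b hb b0 _ (mul_mem (h.rt h1) hg) (φ.mem_stab_of_le (by
    rintro _ ⟨u, rfl⟩
    obtain ⟨u', e⟩ := e u
    exact ⟨u', by rw [Isom.mul_apply]; erw [← e]; simp [h2]⟩)))

theorem H0.of_fix (h0 : H0 t M) {g : φ.Isom} (hg : g ∈ M) {b : W} (hb : β.Q b = 0)
    (b0 : b ≠ 0) (e : ∀ u, g.1 (t.τ u b) = t.τ u b) : g ∈ t.PT :=
  h0 b hb b0 g hg (φ.fix_le_stab _ (by rintro _ ⟨u, rfl⟩; exact e u))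

theorem sing_of_ts [Nontrivial U] (hq : ∀ w, β.B w w = 0 → β.Q w = 0) {b b' : W} (hb : β.Q b = 0) (g : φ.Isom)
    (h : ∀ u, g.1 (t.τ u b') ∈ t.A b) : β.Q b' = 0 := by
  obtain ⟨u, hu⟩ := exists_ne (0 : U)
  obtain ⟨u', hu'⟩ := α.exists_B_eq_one hu
  simpa [hu'] using hq b' (by simpa [hu'] using (t.ts_A hb).2 _ (h u) _ (h u'))

theorem conj_sub {x g : φ.Isom} {Y : Submodule F V} (h : ∀ v, x.1 v - v ∈ Y) (v : V) :
    (g * x * g⁻¹).1 v - v ∈ Y.map (g.1 : V →ₗ[F] V) :=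
  ⟨_, h ((g⁻¹).1 v), by simp [Isom.mul_apply, Isom.apply_inv_apply]⟩

theorem tv_apply {b : W} {s : F} (hb : β.Q b = 0) (hs : β.T s = 0) (v : V) :
    (t.rt (β.siegel b 0 s)).1 v = v - (β.ε * s) • t.τ (t.ct b v) b := by
  simp [t.rt_siegel hb (w := 0) (by simp) (by simpa)]

theorem tv_sub {b : W} {s : F} (hb : β.Q b = 0) (hs : β.T s = 0) (v : V) :
    (t.rt (β.siegel b 0 s)).1 v - v ∈ t.A b := ⟨-(β.ε * s) • t.ct b v, by simp [tv_apply hb hs]⟩

theorem tv_fix {b : W} {s : F} (hb : β.Q b = 0) (b0 : b ≠ 0) (hs : β.T s = 0) (s0 : s ≠ 0) {v : V}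
    (h : (t.rt (β.siegel b 0 s)).1 v = v) : t.ct b v = 0 :=
  t.τ_eq_zero b0 (by simpa [tv_apply hb hs, s0, β.ε_ne_zero] using h)

/-- strong embedding for the transvections of `W` -/
theorem se_tv [Nontrivial U] (h0 : H0 t M) (h : t.Ov M) (hW : Wd β) (hq : ∀ w, β.B w w = 0 → β.Q w = 0)
    (hr : finrank F U < finrank F W ∨ α.IsQuad ∧ (2 : F) ≠ 0 ∧ finrank F U < 2 * finrank F W)
    {b : W} {s : F} (hb : β.Q b = 0) (b0 : b ≠ 0) (hs : β.T s = 0) (s0 : s ≠ 0) (g : φ.Isom) (hg : g ∈ M)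
    (H : g⁻¹ * t.rt (β.siegel b 0 s) * g ∈ t.PT) : g ∈ t.PT := by
  obtain ⟨a, η, hy⟩ := H
  obtain ⟨u₀, hu⟩ := exists_ne (0 : U)
  have h1 := conj_sub (g := g⁻¹) (tv_sub (t := t) hb hs)
  rw [inv_inv] at h1
  set y := g⁻¹ * t.rt (β.siegel b 0 s) * g with ey
  have h2 : finrank F ((t.A b).map ((g⁻¹).1 : V →ₗ[F] V)) = finrank F U := by
    rw [LinearEquiv.finrank_map_eq, t.finrank_A b0]
  have h3 : ¬ ∀ v, y.1 v = v := fun e => by
    obtain ⟨f, hf⟩ := β.exists_B_eq_one b0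
    have := e ((g⁻¹).1 (t.τ u₀ f))
    rw [ey, Isom.mul_apply, Isom.mul_apply, Isom.apply_inv_apply, (g⁻¹).1.injective.eq_iff] at this
    simpa [hf, hu] using tv_fix hb b0 hs s0 this
  have h4 : ∀ v, y.1 (y.1 v - v) = y.1 v - v := fun v => by
    obtain ⟨_, ⟨u, rfl⟩, e⟩ := h1 v
    rw [← e]; simp [ey, Isom.mul_apply, Isom.apply_inv_apply, siegel_apply_self hb (w := 0) (by simp) (by simpa)]
  obtain ⟨c, hc⟩ : ∃ c : F, ∀ u, a u = c • u := by
    rcases hr with hr | ⟨q1, q2, q3⟩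
    · exact scalar_of_rank hy h1 (h2 ▸ hr)
    refine (scalar_or_scalar hy q2 h4).elim id fun ⟨c, hc⟩ => ?_
    have c0 : c ≠ 0 := by rintro rfl; exact b0 (by simpa using hc b)
    have e : ∀ u w, y.1 (t.τ u w) = t.τ ((a.trans (.smulOfNeZero F U c c0)) u) ((1 : W ≃ₗ[F] W) w) := fun u w => by
      simp [hy, hc]
    set a' := a.trans (.smulOfNeZero F U c c0)
    obtain ⟨u₁, e1⟩ : ∃ u, a' u ≠ u := by
      by_contra! e1
      exact h3 (t.ext' (X := y.1) (Y := .id) fun u w => by simp [e, e1])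
    obtain ⟨f, hf⟩ := β.exists_B_eq_one b0
    obtain ⟨e2, u₂, e3⟩ := exists_two q1 q2 (fun u u' => by simpa [e, hf] using Isom.B_map y (t.τ u b) (t.τ u' f)) e1
      fun u => t.τ_inj b0 (by simpa [e] using h4 (t.τ u b))
    have := two_mul_le e h1 e2 e3
    omega
  obtain ⟨η', e⟩ := t.exists_of_scalar hy hc
  obtain ⟨w, hw⟩ : ∃ w, η' w - w ≠ 0 := by
    by_contra! e1
    exact h3 (t.ext' (X := y.1) (Y := .id) fun u w => by simp [e, sub_eq_zero.1 (e1 w)])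
  have h5 : ∀ u, g.1 (t.τ u (η' w - w)) ∈ t.A b := fun u => by
    obtain ⟨z, a, e1⟩ := h1 (t.τ u w)
    rw [map_sub, ← e, ← e1]; erw [Isom.apply_inv_apply]; exact a
  exact h0.of_map h hW hg (sing_of_ts hq hb g h5) hw hb b0 h5

theorem disj_A {b b' : W} (h : b' ∉ F ∙ b) {v : V} (h1 : v ∈ t.A b) (h2 : v ∈ t.A b') : v = 0 := by
  obtain ⟨u, rfl⟩ := h2
  obtain ⟨u', e⟩ := h1
  obtain ⟨ξ, a, c⟩ := exists_dual₂ h
  obtain rfl : u = 0 := by simpa [a, c] using (congrArg (t.flip.cu ξ) e).symm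
  simp

theorem Ov.le_PT_se [Nontrivial U] (h : t.Ov M) (h0 : H0 t M) (hW : Wd β) (hq : ∀ w, β.B w w = 0 → β.Q w = 0)
    {s : F} (hs : β.T s = 0) (s0 : s ≠ 0)
    (se : ∀ b, β.Q b = 0 → b ≠ 0 → ∀ g ∈ M, g⁻¹ * t.rt (β.siegel b 0 s) * g ∈ t.PT → g ∈ t.PT)
    (ty : (∃ ζ, φ.σ ζ ≠ ζ) ∨ ((∀ c, φ.σ c = c) ∧ (∀ w, β.Q w = 0) ∧ 4 ≤ finrank F W)) : M ≤ t.PT := fun g hg => by
  by_contra hg'
  obtain ⟨b, hb, b0⟩ := hW.sing
  have xM : ∀ w, β.Q w = 0 → t.rt (β.siegel w 0 s) ∈ M := fun w hw => h.rt (β.siegel_mem_E hw (by simp) (by simpa))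
  have xP : ∀ w, β.Q w = 0 → IsP (t.rt (β.siegel w 0 s)) := fun w hw => (t.rad_siegel hw (by simp) (by simpa)).isP
  set B := (t.A b).map (g.1 : V →ₗ[F] V)
  set x := g * t.rt (β.siegel b 0 s) * g⁻¹
  have x1 : ∀ v, x.1 v - v ∈ B := conj_sub (tv_sub hb hs)
  have xM' : x ∈ M := mul_mem (mul_mem hg (xM b hb)) (inv_mem hg)
  have hB : φ.TS B := (t.ts_A hb).map g
  have k1 : ∀ w, β.Q w = 0 → w ≠ 0 → ∃ k ∈ M, k * g ∈ t.PT ∧ k ∈ φ.fix (φ.perp (t.A w ⊔ B)) ∧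
      ∀ u, k.1 (g.1 (t.τ u b)) ∈ t.A w := fun w hw w0 => by
    obtain ⟨k, a1, a2, a3, a4⟩ := exists_k (xM w hw) xM' (t.rt_mem _) (xP w hw) ((xP b hb).conj g) (se w hw w0)
    have e0 : k * x * k⁻¹ = (k * g) * t.rt (β.siegel b 0 s) * (k * g)⁻¹ := by simp only [x]; group
    have a5 : k * g ∈ t.PT := by
      simpa using inv_mem (se b hb b0 _ (inv_mem (mul_mem a1 hg)) (by rwa [inv_inv, ← e0]))
    have a6 := a3 _ (mem_fix_perp fun v => Submodule.mem_sup_left (tv_sub hw hs v))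
      (mem_fix_perp fun v => Submodule.mem_sup_right (S := t.A w) (x1 v))
    refine ⟨k, a1, a5, a6, ?_⟩
    obtain ⟨a, η, e⟩ := a5
    have a7 : β.Q (η b) = 0 := sing_of_ts (t := t) hq hb (k * g)⁻¹ fun u => ⟨a.symm u, by rw [eq_comm, Isom.inv_apply_eq]; erw [e]; simp⟩
    have a8 : η b ≠ 0 := by simpa
    by_cases a9 : η b ∈ F ∙ w
    · obtain ⟨c, hc⟩ := Submodule.mem_span_singleton.1 a9
      exact fun u => ⟨c • a u, by rw [← Isom.mul_apply, e, ← hc]; simp⟩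
    exfalso
    have b1 : β.B w (η b) = 0 := by
      obtain ⟨u₀, hu⟩ := exists_ne (0 : U)
      obtain ⟨v, c1, c2, c3, c4⟩ := a4 (t.A w ⊔ t.A (η b)) (fun e => t.τ_ne hu w0 (e.le (Submodule.mem_sup_left
        (t.τ_mem u₀ w)))) (fun v => Submodule.mem_sup_left (tv_sub hw hs v)) fun v => Submodule.mem_sup_right (by
          rw [e0, ← map_A e]; exact conj_sub (tv_sub hb hs) v)
      obtain ⟨_, ⟨u, rfl⟩, _, ⟨u', rfl⟩, rfl⟩ := Submodule.mem_sup.1 c1
      by_contra c5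
      obtain rfl : u' = 0 := by simpa [β.B_self_eq_zero hw, c5] using tv_fix hw w0 hs s0 c3
      rw [e0, Isom.mul_apply, Isom.mul_apply, eq_comm, ← Isom.inv_apply_eq] at c4
      have c6 := t.mem_perp_A.2 (tv_fix hb b0 hs s0 c4.symm)
      refine c2 (by
        have := fun u' => c6 _ (t.τ_mem u' b)
        simp only [← Isom.B_map (k * g) (t.τ _ b), Isom.apply_inv_apply, e] at this
        obtain rfl : u = 0 := α.eq_zero_of_B_right fun u' => by simpa [mt β.B_symm_zero c5] using this (a.symm u')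
        simp)
    have b2 : t.A w ⊔ t.A (η b) = t.A w ⊔ B := Submodule.eq_of_le_of_finrank_le (sup_le le_sup_left (by
      rw [← map_A e]; rintro _ ⟨v, hv, rfl⟩
      simpa using add_mem (fix_sub a6 (g.1 v)) (Submodule.mem_sup_right ⟨v, hv, rfl⟩))) (by
        have := Submodule.finrank_add_le_finrank_add_finrank (t.A w) B
        have := Submodule.finrank_sup_add_finrank_inf_eq (t.A w) (t.A (η b))
        rw [show t.A w ⊓ t.A (η b) = ⊥ from eq_bot_iff.2 fun v hv => disj_A a9 hv.1 hv.2, finrank_bot] at this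
        rw [LinearEquiv.finrank_map_eq, t.finrank_A b0] at *
        rw [t.finrank_A a8] at this; omega)
    have b3 : B ≤ φ.perp (t.A w) := le_sup_right.trans (b2.ge.trans (sup_le (t.ts_A hw).le_perp (by
      rintro _ ⟨u, rfl⟩; exact t.mem_perp_A.2 (by simp [b1]))))
    exact hg' (by simpa using inv_mem (se b hb b0 _ (inv_mem hg) (by
      rw [inv_inv]; exact h0.of_fix xM' hw w0 fun u => mem_fix_perp x1 _ (φ.le_perp_comm.1 b3 (t.τ_mem u w)))))
  let γ : W → U →ₗ[F] U := fun w => t.ct w ∘ₗ (g.1 : V →ₗ[F] V) ∘ₗ t.τ.flip b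
  have k2 : ∀ w, β.Q w = 0 → w ≠ 0 → Function.Injective (γ w) := fun w hw w0 => (injective_iff_map_eq_zero _).2 fun u e => by
    have H : ∀ w, β.Q w = 0 → w ≠ 0 → γ w u = 0 → g.1 (t.τ u b) ∈ t.A w := fun w hw w0 e => by
      obtain ⟨k, -, -, a1, a2⟩ := k1 w hw w0
      rw [← a1 (g.1 (t.τ u b)) (by rw [perp_sup]; exact ⟨t.mem_perp_A.2 e, hB.le_perp ⟨_, t.τ_mem u b, rfl⟩⟩)]; exact a2 u
    obtain ⟨w', a1, a2, a3⟩ := hW.two w hw
    have a4 := H w hw w0 e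
    refine t.τ_eq_zero b0 (by simpa using disj_A a3 a4 (H w' a1 (by rintro rfl; simp at a3) (by
      obtain ⟨u', e⟩ := a4
      simp [γ, ← show t.τ u' w = g.1 (t.τ u b) from e, β.B_symm_zero a2])))
  obtain ⟨w₁, q1, q0⟩ := hW.sing
  have γs : ∀ (c : F) w w' u, γ (w + c • w') u = γ w u + φ.σ c • γ w' u := fun c w w' u => by simp [γ, ct_add, ct_smul]
  have k3 : ∀ w, β.Q w = 0 → β.B w₁ w = 0 → ∃ N, ∀ u u', α.B (γ w u) (γ w u') = N * α.B (γ w₁ u) (γ w₁ u') := fun w hw hw' => by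
    by_cases hw1 : w ∈ F ∙ w₁
    · obtain ⟨c, rfl⟩ := Submodule.mem_span_singleton.1 hw1
      exact ⟨_, fun u u' => by simp only [γ, LinearMap.comp_apply, ct_smul, map_smulₛₗ, LinearMap.smul_apply, smul_eq_mul, ← mul_assoc]; rfl⟩
    have w0 : w ≠ 0 := by rintro rfl; simp at hw1
    obtain ⟨k, a1, a2, a3, a4⟩ := k1 w₁ q1 q0
    obtain ⟨k', b1, b2, b3, b4⟩ := k1 w hw w0
    obtain ⟨a, η, e⟩ : k' * k⁻¹ ∈ t.PT := by simpa using mul_mem b2 (inv_mem a2)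
    let γ₁ := LinearEquiv.ofInjectiveEndo _ (k2 w₁ q1 q0)
    obtain ⟨θ, hθ⟩ := exists_adj (α := α) (γ w ∘ₗ γ₁.symm)
    have c0 : ∀ u u', α.B (θ u) (γ w₁ u') = α.B u (γ w u') := fun u u' => by
      rw [hθ]; exact congrArg (fun x => α.B u (γ w x)) (γ₁.symm_apply_apply u')
    obtain ⟨f, c1, c2⟩ := β.exists_sep (not_mem_span_singleton_symm q0 hw1)
    have c1 := c1 w (Submodule.mem_span_singleton_self w)
    have c3 : ∀ u, β.B f (η w) • a u = -θ u := fun u => by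
      have d1 : t.τ u w - t.τ (θ u) w₁ ∈ φ.perp B := φ.mem_perp'.2 (by
        rintro _ ⟨_, ⟨u', rfl⟩, rfl⟩
        rw [map_sub, LinearMap.sub_apply, t.B_τ, t.B_τ, sub_eq_zero]; exact (c0 u u').symm)
      have d2 := b3 _ (by rw [perp_sup]; exact ⟨t.mem_perp_A.2 (by simp [β.B_self_eq_zero hw, β.B_symm_zero hw']), d1⟩)
      have d3 := inv_mem a3 _ (by rw [perp_sup]; exact ⟨t.mem_perp_A.2 (by simp [β.B_self_eq_zero q1, hw']), d1⟩)
      obtain ⟨u', d4⟩ : (k' * k⁻¹).1 (t.τ (θ u) w₁) ∈ t.A w := by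
        obtain ⟨a', η', e'⟩ := a2
        obtain ⟨_, ⟨u', rfl⟩, d5⟩ := (Submodule.eq_of_le_of_finrank_le (S₁ := (t.A b).map ((k * g).1 : V →ₗ[F] V))
          (by rintro _ ⟨_, ⟨u, rfl⟩, rfl⟩; exact a4 u) (by
            rw [LinearEquiv.finrank_map_eq, t.finrank_A b0, t.finrank_A q0])).ge (t.τ_mem (θ u) w₁)
        rw [← d5]; erw [Isom.mul_apply, Isom.inv_apply_apply]; exact b4 u'
      have := congrArg (t.ct f) (show (k' * k⁻¹).1 _ = _ by rw [Isom.mul_apply, d3, d2])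
      rw [map_sub, ← d4, e] at this
      simpa [c1, c2] using this
    have : Nontrivial W := ⟨_, _, w0⟩
    obtain ⟨μ, μ0, hμ⟩ := sim_left e
    set l := β.B f (η w)
    have c4 : ∀ u u', α.B (θ u) (θ u') = (α.σ l * l / μ) * α.B u u' := fun u u' => by
      rw [← neg_neg (θ u), ← neg_neg (θ u'), ← c3, ← c3, ← hμ u]; simp; field_simp
    have c5 : Function.Surjective θ := LinearMap.injective_iff_surjective.1 ((injective_iff_map_eq_zero _).2 fun u e =>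
      α.eq_zero_of_B_left fun u' => by
        obtain ⟨u', rfl⟩ := LinearMap.injective_iff_surjective.1 (k2 w hw w0) u'
        rw [← c0, e]; simp)
    refine ⟨α.σ (α.σ l * l / μ), fun u u' => ?_⟩
    obtain ⟨u₁, d1⟩ := c5 (γ w₁ u)
    have d2 : γ w u = (α.σ l * l / μ) • u₁ := α.ext_B_right fun z => by rw [← c0, ← d1, c4]; simp
    rw [d2, α.B_smul_left, ← c0, d1]
  rcases ty with ⟨ζ, hζ⟩ | ⟨hσ, hQ, hn⟩
  · obtain ⟨w, a1, a2, a3⟩ := hW.two w₁ q1
    have H : ∀ c : F, β.Q (w + c • w₁) = 0 := fun c => by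
      rw [β.Q_add_of_orth (by simp [β.B_symm_zero a2]), a1, β.Q_smul_of_sing q1, add_zero]
    have H' := fun c : F => k3 _ (H c) (by simp [a2, β.B_self_eq_zero q1])
    obtain ⟨N₀, e0⟩ := k3 w a1 a2
    obtain ⟨N₁, e1⟩ := H' 1
    obtain ⟨N₂, e2⟩ := H' ζ
    set κ := (ζ * (N₁ - N₀ - 1) - (N₂ - N₀ - ζ * φ.σ ζ)) / (ζ - φ.σ ζ)
    obtain ⟨u₀, hu⟩ := exists_ne (0 : U)
    refine hu (k2 _ (H (-κ)) (fun e => a3 ?_) (α.ext_B_left fun z => ?_))
    · rw [eq_neg_of_add_eq_zero_left e]; exact neg_mem (Submodule.smul_mem _ _ (Submodule.mem_span_singleton_self _))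
    obtain ⟨z, rfl⟩ := LinearMap.injective_iff_surjective.1 (k2 w₁ q1 q0) z
    have d1 := e1 u₀ z
    have d2 := e2 u₀ z
    simp only [γs, map_add, map_smulₛₗ, LinearMap.add_apply, LinearMap.smul_apply, smul_eq_mul, RingHom.id_apply, t.σ₁,
      φ.σ_σ, map_one, e0, map_neg, map_zero, LinearMap.zero_apply] at d1 d2 ⊢
    refine mul_left_cancel₀ (sub_ne_zero.2 hζ.symm) ?_
    simp only [κ]; field_simp [sub_ne_zero.2 hζ.symm]
    linear_combination ζ * d1 - d2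
  · obtain ⟨u₀, hu⟩ := exists_ne (0 : U)
    obtain ⟨u₁, hu₁⟩ := α.exists_B_ne_zero (show γ w₁ u₀ ≠ 0 from fun e => hu (k2 w₁ q1 q0 (by simpa using e)))
    obtain ⟨u₁, rfl⟩ := LinearMap.injective_iff_surjective.1 (k2 w₁ q1 q0) u₁
    let Bq : LinearMap.BilinForm F W := LinearMap.mk₂ F (fun w w' => α.B (γ w u₀) (γ w' u₁))
      (fun _ _ _ => by simp [γ, ct_add]) (fun _ _ _ => by simp [γ, ct_smul, hσ, t.σ₁])
      (fun _ _ _ => by simp [γ, ct_add]) (fun _ _ _ => by simp [γ, ct_smul, hσ])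
    obtain ⟨w, a1, a2, a3⟩ := (isQuad_ofQuad Bq.toQuadraticMap).exists_singular (W := β.perp (F ∙ w₁)) (by
      have := β.finrank_perp (F ∙ w₁); have := finrank_span_singleton_le (F := F) w₁; omega)
    obtain ⟨N, e⟩ := k3 w (hQ w) (β.mem_perp_singleton.1 a1)
    obtain rfl : N = 0 := by simpa [e, hu₁] using show α.B (γ w u₀) (γ w u₁) = 0 from a3
    refine hu (k2 w (hQ w) a2 (α.ext_B_left fun z => ?_))
    obtain ⟨z, rfl⟩ := LinearMap.injective_iff_surjective.1 (k2 w (hQ w) a2) z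
    simp [e]

theorem Ov.le_PT_tv [Nontrivial U] (h : t.Ov M) (h0 : H0 t M) (hW : Wd β) (hq : ∀ w, β.B w w = 0 → β.Q w = 0)
    (hr : finrank F U < finrank F W ∨ α.IsQuad ∧ (2 : F) ≠ 0 ∧ finrank F U < 2 * finrank F W)
    {s : F} (hs : β.T s = 0) (s0 : s ≠ 0)
    (ty : (∃ ζ, φ.σ ζ ≠ ζ) ∨ ((∀ c, φ.σ c = c) ∧ (∀ w, β.Q w = 0) ∧ 4 ≤ finrank F W)) : M ≤ t.PT :=
  h.le_PT_se h0 hW hq hs s0 (fun _ hb b0 => se_tv h0 h hW hq hr hb b0 hs s0) ty

end Ten
end H12.Tn
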