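import Mathlib
import Cfsg.Agent.H12.TnC

/-!
# Overgroups of tensor stabilisers: the centre of the radical, unitary groups
`Ten.ZZ`, `Ov.comm_mem`, `Ov.rad_PT_of`, `Ov.unitary`.
-/

set_option autoImplicit false
set_option linter.unusedSectionVars false
set_option linter.unusedSimpArgs false

namespace H12.Tn
open Module H10 H10.Form

variable {F U W V : Type*} [Field F] [AddCommGroup U] [Module F U] [AddCommGroup W] [Module F W]
  [AddCommGroup V] [Module F V] {α : Form F U} {β : Form F W} {φ : Form F V}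
  [α.Nondeg] [β.Nondeg] [φ.Nondeg] [FiniteDimensional F U] [FiniteDimensional F W] [FiniteDimensional F V]

variable (α) in
/-- `u ↦ B v u • a - ε B a u • v` -/
def nn (a v : U) : U →ₗ[F] U := (α.B v).smulRight a - (α.ε • α.B a).smulRight v
@[simp] theorem nn_apply (a v u : U) : nn α a v u = α.B v u • a - (α.ε * α.B a u) • v := by simp [nn]
variable (α) in
/-- `u ↦ B v u • a` -/
def br (a v : U) : U →ₗ[F] U := (α.B v).smulRight a
@[simp] theorem br_apply (a v u : U) : br α a v u = α.B v u • a := by simp [br]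

/-- conjugation of endomorphisms by isometries -/
def cj (g : α.Isom) (ζ : U →ₗ[F] U) : U →ₗ[F] U := (g.1 : U →ₗ[F] U) ∘ₗ ζ ∘ₗ ((g⁻¹).1 : U →ₗ[F] U)
theorem cj_apply (g : α.Isom) (ζ : U →ₗ[F] U) (u : U) : cj g ζ u = g.1 (ζ ((g⁻¹).1 u)) := rfl
theorem B_inv (g : α.Isom) (x u : U) : α.B x (g.1.symm u) = α.B (g.1 x) u := by
  rw [← Isom.B_map g]; simp
theorem cj_br (g : α.Isom) (a v : U) : cj g (br α a v) = br α (g.1 a) (g.1 v) :=
  LinearMap.ext fun u => by simp [cj_apply, B_inv]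
theorem cj_nn (g : α.Isom) (a v : U) : cj g (nn α a v) = nn α (g.1 a) (g.1 v) :=
  LinearMap.ext fun u => by simp [cj_apply, B_inv]
theorem cj_smul (g : α.Isom) (c : F) (ζ : U →ₗ[F] U) : cj g (c • ζ) = c • cj g ζ :=
  LinearMap.ext fun u => by simp [cj_apply]
theorem cj_sub (g : α.Isom) (ζ ζ' : U →ₗ[F] U) : cj g (ζ - ζ') = cj g ζ - cj g ζ' :=
  LinearMap.ext fun u => by simp [cj_apply]

theorem exists_not_eigen {a : U} (ha : α.Q a = 0) (a0 : a ≠ 0) {s : F} (s0 : s ≠ 0) (hs : α.T s = 0) {ζ : U →ₗ[F] U}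
    (hζ : ¬ ∃ c : F, ∀ u, ζ u = c • u) : ∃ x, α.Q x = 0 ∧ ζ x ∉ F ∙ x := by
  by_contra! H
  obtain ⟨c, e⟩ := Submodule.mem_span_singleton.1 (H a ha)
  obtain ⟨a', h⟩ := α.exists_hyp ha a0
  refine hζ ⟨c, fun u => sub_eq_zero.1 (LinearMap.mem_ker.1 (eq_top_of_sing h (S := LinearMap.ker (ζ - c • LinearMap.id))
    (by simp [e]) (fun x hx h1 => ?_) u))⟩
  obtain ⟨d, e1⟩ := Submodule.mem_span_singleton.1 (H x hx)
  obtain ⟨l, e2⟩ := Submodule.mem_span_singleton.1 (H (a + s • x) (by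
    rw [α.Q_add, α.Q_smul_of_sing hx, ha]; simp [h1, hs]))
  have hx' : α.IsHyp a x := ⟨ha, hx, h1⟩
  rw [map_add, map_smul, ← e, ← e1] at e2
  have e3 := congrArg (α.B a) e2
  have e4 := congrArg (α.B x) e2
  simp [hx'.Bee, hx'.Bff, hx'.Bfe, h1, α.ε_ne_zero, mul_comm s, s0] at e3 e4
  simp [← e1, ← e3, e4]

theorem cj_tv {a : U} (ha : α.Q a = 0) {s : F} (hs : α.T s = 0) (ζ : U →ₗ[F] U) (u : U) :
    cj (α.siegel a 0 s) ζ u - ζ u = (α.ε * s * α.B a u) • ζ a - (α.ε * s * α.B a (ζ u)) • a -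
      (s * s * α.B a u * α.B a (ζ a)) • a := by
  have := α.T_ker s hs
  rw [cj_apply, siegel_inv ha (by simp) (hs.trans α.Q_zero.symm), neg_zero, α.siegel_apply ha (by simp) (hs.trans α.Q_zero.symm),
    α.siegel_apply ha (by simp) (by rw [α.T_ε_σ, hs, α.Q_zero]), eq_neg_of_add_eq_zero_right this]
  simp only [map_add, map_sub, map_smul, map_zero, LinearMap.zero_apply, smul_eq_mul]
  match_scalars <;> first | ring1 | linear_combination (-(s ^ 2 * α.B a u * α.B a (ζ a))) * α.ε_mul_ε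

theorem exists_fixed_ne {q : ℕ} (hα : α.IsUnitary q) (hq : q ≠ 2) : ∃ c, α.σ c = c ∧ c ≠ 0 ∧ c ≠ 1 := by
  have := hα.finite
  obtain ⟨s, s0, hs⟩ := hα.exists_skew
  obtain ⟨⟨s', hs'⟩, h⟩ : ∃ x : α.T.ker, x ∉ ({0, ⟨s, hs⟩} : Set α.T.ker) := by
    by_contra! h
    have := Set.ncard_le_ncard (fun x _ => h x : Set.univ ⊆ _)
    have := Set.ncard_insert_le (0 : α.T.ker) {⟨s, hs⟩}
    have := hα.two_le
    rw [Set.ncard_univ, hα.card_ker_T, Set.ncard_singleton] at *; omega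
  have e := α.T_ker s hs
  have e' := α.T_ker s' hs'
  rw [hα.herm.ε_eq, one_mul, add_comm, add_eq_zero_iff_eq_neg] at e e'
  simp only [Set.mem_insert_iff, Set.mem_singleton_iff, Subtype.ext_iff, not_or] at h
  exact ⟨s' / s, by simp [e, e'], div_ne_zero h.1 s0, mt eq_of_div_eq_one h.2⟩

theorem su_adj {q : ℕ} (hα : α.IsUnitary q) (h2 : 2 ≤ finrank F U) (hex : ¬ (finrank F U = 2 ∧ q = 2))
    {Z : AddSubgroup (U →ₗ[F] U)} (hc : ∀ ζ ∈ Z, ∀ g ∈ α.E, cj g ζ ∈ Z) (hs : ∀ ζ ∈ Z, ∀ c, (α.σ c * c) • ζ ∈ Z)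
    {ζ : U →ₗ[F] U} (hζ : ζ ∈ Z) (hk : ∀ x u, α.B (ζ x) u = -α.B x (ζ u)) (hn : ¬ ∃ c : F, ∀ u, ζ u = c • u)
    {x : U} (hx : α.Q x = 0) {r : F} (hr : α.T r = 0) : r • br α x x ∈ Z := by
  have ε1 := hα.herm.ε_eq
  have sk : ∀ s, α.T s = 0 ↔ α.σ s = -s := fun s => by rw [hα.herm.T_eq, add_comm, add_eq_zero_iff_eq_neg]
  have hs' : ∀ ζ ∈ Z, ∀ c, α.σ c = c → c • ζ ∈ Z := fun ζ h c e => by
    obtain ⟨d, rfl⟩ := hα.exists_norm e; exact hs ζ h d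
  obtain ⟨s, s0, hs0⟩ := hα.exists_skew
  obtain ⟨e, f, hy⟩ := hα.exists_hyp_of_two_le h2
  obtain ⟨a, ha, h1⟩ := exists_not_eigen hy.Qe hy.e_ne_zero s0 hs0 hn
  have a0 : a ≠ 0 := by rintro rfl; simp at h1
  suffices H : ∃ s, s ≠ 0 ∧ α.σ s = -s ∧ s • br α a a ∈ Z by
    obtain ⟨s, s0, e1, e2⟩ := H
    by_cases x0 : x = 0
    · rw [show r • br α x x = 0 from LinearMap.ext fun u => by simp [x0]]; exact zero_mem _
    obtain ⟨g, hg, c, c0, e3⟩ := Conn.exists_E_map_point (φ := α) (.inl ⟨s, s0, (sk s).2 e1⟩) ha a0 hx x0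
    convert hs' _ (hc _ e2 g hg) (r / (s * α.σ c * c)) (by simp [(sk r).1 hr, e1]; ring) using 1
    rw [cj_smul, cj_br, e3]
    exact LinearMap.ext fun u => by simp [smul_smul]; congr 1; field_simp [mt α.σ_eq_zero.1 c0]
  have D : ∀ s, α.T s = 0 → nn α a (-s • ζ a) - (s * s * α.B a (ζ a)) • br α a a ∈ Z := fun s hs => by
    convert sub_mem (hc _ hζ _ (α.siegel_mem_E ha (w := 0) (by simp) (hs.trans α.Q_zero.symm))) hζ using 1
    refine LinearMap.ext fun u => ?_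
    rw [LinearMap.sub_apply (cj _ _), cj_tv ha hs]; simp [ε1, (sk s).1 hs, hk]; module
  have st : ∀ v (r : F), nn α a v - r • br α a a ∈ Z → ∀ w, α.B a w = 0 → ∃ l : F, (α.B a v = 0 → l = α.B w v) ∧
      nn α a (l • a - α.B a v • w) - (0 : F) • br α a a ∈ Z := fun v r h w hw => by
    obtain ⟨s', hs', -⟩ := α.half w
    refine ⟨α.B w v - s' * α.B a v, fun e => by simp [e], ?_⟩
    convert sub_mem (hc _ h _ (α.siegel_mem_E ha hw hs')) h using 1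
    rw [cj_sub, cj_smul, cj_br, cj_nn, siegel_apply_self ha hw hs', α.siegel_apply ha hw hs']
    exact LinearMap.ext fun u => by simp [ε1]; module
  have fin : ∀ v (r : F), nn α a v - r • br α a a ∈ Z → α.B a v = 0 → v ∉ F ∙ a →
      ∃ s, s ≠ 0 ∧ α.σ s = -s ∧ s • br α a a ∈ Z := fun v r h h1 h2 => by
    obtain ⟨θ, hθ⟩ := hα.exists_σ_ne
    obtain ⟨w, a1, a2⟩ := exists_partner' (β := α) h2
    obtain ⟨l, a3, a4⟩ := st v r h (θ • w) (by simp [a1])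
    refine ⟨θ - α.σ θ, sub_ne_zero.2 hθ.symm, by simp, ?_⟩
    convert a4 using 1
    exact LinearMap.ext fun u => by simp [a3 h1, h1, hα.herm.B_comm v, a2, ε1]; module
  by_cases κ : α.B a (ζ a) = 0
  · exact fin _ _ (D s hs0) (by simp [κ]) (by rwa [Submodule.smul_mem_iff _ (by simpa)])
  by_cases hq : q = 2
  · obtain ⟨w, -, a1, a2⟩ := α.exists_orth ⊤ (F ∙ a) [a] (by
      have := finrank_span_singleton_le (F := F) a; simp; omega)
    obtain ⟨l, -, a3⟩ := st _ _ (D s hs0) w (a2 a (by simp))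
    refine fin _ _ a3 (by simp [a2 a, α.B_self_eq_zero ha]) ?_
    rwa [Submodule.sub_mem_iff_right _ (Submodule.smul_mem _ _ (Submodule.mem_span_singleton_self a)),
      Submodule.smul_mem_iff _ (by simp [s0, κ])]
  obtain ⟨c, c1, c2, c3⟩ := exists_fixed_ne hα hq
  refine ⟨(c - c * c) * (s * s * α.B a (ζ a)), by simp [s0, κ, c2, sub_eq_zero, c3, eq_comm], by
    simp [c1, (sk s).1 hs0, hα.herm.σ_B, hk], ?_⟩
  convert sub_mem (D (c * s) (by simp [sk, c1, (sk s).1 hs0])) (hs' _ (D s hs0) c c1) using 1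
  exact LinearMap.ext fun u => by simp [c1]; module

namespace Ten
variable (t : Ten α β φ) (M : Subgroup φ.Isom) {b f w : W} {y : φ.Isom}

/-- the part of `M` in the centre of the radical of the stabiliser of `U ⊗ b` -/
def ZZ (hb : β.Q b = 0) : AddSubgroup (U →ₗ[F] U) where
  carrier := {ζ | ∃ y ∈ M, ∀ v, y.1 v = v + t.τ (ζ (t.ct b v)) b}
  zero_mem' := ⟨1, one_mem _, by simp⟩
  add_mem' := by
    rintro ζ ζ' ⟨y, a, e⟩ ⟨y', a', e'⟩
    exact ⟨y * y', mul_mem a a', fun v => by simp [Isom.mul_apply, e, e', β.B_self_eq_zero hb]; abel⟩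
  neg_mem' := by
    rintro ζ ⟨y, a, e⟩
    exact ⟨y⁻¹, inv_mem a, fun v => by rw [Isom.inv_apply_eq]; simp [e, β.B_self_eq_zero hb]⟩

variable {t M}
theorem Ov.zz_cj (h : t.Ov M) {hb : β.Q b = 0} {ζ : U →ₗ[F] U} (hζ : ζ ∈ t.ZZ M hb) {g : α.Isom} (hg : g ∈ α.E) :
    cj g ζ ∈ t.ZZ M hb := by
  obtain ⟨y, a, e⟩ := hζ
  exact ⟨_, mul_mem (mul_mem (h.lt hg) a) (h.lt (inv_mem hg)), fun v => by
    rw [Isom.mul_apply, Isom.mul_apply, e, map_add, lt_τ, ct_lt, ← Isom.mul_apply, ← map_mul]; simp [cj_apply]⟩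

theorem Ov.zz_map (h : t.Ov M) {hb : β.Q b = 0} {ζ : U →ₗ[F] U} (hζ : ζ ∈ t.ZZ M hb) {g : β.Isom} (hg : g ∈ β.E)
    {b' : W} (hb' : β.Q b' = 0) {c : F} (e' : g.1 b = c • b') : (φ.σ c * c) • ζ ∈ t.ZZ M hb' := by
  obtain ⟨y, a, e⟩ := hζ
  exact ⟨_, mul_mem (mul_mem (h.rt hg) a) (inv_mem (h.rt hg)), fun v => by
    rw [Isom.mul_apply, Isom.mul_apply, e, map_add, rt_τ, ← t.ct_rt g, Isom.apply_inv_apply, e', ct_smul]
    simp [smul_smul, mul_comm]⟩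

theorem zz_skew {hb : β.Q b = 0} (b0 : b ≠ 0) {ζ : U →ₗ[F] U} (hζ : ζ ∈ t.ZZ M hb) (x u : U) :
    α.B (ζ x) u = -β.ε * α.B x (ζ u) := by
  obtain ⟨y, -, e⟩ := hζ
  obtain ⟨f, hy⟩ := β.exists_hyp hb b0
  have := Isom.B_map y (t.τ x f) (t.τ u f)
  simp only [e, map_add, LinearMap.add_apply, B_ττ, ct_τ, hy.Bef, hy.Bfe, hy.Bee, hy.Bff, one_smul] at this
  linear_combination this

theorem exists_dl (hy : β.IsHyp b f) (hr : Rad φ (t.A b) y) : ∃ δ : W →ₗ[F] U →ₗ[F] U, ∀ w, β.B b w = 0 → ∀ u,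
    y.1 (t.τ u w) = t.τ u w + t.τ (δ w u) b :=
  ⟨t.τ.flip.compr₂ (β.ε • t.ct f ∘ₗ ((y.1 : V →ₗ[F] V) - .id)), fun w hw u => by
    obtain ⟨u', e⟩ := hr.2 (t.τ u w) (t.mem_perp_A.2 (by simp [hw]))
    have e : t.τ u' b = _ := e
    simp [← e, ← map_sub, hy.Bfe, smul_smul, eq_add_of_sub_eq' e.symm]⟩

theorem Ov.comm_mem (h : t.Ov M) (hb : β.Q b = 0) (hy : y ∈ M) (hr : Rad φ (t.A b) y) (hw : β.B b w = 0)
    {δ δ' : U →ₗ[F] U} (hδ : ∀ u, y.1 (t.τ u w) = t.τ u w + t.τ (δ u) b) (hδ' : ∀ x u, α.B (δ' x) u = α.B x (δ u)) :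
    δ' - β.ε • δ ∈ t.ZZ M hb := by
  obtain ⟨s, hs, -⟩ := β.half w
  have hx := h.rt (β.siegel_mem_E hb hw hs)
  have e1 : ∀ u, y.1 (t.τ u b) = t.τ u b := fun u => hr.1 _ (t.τ_mem u b)
  have e2 : ∀ v, t.ct b (y.1 v) = t.ct b v := fun v => sub_eq_zero.1 (by
    rw [← map_sub]; exact t.mem_perp_A.1 (sub_mem_perp hr.1 v))
  have e3 : ∀ v, t.ct w (y.1 v) = t.ct w v - δ' (t.ct b v) := fun v => α.ext_B_right fun u => by
    have := Isom.B_map y (t.τ u w) v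
    rw [hδ, map_add, LinearMap.add_apply, t.B_τ, t.B_τ, t.B_τ, e2] at this
    rw [map_sub, ← this, α.symm (δ' _), hδ', ← α.symm]; ring
  refine ⟨(t.rt (β.siegel b w s) * y)⁻¹ * (y * t.rt (β.siegel b w s)), mul_mem (inv_mem (mul_mem hx hy)) (mul_mem hy hx),
    fun v => ?_⟩
  rw [Isom.mul_apply, Isom.inv_apply_eq]
  simp only [Isom.mul_apply, t.rt_siegel hb hw hs, map_add, map_sub, map_smul, e1, e2, e3, hδ, ct_τ, β.B_self_eq_zero hb,
    β.B_symm_zero hw, LinearMap.sub_apply, LinearMap.smul_apply, LinearMap.add_apply, zero_smul, map_zero, LinearMap.zero_apply]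
  module

theorem exists_zz (hy : β.IsHyp b f) (hM : y ∈ M) (h : ∀ u w, β.B b w = 0 → y.1 (t.τ u w) = t.τ u w) :
    ∃ ζ ∈ t.ZZ M hy.Qe, ∀ v, y.1 v = v + t.τ (ζ (t.ct b v)) b := by
  have h1 : y ∈ φ.fix (φ.perp (t.A b)) := fun v hv => t.perp_ind hy (P := fun v => y.1 v = v) h
    (fun _ _ a b => by simp [a, b]) (t.mem_perp_A.1 hv)
  suffices H : ∀ v, y.1 v = v + t.τ ((β.ε • t.ct f ∘ₗ ((y.1 : V →ₗ[F] V) - .id) ∘ₗ t.τ.flip f) (t.ct b v)) b from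
    ⟨_, ⟨y, hM, H⟩, H⟩
  intro v
  obtain ⟨u', e⟩ := fix_sub h1 (t.τ (t.ct b v) f)
  have e : t.τ u' b = _ := e
  have := h1 (v - t.τ (t.ct b v) f) (t.mem_perp_A.2 (by simp [hy.Bef]))
  rw [map_sub, sub_eq_sub_iff_sub_eq_sub, ← e] at this
  simp [← e, ← map_sub, hy.Bfe, smul_smul, eq_add_of_sub_eq' this]

theorem Ov.rad_PT_of [Nontrivial U] (h : t.Ov M) (hy : β.IsHyp b f) (hM : y ∈ M) {δ : W →ₗ[F] U →ₗ[F] U}
    (hδ : ∀ w, β.B b w = 0 → ∀ u, y.1 (t.τ u w) = t.τ u w + t.τ (δ w u) b) (h0 : δ b = 0)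
    (h1 : ∀ w, β.B b w = 0 → ∃ c : F, ∀ u, δ w u = c • u) (h2 : ∀ ζ ∈ t.ZZ M hy.Qe, ∃ c : F, ∀ u, ζ u = c • u) :
    y ∈ t.PT := by
  have : Nontrivial W := ⟨b, 0, hy.e_ne_zero⟩
  obtain ⟨u₀, hu⟩ := exists_ne (0 : U)
  obtain ⟨ξ, hξ⟩ := exists_dual (F := F) hu
  obtain ⟨w₀, hw⟩ := β.exists_B_eq (ξ ∘ₗ δ.flip u₀)
  have h3 : β.B b w₀ = 0 := β.B_symm_zero (by simp [hw, h0])
  obtain ⟨s, hs, -⟩ := β.half w₀
  obtain ⟨ζ, a, e⟩ := exists_zz (t := t) hy (mul_mem (inv_mem (h.rt (β.siegel_mem_E hy.Qe h3 hs))) hM) fun u w hw' => by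
    obtain ⟨c, e⟩ := h1 w hw'
    rw [Isom.mul_apply, Isom.inv_apply_eq, hδ w hw', t.rt_siegel hy.Qe h3 hs]; simp [hw', hw, e, hξ]
  obtain ⟨c, e'⟩ := h2 ζ a
  rw [← mul_inv_cancel_left (t.rt (β.siegel b w₀ s)) y]
  exact mul_mem (t.rt_mem _) (t.mem_PT_of .id (.id + c • br β b b) fun u w => by rw [e]; simp [e', smul_smul, mul_comm])

theorem Ov.spread_tv (h : t.Ov M) (hW : Wd β) {a₀ : U} (ha₀ : α.Q a₀ = 0) (h0 : a₀ ≠ 0) {s : F} (s0 : s ≠ 0)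
    (hs : φ.T s = 0) (hX : ∀ a b, α.Q a = 0 → β.Q b = 0 → ∀ s, φ.T s = 0 → φ.siegel (t.τ a b) 0 s ∈ M) : φ.E ≤ M := by
  refine h.spread hW (.inl ⟨s, s0, hs⟩) ha₀ h0 hX fun a b w ha hb hw => ?_
  have H : ∀ x, β.Q x = 0 → β.B b x = 0 → t.τ a x ∈ sgSub M (t.Q_τ₂ a hb) (hX a b ha hb) := fun x h1 h2 =>
    mem_sgSub.2 ⟨by simp [h2], fun c => ⟨0, by rw [← map_smul, t.Q_τ₁ _ ha, map_zero], by
      obtain ⟨l, rfl⟩ : ∃ l, c = s * l := ⟨c / s, by field_simp⟩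
      have q : β.Q (b + l • x) = 0 := by rw [β.Q_add_of_orth (by simp [h2]), hb, β.Q_smul_of_sing h1, add_zero]
      have hs' : φ.T (-s) = 0 := by simp [hs]
      have hs2 : φ.T (-(φ.σ l * l * s)) = 0 := by simp [φ.T_norm, hs]
      convert mul_mem (hX a _ ha q s hs) (mul_mem (hX a b ha hb _ hs') (hX a x ha h1 _ hs2)) using 1
      refine Isom.ext fun v => ?_
      have : φ.σ s = -(φ.ε * s) := by linear_combination φ.ε * φ.T_ker s hs - φ.σ s * φ.ε_mul_ε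
      rw [Isom.mul_apply, Isom.mul_apply, φ.siegel_apply (t.Q_τ₁ _ ha) (by simp [h2]) (by rw [← map_smul, t.Q_τ₁ _ ha, map_zero]),
        φ.siegel_apply (t.Q_τ₁ _ ha) (by simp) (hs.trans φ.Q_zero.symm), φ.siegel_apply (t.Q_τ₁ _ ha) (by simp)
        (hs'.trans φ.Q_zero.symm), φ.siegel_apply (t.Q_τ₁ _ ha) (by simp) (hs2.trans φ.Q_zero.symm)]
      simp only [map_add, map_sub, map_smulₛₗ, B_ττ, α.B_self_eq_zero ha, LinearMap.add_apply, LinearMap.smul_apply,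
        LinearMap.zero_apply, map_zero, RingHom.id_apply, smul_eq_mul, map_neg, map_mul, φ.σ_ε, this]
      match_scalars <;> ring⟩⟩
  obtain ⟨x, a1, a2, a3⟩ := hW.two b hb
  exact siegel_mem_of_mem_sgSub (hX := hX a b ha hb) (hp := t.Q_τ₂ a hb) (perp_le_of_sing hW.hd hb (S := (sgSub M (t.Q_τ₂ a hb) (hX a b ha hb)).comap (t.τ a))
    (fun g hg e w hw => by simpa using map_mem_sgSub (h.rt hg) (by simp [e]) hw) (H x a1 a2) a1 a2 a3 hw)
    (by rw [t.Q_τ₁ _ ha, map_zero])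

theorem zz_siegel {hb : β.Q b = 0} {a : U} {s : F} (ha : φ.Q (t.τ a b) = 0) (hs : φ.T s = 0)
    (h : -(φ.ε * s) • br α a a ∈ t.ZZ M hb) : φ.siegel (t.τ a b) 0 s ∈ M := by
  obtain ⟨y, a1, e⟩ := h
  convert a1 using 1
  exact Isom.ext fun v => by rw [e, φ.siegel_apply ha (by simp) (hs.trans φ.Q_zero.symm)]; simp [t.B_τ]; module

theorem not_E_le (hφ : φ.Big) (hW : Wd β) (h2 : 2 ≤ finrank F U) : ¬ φ.E ≤ t.PT := fun h => by
  obtain ⟨b, hb, b0⟩ := hW.sing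
  obtain ⟨x, a1, a2, a3⟩ := hW.two b hb
  have := Module.nontrivial_of_finrank_pos (R := F) (M := U) (by omega)
  obtain ⟨u, hu⟩ := exists_ne (0 : U)
  obtain ⟨u', -, hu', -⟩ := α.exists_orth ⊤ (F ∙ u) [] (by have := finrank_span_singleton_le (F := F) u; simp; omega)
  obtain ⟨ξ, e1, e2⟩ := exists_dual₂ hu'
  obtain ⟨ξ', e3, e4⟩ := exists_dual₂ (not_mem_span_singleton_symm hu hu')
  obtain ⟨g, hg, e⟩ := hφ.exists_E_map_sing (t.Q_τ₂ u hb) (t.τ_ne hu b0) (z := t.τ u b + t.τ u' x) (by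
    rw [φ.Q_add_of_orth (by simp [a2]), t.Q_τ₂ _ hb, t.Q_τ₂ _ a1, add_zero]) fun e => b0 (by
      simpa [e3, e4] using congrArg (t.cu ξ') e)
  obtain ⟨a, η, e'⟩ := h hg
  rw [e'] at e
  have b1 : ξ (a u) • η b = x := by simpa [e1, e2] using congrArg (t.cu ξ) e
  have b2 : ξ' (a u) • η b = b := by simpa [e3, e4] using congrArg (t.cu ξ') e
  have b3 : ξ' (a u) ≠ 0 := fun e => b0 (by rw [← b2, e, zero_smul])
  exact a3 (Submodule.mem_span_singleton.2 ⟨ξ (a u) / ξ' (a u), by rw [← b1]; nth_rw 1 [← b2]; simp [smul_smul, b3]⟩)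

theorem _root_.H12.Tn.wd_unitary {q : ℕ} (hβ : β.IsUnitary q) (h4 : 4 ≤ finrank F W) : Wd β :=
  ⟨hβ.big (by omega), .inl hβ.exists_skew, fun b hb => by
    obtain ⟨C, a1, a2, a3, a4⟩ := exists_le_orth (φ := β) ⊤ (F ∙ b) [b]
    obtain ⟨x, b1, b2, b3⟩ := hβ.exists_singular (W := C) (by
      have := finrank_span_singleton_le (F := F) b; simp at a4; omega)
    exact ⟨x, b3, a3 x b1 b (by simp), fun e => b2 (a2.le_bot ⟨b1, e⟩)⟩⟩

theorem Ov.unitary {q : ℕ} (h : t.Ov M) (hα : α.IsUnitary q) (hβ : β.IsUnitary q) (hφ : φ.IsUnitary q)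
    (h2 : 2 ≤ finrank F U) (h3 : finrank F U < finrank F W) (h4 : 4 ≤ finrank F W) (hex : ¬ (finrank F U = 2 ∧ q = 2)) :
    M ≤ t.PT ∨ φ.E ≤ M := by
  have := hα.finite
  have := Module.nontrivial_of_finrank_pos (R := F) (M := U) (by omega)
  have hW := wd_unitary hβ h4
  obtain ⟨s, s0, hs⟩ := hβ.exists_skew
  obtain ⟨θ, hθ⟩ := hφ.exists_σ_ne
  by_cases H : ∀ b hb, b ≠ 0 → ∀ ζ ∈ t.ZZ M (b := b) hb, ∃ c : F, ∀ u, ζ u = c • u
  · refine .inl (h.le_PT_tv (fun b hb b0 k hk hk' => ?_) hW (fun w => (hβ.herm.Q_eq w).trans) (.inl h3) hs s0 (.inl ⟨θ, hθ⟩))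
    obtain ⟨f, hy⟩ := β.exists_hyp hb b0
    obtain ⟨x, -, a1, a2⟩ := hW.two b hb
    refine h.stab_PT hy a1 a2 (fun y hM hr => ?_) hk hk'
    obtain ⟨δ, hδ⟩ := exists_dl hy hr
    refine h.rad_PT_of hy hM hδ (LinearMap.ext fun u => t.τ_eq_zero b0 (by
      simpa [hr.1 _ (t.τ_mem u b)] using hδ b hy.Bee u)) (fun w hw => ?_) (H b hb b0)
    obtain ⟨δ', hδ'⟩ := exists_adj (α := α) (δ w)
    obtain ⟨c, e⟩ := H b hb b0 _ (h.comm_mem hb hM hr hw (hδ w hw) hδ')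
    obtain ⟨c', e'⟩ := H b hb b0 _ (h.comm_mem hb hM hr (w := θ • w) (δ' := φ.σ θ • δ') (by simp [hw]) (hδ _ (by simp [hw]))
      fun x u => by simp [hδ', t.σ₁])
    refine ⟨(c' - φ.σ θ * c) / (φ.σ θ - θ), fun u => smul_right_injective _ (sub_ne_zero.2 hθ) ?_⟩
    have e := e u
    have e' := e' u
    simp only [hβ.herm.ε_eq, one_smul, map_smul, LinearMap.sub_apply, LinearMap.smul_apply, smul_smul,
      mul_div_cancel₀ _ (sub_ne_zero.2 hθ)] at e e' ⊢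
    linear_combination (norm := module) e' - φ.σ θ • e
  push Not at H
  obtain ⟨b₀, hb₀, b0, ζ, hζ, hn⟩ := H
  obtain ⟨a₀, _, hy⟩ := hα.exists_hyp_of_two_le h2
  have sk : ∀ s, φ.T s = 0 → α.T (-(φ.ε * s)) = 0 := fun s e => by
    rw [hφ.herm.T_eq] at e; simp [hα.herm.T_eq, hφ.herm.ε_eq, t.σ₁]; linear_combination -e
  refine .inr (h.spread_tv hW hy.Qe hy.e_ne_zero s0 (by rwa [hφ.herm.T_eq, ← t.σ₂, ← hβ.herm.T_eq]) fun a b ha hb s hs => ?_)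
  by_cases b0' : b = 0
  · rw [b0', map_zero, siegel_zero_left (by simpa)]; exact one_mem _
  obtain ⟨g, hg, e⟩ := hW.map hb₀ b0 hb b0'
  refine zz_siegel (hb := hb) (t.Q_τ₂ a hb) hs (su_adj hα h2 hex (fun _ a _ => h.zz_cj a) (fun ζ a c => ?_) (ζ := ζ)
    (by simpa using h.zz_map hζ hg hb (c := 1) (by simpa)) (fun x u => by simpa [hβ.herm.ε_eq] using zz_skew b0 hζ x u)
    (by simpa using hn) ha (sk s hs))
  by_cases c0 : c = 0
  · simp [c0]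
  obtain ⟨g, hg, e⟩ := hW.map hb b0' (β.Q_smul_of_sing hb c) (smul_ne_zero c0 b0')
  exact t.σ₁ c ▸ h.zz_map a hg hb e

end Ten
end H12.Tn
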