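import Mathlib
import Cfsg.Agent.H12.TnD
import Cfsg.Agent.H24.NM2

/-!
# Tensor stabilisers in matrix groups
`isMaximalIn_tens` (bridge from `Ten`), `su_tens_max` (unitary groups).
-/

set_option autoImplicit false
set_option linter.unusedSimpArgs false

namespace H12.Tn
open Module H10 H10.Form H10.As H24.NM Cfsg Cfsg.Geo Matrix
open scoped Kronecker

variable {F : Type*} [Field F] {ι : Type} [Fintype ι] [DecidableEq ι] {m k : ℕ} {e : ι ≃ Fin m × Fin k} {P : GL ι F}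

theorem isMaximalIn_tens {φ : Form F (ι → F)} {α : Form F (Fin m → F)} {β : Form F (Fin k → F)}
    (σ₁ : ∀ a, α.σ a = φ.σ a) (σ₂ : ∀ a, β.σ a = φ.σ a) (ε : φ.ε = α.ε * β.ε)
    (hB : ∀ x y x' y', φ.B (tau e P x y) (tau e P x' y') = α.B x x' * β.B y y')
    (hQ : ∀ x y x' y', φ.B (tau e P x y) (tau e P x y) = φ.B (tau e P x' y') (tau e P x' y') →
      φ.Q (tau e P x y) = φ.Q (tau e P x' y'))
    (h : ∀ t : Ten α β φ, ¬ φ.E ≤ t.PT ∧ ∀ M, t.Ov M → M ≤ t.PT ∨ φ.E ≤ M) :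
    IsMaximalIn (φ.E.map φ.toGL) (tensorProductSubgroup m k e P ⊓ φ.E.map φ.toGL) := by
  let e' := ((Pi.basisFun F (Fin m)).tensorProduct (Pi.basisFun F (Fin k))).equivFun ≪≫ₗ lq e P
  have h1 : ∀ x y, e' (x ⊗ₜ y) = tau e P x y := fun x y => congrArg (lq e P) (by ext ⟨i, j⟩; simp [mul_comm])
  let t : Ten α β φ := ⟨e', σ₁, σ₂, ε, by simpa [h1] using hB, by simpa only [h1] using hQ⟩
  have h2 : ∀ x y, t.τ x y = tau e P x y := h1
  have h3 : (tensorProductSubgroup m k e P).comap φ.toGL = t.PT := le_antisymm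
    (fun g hg => by obtain ⟨a, b, e⟩ := pt_tau g hg; exact ⟨a, b, by simpa only [h2] using e⟩) fun g ⟨a, b, h⟩ =>
      (mem_co e P).2 ⟨glEquiv.symm a, glEquiv.symm b, by
        ext i j
        have := h (Pi.single j.1 1) (Pi.single j.2 1)
        rw [h2, h2, ← toGL_mulVec] at this
        have := congrFun ((lq e P).injective ((mulVec_lq e P _ _).symm.trans this)) i
        rw [← glEquiv_symm_mulVec, ← glEquiv_symm_mulVec] at this
        simpa [pl_val, mulVec, dotProduct, Fintype.sum_prod_type, Pi.single_apply, ite_and] using this⟩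
  obtain ⟨h4, h5⟩ := h t
  refine isMaximalIn_map _ (h3 ▸ h4) fun M h6 g h7 h8 h9 => ?_
  rw [h3] at h6
  exact ((h5 (M ⊓ φ.E) ⟨inf_le_right, fun g a b => ⟨h6 ⟨a, b⟩, a⟩⟩).resolve_left fun e =>
    h9 (h3.ge (e ⟨h7, h8⟩))).trans inf_le_left

theorem su_tens_max [Fintype F] {n q : ℕ} (hF : Fintype.card F = q ^ 2) (h1 : 2 ≤ m) (h12 : m < k) (h4 : 4 ≤ k)
    (hex : ¬ (m = 2 ∧ q = 2)) {e : Fin n ≃ Fin m × Fin k} {P : GL (Fin n) F} {f₁ f₂} (hf₁ : IsUnitaryFormPow q f₁)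
    (hf₂ : IsUnitaryFormPow q f₂) (hT : IsTensorFormStructure (fun x : F => x ^ q) (hermForm n F q) f₁ f₂ e P) :
    IsMaximalIn (GU n F q ⊓ specialLinear (Fin n) F)
      (tensorProductSubgroup m k e P ⊓ (GU n F q ⊓ specialLinear (Fin n) F)) := by
  have hF' : Nat.card F = q ^ 2 := by rw [Nat.card_eq_fintype_card, hF]
  have hn : 3 ≤ n := by have : n = m * k := by simpa using Fintype.card_congr e
                        nlinarith
  have s1 := sf_of_herm (conj_conj hF') hf₁.1 hf₁.2 hf₁.3 hf₁.4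
  have s2 := sf_of_herm (conj_conj hF') hf₂.1 hf₂.2 hf₂.3 hf₂.4
  obtain ⟨c, hc, h⟩ := tau_form s1.toSq s2.toSq hT
  have hφ := stdU_isUnitary hF' n
  have hσ : conj hF' c = c := by
    obtain ⟨x, hx⟩ := (hf₁.4 (Pi.single ⟨0, by omega⟩ 1) (by simp)).2
    obtain ⟨y, hy⟩ := (hf₂.4 (Pi.single ⟨0, by omega⟩ 1) (by simp)).2
    have := hφ.herm.B_comm (tau e P x y) (tau e P (Pi.single ⟨0, by omega⟩ 1) (Pi.single ⟨0, by omega⟩ 1))
    rw [stdU_B, stdU_B, h, h, s1.symm x, s2.symm y] at this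
    change _ = conj hF' _ at this
    exact ((by simpa using this.symm : _ ∨ _ ∨ _).resolve_right (not_or.2 ⟨hx, hy⟩))
  have H : ∀ {l : ℕ} {f : (Fin l → F) → (Fin l → F) → F}, SF (conj hF') 1 f → ∃ ψ : Form F (Fin l → F), ψ.Nondeg ∧
      ψ.IsUnitary q ∧ ∀ x y, ψ.B x y = f y x := fun s => by
    obtain ⟨σ, h1⟩ := s.unit (conj_ne_id hF')
    obtain ⟨q', ψ, a, h2, -, h3⟩ := exists_ofHerm h1
    obtain rfl : q' = q := Nat.pow_left_injective two_ne_zero (h2.card.symm.trans hF')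
    exact ⟨ψ, a, h2, h3⟩
  obtain ⟨α, _, a1, a2⟩ := H (s1.smul hc hσ)
  obtain ⟨β, _, b1, b2⟩ := H s2
  rw [SU_eq_E hF' hn]
  exact isMaximalIn_tens (α := α) (β := β) (fun a => by rw [a1.σ_eq, hφ.σ_eq]) (fun a => by rw [b1.σ_eq, hφ.σ_eq])
    (by simp [a1.herm.ε_eq, b1.herm.ε_eq, hφ.herm.ε_eq]) (fun _ _ _ _ => by rw [stdU_B, h, a2, b2, mul_assoc])
    (fun _ _ _ _ => id) fun t => ⟨t.not_E_le (hφ.big (by simpa)) (wd_unitary b1 (by simpa)) (by simpa), fun M h =>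
      h.unitary a1 b1 hφ (by simpa) (by simpa) (by simpa) (by simpa using hex)⟩

end H12.Tn
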