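import Mathlib
import Cfsg.Agent.H12.TnD

/-!
# Invariant spaces of endomorphisms of symplectic and orthogonal spaces in odd characteristic
`sp_adj`, `alt_res`, `skew_adj`, `sym_adj`.
-/

set_option autoImplicit false
set_option linter.unusedSectionVars false
set_option linter.unusedSimpArgs false

namespace H12.Tn
open Module H10 H10.Form

variable {F U : Type*} [Field F] [AddCommGroup U] [Module F U] {α : Form F U} [α.Nondeg] [FiniteDimensional F U]
  (h2 : (2 : F) ≠ 0) {Z : AddSubgroup (U →ₗ[F] U)} {ζ : U →ₗ[F] U}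

include h2 in
theorem smul_mem_of_sq {X : Type*} [AddCommGroup X] [Module F X] {Z : AddSubgroup X} {x : X}
    (h : ∀ c : F, (c * c) • x ∈ Z) (c : F) : c • x ∈ Z := by
  convert sub_mem (h ((c + 1) / 2)) (h ((c - 1) / 2)) using 1
  rw [← sub_smul]; congr 1; field_simp; ring

theorem br_all (hσ : ∀ c, α.σ c = c) (hn : α.Conn) (hc : ∀ ζ ∈ Z, ∀ g ∈ α.E, cj g ζ ∈ Z) (hs : ∀ ζ ∈ Z, ∀ c : F, c • ζ ∈ Z)
    {a : U} (ha : α.Q a = 0) (a0 : a ≠ 0) {c : F} (c0 : c ≠ 0) (h : c • br α a a ∈ Z) {x : U} (hx : α.Q x = 0) :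
    br α x x ∈ Z := by
  by_cases x0 : x = 0
  · rw [show br α x x = 0 from LinearMap.ext fun u => by simp [x0]]; exact zero_mem _
  obtain ⟨g, hg, d, d0, e⟩ := hn.exists_E_map_point ha a0 hx x0
  convert hs _ (hc _ h g hg) (c * d * d)⁻¹ using 1
  rw [cj_smul, cj_br, e]
  exact LinearMap.ext fun u => by simp [smul_smul, hσ]; congr 1; field_simp

theorem alt_T (h : H09.IsAltF α) (a : F) : α.T a = 0 := by rw [h.T_eq]; rfl
theorem alt_ε (h : H09.IsAltF α) : α.ε = -1 := by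
  have := α.T_ker 1 (alt_T h 1)
  rw [map_one, mul_one] at this; linear_combination this

section alt
variable (hα : H09.IsAltF α) (hc : ∀ ζ ∈ Z, ∀ g : α.Isom, cj g ζ ∈ Z) (hζ : ζ ∈ Z)
include h2 hα hc hζ

theorem sp_adj (hk : ∀ x u, α.B (ζ x) u = -α.B x (ζ u)) (hn : ζ ≠ 0) : ∃ a c, a ≠ 0 ∧ c ≠ (0 : F) ∧ c • br α a a ∈ Z := by
  have sy : ∀ x u, α.B u (ζ x) = α.B x (ζ u) := fun x u => by rw [α.symm, hk, alt_ε hα, hα.σ_eq]; simp
  obtain ⟨a, ha⟩ : ∃ a, α.B a (ζ a) ≠ 0 := by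
    by_contra! H
    refine hn (LinearMap.ext fun u => α.eq_zero_of_B_right fun x => mul_left_cancel₀ h2 ?_)
    have := H (x + u)
    simp only [map_add, LinearMap.add_apply, H, sy x u] at this
    linear_combination this
  refine ⟨a, -2 * α.B a (ζ a), by rintro rfl; simp at ha, by simp [h2, ha], ?_⟩
  convert add_mem (sub_mem (hc _ hζ (α.siegel a 0 1)) hζ) (sub_mem (hc _ hζ (α.siegel a 0 (-1))) hζ) using 1
  refine LinearMap.ext fun u => ?_
  simp only [LinearMap.add_apply, LinearMap.sub_apply, cj_tv (hα.Q_eq a) (alt_T hα _), LinearMap.smul_apply, br_apply]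
  module

theorem alt_res (hk : ∀ x u, α.B (ζ x) u = α.B x (ζ u)) (hn : ¬ ∃ c : F, ∀ u, ζ u = c • u) :
    ∃ a, a ≠ 0 ∧ ∃ N ∈ Z, ∃ N' ∈ Z, N' ∘ₗ N - N ∘ₗ N' = (2 : F) • br α a a := by
  obtain ⟨a, ha⟩ := (scalar_or ζ).resolve_left hn
  have as : ∀ x y, α.B y x = -α.B x y := fun x y => by rw [α.symm, alt_ε hα, hα.σ_eq]; simp
  have h1 : α.B a (ζ a) = 0 := mul_left_cancel₀ h2 (by have := hk a a; rw [as] at this; linear_combination -this)
  have h3 : br α a (ζ a) - br α (ζ a) a ∈ Z := by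
    convert sub_mem (hc _ hζ (α.siegel a 0 1)) hζ using 1
    refine LinearMap.ext fun u => ?_
    simp only [LinearMap.sub_apply, cj_tv (hα.Q_eq a) (alt_T hα _), br_apply, alt_ε hα, h1, hk]; module
  obtain ⟨x, a1, a2⟩ := exists_partner' (β := α) ha
  refine ⟨a, by rintro rfl; simp at ha, _, h3, br α a x - br α x a, ?_, LinearMap.ext fun u => ?_⟩
  · have e := fun u => α.siegel_apply (p := x) (w := 0) (s := 1) (hα.Q_eq x) (by simp) (by simp [alt_T hα]) u
    convert sub_mem h3 (hc _ h3 (α.siegel x 0 1)) using 1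
    rw [cj_sub, cj_br, cj_br, e, e]
    exact LinearMap.ext fun u => by simp [alt_ε hα, as a x, as (ζ a) x, a1, a2, hα.σ_eq]; module
  · simp [a1, a2, as a x, as (ζ a) x, h1, as a (ζ a), B_self_of_isAltF hα]; module
end alt

section quad
variable (hα : α.IsQuad)
include h2 hα

theorem exists_ns {P S : Submodule F U} {w₀ : U} (h0 : w₀ ∈ P) (h1 : α.Q w₀ ≠ 0) (h3 : ¬ P ≤ S) :
    ∃ w ∈ P, w ∉ S ∧ α.Q w ≠ 0 := by
  obtain ⟨x, a, b⟩ := SetLike.not_le_iff_exists.1 h3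
  by_contra! H
  by_cases c : w₀ ∈ S
  · have e1 := H _ (add_mem a h0) (by rwa [S.add_mem_iff_left c])
    have e2 := H _ (sub_mem a h0) (by rwa [S.sub_mem_iff_left c])
    rw [hα.Q_add, H x a b] at e1
    rw [hα.Q_sub, H x a b] at e2
    exact h1 (mul_left_cancel₀ h2 (by linear_combination e1 + e2))
  · exact h1 (H _ h0 c)

omit h2 in
theorem exists_ns_perp (h3 : 3 ≤ finrank F U) {a : U} (a0 : a ≠ 0) : ∃ w ∈ α.perp (F ∙ a), α.Q w ≠ 0 := by
  by_contra! H
  have := (hα.ts H).finrank_le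
  have := α.finrank_perp_singleton a0
  omega

theorem exists_not_eigen_q [Finite F] (h3 : 3 ≤ finrank F U) (hζ : ¬ ∃ c : F, ∀ u, ζ u = c • u) :
    ∃ x, α.Q x = 0 ∧ ζ x ∉ F ∙ x := by
  by_contra! H
  obtain ⟨a, a', h⟩ := hα.exists_hyp_of_three_le h3
  obtain ⟨c, e⟩ := Submodule.mem_span_singleton.1 (H a h.Qe)
  refine hζ ⟨c, fun u => sub_eq_zero.1 (LinearMap.mem_ker.1 (eq_top_of_sing h (S := LinearMap.ker (ζ - c • LinearMap.id))
    (by simp [e]) (fun x hx h1 => ?_) u))⟩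
  have hx' : α.IsHyp a x := ⟨h.Qe, hx, h1⟩
  obtain ⟨w, a1, a2⟩ : ∃ w ∈ α.perp (Submodule.span F {a, x}), α.Q w ≠ 0 := by
    by_contra! H
    have h4 := hx'.finrank_perp
    obtain ⟨w, b1, b2⟩ := Submodule.exists_mem_ne_zero_of_ne_bot (p := α.perp (Submodule.span F {a, x})) (by
      intro e; rw [e, finrank_bot] at h4; omega)
    exact b2 (hx'.nondegOn.perp w b1 fun y hy => (hα.ts H).2 _ b1 _ hy)
  rw [α.mem_perp_pair] at a1
  obtain ⟨d, e1⟩ := Submodule.mem_span_singleton.1 (H x hx)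
  have k : ∀ w, α.B a w = 0 → α.B x w = 0 → α.Q (x + w - α.Q w • a) = 0 := fun w b1 b2 => by
    simp [hα.Q_sub, hα.Q_add, hα.Q_smul, hx, h.Qe, b2, hα.B_comm x a, h1, hα.B_comm w a, b1]
  obtain ⟨l, e2⟩ := Submodule.mem_span_singleton.1 (H _ (k w a1.1 a1.2))
  obtain ⟨l', e3⟩ := Submodule.mem_span_singleton.1 (H _ (k (-w) (by simp [a1.1]) (by simp [a1.2])))
  have e4 : (l + l') • (x - α.Q w • a) + (l - l') • w = (2 : F) • (d • x - (α.Q w * c) • a) := by
    simp only [map_sub, map_add, map_smul, map_neg, ← e, ← e1, α.Q_neg] at e2 e3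
    linear_combination (norm := module) e2 + e3
  have e5 := congrArg (α.B a) e4
  have e6 := congrArg (α.B x) e4
  simp only [map_add, map_sub, map_smul, smul_eq_mul, hx'.Bee, hx'.Bff, hx'.Bfe, h1, a1.1, a1.2, hα.ε_eq] at e5 e6
  have : d = c := mul_left_cancel₀ (mul_ne_zero h2 a2) (by linear_combination -α.Q w * e5 - e6)
  simp [← e1, this]

omit h2 in
theorem sg_apply {a w : U} (ha : α.Q a = 0) (hw : α.B a w = 0) (u : U) :
    (α.siegel a w (α.Q w)).1 u = u + α.B w u • a - α.B a u • w - (α.Q w * α.B a u) • a := by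
  simp [α.siegel_apply ha hw (hα.T_eq _), hα.ε_eq]

omit h2 in
theorem cj_sg {a w : U} (ha : α.Q a = 0) (hw : α.B a w = 0) (ζ : U →ₗ[F] U) (u : U) :
    cj (α.siegel a w (α.Q w)) ζ u = (α.siegel a w (α.Q w)).1 (ζ (u - α.B w u • a + α.B a u • w - (α.Q w * α.B a u) • a)) := by
  rw [cj_apply, siegel_inv ha hw (hα.T_eq _), hα.ε_eq, hα.σ_eq, one_mul, ← α.Q_neg w, sg_apply hα ha (by simp [hw])]
  simp [sub_eq_add_neg]

variable {K : Subgroup α.Isom} (hK : α.E ≤ K) (hc : ∀ ζ ∈ Z, ∀ g ∈ K, cj g ζ ∈ Z) (hζ : ζ ∈ Z) [Finite F]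
  (h3 : 3 ≤ finrank F U) (hn : ¬ ∃ c : F, ∀ u, ζ u = c • u)
include hK hc hζ h3 hn

theorem skew_adj (hk : ∀ x u, α.B (ζ x) u = -α.B x (ζ u))
    (hmv : ∀ a v, a ≠ 0 → α.Q a = 0 → α.Q v = 0 → α.B a v = 0 → v ∉ F ∙ a → ∃ g ∈ K, g.1 a = a ∧ α.B v (g.1 v) ≠ 0) :
    ∃ a v v', a ≠ 0 ∧ α.Q a = 0 ∧ α.B a v = 0 ∧ α.B a v' = 0 ∧ α.B v v' ≠ 0 ∧ nn α a v ∈ Z ∧ nn α a v' ∈ Z := by
  obtain ⟨a, ha, h1⟩ := exists_not_eigen_q h2 hα h3 hn
  have a0 : a ≠ 0 := by rintro rfl; simp at h1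
  obtain ⟨w, hw, hw'⟩ := exists_ns_perp hα h3 a0
  rw [α.mem_perp_singleton] at hw
  have sk : ∀ x, α.B x (ζ x) = 0 := fun x => mul_left_cancel₀ h2 (by have := hk x x; rw [hα.B_comm] at this; linear_combination this)
  set v := (2 * α.Q w) • ζ a - (2 * α.B w (ζ a)) • w with hv
  have h4 : nn α a v ∈ Z := by
    convert add_mem (sub_mem (hc _ hζ _ (hK (α.siegel_mem_E ha hw (hα.T_eq _)))) hζ)
      (sub_mem (hc _ hζ _ (hK (α.siegel_mem_E ha (w := -w) (by simp [hw]) (hα.T_eq _)))) hζ) using 1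
    refine LinearMap.ext fun u => ?_
    have e1 : α.B a (ζ w) = -α.B w (ζ a) := by rw [hα.B_comm, hk]
    have e2 : α.B a (ζ u) = -α.B (ζ a) u := by rw [hk, neg_neg]
    simp only [LinearMap.add_apply, LinearMap.sub_apply, cj_sg hα ha hw, cj_sg hα ha (show α.B a (-w) = 0 by simp [hw]),
      sg_apply hα ha hw, sg_apply hα ha (show α.B a (-w) = 0 by simp [hw])]
    simp only [nn_apply, hv, map_add, map_sub, map_smulₛₗ, LinearMap.sub_apply, map_neg, LinearMap.neg_apply, LinearMap.smul_apply, smul_eq_mul, RingHom.id_apply, hα.σ_eq, hα.ε_eq, α.Q_neg, sk, e1, e2]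
    module
  have h5 : α.B a v = 0 := by simp [hv, sk, hw]
  have h6 : v ∉ F ∙ a := fun e => by
    obtain ⟨c, e⟩ := Submodule.mem_span_singleton.1 e
    have := congrArg (α.B w) e
    simp only [hv, map_sub, map_smul, smul_eq_mul, α.B_symm_zero hw, hα.B_self] at this
    have e0 : α.B w (ζ a) = 0 := mul_left_cancel₀ (mul_ne_zero h2 hw') (by linear_combination this)
    rw [hv, e0, mul_zero, zero_smul, sub_zero] at e
    exact h1 ((Submodule.smul_mem_iff _ (mul_ne_zero h2 hw')).1 (e ▸ Submodule.smul_mem _ _ (Submodule.mem_span_singleton_self a)))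
  by_cases h7 : α.Q v = 0
  · obtain ⟨g, a1, a2, a3⟩ := hmv a v a0 ha h7 h5 h6
    exact ⟨a, v, g.1 v, a0, ha, h5, by rw [← a2, Isom.B_map, h5], a3, h4, by simpa [cj_nn, a2] using hc _ h4 g a1⟩
  · exact ⟨a, v, v, a0, ha, h5, h5, hα.B_self_ne_zero h2 h7, h4, h4⟩

theorem sym_adj (hs : ∀ ζ ∈ Z, ∀ c : F, c • ζ ∈ Z) (hk : ∀ x u, α.B (ζ x) u = α.B x (ζ u))
    (hex : 4 ≤ finrank F U ∨ ∃ c : F, c ≠ 0 ∧ c * c ≠ 1) {x : U} (hx : α.Q x = 0) : br α x x ∈ Z := by
  obtain ⟨a, ha, h1⟩ := exists_not_eigen_q h2 hα h3 hn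
  have a0 : a ≠ 0 := by rintro rfl; simp at h1
  have aa := α.B_self_eq_zero ha
  suffices H : ∃ c : F, c ≠ 0 ∧ c • br α a a ∈ Z from H.elim fun c H =>
    br_all hα.σ_eq (.inr h3) (fun ζ h g e => hc ζ h g (hK e)) hs ha a0 H.1 H.2 hx
  have st : ∀ (x v : U) (k r : F), k • br α x x - (br α a v - r • br α a a - (-1 : F) • br α v a) ∈ Z → ∀ w, α.B a w = 0 → α.B w x = 0 →
      α.B a x = 0 → ∃ l : F, (α.B a v = 0 → l = α.B w v) ∧ (0 : F) • br α 0 0 - (br α a (α.B a v • w - l • a) -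
        (0 : F) • br α a a - (-1 : F) • br α (α.B a v • w - l • a) a) ∈ Z := fun x v k r h w hw h1 h2 => by
    refine ⟨α.B w v - α.Q w * α.B a v, fun e => by simp [e], ?_⟩
    convert sub_mem h (hc _ h _ (hK (α.siegel_mem_E ha hw (hα.T_eq _)))) using 1
    simp only [cj_sub, cj_smul, cj_br, sg_apply hα ha hw, aa, α.B_symm_zero hw, h1, h2]
    exact LinearMap.ext fun u => by simp [hα.σ_eq]; module
  have fin : ∀ (v : U) (r : F), (0 : F) • br α 0 0 - (br α a v - r • br α a a - (-1 : F) • br α v a) ∈ Z → α.B a v = 0 → v ∉ F ∙ a →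
      ∃ c : F, c ≠ 0 ∧ c • br α a a ∈ Z := fun v r h h4 h5 => by
    obtain ⟨w, a1, a2⟩ := exists_partner' (β := α) h5
    obtain ⟨l, a3, a4⟩ := st 0 v 0 r h w a1 (by simp) (by simp)
    refine ⟨2, h2, ?_⟩
    convert a4 using 1
    exact LinearMap.ext fun u => by simp [a3 h4, h4, hα.B_comm w, a2, hα.σ_eq]; module
  obtain ⟨w₀, hw₀, hw₀'⟩ := exists_ns_perp hα h3 a0
  have D : ∀ w, α.B a w = 0 → ∀ u, cj (α.siegel a w (α.Q w)) ζ u = ζ u + (α.B w (ζ u) • a - α.B a (ζ u) • w -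
      α.B w u • ζ a + α.B a u • ζ w) + ((α.B a (ζ a) * α.B w u) • w - α.B (α.B w (ζ a) • w + α.Q w • ζ a) u • a -
      α.B a u • (α.B w (ζ a) • w + α.Q w • ζ a) + (α.B w (ζ w) * α.B a u) • a) + α.Q w • (α.B a (ζ a) • (α.B w u • a + α.B a u • w) -
      (2 * α.B w (ζ a) * α.B a u) • a) + (α.Q w * α.Q w * α.B a (ζ a) * α.B a u) • a := fun w hw u => by
    simp only [cj_sg hα ha hw, sg_apply hα ha hw, map_add, map_sub, map_smulₛₗ, LinearMap.add_apply, LinearMap.smul_apply,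
      smul_eq_mul, RingHom.id_apply, hα.σ_eq, hk, show α.B a (ζ w) = α.B w (ζ a) by rw [← hk, hα.B_comm]]
    module
  have M : ∀ w, α.B a w = 0 → cj (α.siegel a w (α.Q w)) ζ ∈ Z := fun w hw => hc _ hζ _ (hK (α.siegel_mem_E ha hw (hα.T_eq _)))
  rcases hex with h4 | ⟨c, c0, c1⟩
  · have S : ∀ w, α.B a w = 0 → ∃ r : F, (2 * α.B a (ζ a)) • br α w w - (br α a ((2 : F) • (α.B w (ζ a) • w + α.Q w • ζ a)) -
        r • br α a a - (-1 : F) • br α ((2 : F) • (α.B w (ζ a) • w + α.Q w • ζ a)) a) ∈ Z := fun w hw => ⟨_, by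
      convert add_mem (sub_mem (M w hw) hζ) (sub_mem (M (-w) (by simp [hw])) hζ) using 1
      refine LinearMap.ext fun u => ?_
      rw [LinearMap.add_apply, LinearMap.sub_apply (cj _ _), LinearMap.sub_apply (cj _ _), D w hw, D (-w) (by simp [hw])]
      simp only [map_add, map_sub, map_smulₛₗ, LinearMap.add_apply, LinearMap.smul_apply, LinearMap.sub_apply, br_apply,
        smul_eq_mul, RingHom.id_apply, hα.σ_eq, map_neg, LinearMap.neg_apply, α.Q_neg]
      change _ - (_ - (2 * (α.B w (ζ w) + α.Q w * α.Q w * α.B a (ζ a))) • _ - _) = _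
      module⟩
    by_cases κ : α.B a (ζ a) = 0
    · obtain ⟨w, a1, a2, a3⟩ := exists_ns h2 hα (S := Submodule.span F {a, ζ a}) hw₀ hw₀' fun e => by
        have := Submodule.finrank_mono e
        have := finrank_span_pair_le (F := F) a (ζ a)
        have := α.finrank_perp_singleton a0
        omega
      rw [α.mem_perp_singleton] at a1
      obtain ⟨r, a4⟩ := S w a1
      refine fin _ r (by rw [κ, mul_zero, zero_smul] at a4; rwa [zero_smul]) (by simp [a1, κ]) fun e => ?_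
      rw [Submodule.smul_mem_iff _ h2] at e
      by_cases a5 : α.B w (ζ a) = 0
      · exact h1 (by simpa [a5, Submodule.smul_mem_iff _ a3] using e)
      · exact a2 ((Submodule.smul_mem_iff _ a5).1 ((Submodule.add_mem_iff_left _ (Submodule.smul_mem _ _
          (Submodule.subset_span (by simp)))).1 (Submodule.span_mono (by simp) e)))
    · rw [α.mem_perp_singleton] at hw₀
      obtain ⟨r, a4⟩ := S w₀ hw₀
      obtain ⟨w, -, a1, a2⟩ := α.exists_orth ⊤ (F ∙ a) [a, w₀] (by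
        have := finrank_span_singleton_le (F := F) a; simp; omega)
      obtain ⟨l, -, a5⟩ := st _ _ _ _ a4 w (a2 a (by simp)) (α.B_symm_zero (a2 w₀ (by simp))) hw₀
      refine fin _ _ a5 (by simp [a2 a, aa]) ?_
      rwa [Submodule.sub_mem_iff_left _ (Submodule.smul_mem _ _ (Submodule.mem_span_singleton_self a)),
        Submodule.smul_mem_iff _ (by simp [h2, hw₀, hw₀', κ])]
  · have c2 : 2 * (c * c * c - c) ≠ 0 := mul_ne_zero h2 fun e => c1 (mul_left_cancel₀ c0 (by linear_combination e))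
    have S : ∀ w, α.B a w = 0 → (0 : F) • br α 0 0 - (br α a (-(2 * (c * c * c - c) * α.Q w * α.B a (ζ a)) • w) -
        (-(2 * (c * c * c - c) * α.Q w * (2 * α.B w (ζ a)))) • br α a a -
        (-1 : F) • br α (-(2 * (c * c * c - c) * α.Q w * α.B a (ζ a)) • w) a) ∈ Z := fun w hw => by
      convert sub_mem (sub_mem (M (c • w) (by simp [hw])) (M (-c • w) (by simp [hw])))
        (hs _ (sub_mem (M w hw) (M (-w) (by simp [hw]))) c) using 1
      refine LinearMap.ext fun u => ?_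
      simp only [LinearMap.sub_apply (cj _ _), LinearMap.sub_apply (_ - _), LinearMap.smul_apply c]
      rw [D w hw, D (-w) (by simp [hw]), D (c • w) (by simp [hw]), D (-c • w) (by simp [hw])]
      simp only [map_add, map_sub, map_smulₛₗ, LinearMap.add_apply, LinearMap.smul_apply, LinearMap.sub_apply, br_apply,
        smul_eq_mul, RingHom.id_apply, hα.σ_eq, map_neg, LinearMap.neg_apply, α.Q_neg, hα.Q_smul]
      module
    by_cases κ : α.B a (ζ a) = 0
    · obtain ⟨w, a1, a2, a3⟩ := exists_ns h2 hα (S := α.perp (F ∙ ζ a)) hw₀ hw₀' fun e => h1 (by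
        simpa using α.perp_anti e (α.le_perp_perp _ (Submodule.mem_span_singleton_self _)))
      rw [α.mem_perp_singleton] at a1 a2
      refine ⟨_, ?_, by simpa [κ, br] using S w a1⟩
      simp only [ne_eq, neg_eq_zero]
      exact mul_ne_zero (mul_ne_zero c2 a3) (mul_ne_zero h2 (mt α.B_symm_zero a2))
    · rw [α.mem_perp_singleton] at hw₀
      refine fin _ _ (S w₀ hw₀) (by simp [hw₀]) ?_
      rw [Submodule.smul_mem_iff _ (neg_ne_zero.2 (mul_ne_zero (mul_ne_zero c2 hw₀') κ)), Submodule.mem_span_singleton]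
      rintro ⟨d, rfl⟩; exact hw₀' (α.Q_smul_of_sing ha d)
end quad

end H12.Tn
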