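import Mathlib
import Cfsg.Agent.H12.TnE

/-!
# Overgroups of tensor stabilisers in odd characteristic: the radical
`Ten.TH`, `Ten.LL`, `Ov.h0_or` (either `H0` holds or `E ≤ M`) for `Sp ⊗ O`, `O ⊗ Sp`, `O ⊗ O`.
-/

set_option autoImplicit false
set_option linter.unusedSectionVars false
set_option linter.unusedSimpArgs false

namespace H12.Tn
open Module H10 H10.Form

variable {F U W V : Type*} [Field F] [AddCommGroup U] [Module F U] [AddCommGroup W] [Module F W]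
  [AddCommGroup V] [Module F V] {α : Form F U} {β : Form F W} {φ : Form F V}
  [α.Nondeg] [β.Nondeg] [φ.Nondeg] [FiniteDimensional F U] [FiniteDimensional F W] [FiniteDimensional F V]

namespace Ten
variable (t : Ten α β φ) (M : Subgroup φ.Isom) {b f w x : W} {y : φ.Isom} {N N' : U →ₗ[F] U}

/-- the image of `M ∩ Rad` in `Hom(U ⊗ b^⊥, U)` -/
def TH (b : W) : AddSubgroup (W →ₗ[F] U →ₗ[F] U) where
  carrier := {δ | δ b = 0 ∧ ∃ y ∈ M, (∀ u, y.1 (t.τ u b) = t.τ u b) ∧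
    ∀ w, β.B b w = 0 → ∀ u, y.1 (t.τ u w) = t.τ u w + t.τ (δ w u) b}
  zero_mem' := ⟨rfl, 1, one_mem _, by simp⟩
  add_mem' := by
    rintro δ δ' ⟨a0, y, a, a1, e⟩ ⟨b0, y', a', a2, e'⟩
    exact ⟨by simp [a0, b0], y * y', mul_mem a a', fun u => by rw [Isom.mul_apply, a2, a1], fun w hw u => by
      simp [Isom.mul_apply, e w hw, e' w hw, a1]; abel⟩
  neg_mem' := by
    rintro δ ⟨a0, y, a, a1, e⟩
    exact ⟨by simp [a0], y⁻¹, inv_mem a, fun u => by rw [Isom.inv_apply_eq, a1], fun w hw u => by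
      rw [Isom.inv_apply_eq]; simp [e w hw, a1]⟩

/-- the pure part -/
def LL (b : W) : AddSubgroup (U →ₗ[F] U) where
  carrier := {N | ∀ w, β.B b w = 0 → (β.B w).smulRight N ∈ t.TH M b}
  zero_mem' w _ := by convert zero_mem (t.TH M b); ext; simp
  add_mem' a a' w hw := by convert add_mem (a w hw) (a' w hw); ext; simp
  neg_mem' a w hw := by convert neg_mem (a w hw); ext; simp

variable {t M}
theorem Ov.th_map (h : t.Ov M) {δ : W →ₗ[F] U →ₗ[F] U} (hδ : δ ∈ t.TH M b) {g : β.Isom} (hg : g ∈ β.E) (e : g.1 b = b) :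
    δ ∘ₗ (g.1 : W →ₗ[F] W) ∈ t.TH M b := by
  obtain ⟨a0, y, a, a1, e1⟩ := hδ
  refine ⟨by simp [e, a0], _, mul_mem (mul_mem (inv_mem (h.rt hg)) a) (h.rt hg), fun u => ?_, fun w hw u => ?_⟩ <;>
    rw [Isom.mul_apply, Isom.mul_apply, Isom.inv_apply_eq, rt_τ]
  · rw [e, a1]
  · rw [e1 _ (by rw [← e, Isom.B_map, hw])]; simp [e]

theorem ll_cj (hN : N ∈ t.LL M b) {g : α.Isom} (hg : t.flip.rt g ∈ M) : cj g N ∈ t.LL M b := fun w hw => by
  obtain ⟨a0, y, a, a1, e⟩ := hN w hw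
  exact ⟨by simp [β.B_symm_zero hw], t.flip.rt g * y * t.flip.rt g⁻¹, mul_mem (mul_mem hg a) (map_inv t.flip.rt g ▸ inv_mem hg),
    fun u => by rw [Isom.mul_apply, Isom.mul_apply, lt_τ, a1]; simp, fun w hw u => by
      rw [Isom.mul_apply, Isom.mul_apply, lt_τ, e w hw]; simp [cj_apply]⟩

theorem ll_smul (hσ : ∀ c, β.σ c = c) (hN : N ∈ t.LL M b) (c : F) : c • N ∈ t.LL M b := fun w hw => by
  convert hN (c • w) (by simp [hw]) using 1; ext; simp [hσ, smul_smul, mul_comm]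

theorem Ov.ll_one (h : t.Ov M) (hb : β.Q b = 0) : LinearMap.id ∈ t.LL M b := fun w hw => by
  obtain ⟨s, hs, -⟩ := β.half w
  exact ⟨by simp [β.B_symm_zero hw], _, h.rt (β.siegel_mem_E hb hw hs), fun u => by simp [siegel_apply_self hb hw hs],
    fun x hx u => by simp [β.siegel_apply hb hw hs, hx]⟩

theorem th_rad (hy : β.IsHyp b f) {δ : W →ₗ[F] U →ₗ[F] U} (h1 : ∀ u, y.1 (t.τ u b) = t.τ u b)
    (h2 : ∀ w, β.B b w = 0 → ∀ u, y.1 (t.τ u w) = t.τ u w + t.τ (δ w u) b) : Rad φ (t.A b) y :=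
  ⟨by rintro _ ⟨u, rfl⟩; exact h1 u, fun v hv => t.perp_ind hy (P := fun v => y.1 v - v ∈ t.A b)
    (fun u w hw => by simp [h2 w hw, t.τ_mem]) (fun _ _ a b => by convert add_mem a b using 1; rw [map_add]; abel)
    (t.mem_perp_A.1 hv)⟩

theorem ct_rad (hr : Rad φ (t.A b) y) {δ δ' : U →ₗ[F] U} (hδ : ∀ u, y.1 (t.τ u w) = t.τ u w + t.τ (δ u) b)
    (hδ' : ∀ x u, α.B (δ' x) u = α.B x (δ u)) (v : V) : t.ct b (y.1 v - v) = 0 ∧ t.ct w (y.1 v - v) = -δ' (t.ct b v) := by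
  have e2 := t.mem_perp_A.1 (sub_mem_perp hr.1 v)
  refine ⟨e2, α.ext_B_right fun u => ?_⟩
  have := Isom.B_map y (t.τ u w) v
  rw [map_sub, sub_eq_zero] at e2
  rw [hδ, map_add, LinearMap.add_apply, t.B_τ, t.B_τ, t.B_τ, e2] at this
  rw [map_sub, map_sub, ← this, map_neg, α.symm (δ' _), hδ', ← α.symm]; ring

theorem ll_comm (hσ : ∀ c, φ.σ c = c) (hy : β.IsHyp b f) (h1 : β.B b x = 0) (h2 : x ∉ F ∙ b) (hN : N ∈ t.LL M b)
    (hN' : N' ∈ t.LL M b) {K K' : U →ₗ[F] U} (hK : ∀ x u, α.B (K x) u = α.B x (N u))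
    (hK' : ∀ x u, α.B (K' x) u = α.B x (N' u)) : N' ∘ₗ K - β.ε • N ∘ₗ K' ∈ t.ZZ M hy.Qe := by
  obtain ⟨w, a1, a2⟩ := exists_partner' (β := β) h2
  obtain ⟨-, y, a3, a4, a5⟩ := hN x h1
  obtain ⟨-, y', b3, b4, b5⟩ := hN' w a1
  have H : ∀ {y : φ.Isom} {x} {N : U →ₗ[F] U}, (∀ w, β.B b w = 0 → ∀ u, y.1 (t.τ u w) = t.τ u w + t.τ ((β.B x).smulRight N w u) b) →
      ∀ z, t.ct b z = 0 → y.1 z = z + t.τ (N (t.ct x z)) b := fun {y x N} h z hz => t.perp_ind hy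
    (P := fun z => y.1 z = z + t.τ (N (t.ct x z)) b) (fun u w hw => by simp [h w hw]) (fun _ _ a b => by simp [a, b]; abel) hz
  refine ⟨(y' * y)⁻¹ * (y * y'), mul_mem (inv_mem (mul_mem b3 a3)) (mul_mem a3 b3), fun v => ?_⟩
  have c1 := ct_rad (th_rad hy a4 a5) (w := w) (δ := N) (fun u => by simp [a5 w a1, a2]) hK v
  have c2 := ct_rad (th_rad hy b4 b5) (w := x) (δ := β.ε • N') (δ' := β.ε • K') (fun u => by
    simp [b5 x h1, β.symm x w, a2]) (fun x u => by simp [hK', t.σ₁, hσ]) v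
  have c3 := H a5 _ c2.1
  have c4 := H b5 _ c1.1
  rw [c2.2, map_sub, sub_eq_iff_eq_add] at c3
  rw [c1.2, map_sub, sub_eq_iff_eq_add] at c4
  rw [Isom.mul_apply, Isom.inv_apply_eq]
  simp only [Isom.mul_apply, c3, c4, map_add, a4, b4, map_sub, map_neg, map_smul, LinearMap.sub_apply, LinearMap.comp_apply,
    LinearMap.smul_apply, LinearMap.neg_apply]
  abel

variable (h2 : (2 : F) ≠ 0) (hσ : ∀ c, φ.σ c = c)
include h2 hσ

theorem Ov.ll_of (h : t.Ov M) (hW : Wd β) (ty : H09.IsAltF β ∨ β.IsQuad ∧ 5 ≤ finrank F W) (hb : β.Q b = 0)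
    {δ : W →ₗ[F] U →ₗ[F] U} (hδ : δ ∈ t.TH M b) (hx : β.Q x = 0) (h1 : β.B b x = 0) (h3 : x ∉ F ∙ b) : δ x ∈ t.LL M b := by
  have σ' : ∀ c, β.σ c = c := fun c => (t.σ₂ c).trans (hσ c)
  let S : Submodule F W := ⟨⟨⟨{w | β.B b w = 0 ∧ ∀ c : F, c • (β.B w).smulRight (δ x) ∈ t.TH M b}, fun a a' =>
    ⟨by simp [a.1, a'.1], fun c => by convert add_mem (a.2 c) (a'.2 c) using 1; ext; simp [add_smul]⟩⟩,
    by simp, fun c => by convert zero_mem (t.TH M b); ext; simp⟩, fun d w a => ⟨by simp [a.1], fun c => by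
      convert a.2 (c * d) using 1; ext; simp [σ', mul_smul]⟩⟩
  suffices H : x ∈ S from fun w (hw : β.B b w = 0) => by
    have : w ∈ S := perp_le_of_sing hW.hd hb (S := S) (fun g hg e w a => ⟨by rw [← e, Isom.B_map, a.1], fun c => by
      convert h.th_map (a.2 c) (inv_mem hg) (by rw [Isom.inv_apply_eq, e]) using 1; ext; simp [B_inv]⟩) H hx h1 h3 hw
    simpa using this.2 (1 : F)
  refine ⟨h1, fun c => ?_⟩
  rcases ty with a | ⟨a, h5⟩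
  · have e := fun u => β.siegel_apply (p := x) (w := 0) (s := c) hx (by simp) (by simp [alt_T a]) u
    convert sub_mem (h.th_map hδ (β.siegel_mem_E (w := 0) (s := c) hx (by simp) (by simp [alt_T a])) (by
      simp [e, β.B_symm_zero h1])) hδ using 1
    ext; simp [e, alt_ε a, mul_smul]
  obtain ⟨w, a1, a2⟩ : ∃ w ∈ β.perp (Submodule.span F {b, x}), β.Q w ≠ 0 := by
    by_contra! H
    have e1 := β.finrank_perp (Submodule.span F {b, x})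
    have e2 := finrank_span_pair_le (F := F) b x
    have := (a.ts H).finrank_le
    omega
  rw [β.mem_perp_pair] at a1
  rw [← div_mul_cancel₀ c (show -(2 * β.Q w) ≠ 0 by simp [h2, a2]), mul_smul]
  refine smul_mem_of_sq h2 (fun d => ?_) _
  have H : ∀ d : F, δ ∘ₗ ((β.siegel x (d • w) (β.Q (d • w))).1 : W →ₗ[F] W) - δ ∈ t.TH M b := fun d =>
    sub_mem (h.th_map hδ (β.siegel_mem_E hx (by simp [a1.2]) (a.T_eq _)) (siegel_apply_of_orth hx (by simp [a1.2]) (a.T_eq _)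
      (β.B_symm_zero h1) (β.B_symm_zero (by simp [a1.1])))) hδ
  convert add_mem (H d) (H (-d)) using 1
  ext y u
  have e : ∀ d : F, β.B x (d • w) = 0 := by simp [a1.2]
  simp only [LinearMap.add_apply, LinearMap.sub_apply, LinearMap.comp_apply, LinearEquiv.coe_coe, sg_apply a hx (e _)]
  simp only [map_add, map_sub, map_smulₛₗ, LinearMap.add_apply, LinearMap.sub_apply, LinearMap.smul_apply, a.Q_smul, a.σ_eq,
    LinearMap.smulRight_apply, RingHom.id_apply, smul_eq_mul]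
  module

theorem Ov.zz_smul (h : t.Ov M) (hW : Wd β) {hb : β.Q b = 0} (b0 : b ≠ 0) {ζ : U →ₗ[F] U} (hζ : ζ ∈ t.ZZ M hb) (c : F)
    {b' : W} (hb' : β.Q b' = 0) : c • ζ ∈ t.ZZ M hb' := smul_mem_of_sq h2 (fun c => by
  by_cases c0 : c • b' = 0
  · exact ⟨1, one_mem _, fun v => by rcases smul_eq_zero.1 c0 with rfl | rfl <;> simp⟩
  obtain ⟨g, hg, e⟩ := hW.map hb b0 (β.Q_smul_of_sing hb' c) c0
  simpa [hσ] using h.zz_map hζ hg hb' e) c

theorem Ov.h0_or_ll [Nontrivial U] (h : t.Ov M) (hW : Wd β) (ty : H09.IsAltF β ∨ β.IsQuad ∧ 5 ≤ finrank F W) :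
    H0 t M ∨ ∃ b f, ∃ hy : β.IsHyp b f, (∃ ζ ∈ t.ZZ M hy.Qe, ¬ ∃ c : F, ∀ u, ζ u = c • u) ∨
      ∃ N ∈ t.LL M b, ¬ ∃ c : F, ∀ u, N u = c • u := by
  refine or_iff_not_imp_right.2 fun H b hb b0 k hk hk' => ?_
  push Not at H
  obtain ⟨f, hy⟩ := β.exists_hyp hb b0
  obtain ⟨x, a0, a1, a2⟩ := hW.two b hb
  refine h.stab_PT hy a1 a2 (fun y hM hr => ?_) hk hk'
  obtain ⟨δ, hδ⟩ := exists_dl hy hr
  have h0 : δ b = 0 := LinearMap.ext fun u => t.τ_eq_zero b0 (by simpa [hr.1 _ (t.τ_mem u b)] using hδ b hy.Bee u)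
  refine h.rad_PT_of hy hM hδ h0 (fun w hw => ?_) (H b f hy).1
  have := perp_le_of_sing hW.hd hb (S := Submodule.span F {w | β.Q w = 0 ∧ β.B b w = 0}) (fun g hg e w a =>
    Submodule.span_le.2 (show _ ⊆ ((Submodule.span F _).comap (g.1 : W →ₗ[F] W) : Set W) from fun w a =>
      Submodule.subset_span (s := {w | β.Q w = 0 ∧ β.B b w = 0}) ⟨by simp [a.1], by rw [← e]; simp [a.2]⟩) a) (Submodule.subset_span ⟨a0, a1⟩) a0 a1 a2 hw
  clear hw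
  induction this using Submodule.span_induction with
  | mem x a =>
    by_cases e : x ∈ F ∙ b
    · obtain ⟨c, rfl⟩ := Submodule.mem_span_singleton.1 e
      exact ⟨0, by simp [h0]⟩
    · exact (H b f hy).2 _ (h.ll_of h2 hσ hW ty hb ⟨h0, y, hM, fun u => hr.1 _ (t.τ_mem u b), hδ⟩ a.1 a.2 e)
  | zero => exact ⟨0, by simp⟩
  | add x y _ _ a b => obtain ⟨c, a⟩ := a; obtain ⟨d, b⟩ := b; exact ⟨c + d, fun u => by simp [a, b, add_smul]⟩
  | smul c x _ a => obtain ⟨d, a⟩ := a; exact ⟨c * d, fun u => by simp [a, mul_smul]⟩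

omit h2 hσ in
theorem br_not_scalar {a : U} (ha : α.Q a = 0) (a0 : a ≠ 0) {c : F} (c0 : c ≠ 0) : ¬ ∃ d : F, ∀ u, (c • br α a a) u = d • u := by
  rintro ⟨d, e⟩
  obtain ⟨u, hu⟩ := α.exists_B_eq_one a0
  obtain rfl : d = 0 := by simpa [α.B_self_eq_zero ha, a0] using (e a).symm
  simpa [hu, c0, a0] using e u

theorem Ov.alt_E_le (h : t.Ov M) (hW : Wd β) (hφ : H09.IsAltF φ) (hn : α.Conn) {hb : β.Q b = 0} (b0 : b ≠ 0) {a : U}
    (ha : α.Q a = 0) (a0 : a ≠ 0) {c : F} (c0 : c ≠ 0) (H : c • br α a a ∈ t.ZZ M hb) : φ.E ≤ M :=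
  h.spread_tv hW ha a0 one_ne_zero (alt_T hφ 1) fun x _ hx hb' s hs => zz_siegel (hb := hb') (t.Q_τ₂ x hb') hs
    (h.zz_smul h2 hσ hW b0 (br_all (fun c => (t.σ₁ c).trans (hσ c)) hn (fun _ a _ => h.zz_cj a)
      (fun _ a c => h.zz_smul h2 hσ hW b0 a c hb) ha a0 c0 H hx) _ hb')

omit hσ in
/-- `Sp ⊗ O` -/
theorem Ov.h0_or_so [Nontrivial U] (h : t.Ov M) (hW : Wd β) (hα : H09.IsAltF α) (hβ : β.IsQuad) (h5 : 5 ≤ finrank F W)
    (hφ : H09.IsAltF φ) : H0 t M ∨ φ.E ≤ M := by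
  refine (h.h0_or_ll h2 hφ.σ_eq hW (.inr ⟨hβ, h5⟩)).imp_right fun ⟨b, f, hy, H⟩ => ?_
  have hE : ∀ g : α.Isom, g ∈ α.E := fun g => E_eq_top_of_isAltF hα ▸ Subgroup.mem_top g
  have hc : α.Conn := .inl ⟨1, one_ne_zero, alt_T hα 1⟩
  have k : ∀ ζ ∈ t.ZZ M hy.Qe, ζ ≠ 0 → φ.E ≤ M := fun ζ a a0 => by
    obtain ⟨a, c, b1, b2, b3⟩ := sp_adj h2 hα (fun _ a g => h.zz_cj a (hE g)) a (fun x u => by
      simpa [hβ.ε_eq] using zz_skew hy.e_ne_zero a x u) a0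
    exact h.alt_E_le h2 hφ.σ_eq hW hφ hc hy.e_ne_zero (hα.Q_eq a) b1 b2 b3
  rcases H with ⟨ζ, a, a0⟩ | ⟨N, a, a0⟩
  · exact k ζ a (by rintro rfl; exact a0 ⟨0, by simp⟩)
  obtain ⟨x, -, a1, a2⟩ := hW.two b hy.Qe
  by_contra H
  have sy : ∀ N ∈ t.LL M b, ∀ x u, α.B (N x) u = α.B x (N u) := fun N a => by
    obtain ⟨K, hK⟩ := exists_adj (α := α) N
    have : K - N = 0 := by_contra fun e => H (k _ (by simpa [hβ.ε_eq] using (ll_comm hφ.σ_eq hy a1 a2 a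
      (h.ll_one hy.Qe) hK (K' := .id) fun _ _ => rfl)) e)
    rwa [sub_eq_zero.1 this] at hK
  obtain ⟨u, u0, N₁, b1, N₂, b2, e⟩ := alt_res h2 hα (fun _ a g => ll_cj a (h.lt (hE g))) a (sy N a) a0
  have := ll_comm hφ.σ_eq hy a1 a2 b1 b2 (sy _ b1) (sy _ b2)
  rw [hβ.ε_eq, one_smul, e] at this
  exact H (h.alt_E_le h2 hφ.σ_eq hW hφ hc hy.e_ne_zero (hα.Q_eq u) u0 h2 this)

omit hσ in
/-- `O ⊗ Sp` -/
theorem Ov.h0_or_os [Finite F] (h : t.Ov M) (hW : Wd β) (hα : α.IsQuad) (hβ : H09.IsAltF β) (hφ : H09.IsAltF φ)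
    (h3 : 3 ≤ finrank F U) (hex : 4 ≤ finrank F U ∨ ∃ c : F, c ≠ 0 ∧ c * c ≠ 1) : H0 t M ∨ φ.E ≤ M := by
  have := Module.nontrivial_of_finrank_pos (R := F) (M := U) (by omega)
  refine (h.h0_or_ll h2 hφ.σ_eq hW (.inl hβ)).imp_right fun ⟨b, f, hy, H⟩ => ?_
  have k : ∀ ζ ∈ t.ZZ M hy.Qe, (¬ ∃ c : F, ∀ u, ζ u = c • u) → φ.E ≤ M := fun ζ a a0 => by
    obtain ⟨x, x', hx⟩ := hα.exists_hyp_of_three_le h3
    exact h.alt_E_le h2 hφ.σ_eq hW hφ (.inr h3) hy.e_ne_zero hx.Qe hx.e_ne_zero one_ne_zero (by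
      simpa using sym_adj h2 hα le_rfl (fun _ a _ => h.zz_cj a) a h3 a0 (fun _ a c => h.zz_smul h2 hφ.σ_eq hW hy.e_ne_zero a c _)
        (fun x u => by simpa [alt_ε hβ] using zz_skew hy.e_ne_zero a x u) hex hx.Qe)
  rcases H with ⟨ζ, a, a0⟩ | ⟨N, a, a0⟩
  · exact k ζ a a0
  obtain ⟨x, -, a1, a2⟩ := hW.two b hy.Qe
  by_contra H
  obtain ⟨K, hK⟩ := exists_adj (α := α) N
  obtain ⟨c, e⟩ := not_not.1 (mt (k _ (ll_comm hφ.σ_eq hy a1 a2 a (h.ll_one hy.Qe) hK (K' := .id) fun _ _ => rfl)) H)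
  obtain ⟨a, v, v', b0, b1, b2, b3, b4, b5, b6⟩ := skew_adj h2 hα (K := ⊤) le_top (fun _ a g _ => ll_cj a (h.pt _
    (E_eq_top_of_isAltF hφ ▸ Subgroup.mem_top _) (t.lt_mem g))) (sub_mem a (ll_smul hβ.σ_eq (h.ll_one hy.Qe) (c / 2))) h3
    (fun ⟨d, e⟩ => a0 ⟨d + c / 2, fun u => by simpa [add_smul, sub_eq_iff_eq_add] using e u⟩) (fun x u => by
      have := congrArg (α.B · u) (e x)
      simp only [alt_ε hβ, LinearMap.sub_apply, LinearMap.comp_apply, LinearMap.smul_apply, LinearMap.id_apply, map_sub,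
        map_smulₛₗ, hα.σ_eq, hK, smul_eq_mul, RingHom.id_apply] at this ⊢
      field_simp; linear_combination 2 * this) fun a v a0 a1 a2 a3 a4 => by
    obtain ⟨w₀, hw₀, hw₀'⟩ := exists_ns_perp hα h3 a0
    obtain ⟨w, a1, a2, a3⟩ := exists_ns h2 hα (S := α.perp (F ∙ v)) hw₀ hw₀' fun e => a4 (by
      simpa using α.perp_anti e (α.le_perp_perp _ (Submodule.mem_span_singleton_self _)))
    rw [α.mem_perp_singleton] at a1 a2
    exact ⟨α.refl w, trivial, hα.refl_of_orth (α.B_symm_zero a1), by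
      simp [hα.refl_apply, α.B_self_eq_zero ‹α.Q v = 0›, a2, a3, mt α.B_symm_zero a2]⟩
  have sk : ∀ v x u, α.B ((-nn α a v) x) u = α.B x (nn α a v u) := fun v x u => by
    simp [hα.σ_eq, hα.ε_eq, hα.B_comm x]; ring
  refine H (k _ (ll_comm hφ.σ_eq hy a1 a2 b5 b6 (sk v) (sk v')) ?_)
  convert br_not_scalar b1 b0 (mul_ne_zero h2 b4) using 5
  simp [alt_ε hβ, hα.ε_eq, α.B_self_eq_zero b1, b2, b3, α.B_symm_zero b2, α.B_symm_zero b3, hα.B_comm v' v]; module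

omit hσ in
/-- `O ⊗ O` -/
theorem Ov.h0_or_oo [Finite F] (h : t.Ov M) (hW : Wd β) (hα : α.IsQuad) (hβ : β.IsQuad) (hφ : φ.IsQuad)
    (h3 : 3 ≤ finrank F U) (h5 : 5 ≤ finrank F W) (hex : 4 ≤ finrank F U ∨ ∃ c : F, c ≠ 0 ∧ c * c ≠ 1)
    (hm : 5 ≤ finrank F U ∨ ¬ α.HasTS 2) : H0 t M ∨ φ.E ≤ M := by
  have := Module.nontrivial_of_finrank_pos (R := F) (M := U) (by omega)
  refine (h.h0_or_ll h2 hφ.σ_eq hW (.inr ⟨hβ, h5⟩)).imp_right fun ⟨b, f, hy, H⟩ => ?_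
  have k : ∀ ζ ∈ t.ZZ M hy.Qe, (¬ ∃ c : F, ∀ u, ζ u = c • u) → φ.E ≤ M := fun ζ a a0 => by
    obtain ⟨a, v, v', b0, b1, b2, b3, b4, b5, b6⟩ := skew_adj h2 hα le_rfl (fun _ a _ => h.zz_cj a) a h3 a0
      (fun x u => by simpa [hβ.ε_eq] using zz_skew hy.e_ne_zero a x u) fun a v a0 a1 a2 a3 a4 => by
        have := finrank_span_singleton (K := F) a0
        rcases hm with hm | hm
        · obtain ⟨g, b1, b2, b3⟩ := exists_move (W := F ∙ a) (α.mem_perp_singleton.2 a3) a4 a2 (.inr (by omega))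
          exact ⟨g, b1, b2 a (Submodule.mem_span_singleton_self a), b3⟩
        · exact absurd ⟨_, (TS.singleton a1).sup (TS.singleton a2) ((Submodule.span_singleton_le_iff_mem _ _).2
            (α.mem_perp_singleton.2 a3)), by rw [finrank_sup_singleton a4, this]⟩ hm
    have hX : ∀ a b, α.Q a = 0 → β.Q b = 0 → ∀ s, φ.T s = 0 → φ.siegel (t.τ a b) 0 s ∈ M := fun a b _ hb s hs => by
      rw [hφ.T_eq] at hs; rw [hs, φ.siegel_zero (t.Q_τ₂ a hb)]; exact one_mem _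
    refine h.spread hW (.inr h5) b1 b0 hX fun x b' w hx hb' hw => ?_
    by_cases x0 : x = 0 ∨ b' = 0
    · rw [show t.τ x b' = 0 by rcases x0 with rfl | rfl <;> simp, siegel_zero_left (by rw [t.Q_τ₁ _ hx, map_zero])]
      exact one_mem _
    obtain ⟨g, hg, c, c0, e⟩ := Conn.exists_E_map_point (.inr h3) b1 b0 hx (not_or.1 x0).1
    have R : ∀ v, α.B a v = 0 → nn α a v ∈ t.ZZ M hy.Qe → α.B x (g.1 v) = 0 ∧ ∀ f, β.Q f = 0 → ∀ d : F,
        φ.siegel (t.τ x f) (d • t.τ (g.1 v) f) 0 ∈ M := fun v c1 c2 => by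
      have c3 : α.B x (g.1 v) = 0 := by simpa [e, c0] using (Isom.B_map g a v).trans c1
      refine ⟨c3, fun f hf d => ?_⟩
      obtain ⟨y, c4, c5⟩ := h.zz_smul h2 hφ.σ_eq hW hy.e_ne_zero (h.zz_cj c2 hg) (d / c) hf
      convert c4 using 1
      refine Isom.ext fun z => ?_
      rw [c5, φ.siegel_apply (t.Q_τ₂ _ hf) (by simp [c3]) (by rw [φ.Q_smul_of_sing (t.Q_τ₂ _ hf), map_zero]), cj_nn, e]
      simp only [map_smulₛₗ, LinearMap.smul_apply, t.B_τ, nn_apply, hφ.σ_eq, hα.σ_eq, hφ.ε_eq, hα.ε_eq, map_sub,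
        LinearMap.sub_apply, RingHom.id_apply, smul_eq_mul]
      match_scalars <;> field_simp <;> ring
    obtain ⟨c1, c2⟩ := R v b2 b5
    obtain ⟨c3, c4⟩ := R v' b3 b6
    obtain ⟨f', hy'⟩ := β.exists_hyp hb' (not_or.1 x0).2
    have c5 : t.τ (g.1 v') b' ∈ sgSub M (t.Q_τ₂ x hb') (hX x b' hx hb') := mem_sgSub.2 ⟨by simp [c3], fun d =>
      ⟨0, by rw [φ.Q_smul_of_sing (t.Q_τ₂ _ hb'), map_zero], c4 b' hb' d⟩⟩
    refine siegel_mem_of_mem_sgSub (hX := hX x b' hx hb') (hp := t.Q_τ₂ x hb') (eq_top_of_sing hy'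
      (S := (sgSub M (t.Q_τ₂ x hb') (hX x b' hx hb')).comap (t.τ x)) (self_mem_sgSub (hX := hX x b' hx hb') (hp := t.Q_τ₂ x hb')) (fun f hf c6 => ?_) w)
      (by rw [t.Q_τ₁ _ hx, map_zero])
    have c7 := fun z => φ.siegel_apply (p := t.τ x f) (w := (1 : F) • t.τ (g.1 v) f) (s := 0) (t.Q_τ₂ _ hf) (by simp [c1])
      (by rw [φ.Q_smul_of_sing (t.Q_τ₂ _ hf), map_zero]) z
    have := sub_mem (map_mem_sgSub (c2 f hf 1) (by rw [c7]; simp [α.B_self_eq_zero hx, α.B_symm_zero c1]) c5) c5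
    rw [c7] at this
    simpa [c3, hβ.B_comm f, c6, Submodule.smul_mem_iff, b4] using this
  rcases H with ⟨ζ, a, a0⟩ | ⟨N, a, a0⟩
  · exact k ζ a a0
  obtain ⟨x, -, a1, a2⟩ := hW.two b hy.Qe
  by_contra H
  obtain ⟨K, hK⟩ := exists_adj (α := α) N
  have a3 := ll_comm hφ.σ_eq hy a1 a2 a (h.ll_one hy.Qe) hK (K' := .id) fun _ _ => rfl
  obtain ⟨c, e⟩ := not_not.1 (mt (k _ a3) H)
  obtain ⟨z, z', hz⟩ := hα.exists_hyp_of_three_le h3
  obtain rfl : c = 0 := mul_left_cancel₀ h2 (by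
    have := zz_skew hy.e_ne_zero a3 z z'
    rw [e, e] at this
    simp only [map_smulₛₗ, hα.σ_eq, LinearMap.smul_apply, hz.Bef, hβ.ε_eq, RingHom.id_apply, smul_eq_mul] at this
    linear_combination this)
  have a4 := fun {x} => sym_adj h2 hα le_rfl (fun _ a g e => ll_cj a (h.lt e)) a h3 a0 (fun _ a c => ll_smul hβ.σ_eq a c)
    (fun x u => by rw [← hK]; congr 2; exact (by simpa [hβ.ε_eq, sub_eq_zero] using e x : K x = N x).symm) hex (x := x)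
  have sy : ∀ v x u, α.B (br α v v x) u = α.B x (br α v v u) := fun v x u => by simp [hα.σ_eq, hα.B_comm x]; ring
  refine H (k _ (ll_comm hφ.σ_eq hy a1 a2 (a4 hz.Qe) (a4 hz.Qf) (sy z) (sy z')) fun ⟨d, e⟩ => h2 ?_)
  have e1 := congrArg (α.B z') (e z)
  have e2 := congrArg (α.B z) (e z')
  simp [hz.Bee, hz.Bff, hz.Bef, hz.Bfe, hβ.ε_eq, hα.ε_eq] at e1 e2
  linear_combination e2 - e1

end Ten
end H12.Tn
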