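import Mathlib
import Cfsg.Agent.H12.TnF

/-!
# Overgroups of tensor stabilisers: strong embedding for Siegel elements
`fixed_of_free`, `Ten.AS`, `se_tv'` (`O ⊗ Sp`), `se_ns`, `se_lr`, `se_sg` (`O ⊗ O`).
-/

set_option autoImplicit false
set_option linter.unusedSectionVars false
set_option linter.unusedSimpArgs false

namespace H12.Tn
open Module H10 H10.Form

theorem fixed_of_free {G X A : Type*} [Group G] [Finite G] [AddCommGroup X] [Group A] [Fintype A]
    (ρ : G →* AddMonoid.End X) (S : Subgroup G) (θ : A →* G) (h1 : ∀ a, θ a ∈ S)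
    (h2 : ∀ a ≠ 1, ∀ g, g⁻¹ * θ a * g ∈ S → g ∈ S) (h3 : ∀ Y, ∑ a, ρ (θ a) Y = 0) {N : X} (hN : ∀ s ∈ S, ρ s N = N)
    (g : G) : ρ g N = N := by
  classical
  have := Fintype.ofFinite (G ⧸ S)
  let f : G ⧸ S → X := Quotient.lift (fun g => ρ g N) fun a b h => by
    rw [← mul_inv_cancel_left a b, map_mul]; exact congrArg (ρ a) (hN _ (QuotientGroup.leftRel_apply.1 h)).symm
  have e : ∀ (g : G) ω, f (g • ω) = ρ g (f ω) := fun g ω => by
    induction ω using QuotientGroup.induction_on with | H k => exact congrArg (· N) (map_mul ρ g k)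
  have e1 : ∀ a, θ a • ((1 : G) : G ⧸ S) = (1 : G) := fun a => QuotientGroup.eq.2 (by simpa using h1 a)
  have H : ∑ ω, f ω = N := by
    rw [← Finset.add_sum_erase _ _ (Finset.mem_univ ((1 : G) : G ⧸ S)), Finset.sum_cancels_of_partition_cancels
      ⟨fun x y => ∃ a, θ a • y = x, fun x => ⟨1, by simp⟩, fun ⟨a, h⟩ => ⟨a⁻¹, by simp [← h]⟩,
        fun ⟨a, h⟩ ⟨b, h'⟩ => ⟨a * b, by simp [mul_smul, h, h']⟩⟩ fun x hx => ?_]
    · simp [f]
    have hx := (Finset.mem_erase.1 hx).1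
    rw [← h3 (f x)]
    refine (Finset.sum_bij (fun a _ => θ a • x) (fun a _ => by
      simp only [Finset.mem_filter, Finset.mem_erase, Finset.mem_univ, and_true]
      exact ⟨fun e => hx (by rw [← inv_smul_smul (θ a) x, e, ← map_inv, e1]), a, rfl⟩) (fun a _ b _ h => by_contra fun e' => ?_)
      (fun y hy => (Finset.mem_filter.1 hy).2.imp fun a h => ⟨Finset.mem_univ _, h⟩) fun a _ => (e _ _).symm).symm
    induction x using QuotientGroup.induction_on with | H k =>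
    exact hx (QuotientGroup.eq.2 (by simpa using h2 (a⁻¹ * b) (by rwa [ne_eq, inv_mul_eq_one]) k (by
      simpa [mul_assoc] using QuotientGroup.eq.1 h)))
  rw [← H, map_sum]
  exact Fintype.sum_equiv (MulAction.toPerm g) _ _ fun ω => (e g ω).symm

variable {F U W V : Type*} [Field F] [AddCommGroup U] [Module F U] [AddCommGroup W] [Module F W]
  [AddCommGroup V] [Module F V] {α : Form F U} {β : Form F W} {φ : Form F V}
  [α.Nondeg] [β.Nondeg] [φ.Nondeg] [FiniteDimensional F U] [FiniteDimensional F W] [FiniteDimensional F V]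

theorem cube {N : U →ₗ[F] U} {u : U} (h : N (N (N u)) = 0) (h1 : N (N u) ∈ Submodule.span F {u, N u}) : N (N u) = 0 := by
  obtain ⟨x, y, e⟩ := Submodule.mem_span_pair.1 h1
  by_contra h0
  obtain rfl : x = 0 := by simpa [h, h0] using congrArg (N ∘ N) e
  obtain rfl : y = 0 := by simpa [h, h0] using congrArg N e
  exact h0 (by simpa using e.symm)

theorem exists_ns_perp' (hα : α.IsQuad) {S : Submodule F U} (h : 2 * finrank F S < finrank F U) : ∃ w ∈ α.perp S, α.Q w ≠ 0 := by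
  by_contra! H
  have := (hα.ts H).finrank_le
  have := α.finrank_perp S
  omega

/-- `y - 1` -/
def dd (y : φ.Isom) : V →ₗ[F] V := (y.1 : V →ₗ[F] V) - .id
theorem dd_apply (y : φ.Isom) (v : V) : dd y v = y.1 v - v := rfl
theorem dd_conj (g y : φ.Isom) (v : V) : dd (g * y * g⁻¹) v = g.1 (dd y ((g⁻¹).1 v)) := by simp [dd_apply]
theorem dd_conj' (g y : φ.Isom) (v : V) : dd (g⁻¹ * y * g) v = (g⁻¹).1 (dd y (g.1 v)) := by simp [dd_apply]

namespace Ten
variable [Finite F] (t : Ten α β φ) {M : Subgroup φ.Isom} {y g : φ.Isom} {b w : W} {S : Submodule F W}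

/-- `U ⊗ S` -/
noncomputable def AS (S : Submodule F W) : Submodule F V := LinearMap.range ((t.e : _ →ₗ[F] V) ∘ₗ S.subtype.lTensor U)
theorem τ_mem_AS (u : U) (hw : w ∈ S) : t.τ u w ∈ t.AS S := ⟨u ⊗ₜ ⟨w, hw⟩, rfl⟩
theorem finrank_AS (S : Submodule F W) : finrank F (t.AS S) = finrank F U * finrank F S := by
  rw [AS, LinearMap.finrank_range_of_inj (f := _ ∘ₗ _) (t.e.injective.comp (Module.Flat.lTensor_preserves_injective_linearMap _
    S.injective_subtype)), finrank_tensorProduct]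
variable {t}
theorem AS_le {Y : Submodule F V} (h : ∀ u, ∀ w ∈ S, t.τ u w ∈ Y) : t.AS S ≤ Y := by
  rintro _ ⟨x, rfl⟩
  induction x with
  | zero => simp
  | tmul u w => exact h u w w.2
  | add x y a b => rw [map_add]; exact add_mem a b
theorem AS_mono {S' : Submodule F W} (h : S ≤ S') : t.AS S ≤ t.AS S' := AS_le fun u _ hw => t.τ_mem_AS u (h hw)
theorem ct_AS {v : V} (hv : v ∈ t.AS S) (hw : w ∈ β.perp S) : t.ct w v = 0 :=
  AS_le (Y := LinearMap.ker (t.ct w)) (fun u x hx => by simp [β.B_symm_zero (hw x hx)]) hv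
theorem cu_AS {v : V} (hv : v ∈ t.AS S) (ξ : Dual F U) : t.cu ξ v ∈ S :=
  AS_le (Y := S.comap (t.cu ξ)) (fun u x hx => by simpa using S.smul_mem _ hx) hv
theorem AS_span {s : Set W} {Y : Submodule F V} (h : ∀ u, ∀ w ∈ s, t.τ u w ∈ Y) : t.AS (Submodule.span F s) ≤ Y :=
  AS_le fun u _ hw => Submodule.span_le.2 (show s ⊆ Y.comap (t.τ u) from h u) hw

theorem sg_sub {s : F} (hb : β.Q b = 0) (hw : β.B b w = 0) (hs : β.T s = β.Q w) (v : V) :
    (t.rt (β.siegel b w s)).1 v - v ∈ t.AS (Submodule.span F {b, w}) := by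
  have h1 := fun u => t.τ_mem_AS u (Submodule.subset_span (R := F) (show b ∈ ({b, w} : Set W) by simp))
  rw [t.rt_siegel hb hw hs, add_sub_right_comm, add_sub_right_comm, add_sub_right_comm, sub_right_comm, sub_right_comm v, sub_self]
  exact add_mem (sub_mem (sub_mem (zero_mem _) (Submodule.smul_mem _ _ (t.τ_mem_AS _ (Submodule.subset_span (by simp)))))
    (Submodule.smul_mem _ _ (h1 _))) (h1 _)

theorem sg_fix {s : F} (hb : β.Q b = 0) (hw : β.B b w = 0) (hs : β.T s = β.Q w) (h1 : b ∈ β.perp S) (h2 : w ∈ β.perp S)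
    {v : V} (hv : v ∈ t.AS S) : (t.rt (β.siegel b w s)).1 v = v := by
  simp [t.rt_siegel hb hw hs, ct_AS hv h1, ct_AS hv h2]

theorem fix_sg {s : F} (hb : β.Q b = 0) (hw : β.B b w = 0) (hs : β.T s = β.Q w) (h : w ∉ F ∙ b) (b0 : b ≠ 0) {v : V}
    (hv : (t.rt (β.siegel b w s)).1 v = v) : t.ct b v = 0 ∧ t.ct w v = 0 := by
  obtain ⟨ξ, a, c⟩ := exists_dual₂ h
  rw [t.rt_siegel hb hw hs] at hv
  have : t.ct b v = 0 := by simpa [a, c, β.ε_ne_zero] using congrArg (t.flip.cu ξ) hv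
  exact ⟨this, t.τ_eq_zero b0 (by simpa [this] using hv)⟩

theorem finrank_conj (g : φ.Isom) :
    finrank F ((t.AS (Submodule.span F {b, w})).map (g.1 : V →ₗ[F] V)) ≤ 2 * finrank F U := by
  rw [LinearEquiv.finrank_map_eq, finrank_AS, mul_comm]
  exact Nat.mul_le_mul_right _ (finrank_span_pair_le _ _)

theorem dd_τ {η : W →ₗ[F] W} (h : ∀ u w, y.1 (t.τ u w) = t.τ u (η w)) (u : U) (w : W) :
    dd y (t.τ u w) = t.τ u ((η - .id) w) := by simp [dd_apply, h]

theorem dd_sq (hβ : β.IsQuad) (hb : β.Q b = 0) (hw : β.B b w = 0) (v : V) :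
    dd (t.rt (β.siegel b w (β.Q w))) (dd (t.rt (β.siegel b w (β.Q w))) v) = -(2 * β.Q w) • t.τ (t.ct b v) b := by
  simp only [dd_apply, t.rt_siegel hb hw (hβ.T_eq _), map_add, map_sub, map_smul, ct_τ, hβ.ε_eq, β.B_self_eq_zero hb, hw,
    β.B_symm_zero hw, hβ.B_self w, LinearMap.add_apply, LinearMap.smul_apply, map_zero, LinearMap.zero_apply, zero_smul,
    LinearMap.sub_apply]
  module

theorem dd_self {s : F} (hb : β.Q b = 0) (hw : β.B b w = 0) (hs : β.T s = β.Q w) (u : U) :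
    dd (t.rt (β.siegel b w s)) (t.τ u b) = 0 := by simp [dd_apply, siegel_apply_self hb hw hs]

theorem two_mul_le_cube [Nontrivial U] {η : W →ₗ[F] W} (hy : ∀ u w, y.1 (t.τ u w) = t.τ u (η w)) {Y : Submodule F V}
    (hY : ∀ v, y.1 v - v ∈ Y) (h3 : ∀ v, dd y (dd y (dd y v)) = 0) {v : V} (h2 : dd y (dd y v) ≠ 0) :
    2 * finrank F U ≤ finrank F Y := by
  obtain ⟨u₀, hu⟩ := exists_ne (0 : U)
  let η₁ := LinearEquiv.ofInjectiveEndo η ((injective_iff_map_eq_zero _).2 fun w e => t.flip.τ_eq_zero hu (by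
    simpa [e] using hy u₀ w))
  have e : ∀ w u, y.1 (t.flip.τ w u) = t.flip.τ (η₁ w) ((1 : U ≃ₗ[F] U) u) := fun w u => hy u w
  have k : ∀ w, (η - .id) ((η - .id) ((η - .id) w)) = 0 := fun w => t.flip.τ_eq_zero hu (by
    simpa only [dd_τ hy, flip_τ] using h3 (t.τ u₀ w))
  obtain ⟨x, hx⟩ : ∃ x, (η - .id) ((η - .id) x) ≠ 0 := by
    by_contra! H
    exact h2 (t.ext' (X := dd y ∘ₗ dd y) (Y := 0) (fun u w => by simp only [LinearMap.comp_apply, dd_τ hy, H]; simp) v)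
  have h1 : η x ∈ Submodule.span F {x, (η - .id) x} := Submodule.mem_span_pair.2 ⟨1, 1, by simp⟩
  refine two_mul_le e hY (u₁ := x) (u₂ := (η - .id) x) (fun a => hx (cube (k x) ?_)) fun a => hx (cube (k x) ?_)
  · obtain ⟨c, a⟩ := Submodule.mem_span_singleton.1 a
    have a : (η - .id) x = (c - 1) • x := by simp [sub_smul, a, η₁]
    exact Submodule.mem_span_pair.2 ⟨0, c - 1, by rw [zero_smul, zero_add, ← map_smul, ← a]⟩
  · exact sub_mem (Submodule.span_le.2 (Set.insert_subset (Submodule.subset_span (by simp)) (Set.insert_subset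
      (Submodule.subset_span (by simp)) (Set.singleton_subset_iff.2 h1))) a) (Submodule.subset_span (by simp))

variable (h2 : (2 : F) ≠ 0) (hα : α.IsQuad)
include h2 hα

theorem two_mul_le' [Nontrivial W] {a : U ≃ₗ[F] U} {η : W ≃ₗ[F] W} (hy : ∀ u w, y.1 (t.τ u w) = t.τ (a u) (η w))
    {Y : Submodule F V} (hY : ∀ v, y.1 v - v ∈ Y) {c : F} (c0 : c ≠ 0) (h1 : ∀ u, c • a (c • a u - u) = c • a u - u)
    (h3 : ¬ ∃ c : F, ∀ u, a u = c • u) : 2 * finrank F W ≤ finrank F Y := by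
  have e : ∀ u w, y.1 (t.τ u w) = t.τ ((a.trans (.smulOfNeZero F U c c0)) u)
    ((η.trans (.smulOfNeZero F W c⁻¹ (inv_ne_zero c0))) w) := fun u w => by simp [hy, smul_smul, c0]
  set a' := a.trans (.smulOfNeZero F U c c0)
  have h1 : ∀ u, a' (a' u - u) = a' u - u := h1
  obtain ⟨u₁, e1⟩ : ∃ u, a' u ≠ u := by
    by_contra! e1
    exact h3 ⟨c⁻¹, fun u => by rw [eq_inv_smul_iff₀ c0]; exact e1 u⟩
  obtain ⟨μ, μ0, hμ⟩ := sim_left e
  obtain ⟨u, hu⟩ := α.exists_B_eq_one (sub_ne_zero.2 e1)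
  obtain rfl : μ = 1 := by
    have k := fun u => hμ (a' u₁ - u₁) u
    simp only [h1] at k
    have k1 := k (a' u - u)
    rw [h1, map_sub] at k1
    have k2 := k u
    rw [hu] at k1 k2
    refine (mul_self_eq_zero.1 (?_ : (μ - 1) * (μ - 1) = 0) |> sub_eq_zero.1)
    linear_combination (-μ) * k1 + (μ - 1) * k2
  obtain ⟨e2, u₂, e3⟩ := exists_two hα h2 (by simpa using hμ) e1 h1
  exact two_mul_le e hY e2 e3

/-- strong embedding for the transvections of `W`, `U` orthogonal -/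
theorem se_tv' [Nontrivial U] (h0 : H0 t M) (h : t.Ov M) (hW : Wd β) (hq : ∀ w, β.B w w = 0 → β.Q w = 0)
    (h3 : 3 ≤ finrank F W) {s : F} (hb : β.Q b = 0) (b0 : b ≠ 0) (hs : β.T s = 0) (s0 : s ≠ 0) (hg : g ∈ M)
    (H : g⁻¹ * t.rt (β.siegel b 0 s) * g ∈ t.PT) : g ∈ t.PT := by
  by_cases hm : finrank F U < 2 * finrank F W
  · exact se_tv h0 h hW hq (.inr ⟨hα, h2, hm⟩) hb b0 hs s0 g hg H
  obtain ⟨a, η, hy⟩ := H
  obtain ⟨u₀, hu⟩ := exists_ne (0 : U)
  have h1 := conj_sub (g := g⁻¹) (tv_sub (t := t) hb hs)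
  rw [inv_inv] at h1
  set y := g⁻¹ * t.rt (β.siegel b 0 s) * g with ey
  have h4 : ∀ v, y.1 (y.1 v - v) = y.1 v - v := fun v => by
    obtain ⟨_, ⟨u, rfl⟩, e⟩ := h1 v
    rw [← e]; simp [ey, siegel_apply_self hb (w := 0) (by simp) (by simpa)]
  obtain ⟨f, hf⟩ := β.exists_B_eq_one b0
  have h5 : ∀ u, y.1 ((g⁻¹).1 (t.τ u f)) - (g⁻¹).1 (t.τ u f) = -(β.ε * s) • (g⁻¹).1 (t.τ u b) := fun u => by
    simp [ey, tv_apply hb hs, hf]
  rcases scalar_or_scalar hy h2 h4 with ⟨c, hc⟩ | ⟨c, hc⟩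
  · obtain ⟨η', e⟩ := t.exists_of_scalar hy hc
    obtain ⟨w, hw⟩ : ∃ w, η' w - w ≠ 0 := by
      by_contra! e1
      have := h5 u₀
      rw [show y.1 _ = _ from t.ext' (X := y.1) (Y := .id) (fun u w => by simp [e, sub_eq_zero.1 (e1 w)]) _] at this
      simp [s0, β.ε_ne_zero, t.τ_ne hu b0] at this
    have h5 : ∀ u, g.1 (t.τ u (η' w - w)) ∈ t.A b := fun u => by
      obtain ⟨z, a, e1⟩ := h1 (t.τ u w)
      rw [map_sub, ← e, ← e1]; erw [Isom.apply_inv_apply]; exact a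
    exact h0.of_map h hW hg (sing_of_ts hq hb g h5) hw hb b0 h5
  exfalso
  let L := LinearMap.range (c • (a : U →ₗ[F] U) - .id)
  have k0 : ∀ u w, y.1 (t.τ u w) - t.τ u w = t.τ ((c • (a : U →ₗ[F] U) - .id) u) w := fun u w => by simp [hy, hc]
  have k1 : ∀ v, y.1 v - v ∈ t.flip.AS L := t.ind (fun u w => k0 u w ▸ t.flip.τ_mem_AS w ⟨u, rfl⟩) fun _ _ a b => by
      convert add_mem a b using 1; rw [map_add]; abel
  have k2 : finrank F W * finrank F L ≤ finrank F U := by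
    rw [← t.flip.finrank_AS, ← t.finrank_A b0, ← LinearEquiv.finrank_map_eq (g⁻¹).1 (t.A b)]
    refine Submodule.finrank_mono (AS_le fun w x hx => ?_)
    obtain ⟨u, rfl⟩ := hx; rw [flip_τ, ← k0]; exact h1 _
  have k3 : ∀ u, (g⁻¹).1 (t.τ u b) ∈ t.flip.AS L := fun u => by
    have := h5 u ▸ k1 _
    rwa [Submodule.smul_mem_iff _ (by simp [s0, β.ε_ne_zero])] at this
  obtain ⟨a₀, a1, a0⟩ := (Submodule.ne_bot_iff L).1 fun e => by
    have := Submodule.finrank_mono ((Submodule.span_singleton_le_iff_mem _ _).2 (k3 u₀))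
    rw [finrank_span_singleton (by simpa using t.τ_ne hu b0), finrank_AS, e] at this; simp at this
  have k4 : α.TS L := by
    have : ∀ x ∈ L, ∀ x' ∈ L, α.B x x' = 0 := by
      rintro _ ⟨u, rfl⟩ _ ⟨u', rfl⟩
      have := ((t.ts_A hb).map g⁻¹).2 _ (h1 (t.τ u b)) _ (h1 (t.τ u' f))
      rwa [k0, k0, B_ττ, hf, mul_one] at this
    exact ⟨fun x hx => by simpa [hα.B_self, h2] using this x hx x hx, this⟩
  have k5 : 0 < finrank F L := Submodule.one_le_finrank_iff.2 (by rintro e; simp [e, a0] at a1)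
  obtain ⟨w, a2, a3⟩ := exists_ns_perp' hα (S := L) (by nlinarith)
  have q0 := k4.1 a₀ a1
  have q1 := a2 a₀ a1
  set z := t.flip.rt (α.siegel a₀ w (α.Q w)) with ez
  have zM : g * z * g⁻¹ ∈ M := mul_mem (mul_mem hg (h.lt (α.siegel_mem_E q0 q1 (hα.T_eq _)))) (inv_mem hg)
  have k6 : ∀ u, (g * z * g⁻¹).1 (t.τ u b) = t.τ u b := fun u => by
    rw [Isom.mul_apply, Isom.mul_apply, sg_fix q0 q1 (hα.T_eq _) (k4.le_perp a1) a2 (k3 u), Isom.apply_inv_apply]
  obtain ⟨η₀, -, e'⟩ := t.pt_fix (h0.of_fix zM hb b0 k6) b0 k6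
  obtain ⟨u, hu'⟩ := α.exists_B_eq_one a0
  have k7 := two_mul_le_cube e' (conj_sub (g := g) (sg_sub (t := t.flip) q0 q1 (hα.T_eq _))) (v := g.1 (t.τ u b)) (fun v => by
    simp only [dd_conj, Isom.inv_apply_apply, ez, dd_sq hα q0 q1, map_smul, dd_self q0 q1 (hα.T_eq _), map_zero, smul_zero]) (by
    simp only [dd_conj, Isom.inv_apply_apply, ez, dd_sq hα q0 q1]
    simpa [h2, a3, hu', ← t.flip_τ u, -flip_τ] using t.flip.τ_ne b0 a0)
  have := finrank_conj (t := t.flip) (b := a₀) (w := w) g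
  omega

/-- strong embedding for Siegel elements of `W` with `w` non-singular -/
theorem se_ns (h0 : H0 t M) (h : t.Ov M) (hW : Wd β) (hβ : β.IsQuad) (hm : finrank F U < finrank F W) [Nontrivial U]
    (hb : β.Q b = 0) (b0 : b ≠ 0) (hw : β.B b w = 0) (hw' : β.Q w ≠ 0) (hg : g ∈ M)
    (H : g⁻¹ * t.rt (β.siegel b w (β.Q w)) * g ∈ t.PT) : g ∈ t.PT := by
  obtain ⟨a, η, hy⟩ := H
  have : Nontrivial W := ⟨_, _, b0⟩
  have h1 := conj_sub (g := g⁻¹) (sg_sub (t := t) hb hw (hβ.T_eq _))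
  rw [inv_inv] at h1
  set y := g⁻¹ * t.rt (β.siegel b w (β.Q w)) * g with ey
  have h3 : ∀ v, g.1 (dd y (dd y v)) = t.τ (-(2 * β.Q w) • t.ct b (g.1 v)) b := fun v => by
    simp only [ey, dd_conj', Isom.apply_inv_apply, dd_sq hβ hb hw, map_smul, LinearMap.smul_apply]
  have h4 : ∀ v, dd y (dd y (dd y v)) = 0 := fun v => by
    rw [ey, dd_conj', ← ey, h3, dd_self hb hw (hβ.T_eq _), map_zero]
  obtain ⟨c, hc⟩ : ∃ c : F, ∀ u, a u = c • u := by
    by_contra hn
    have k : ∀ u, a u ∉ F ∙ u → a (a u) ∈ Submodule.span F {u, a u} ∧ ∃ (w : W) (c : F), w ≠ 0 ∧ η w = c • w := fun u hu => by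
      obtain ⟨x, a1, a2⟩ : ∃ x, dd y (dd y (t.τ u x)) = 0 ∧ x ≠ 0 := by
        obtain ⟨x, a1, a2⟩ := (Submodule.ne_bot_iff _).1 (LinearMap.ker_ne_bot_of_finrank_lt
          (f := t.ct b ∘ₗ (g.1 : V →ₗ[F] V) ∘ₗ t.τ u) hm)
        exact ⟨x, g.1.injective (by rw [h3, show t.ct b (g.1 (t.τ u x)) = 0 from a1]; simp), a2⟩
      simp only [dd_apply, map_sub, hy] at a1
      have a3 : a (a u) ∈ Submodule.span F {u, a u} := by
        by_contra a3
        obtain ⟨ξ, b1, b2⟩ := exists_dual_sep a3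
        simpa [b1 u (Submodule.subset_span (by simp)), b1 (a u) (Submodule.subset_span (by simp)), b2, a2]
          using congrArg (t.cu ξ) a1
      obtain ⟨ξ, b1, b2⟩ := exists_dual₂ hu
      have a4 : ξ (a (a u)) • η x = (2 : F) • x := η.injective (by
        have := congrArg (t.cu ξ) a1
        simp only [map_sub, cu_τ, b1, b2, map_zero] at this
        rw [map_smul, map_smul]; linear_combination (norm := module) this)
      have a5 : ξ (a (a u)) ≠ 0 := fun e => a2 (by simpa [e, h2] using a4.symm)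
      exact ⟨a3, x, (ξ (a (a u)))⁻¹ * 2, a2, by rw [mul_smul, ← a4, inv_smul_smul₀ a5]⟩
    obtain ⟨u, hu⟩ := (scalar_or (a : U →ₗ[F] U)).resolve_left hn
    obtain ⟨-, x, c, x0, e⟩ := k u hu
    have c0 : c ≠ 0 := by rintro rfl; simp [x0] at e
    let N := c • (a : U →ₗ[F] U) - .id
    have k1 : ∀ u, dd y (t.τ u x) = t.τ (N u) x := fun u => by simp [dd_apply, hy, e, N]
    have k2 : ∀ u, N (N (N u)) = 0 := fun u => t.τ_eq_zero x0 (by simpa only [k1] using h4 (t.τ u x))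
    have k3 : ∀ u, N (N u) = 0 := fun u => cube (k2 u) (by
      have a1 : a u ∈ Submodule.span F {u, N u} := Submodule.mem_span_pair.2 ⟨c⁻¹, c⁻¹, by simp [N, smul_sub, smul_smul, c0]⟩
      have a2 : a (a u) ∈ Submodule.span F {u, N u} := by
        by_cases e : a u ∈ F ∙ u
        · obtain ⟨d, e⟩ := Submodule.mem_span_singleton.1 e
          rw [← e, map_smul]; exact Submodule.smul_mem _ _ a1
        · exact Submodule.span_le.2 (Set.insert_subset (Submodule.subset_span (by simp)) (Set.singleton_subset_iff.2 a1)) (k u e).1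
      convert add_mem (sub_mem (Submodule.smul_mem _ (c * c) a2) (Submodule.smul_mem _ (2 * c) a1))
        (Submodule.subset_span (Set.mem_insert u _)) using 1
      simp [N]; module)
    have := two_mul_le' h2 hα hy h1 c0 (fun u => sub_eq_zero.1 (k3 u)) hn
    have := finrank_conj (t := t) (b := b) (w := w) g⁻¹
    omega
  obtain ⟨η', e⟩ := t.exists_of_scalar hy hc
  have h5 : ∀ u x, g.1 (t.τ u ((η' - .id) ((η' - .id) x))) ∈ t.A b := fun u x => by
    rw [← dd_τ e, ← dd_τ e, h3]; exact t.τ_mem _ _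
  obtain ⟨x, hx⟩ : ∃ x, (η' - .id) ((η' - .id) x) ≠ 0 := by
    by_contra! H
    obtain ⟨u₀, hu⟩ := exists_ne (0 : U)
    obtain ⟨f, hf⟩ := β.exists_B_eq_one b0
    have := h3 ((g⁻¹).1 (t.τ u₀ f))
    rw [show dd y (dd y _) = 0 from t.ext' (X := dd y ∘ₗ dd y) (Y := 0) (fun u w => by
      simp only [LinearMap.comp_apply, dd_τ e, H]; simp) _] at this
    exact t.τ_ne hu b0 (by simpa [hf, h2, hw'] using this.symm)
  exact h0.of_map h hW hg (sing_of_ts (fun w e => by simpa [hβ.B_self, h2] using e) hb g (h5 · x)) hx hb b0 (h5 · x)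

/-- strong embedding for all Siegel elements of `W` -/
theorem se_sg (h0 : H0 t M) (h : t.Ov M) (hW : Wd β) (hβ : β.IsQuad) (hm : finrank F U < finrank F W) [Nontrivial U]
    (h5 : 5 ≤ finrank F W) (hb : β.Q b = 0) (b0 : b ≠ 0) (hw : β.B b w = 0) (hw' : w ∉ F ∙ b) (hg : g ∈ M)
    (H : g⁻¹ * t.rt (β.siegel b w (β.Q w)) * g ∈ t.PT) : g ∈ t.PT := by
  by_cases hq : β.Q w = 0
  swap; · exact se_ns h2 hα h0 h hW hβ hm hb b0 hw hq hg H
  obtain ⟨a, η, hy⟩ := H
  have : Nontrivial W := ⟨_, _, b0⟩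
  obtain ⟨u₀, hu⟩ := exists_ne (0 : U)
  have h1 := conj_sub (g := g⁻¹) (sg_sub (t := t) hb hw (hβ.T_eq _))
  rw [inv_inv] at h1
  set y := g⁻¹ * t.rt (β.siegel b w (β.Q w)) * g with ey
  have h3 : ∀ v, y.1 (y.1 v - v) = y.1 v - v := fun v => sub_eq_zero.1 (show dd y (dd y v) = 0 by
    simp only [ey, dd_conj', Isom.apply_inv_apply, dd_sq hβ hb hw]; simp [hq])
  obtain ⟨f, f1, f2⟩ := exists_partner' (β := β) hw'
  have h4 : ∀ u, dd y ((g⁻¹).1 (t.τ u f)) = (g⁻¹).1 (t.τ u b) := fun u => by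
    rw [ey, dd_conj', Isom.apply_inv_apply, dd_apply, t.rt_siegel hb hw (hβ.T_eq _)]; simp [f1, f2]
  have h6 := finrank_conj (t := t) (b := b) (w := w) g⁻¹
  obtain ⟨c, hc⟩ : ∃ c : F, ∀ u, a u = c • u := by
    by_contra hn
    obtain ⟨c, hc⟩ := (scalar_or_scalar hy h2 h3).resolve_left hn
    have := two_mul_le' h2 hα hy h1 (c := c) (by rintro rfl; exact b0 (by simpa using hc b)) (fun u => t.τ_inj b0 (by
      simpa [hy, hc, smul_sub, smul_smul] using h3 (t.τ u b))) hn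
    omega
  obtain ⟨η', e⟩ := t.exists_of_scalar hy hc
  let L := LinearMap.range (η' - .id)
  have k1 : ∀ v, dd y v ∈ t.AS L := t.ind (fun u w => dd_τ e u w ▸ t.τ_mem_AS u ⟨w, rfl⟩) fun _ _ a b => by
    rw [map_add]; exact add_mem a b
  have k0 : t.AS L ≤ (t.AS (Submodule.span F {b, w})).map ((g⁻¹).1 : V →ₗ[F] V) :=
    AS_le fun u _ ⟨w, e'⟩ => by rw [← e', ← dd_τ e]; exact h1 _
  have k2 : finrank F L ≤ 2 := by
    have := Submodule.finrank_mono k0
    rw [finrank_AS] at this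
    have := Module.finrank_pos (R := F) (M := U)
    nlinarith
  obtain ⟨b', a1, a0⟩ := (Submodule.ne_bot_iff L).1 fun e => by
    have := Submodule.finrank_mono ((Submodule.span_singleton_le_iff_mem _ _).2 (h4 u₀ ▸ k1 _))
    rw [finrank_span_singleton (by simpa using t.τ_ne hu b0), finrank_AS, e] at this; simp at this
  have k4 : β.TS L := by
    have : ∀ x ∈ L, ∀ x' ∈ L, β.B x x' = 0 := fun x hx x' hx' => by
      obtain ⟨u₁, hu₁⟩ := α.exists_B_eq_one hu
      obtain ⟨z, a, e⟩ := k0 (t.τ_mem_AS u₀ hx)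
      obtain ⟨z', a', e'⟩ := k0 (t.τ_mem_AS u₁ hx')
      have : φ.B z z' = 0 := AS_span (Y := LinearMap.ker (φ.B.flip z')) (fun u x hx => by
        simp [t.B_τ, ct_AS a' (((TS.singleton hb).sup (TS.singleton hq) ((Submodule.span_singleton_le_iff_mem _ _).2
          (β.mem_perp_singleton.2 hw))).le_perp.trans' (Submodule.span_insert b {w}).le |>.trans
          (β.perp_anti (Submodule.span_insert b {w}).le) (Submodule.subset_span hx))]) a
      rw [← Isom.B_map g⁻¹] at this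
      erw [e, e'] at this
      simpa [hu₁] using this
    exact ⟨fun x hx => by simpa [hβ.B_self, h2] using this x hx x hx, this⟩
  obtain ⟨w', a2, a3⟩ := exists_ns_perp' hβ (S := L) (by omega)
  have q0 := k4.1 b' a1
  have q1 := a2 b' a1
  simpa using inv_mem (se_ns h2 hα h0 h hW hβ hm q0 a0 q1 a3 (inv_mem hg) (h0.of_fix (mul_mem (mul_mem
    (inv_mem (inv_mem hg)) (h.rt (β.siegel_mem_E q0 q1 (hβ.T_eq _)))) (inv_mem hg)) hb b0 fun u => by
      rw [inv_inv, Isom.mul_apply, Isom.mul_apply, sg_fix q0 q1 (hβ.T_eq _) (k4.le_perp a1) a2 (h4 u ▸ k1 _),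
        Isom.apply_inv_apply]))

end Ten
end H12.Tn
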