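import Mathlib
import Cfsg.Agent.H12.TnH

/-!
# Maximality of tensor stabilisers `O ⊗ O` and `O ⊗ Sp` in odd characteristic
`Ov.stab_vec`, `Ov.le_PT_oo`, `Ov.oo`, `Ov.os`.
-/

set_option autoImplicit false
set_option linter.unusedSectionVars false
set_option linter.unusedSimpArgs false

namespace H12.Tn
open Module H10 H10.Form

variable {F U W V : Type*} [Field F] [AddCommGroup U] [Module F U] [AddCommGroup W] [Module F W]
  [AddCommGroup V] [Module F V] {α : Form F U} {β : Form F W} {φ : Form F V}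
  [α.Nondeg] [β.Nondeg] [φ.Nondeg] [FiniteDimensional F U] [FiniteDimensional F W] [FiniteDimensional F V]

variable (φ) in
/-- the conjugation action on endomorphisms -/
def cjH : φ.Isom →* AddMonoid.End (V →ₗ[F] V) where
  toFun g := AddMonoidHom.mk' (cj g) fun _ _ => LinearMap.ext fun _ => by simp [cj_apply]
  map_one' := AddMonoidHom.ext fun _ => LinearMap.ext fun _ => by simp [cj_apply]; rfl
  map_mul' _ _ := AddMonoidHom.ext fun _ => LinearMap.ext fun _ => by simp [cj_apply]; rfl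

theorem ts_pair {b c : W} (hb : β.Q b = 0) (hc : β.Q c = 0) (h : β.B b c = 0) : β.TS (Submodule.span F {b, c}) := by
  rw [Submodule.span_insert]
  exact (TS.singleton hb).sup (TS.singleton hc) ((Submodule.span_singleton_le_iff_mem _ _).2 (β.mem_perp_singleton.2 h))

theorem finrank_pair {b c : W} (b0 : b ≠ 0) (h : c ∉ F ∙ b) : finrank F (Submodule.span F {b, c}) = 2 := by
  rw [Submodule.span_insert, finrank_sup_singleton h, finrank_span_singleton b0]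

namespace Ten
variable [Finite F] {t : Ten α β φ} {M : Subgroup φ.Isom} {g k : φ.Isom} {b c : W}

theorem ct_te [Nontrivial U] (hβ : ∀ c, β.σ c = c) {a : U ≃ₗ[F] U} {η : W ≃ₗ[F] W} (hy : ∀ u w, g.1 (t.τ u w) = t.τ (a u) (η w)) :
    ∃ μ : F, μ ≠ 0 ∧ (∀ w w', β.B (η w) (η w') * μ = β.B w w') ∧ ∀ w z, μ • t.ct (η w) (g.1 z) = a (t.ct w z) := by
  obtain ⟨μ, μ0, h⟩ := sim_left (t := t.flip) (fun w u => hy u w)
  exact ⟨μ, μ0, h, fun w => t.ext' (X := μ • t.ct (η w) ∘ₗ (g.1 : V →ₗ[F] V)) (Y := (a : U →ₗ[F] U) ∘ₗ t.ct w) fun u x => by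
    simp [hy, smul_smul, mul_comm μ, h]⟩

variable (h2 : (2 : F) ≠ 0) (hα : α.IsQuad) (hβ : β.IsQuad) (h0 : H0 t M) (h : t.Ov M) (hW : Wd β)
  (hm : finrank F U < finrank F W) (h5 : 5 ≤ finrank F W) [Nontrivial U]
include h2 hα hβ h0 h hW hm h5

theorem Ov.stab_vec (hb : β.Q b = 0) (b0 : b ≠ 0) (hc : β.Q c = 0) (h1 : β.B b c = 0) (h3 : c ∉ F ∙ b) {u₁ u₂ : U}
    (hk : k ∈ M) (hk' : k ∉ t.PT) (hv : k.1 (t.τ u₁ b + t.τ u₂ c) = t.τ u₁ b + t.τ u₂ c) : α.Q u₁ = 0 ∧ α.Q u₂ = 0 := by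
  have := Fintype.ofFinite F
  set v := t.τ u₁ b + t.τ u₂ c with ev
  have hS := ts_pair hb hc h1
  set S := Submodule.span F {b, c}
  have bS : b ∈ S := Submodule.subset_span (by simp)
  have cS : c ∈ S := Submodule.subset_span (by simp)
  obtain ⟨w, a1, a2⟩ := exists_ns_perp' hβ (S := S) (by rw [finrank_pair b0 h3]; omega)
  have a3 : ∀ p : F × F, p.1 • w + p.2 • c ∈ β.perp S := fun p => add_mem (Submodule.smul_mem _ _ a1)
    (Submodule.smul_mem _ _ (hS.le_perp cS))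
  let θ : Multiplicative (F × F) →* φ.Isom := t.rt.comp (MonoidHom.mk' (fun p => β.siegel b (p.toAdd.1 • w + p.toAdd.2 • c)
    (β.Q (p.toAdd.1 • w + p.toAdd.2 • c))) fun p p' => by
      rw [β.siegel_mul hb (a3 _ b bS) (hβ.T_eq _) (a3 _ b bS) (hβ.T_eq _), ← hβ.Q_add]
      simp only [toAdd_mul, Prod.fst_add, Prod.snd_add, add_smul, add_add_add_comm])
  have θM : ∀ p, θ p ∈ M := fun p => h.rt (β.siegel_mem_E hb (a3 _ b bS) (hβ.T_eq _))
  have θS : ∀ p, ∀ z ∈ t.AS S, (θ p).1 z = z := fun p z => sg_fix hb (a3 _ b bS) (hβ.T_eq _) (hS.le_perp bS) (a3 _)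
  have se : ∀ p ≠ 1, ∀ g ∈ M, g⁻¹ * θ p * g ∈ t.PT → g ∈ t.PT := fun p hp g hg =>
    se_sg h2 hα h0 h hW hβ hm h5 hb b0 (a3 _ b bS) (fun e => hp (by
      obtain ⟨d, e⟩ := Submodule.mem_span_singleton.1 e
      have e1 : p.toAdd.1 = 0 := by
        simpa [β.B_symm_zero (a1 b bS), β.B_symm_zero (a1 c cS), hβ.B_self_ne_zero h2 a2] using (congrArg (β.B w) e).symm
      have e2 : p.toAdd.2 = 0 := by_contra fun e2 => h3 ((Submodule.smul_mem_iff _ e2).1 (Submodule.mem_span_singleton.2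
        ⟨d, by simpa [e1] using e⟩))
      exact Prod.ext e1 e2)) hg
  let ν := α.B u₁ u₁ • br β b b + α.B u₁ u₂ • br β b c + α.B u₂ u₁ • br β c b + α.B u₂ u₂ • br β c c
  have ν1 : ∀ x x', β.B x' (ν x) = α.B (t.ct x' v) (t.ct x v) := fun x x' => by
    simp [ν, ev, hα.σ_eq, hβ.B_comm x]; ring
  have ν2 : ∀ x, ν x ∈ S := fun x => by
    simp only [ν, LinearMap.add_apply, LinearMap.smul_apply, br_apply, smul_smul]
    exact add_mem (add_mem (add_mem (S.smul_mem _ bS) (S.smul_mem _ bS)) (S.smul_mem _ cS)) (S.smul_mem _ cS)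
  let X : V →ₗ[F] V := t.τ.flip b ∘ₗ t.ct c - t.τ.flip c ∘ₗ t.ct b
  have X1 : ∀ x y z, (θ (.ofAdd (x, y))).1 z = (θ (.ofAdd (x, 0))).1 z + y • X z := fun x y z => by
    refine (t.rt_siegel hb (a3 (x, y) b bS) (hβ.T_eq _) z).trans ?_
    erw [t.rt_siegel hb (a3 (x, 0) b bS) (hβ.T_eq _) z]
    simp [X, ct_add, ct_smul, ← t.σ₂, hβ.σ_eq, hβ.ε_eq, hβ.Q_add, hβ.Q_smul, hc, β.B_symm_zero (a1 c cS)]; module
  have s0 : ∀ z : V, ∑ _x : F, z = 0 := fun z => by simp [← Nat.cast_smul_eq_nsmul F]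
  have s1 : ∑ x : F, x = 0 := mul_left_cancel₀ h2 (by
    have := Fintype.sum_equiv (Equiv.neg F) (fun x => -x) (fun x => x) fun _ => rfl
    rw [Finset.sum_neg_distrib] at this; linear_combination -this)
  let L := M ⊓ φ.fix (F ∙ v)
  have H := fixed_of_free ((cjH φ).comp L.subtype) (t.PT.subgroupOf L) (θ.codRestrict L fun p => ⟨θM p, by
      rintro _ hz; obtain ⟨d, rfl⟩ := Submodule.mem_span_singleton.1 hz
      exact θS p _ (Submodule.smul_mem _ _ (add_mem (t.τ_mem_AS _ bS) (t.τ_mem_AS _ cS)))⟩)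
    (fun p => t.rt_mem _) (fun p hp g => se p hp g g.2.1) (fun Y => LinearMap.ext fun z => ?_) (N := t.tm .id ν)
    (fun s ⟨a, η, e⟩ => ?_) ⟨k, hk, by
      rintro _ hz; obtain ⟨d, rfl⟩ := Submodule.mem_span_singleton.1 hz; rw [map_smul, hv]⟩
  · have ν0 : ∀ x, ν x = 0 := fun x => by_contra fun e => hk' (se (.ofAdd (1, 0)) (by simp) k hk (h0.of_fix
      (mul_mem (mul_mem (inv_mem hk) (θM _)) hk) (hS.1 _ (ν2 x)) e fun u => by
        have := LinearMap.congr_fun H (k.1 (t.τ u x))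
        change k.1 (t.tm .id ν ((k⁻¹).1 _)) = _ at this
        rw [Isom.inv_apply_apply, tm_τ, LinearMap.id_apply] at this
        rw [Isom.mul_apply, Isom.mul_apply, θS, Isom.inv_apply_apply]
        rw [this]
        exact t.ind (P := fun z => t.tm .id ν z ∈ t.AS S) (fun u x => by rw [tm_τ]; exact t.τ_mem_AS _ (ν2 x))
          (fun _ _ a b => by rw [map_add]; exact add_mem a b) _))
    obtain ⟨f, f1, f2⟩ := exists_partner' (β := β) h3
    obtain ⟨f', f3, f4⟩ := exists_partner' (β := β) (not_mem_span_singleton_symm b0 h3)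
    exact ⟨by simpa [ν0, ev, hβ.B_comm f', f3, f4, hα.B_self, h2] using (ν1 f' f').symm,
      by simpa [ν0, ev, hβ.B_comm f, f1, f2, hα.B_self, h2] using (ν1 f f).symm⟩
  · rw [LinearMap.sum_apply, ← Fintype.sum_equiv (Multiplicative.ofAdd (α := F × F)) (fun p => (θ (.ofAdd (p.1, 0))).1
      (Y ((θ (.ofAdd (-p.1, 0))).1 z)) + p.2 • (X (Y ((θ (.ofAdd (-p.1, 0))).1 z)) - (θ (.ofAdd (p.1, 0))).1 (Y (X z))) -
      (p.2 * p.2) • X (Y (X z))) _ fun p => ?_, Fintype.sum_prod_type]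
    · simp only [Finset.sum_sub_distrib, Finset.sum_add_distrib, ← Finset.sum_smul, s0, s1, zero_smul, add_zero, zero_sub,
        LinearMap.zero_apply, Finset.sum_const_zero, neg_zero]
    change _ = (θ (.ofAdd (p.1, p.2))).1 (Y ((θ (.ofAdd (p.1, p.2)))⁻¹.1 z))
    rw [← map_inv, show (Multiplicative.ofAdd (p.1, p.2))⁻¹ = .ofAdd (-p.1, -p.2) from rfl, X1 p.1 p.2, X1 _ (-p.2)]
    simp only [map_add, map_smul]; module
  · obtain ⟨μ, μ0, e1, e2⟩ := ct_te hβ.σ_eq e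
    have e3 : s.1.1 v = v := s.2.2 v (Submodule.mem_span_singleton_self v)
    have e4 : ∀ x, ν (η x) = η (ν x) := fun x => β.ext_B_right fun x' => by
      obtain ⟨x', rfl⟩ := η.surjective x'
      obtain ⟨f, hf⟩ := β.exists_B_eq_one b0
      have e5 : ∀ u u', α.B (a u) (a u') = μ * α.B u u' := fun u u' => by
        have := Isom.B_map s.1 (t.τ u b) (t.τ u' f)
        erw [e, e] at this
        rw [B_ττ, B_ττ] at this
        linear_combination μ * this - α.B (a u) (a u') * e1 b f + (μ * α.B u u' - α.B (a u) (a u')) * hf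
      have := e5 (t.ct x' v) (t.ct x v)
      rw [← e2, ← e2, ← ν1, ← e1] at this
      erw [e3] at this
      simp only [map_smulₛₗ, hα.σ_eq, LinearMap.smul_apply, RingHom.id_apply, smul_eq_mul, ← ν1] at this
      exact mul_left_cancel₀ (mul_ne_zero μ0 μ0) (by linear_combination this)
    refine LinearMap.ext fun z => ?_
    obtain ⟨z, rfl⟩ := s.1.1.surjective z
    change s.1.1 (t.tm .id ν ((s.1⁻¹).1 _)) = _
    rw [Isom.inv_apply_apply]
    exact t.ext' (X := (s.1.1 : V →ₗ[F] V) ∘ₗ t.tm .id ν) (Y := t.tm .id ν ∘ₗ s.1.1) (fun u x => by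
      simp only [LinearMap.comp_apply, LinearEquiv.coe_coe, tm_τ, LinearMap.id_apply]; erw [e, e]; rw [tm_τ, e4]; rfl) z

theorem Ov.le_PT_oo (hU : ∀ P, α.TS P → 2 * finrank F P < finrank F U) : M ≤ t.PT := fun g hg => by
  by_contra hg'
  obtain ⟨b, hb, b0⟩ := hW.sing
  obtain ⟨c, hc, h1, h3⟩ := hW.two b hb
  obtain ⟨w, a1, a2⟩ := exists_ns_perp hβ (by omega) b0
  rw [β.mem_perp_singleton] at a1
  have a3 : w ∉ F ∙ b := fun e => a2 ((TS.singleton hb).1 w e)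
  have se := fun {w} a b {g} => se_sg h2 hα h0 h hW hβ hm h5 (w := w) (g := g) hb b0 a b
  have xM := fun {w} a => h.rt (β.siegel_mem_E (w := w) hb a (hβ.T_eq _))
  have xP := fun {w} a => (t.rad_siegel (w := w) hb a (hβ.T_eq _)).isP
  have hS := ts_pair hb hc h1
  set S := Submodule.span F {b, c}
  set π := Submodule.span F {b, w}
  set B := (t.AS S).map (g.1 : V →ₗ[F] V)
  set x := g * t.rt (β.siegel b c (β.Q c)) * g⁻¹
  have x1 : ∀ v, x.1 v - v ∈ B := conj_sub (sg_sub hb h1 (hβ.T_eq _))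
  have xM' : x ∈ M := mul_mem (mul_mem hg (xM h1)) (inv_mem hg)
  obtain ⟨k, k1, k2, k3, k4⟩ := exists_k (xM a1) xM' (t.rt_mem _) (xP a1) ((xP h1).conj g) fun g => se a1 a3
  have e0 : k * x * k⁻¹ = (k * g) * t.rt (β.siegel b c (β.Q c)) * (k * g)⁻¹ := by simp only [x]; group
  obtain ⟨a, η, e⟩ : k * g ∈ t.PT := by
    simpa using inv_mem (se h1 h3 (inv_mem (mul_mem k1 hg)) (by rwa [inv_inv, ← e0]))
  have k5 := k3 _ (mem_fix_perp fun v => Submodule.mem_sup_left (T := B) (sg_sub hb a1 (hβ.T_eq _) v))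
    (mem_fix_perp fun v => Submodule.mem_sup_right (x1 v))
  obtain ⟨μ, μ0, e1, e2⟩ := ct_te hβ.σ_eq e
  set S' := S.map (η : W →ₗ[F] W)
  have k6 : t.AS (π ⊔ S') ≤ t.AS π ⊔ B := AS_le fun u z hz => by
    obtain ⟨z, b1, _, ⟨z', b2, rfl⟩, rfl⟩ := Submodule.mem_sup.1 hz
    rw [map_add]
    refine add_mem (Submodule.mem_sup_left (t.τ_mem_AS u b1)) ?_
    have := add_mem (fix_sub k5 (g.1 (t.τ (a.symm u) z'))) (Submodule.mem_sup_right ⟨_, t.τ_mem_AS (a.symm u) b2, rfl⟩)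
    erw [sub_add_cancel, e] at this
    simpa using this
  have hS' : β.TS S' := by
    have : ∀ x ∈ S', ∀ x' ∈ S', β.B x x' = 0 := by
      rintro _ ⟨x, a, rfl⟩ _ ⟨x', a', rfl⟩; simpa [μ0, hS.2 x a x' a'] using e1 x x'
    exact ⟨fun x hx => by simpa [hβ.B_self, h2] using this x hx x hx, this⟩
  have d1 : finrank F S' = 2 := by rw [LinearEquiv.finrank_map_eq, finrank_pair b0 h3]
  have d2 : finrank F π = 2 := finrank_pair b0 a3
  have d3 : finrank F B = finrank F U * 2 := by rw [LinearEquiv.finrank_map_eq, finrank_AS, finrank_pair b0 h3]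
  have d4 := Submodule.finrank_sup_add_finrank_inf_eq π S'
  have d5 := t.finrank_AS π
  have d6 := t.finrank_AS (π ⊔ S')
  have bπ : b ∈ π := Submodule.subset_span (by simp)
  by_cases h6 : π ⊓ S' = ⊥
  · rw [h6, finrank_bot] at d4
    have k7 := Submodule.eq_of_le_of_finrank_le k6 ((Submodule.finrank_add_le_finrank_add_finrank _ _).trans (by
      rw [d3, d5, d6, show finrank F ↥(π ⊔ S') = 4 by omega, d2]; omega))
    obtain ⟨u₀, hu⟩ := exists_ne (0 : U)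
    obtain ⟨v, c1, c2, c3, c4⟩ := k4 (t.AS (π ⊔ S')) (fun e => t.τ_ne hu b0 (e.le (t.τ_mem_AS u₀ (Submodule.mem_sup_left bπ))))
      (fun v => AS_mono le_sup_left (sg_sub hb a1 (hβ.T_eq _) v)) fun v => by
        have := (φ.fix_le_stab _ k5 |> φ.stab_le_stab_perp _) (x.1 ((k⁻¹).1 v) - (k⁻¹).1 v)
        rw [φ.perp_perp, map_sub, Isom.apply_inv_apply] at this
        exact k7.ge (this.1 (Submodule.mem_sup_right (x1 _)))
    rw [e0, Isom.mul_apply, Isom.mul_apply, eq_comm, ← Isom.inv_apply_eq] at c4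
    have c5 := fix_sg hb a1 (hβ.T_eq _) a3 b0 c3
    have c6 := fix_sg hb h1 (hβ.T_eq _) h3 b0 c4.symm
    have c7 : ∀ z ∈ π ⊔ S', t.ct z v = 0 := by
      let Z : Submodule F W := ⟨⟨⟨{z | t.ct z v = 0}, fun {x y} (a : t.ct x v = 0) (b : t.ct y v = 0) =>
        show t.ct _ v = 0 by rw [ct_add, a, b, add_zero]⟩, t.ct_zero v⟩, fun c x (a : t.ct x v = 0) =>
        show t.ct _ v = 0 by rw [ct_smul, a, smul_zero]⟩
      refine fun z hz => (sup_le (Submodule.span_le.2 (Set.insert_subset c5.1 (Set.singleton_subset_iff.2 c5.2)))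
        (Submodule.map_span_le .. |>.2 fun z hz => ?_) : _ ≤ Z) hz
      have := e2 z ((k * g)⁻¹.1 v)
      rw [Isom.apply_inv_apply, show t.ct z _ = 0 by rcases hz with rfl | rfl; exacts [c6.1, c6.2], map_zero] at this
      exact (smul_eq_zero.1 this).resolve_left μ0
    obtain ⟨z, hz⟩ := not_forall.1 (mt t.eq_zero_of_ct c2)
    obtain ⟨ξ, hξ⟩ := exists_dual (F := F) hz
    have c8 : ∀ z ∈ π ⊔ S', β.B z (t.cu ξ v) = 0 := fun z hz => by rw [B_cu, c7 z hz, map_zero]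
    refine hg' (by simpa using inv_mem (se h1 h3 (inv_mem hg) (by
      rw [inv_inv]
      exact h0.of_fix xM' (b := t.cu ξ v) (by simpa [hβ.B_self, h2] using c8 _ (cu_AS c1 ξ)) (fun e => by
        simpa [e, hξ] using t.B_cu ξ z v) fun u => mem_fix_perp x1 _ (φ.mem_perp'.2 fun y hy => by
          rw [t.B_τ, ct_AS (k7.ge (Submodule.mem_sup_right hy)) c8, map_zero]))))
  obtain ⟨z, ⟨c1, c2⟩, c3⟩ := (Submodule.ne_bot_iff _).1 h6
  have c4 : b ∈ S' := by
    obtain ⟨y, y', rfl⟩ := Submodule.mem_span_pair.1 c1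
    obtain rfl : y' = 0 := by simpa [hβ.Q_add, hβ.Q_smul, hb, a1, a2, hβ.σ_eq] using hS'.1 _ c2
    rw [zero_smul, add_zero] at c2 c3
    exact (S'.smul_mem_iff (left_ne_zero_of_smul c3)).1 c2
  have c5 : finrank F ↥(π ⊓ S') < 2 := d2 ▸ Submodule.finrank_lt_finrank_of_lt (lt_of_le_of_ne inf_le_left fun e =>
    a2 (hS'.1 w (e.ge (Submodule.subset_span (by simp))).2))
  have c6 : 0 < finrank F ↥(π ⊓ S') := Submodule.one_le_finrank_iff.2 h6
  have c7 : b ∈ β.perp (π ⊔ S') := by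
    rw [perp_sup]; exact ⟨β.mem_perp_pair.2 ⟨β.B_self_eq_zero hb, β.B_symm_zero a1⟩, hS'.le_perp c4⟩
  obtain ⟨z, c8, c9⟩ : ∃ z ∈ β.perp (π ⊔ S'), z ∉ F ∙ b := by
    by_contra! H
    have := Submodule.finrank_mono H
    have := β.finrank_perp (π ⊔ S')
    have := finrank_span_singleton (K := F) b0
    omega
  have z1 := c8 b (Submodule.mem_sup_left bπ)
  set P := (t.AS (π ⊔ S') ⊓ B).map ((g⁻¹).1 : V →ₗ[F] V)
  have p1 : finrank F U ≤ finrank F P := by
    rw [LinearEquiv.finrank_map_eq]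
    have := Submodule.finrank_sup_add_finrank_inf_eq (t.AS (π ⊔ S')) B
    have := Submodule.finrank_mono (sup_le k6 le_sup_right)
    have := Submodule.finrank_add_le_finrank_add_finrank (t.AS π) B
    rw [show finrank F ↥(π ⊔ S') = 3 by omega] at d6
    rw [d2] at d5
    omega
  obtain ⟨f, f1, f2⟩ := exists_partner' (β := β) h3
  obtain ⟨f', f3, f4⟩ := exists_partner' (β := β) (not_mem_span_singleton_symm b0 h3)
  have p2 : ∀ v ∈ P, v = t.τ (t.ct f' v) b + t.τ (t.ct f v) c := by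
    rintro _ ⟨_, ⟨-, v, hv, rfl⟩, rfl⟩
    erw [Isom.inv_apply_apply]
    exact sub_eq_zero.1 (LinearMap.mem_ker.1 (AS_span (Y := LinearMap.ker (LinearMap.id - (t.τ.flip b ∘ₗ t.ct f' +
      t.τ.flip c ∘ₗ t.ct f))) (by rintro u _ (rfl | rfl) <;> simp [hβ.B_comm f, hβ.B_comm f', f1, f2, f3, f4]) hv))
  have p3 : ∀ v ∈ P, α.Q (t.ct f' v) = 0 ∧ α.Q (t.ct f v) = 0 := fun v hv =>
    h.stab_vec h2 hα hβ h0 hW hm h5 hb b0 hc h1 h3 (mul_mem (mul_mem (inv_mem hg) (xM z1)) hg) (mt (se z1 c9 hg) hg') (by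
      rw [← p2 v hv]
      obtain ⟨v, hv, rfl⟩ := hv
      erw [Isom.mul_apply, Isom.mul_apply, Isom.apply_inv_apply, sg_fix hb z1 (hβ.T_eq _) c7 c8 hv.1]; rfl)
  have p4 := hU (P.map (t.ct f')) (hα.ts (by rintro _ ⟨v, hv, rfl⟩; exact (p3 v hv).1))
  have p5 := hU (P.map (t.ct f)) (hα.ts (by rintro _ ⟨v, hv, rfl⟩; exact (p3 v hv).2))
  have := LinearMap.finrank_le_finrank_of_injective (f := ((t.ct f').submoduleMap P).prod ((t.ct f).submoduleMap P))
    fun v v' e => Subtype.ext (by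
      rw [p2 v v.2, p2 v' v'.2]
      exact congrArg₂ (fun x y => t.τ x b + t.τ y c) (congrArg (·.1.1) e) (congrArg (·.2.1) e))
  rw [Module.finrank_prod] at this
  omega

end Ten

theorem wd_quad [Finite F] (hβ : β.IsQuad) (h5 : 5 ≤ finrank F W) : Wd β :=
  ⟨hβ.big (by omega), .inr h5, fun b hb => by
    obtain ⟨x, -, a1, a2, a3⟩ := (hβ.std h5).exists_sing_orth ⊤ (F ∙ b) [b] (by
      have := finrank_span_singleton_le (F := F) b; simp; omega)
    exact ⟨x, a2, a3 b (by simp), a1⟩⟩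

theorem big_alt (hβ : H09.IsAltF β) : β.Big := fun _ _ _ _ => ⟨0, by simp [alt_T hβ]⟩

theorem wd_alt (hβ : H09.IsAltF β) (h3 : 3 ≤ finrank F W) : Wd β :=
  ⟨big_alt hβ, .inl ⟨1, one_ne_zero, alt_T hβ 1⟩, fun b hb => by
    obtain ⟨x, -, a1, a2⟩ := β.exists_orth ⊤ (F ∙ b) [b] (by have := finrank_span_singleton_le (F := F) b; simp; omega)
    exact ⟨x, hβ.Q_eq x, a2 b (by simp), a1⟩⟩

variable [Finite F] {t : Ten α β φ} {M : Subgroup φ.Isom} (h2 : (2 : F) ≠ 0) (hα : α.IsQuad) (h : t.Ov M)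
  (h3 : 3 ≤ finrank F U) (hex : 4 ≤ finrank F U ∨ ∃ c : F, c ≠ 0 ∧ c * c ≠ 1)
include h2 hα h h3 hex

theorem Ten.Ov.oo (hβ : β.IsQuad) (hφ : φ.IsQuad) (hm : finrank F U < finrank F W) (h5 : 5 ≤ finrank F W)
    (hU : ∀ P, α.TS P → 2 * finrank F P < finrank F U) : M ≤ t.PT ∨ φ.E ≤ M :=
  have := Module.nontrivial_of_finrank_pos (R := F) (M := U) (by omega)
  (h.h0_or_oo h2 (wd_quad hβ h5) hα hβ hφ h3 h5 hex (or_iff_not_imp_right.2 fun e => by
    obtain ⟨P, a, b⟩ := not_not.1 e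
    have := hU P a; omega)).imp_left fun h0 => h.le_PT_oo h2 hα hβ h0 (wd_quad hβ h5) hm h5 hU

theorem Ten.Ov.os (hβ : H09.IsAltF β) (hφ : H09.IsAltF φ) (h4 : 4 ≤ finrank F W) : M ≤ t.PT ∨ φ.E ≤ M :=
  have := Module.nontrivial_of_finrank_pos (R := F) (M := U) (by omega)
  have hW := wd_alt hβ (by omega)
  (h.h0_or_os h2 hW hα hβ hφ h3 hex).imp_left fun h0 => h.le_PT_se h0 hW (fun w _ => hβ.Q_eq w) (alt_T hβ 1) one_ne_zero
    (fun _ hb b0 _ => Ten.se_tv' h2 hα h0 h hW (fun w _ => hβ.Q_eq w) (by omega) hb b0 (alt_T hβ 1) one_ne_zero)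
    (.inr ⟨hφ.σ_eq, hβ.Q_eq, h4⟩)

end H12.Tn
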