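import Mathlib
import Cfsg.Agent.H12.TnG
import Cfsg.Agent.H12.TnI
import Cfsg.Agent.H10.MxX

/-!
# Tensor stabilisers in symplectic and orthogonal matrix groups, odd characteristic
`sp_tens_max` (`Sp_m ⊗ O_k`, `m ≥ 4`), `om_tens_max`, `om_tens_max'` (`O_m ⊗ O_k`).
-/

set_option autoImplicit false
set_option linter.unusedSimpArgs false

namespace H12.Tn
open Module H10 H10.Form H10.As H10.Mx H24.NM Cfsg Cfsg.Geo Matrix

variable {F : Type*} [Field F] [Fintype F] {ι : Type} [Fintype ι] [DecidableEq ι] {m k : ℕ}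

theorem exists_sq_ne (ho : Odd (Fintype.card F)) (h : Fintype.card F ≠ 3) : ∃ c : F, c ≠ 0 ∧ c * c ≠ 1 := by
  classical
  by_contra! H
  have := Finset.card_le_card (show Finset.univ ⊆ ({0, 1, -1} : Finset F) from fun c _ => by
    by_cases c0 : c = 0 <;> simp [c0, ← mul_self_eq_one_iff, H])
  have := Finset.card_le_three (a := (0 : F)) (b := 1) (c := -1)
  have := Fintype.one_lt_card (α := F)
  obtain ⟨n, e⟩ := ho
  rw [Finset.card_univ] at *; omega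

theorem sp_tens_max {n : ℕ} (ho : Odd (Fintype.card F)) (h4 : 4 ≤ m) (h3 : 3 ≤ k) (hex : ¬ (Fintype.card F = 3 ∧ k = 3))
    {e : _ ≃ Fin m × Fin k} {P : GL (Fin n ⊕ Fin n) F} {f₁ f₂} (h₁ : IsSymplecticForm f₁) (h₂ : IsSymmetricForm f₂)
    (hT : IsTensorFormStructure _root_.id (sympForm n F) f₁ f₂ e P) :
    IsMaximalIn (spGL n F) (tensorProductSubgroup m k e P ⊓ spGL n F) := by
  have h2 := odd_card.1 ho
  obtain ⟨c, c0, hc⟩ := tau_form (σ := .id F) (sf_of_symp h₁).toSq (sf_of_symm h₂).toSq hT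
  obtain ⟨α, _, a1, a2, a3⟩ := exists_altF h₁ c0
  obtain ⟨β, _, b1, b3⟩ := exists_symF h2 h₂ one_ne_zero
  rw [spGL_eq_E]
  exact isMaximalIn_tens (α := α) (β := β) a1.σ_eq b1.σ_eq (by rw [a2, b1.ε_eq, mul_one]; rfl)
    (fun _ _ _ _ => by rw [a3, b3, H09.spForm_B, ← H09.sympForm_eq, hc]; ring) (fun _ _ _ _ _ => rfl) fun t =>
    ⟨t.flip_PT ▸ t.flip.not_E_le (big_alt H09.isAltF_spForm) (wd_alt a1 (by simp; omega)) (by simp; omega), fun M h =>
      t.flip_PT ▸ h.flip.os h2 b1 (by simpa) (or_iff_not_imp_left.2 fun e => exists_sq_ne ho fun e' => hex ⟨e', by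
        simp at e; omega⟩) a1 H09.isAltF_spForm (by simpa)⟩

theorem om_tens_aux (ho : Odd (Fintype.card F)) {Q : QuadraticForm F (ι → F)} [(ofQuad Q).Nondeg] (h3 : 3 ≤ m) (h3' : 3 ≤ k)
    {e : ι ≃ Fin m × Fin k} {P : GL ι F} {f₁ f₂} (h₁ : IsSymmetricForm f₁) (h₂ : IsSymmetricForm f₂)
    (hT : IsTensorFormStructure _root_.id (QuadraticMap.polar Q) f₁ f₂ e P)
    (h : ∀ (α : Form F (Fin m → F)) (β : Form F (Fin k → F)) [α.Nondeg] [β.Nondeg], α.IsQuad → β.IsQuad →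
      (∀ x, α.Q x = 0 → f₁ x x = 0) → (∀ x, β.Q x = 0 → f₂ x x = 0) → ∀ t : Ten α β (ofQuad Q),
      ¬ (ofQuad Q).E ≤ t.PT ∧ ∀ M, t.Ov M → M ≤ t.PT ∨ (ofQuad Q).E ≤ M) :
    IsMaximalIn (omegaGL Q) (tensorProductSubgroup m k e P ⊓ omegaGL Q) := by
  have h2 := odd_card.1 ho
  obtain ⟨c, c0, hc⟩ := tau_form (σ := .id F) (sf_of_symm h₁).toSq (sf_of_symm h₂).toSq hT
  obtain ⟨α, _, a1, a3⟩ := exists_symF h2 h₁ c0
  obtain ⟨β, _, b1, b3⟩ := exists_symF h2 h₂ one_ne_zero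
  rw [omegaGL_eq_E Q (by rw [Fintype.card_congr e]; simp; nlinarith)]
  exact isMaximalIn_tens (α := α) (β := β) a1.σ_eq b1.σ_eq (by rw [a1.ε_eq, b1.ε_eq, mul_one]; rfl)
    (fun _ _ _ _ => by rw [a3, b3, ofQuad_B, hc]; ring) (fun _ _ _ _ e => mul_left_cancel₀ h2 (by
      rwa [(isQuad_ofQuad Q).B_self, (isQuad_ofQuad Q).B_self] at e))
    (h α β a1 b1 (fun x e => by simpa [a3, c0] using α.B_self_eq_zero e) fun x e => by simpa [b3] using β.B_self_eq_zero e)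

omit [Fintype F] in
theorem two_mul_lt {α : Form F (Fin m → F)} [α.Nondeg] {f : (Fin m → F) → (Fin m → F) → F} (h : ∀ x, α.Q x = 0 → f x x = 0)
    (hm : Odd m ∨ ¬ IsPlusTypeOn (fun v => f v v) ⊤) (P) (hP : α.TS P) : 2 * finrank F P < finrank F (Fin m → F) :=
  lt_of_le_of_ne hP.finrank_le fun e => hm.elim (fun ⟨n, hn⟩ => by simp at e; omega) fun hm =>
    hm ⟨P, le_top, fun x hx => h x (hP.1 x hx), by simpa using e⟩

theorem om_tens_max (ho : Odd (Fintype.card F)) {Q : QuadraticForm F (ι → F)} [(ofQuad Q).Nondeg] (h3 : 3 ≤ m) (h : m < k)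
    (h5 : 5 ≤ k) (hex : ¬ (Fintype.card F = 3 ∧ m = 3)) {e : ι ≃ Fin m × Fin k} {P : GL ι F} {f₁ f₂} (h₁ : IsSymmetricForm f₁)
    (h₂ : IsSymmetricForm f₂) (hm : Odd m ∨ ¬ IsPlusTypeOn (fun v => f₁ v v) ⊤)
    (hT : IsTensorFormStructure _root_.id (QuadraticMap.polar Q) f₁ f₂ e P) :
    IsMaximalIn (omegaGL Q) (tensorProductSubgroup m k e P ⊓ omegaGL Q) :=
  om_tens_aux ho h3 (by omega) h₁ h₂ hT fun α β _ _ a b a' _ t => ⟨t.not_E_le ((isQuad_ofQuad Q).big (by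
    rw [finrank_fintype_fun_eq_card, Fintype.card_congr e]; simp; nlinarith)) (wd_quad b (by simpa)) (by simp; omega),
    fun M H => H.oo (odd_card.1 ho) a (by simpa) (or_iff_not_imp_left.2 fun e => exists_sq_ne ho fun e' => hex ⟨e', by
      simp at e; omega⟩) b (isQuad_ofQuad Q) (by simpa) (by simpa) (two_mul_lt a' hm)⟩

theorem om_tens_max' (ho : Odd (Fintype.card F)) {Q : QuadraticForm F (ι → F)} [(ofQuad Q).Nondeg] (h3 : 3 ≤ k) (h : k < m)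
    (h5 : 5 ≤ m) (hex : ¬ (Fintype.card F = 3 ∧ k = 3)) {e : ι ≃ Fin m × Fin k} {P : GL ι F} {f₁ f₂} (h₁ : IsSymmetricForm f₁)
    (h₂ : IsSymmetricForm f₂) (hm : Odd k ∨ ¬ IsPlusTypeOn (fun v => f₂ v v) ⊤)
    (hT : IsTensorFormStructure _root_.id (QuadraticMap.polar Q) f₁ f₂ e P) :
    IsMaximalIn (omegaGL Q) (tensorProductSubgroup m k e P ⊓ omegaGL Q) :=
  om_tens_aux ho (by omega) h3 h₁ h₂ hT fun α β _ _ a b _ b' t => ⟨t.flip_PT ▸ t.flip.not_E_le ((isQuad_ofQuad Q).big (by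
    rw [finrank_fintype_fun_eq_card, Fintype.card_congr e]; simp; nlinarith)) (wd_quad a (by simpa)) (by simp; omega),
    fun M H => t.flip_PT ▸ H.flip.oo (odd_card.1 ho) b (by simpa) (or_iff_not_imp_left.2 fun e => exists_sq_ne ho fun e' =>
      hex ⟨e', by simp at e; omega⟩) a (isQuad_ofQuad Q) (by simpa) (by simpa) (two_mul_lt b' hm)⟩

end H12.Tn
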