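import Mathlib
import Cfsg.Agent.H10.MxB

/-!
# Extension field subgroups of unitary groups, I
* `FU φ ψ l M` : `φ = l ∘ ψ` Hermitian, `M` consists of `φ`-isometries and contains `E(ψ)`
* the maximal pair argument of `H10.MxK` for `σ ≠ id`
-/

namespace H12.Xf

open Module H10 H10.Form H10.Mx

variable {F K V : Type*} [Field F] [Field K] [Algebra F K] [AddCommGroup V] [Module F V] [Module K V]
  [IsScalarTower F K V]

/-- the fixed field of `σ` -/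
abbrev Fx (σ : F →+* F) : Subfield F := σ.eqLocusField (RingHom.id F)

section fx
variable {σ : F →+* F} {τ : K →+* K} (hc : ∀ c : F, τ (algebraMap F K c) = algebraMap F K (σ c))

omit [AddCommGroup V] [Module F V] [Module K V] [IsScalarTower F K V] in
include hc in
theorem tau_smul (c : F) (a : K) : τ (c • a) = σ c • τ a := by simp only [Algebra.smul_def, map_mul, hc]

/-- the fixed points of `τ` -/
def K0 : Submodule (Fx σ) K where
  carrier := {a | τ a = a}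
  zero_mem' := map_zero τ
  add_mem' := fun ha hb => by rw [Set.mem_setOf_eq, map_add, ha, hb]
  smul_mem' := fun c a ha => (tau_smul hc c.1 a).trans (by rw [show σ c = c from c.2, ha]; rfl)

theorem mem_K0 {a : K} : a ∈ K0 hc ↔ τ a = a := Iff.rfl

include hc
variable {ω : F} (hω : σ ω ≠ ω)
include hω

theorem K0_inj {a b : K} (ha : τ a = a) (hb : τ b = b) (e : a + ω • b = 0) : a = 0 ∧ b = 0 := by
  have e' := congrArg τ e
  rw [map_add, tau_smul hc, ha, hb, map_zero] at e'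
  have : (σ ω - ω) • b = 0 := by rw [sub_smul]; linear_combination e' - e
  rw [smul_eq_zero_iff_right (sub_ne_zero.2 hω)] at this
  exact ⟨by simpa [this] using e, this⟩

theorem K0_dec (hσ : ∀ a, σ (σ a) = a) (hτ : ∀ a, τ (τ a) = a) (k : K) : ∃ a b, τ a = a ∧ τ b = b ∧ k = a + ω • b := by
  have h0 := sub_ne_zero.2 hω.symm
  have hb : τ ((ω - σ ω)⁻¹ • (k - τ k)) = (ω - σ ω)⁻¹ • (k - τ k) := by
    rw [tau_smul hc, map_inv₀, map_sub, map_sub, hσ, hτ, ← neg_sub ω, ← neg_sub k, inv_neg, neg_smul_neg]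
  refine ⟨k - ω • (ω - σ ω)⁻¹ • (k - τ k), _, ?_, hb, by abel⟩
  rw [map_sub, tau_smul hc, hb]
  have : (ω - σ ω) • (ω - σ ω)⁻¹ • (k - τ k) = k - τ k := smul_inv_smul₀ h0 _
  rw [sub_smul] at this
  linear_combination this

theorem finrank_K0 (hσ : ∀ a, σ (σ a) = a) (hτ : ∀ a, τ (τ a) = a) : finrank (Fx σ) K = 2 * finrank (Fx σ) (K0 hc) := by
  let T : (K0 hc × K0 hc) →ₗ[Fx σ] K := (K0 hc).subtype.coprod (ω • (K0 hc).subtype)
  have : Function.Bijective T := ⟨(injective_iff_map_eq_zero T).2 fun x hx => by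
    obtain ⟨a, b⟩ := K0_inj hc hω x.1.2 x.2.2 hx
    exact Prod.ext (Subtype.ext a) (Subtype.ext b), fun k => by
    obtain ⟨a, b, i, j, rfl⟩ := K0_dec hc hω hσ hτ k
    exact ⟨(⟨a, i⟩, ⟨b, j⟩), rfl⟩⟩
  rw [← (LinearEquiv.ofBijective T this).finrank_eq]
  by_cases hf : Module.Finite (Fx σ) (K0 hc)
  · rw [finrank_prod, two_mul]
  · rw [finrank_of_not_finite hf, finrank_of_not_finite fun h => hf (.of_surjective (LinearMap.fst (Fx σ) (K0 hc) (K0 hc)) Prod.fst_surjective)]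

omit hc [Algebra F K] [Field K] in
theorem finrank_Fx (hσ : ∀ a, σ (σ a) = a) : finrank (Fx σ) F = 2 := by
  rw [finrank_K0 (K := F) (τ := σ) (fun _ => rfl) hω hσ hσ, finrank_eq_one (R := Fx σ)
    (M := K0 (K := F) (τ := σ) fun _ => rfl) ⟨1, map_one σ⟩ (by simp [Subtype.ext_iff]) fun w => ⟨⟨w.1, w.2⟩, Subtype.ext (mul_one _)⟩]

end fx

structure FU (φ : Form F V) (ψ : Form K V) (l : Dual F K) (M : Subgroup (V ≃ₗ[F] V)) : Prop where
  hφ : ∃ q, φ.IsUnitary q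
  hψ : ∃ q, ψ.IsUnitary q
  σK : ∀ c : F, ψ.σ (algebraMap F K c) = algebraMap F K (φ.σ c)
  l0 : l ≠ 0
  lσ : ∀ a, l (ψ.σ a) = φ.σ (l a)
  B : ∀ x y, φ.B x y = l (ψ.B x y)
  le : M ≤ φ.Isom
  mem : ∀ g ∈ ψ.E, ∃ x ∈ M, ∀ z, x z = g.1 z
  pr : (finrank F K).Prime

namespace FU
variable {φ : Form F V} {ψ : Form K V} {l : Dual F K} {M : Subgroup (V ≃ₗ[F] V)} (h : FU φ ψ l M)
  {A B : Submodule F V} {v w y t : V}
include h

theorem hm : φ.IsHerm := h.hφ.elim fun _ e => e.herm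
theorem hm' : ψ.IsHerm := h.hψ.elim fun _ e => e.herm
theorem Q (x : V) (e : ψ.Q x = 0) : φ.Q x = 0 := by rw [h.hm.Q_eq, h.B, ← h.hm'.Q_eq, e, map_zero]
theorem sq (x y : V) (e : ψ.B x x = ψ.B y y) : ψ.Q x = ψ.Q y := by rwa [h.hm'.Q_eq, h.hm'.Q_eq]
theorem Bm {g : V ≃ₗ[F] V} (hg : g ∈ M) (x y : V) : φ.B (g x) (g y) = φ.B x y := (h.le hg).B x y
theorem Bm' {g : V ≃ₗ[F] V} (hg : g ∈ M) (x y : V) : φ.B (g.symm x) y = φ.B x (g y) := by
  rw [← h.Bm hg, g.apply_symm_apply]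
theorem βs (c : F) (x y : V) : ψ.B (c • x) y = φ.σ c • ψ.B x y := by
  rw [← algebraMap_smul K c x, ψ.B_smul_left, h.σK, Algebra.smul_def]

theorem om : ∃ ω, φ.σ ω ≠ ω := h.hφ.elim fun _ e => e.exists_σ_ne
theorem fin : Finite F := h.hφ.elim fun _ e => e.finite
theorem fx2 : finrank (Fx φ.σ) F = 2 := h.om.elim fun _ e => finrank_Fx e φ.σσ
theorem rk0 : finrank (Fx φ.σ) (K0 h.σK) = finrank F K := by
  obtain ⟨ω, e⟩ := h.om
  have := finrank_K0 h.σK e φ.σσ ψ.σσ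
  rw [← finrank_mul_finrank _ F K, h.fx2] at this
  omega

theorem exists_l [FiniteDimensional F K] {c : F} (hc : φ.σ c = c) : ∃ a, ψ.σ a = a ∧ l a = c := by
  obtain ⟨_, e⟩ := h.hφ
  obtain ⟨t, ht⟩ := e.exists_T_eq hc
  obtain ⟨a, rfl⟩ := LinearMap.surjective h.l0 t
  exact ⟨a + ψ.σ a, by simp [add_comm], by rw [map_add, h.lσ, ← ht, e.herm.T_eq]⟩

theorem cwE [FiniteDimensional F V] [FiniteDimensional F K] (Y : Submodule F V) (t : V) (Z : Submodule (Fx φ.σ) K)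
    (hZ : ∀ y ∈ Y, ψ.B y y + (ψ.B t y + ψ.B y t) ∈ Z) (hd : finrank (Fx φ.σ) Z < finrank F Y) :
    ∃ y ∈ Y, y ≠ 0 ∧ ψ.B y y + (ψ.B t y + ψ.B y t) = 0 := by
  have := h.fin
  have := Module.finite_of_finite F (M := K)
  have := Module.finite_of_finite F (M := V)
  let G : V →ₗ[Fx φ.σ] V →ₗ[Fx φ.σ] K := .mk₂ _ (fun x y => ψ.B x y) (by simp)
    (fun c x y => (h.βs c x y).trans (by rw [show φ.σ c = c from c.2]; rfl)) (by simp)
    (fun c x y => (ψ.B x).map_smul_of_tower c.1 y)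
  obtain ⟨π, hπ⟩ := Z.subtype.exists_leftInverse_of_injective (Submodule.ker_subtype _)
  obtain ⟨y, y0, hy⟩ := cw ((G.domRestrict₁₂ (Y.restrictScalars _) (Y.restrictScalars _)).compr₂ π)
    (π ∘ₗ (G t + G.flip t).domRestrict (Y.restrictScalars _)) (by
      have := finrank_mul_finrank (Fx φ.σ) F Y
      rw [h.fx2] at this
      exact lt_of_lt_of_eq (by omega) this)
  exact ⟨y, y.2, fun e => y0 (Subtype.ext e),
    congrArg Subtype.val ((LinearMap.congr_fun hπ ⟨_, hZ y y.2⟩).symm.trans ((map_add π _ _).trans hy))⟩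

theorem perp_iff : (∀ a ∈ pt F K v, φ.B a y = 0) ↔ ψ.B v y = 0 := by
  refine ⟨fun H => eq_zero_of_mul h.l0 fun k => ?_, fun H a ha => ?_⟩
  · simpa [h.B, ψ.B_smul_left] using H _ (smul_mem_pt (ψ.σ k) v)
  · obtain ⟨k, rfl⟩ := mem_pt.1 ha; simp [h.B, ψ.B_smul_left, H]

theorem ts (hA : A ∈ Fam M (StQ F ψ)) : φ.TS A := by
  obtain ⟨g, hg, _, ⟨v, -, hv, rfl⟩, rfl⟩ := hA
  refine TS.map (g := ⟨g, h.le hg⟩) ⟨fun x hx => ?_, fun x hx y hy => h.perp_iff.2 ?_ x hx⟩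
  · obtain ⟨k, rfl⟩ := mem_pt.1 hx; exact h.Q _ (ψ.Q_smul_of_sing hv k)
  · obtain ⟨k, rfl⟩ := mem_pt.1 hy; simp [ψ.B_self_eq_zero hv]

omit h in
theorem rk (hA : A ∈ Fam M (StQ F ψ)) : finrank F A = finrank F K := by
  obtain ⟨g, -, _, ⟨v, hv, -, rfl⟩, rfl⟩ := hA; rw [LinearEquiv.finrank_map_eq, finrank_pt hv]

omit h in
theorem exists_not [FiniteDimensional F V] (hm : MP M (StQ F ψ) A B) : ∃ t ∈ B, t ∉ A :=
  hm.exists_not (r := finrank F K) fun _ hP => rk (mem_fam (M := M) hP)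

variable [φ.Nondeg] [ψ.Nondeg] [FiniteDimensional F V] [FiniteDimensional K V] [FiniteDimensional F K]

omit [φ.Nondeg] [FiniteDimensional F V] [FiniteDimensional F K] in
theorem sing (W : Submodule K V) (h2 : 2 ≤ finrank K W) : ∃ v ∈ W, v ≠ 0 ∧ ψ.Q v = 0 :=
  h.hψ.elim fun _ e => e.exists_singular h2

omit [φ.Nondeg] [FiniteDimensional F V] [FiniteDimensional F K] in
theorem sg {s : K} (hv : ψ.Q v = 0) (hw : ψ.B v w = 0) (hs : ψ.T s = ψ.Q w) : ∃ x ∈ M, ∀ z,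
    x z = z + ψ.B w z • v - (ψ.ε * ψ.B v z) • w - (ψ.ε * s * ψ.B v z) • v :=
  (h.mem _ (ψ.siegel_mem_E hv hw hs)).imp fun _ hx => ⟨hx.1, fun z => (hx.2 z).trans (ψ.siegel_apply hv hw hs z)⟩

omit [φ.Nondeg] [FiniteDimensional F V] [FiniteDimensional F K] in
theorem sg' (hv : ψ.Q v = 0) (hw : ψ.B v w = 0) : ∃ x ∈ M, (∀ z, ψ.B v z = 0 → x z = z + ψ.B w z • v) ∧
    ∀ z, ∃ a : K, x z = z - (ψ.ε * ψ.B v z) • w + a • v := by
  obtain ⟨s, hs, -⟩ := ψ.half w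
  obtain ⟨x, hx, e⟩ := h.sg hv hw hs
  exact ⟨x, hx, fun z hz => by simp [e, hz], fun z => ⟨ψ.B w z - ψ.ε * s * ψ.B v z, by rw [e]; module⟩⟩

omit [φ.Nondeg] [FiniteDimensional F V] [FiniteDimensional F K] in
theorem trans (hb : ψ.Big) {u v : V} (hu : ψ.Q u = 0) (u0 : u ≠ 0) (hv : ψ.Q v = 0) (v0 : v ≠ 0) :
    ∃ g ∈ M, (∀ (k : K) y, g (k • y) = k • g y) ∧ (∀ x y, ψ.B (g x) (g y) = ψ.B x y) ∧ g u = v := by
  obtain ⟨g, hg, e⟩ := hb.exists_E_map_sing hu u0 hv v0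
  obtain ⟨x, hx, e'⟩ := h.mem g hg
  exact ⟨x, hx, by simp [e'], by simp [e'], by rw [e', e]⟩

omit [φ.Nondeg] [FiniteDimensional F V] [FiniteDimensional F K] in
theorem rad (hB : B ∈ Fam M (StQ F ψ)) {a b : V} (ha : ∀ y ∈ B, φ.B y a = 0) (ha' : a ∉ B) (hb : b ∈ B) :
    ∃ x ∈ M, (∀ y ∈ B, x y = y) ∧ x a = a + b := by
  obtain ⟨g, hg, _, ⟨v, -, hv, rfl⟩, rfl⟩ := hB
  obtain ⟨k, hk⟩ := mem_pt.1 (mem_map_iff.1 hb)
  obtain ⟨χ, c, d⟩ := exists_dual_val (K := K) (v := v) (t := g.symm a) (fun e => ha' (mem_map_iff.2 e)) k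
  obtain ⟨w, rfl⟩ := ψ.exists_B_eq χ
  obtain ⟨x, hx, e, -⟩ := h.sg' hv (ψ.B_symm_zero c)
  have e1 : ψ.B v (g.symm a) = 0 := h.perp_iff.1 fun y hy => by
    rw [← h.Bm hg, g.apply_symm_apply]; exact ha _ (Submodule.mem_map_of_mem hy)
  refine ⟨g * x * g⁻¹, M.mul_mem (M.mul_mem hg hx) (M.inv_mem hg), ?_, by simp [LinearEquiv.mul_apply, e _ e1, d, hk]⟩
  rintro _ ⟨y, hy, rfl⟩
  obtain ⟨k, rfl⟩ := mem_pt.1 hy
  simp [LinearEquiv.mul_apply, e (k • v) (by simp [ψ.B_self_eq_zero hv]), c]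

omit [φ.Nondeg] [FiniteDimensional F K] in
theorem perp_of (hk : 4 ≤ finrank K V) (hm : MP M (StQ F ψ) (pt F K v) B) (hv : ψ.Q v = 0) (h1 : t ∈ B)
    (h2 : t ∉ pt F K v) (h3 : ψ.B v t = 0) (hy : y ∈ B) : ψ.B v y = 0 := by
  by_contra h4
  obtain ⟨w, a, b⟩ : ∃ w ∈ ψ.perp ((K ∙ v) ⊔ K ∙ t), w ∉ K ∙ v := by
    by_contra! H
    have := Submodule.finrank_mono (show _ ≤ _ from H)
    have := ψ.finrank_perp ((K ∙ v) ⊔ K ∙ t)
    have := Submodule.finrank_add_le_finrank_add_finrank (K ∙ v) (K ∙ t)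
    have := finrank_span_singleton_le (F := K) v
    have := finrank_span_singleton_le (F := K) t
    omega
  rw [ψ.perp_sup, Submodule.mem_inf, ψ.mem_perp_singleton, ψ.mem_perp_singleton] at a
  obtain ⟨χ, c, d⟩ := exists_dual_val b (1 : K)
  obtain ⟨s, ⟨s1, s2⟩, s0⟩ := (Submodule.ne_bot_iff _).1 hm.nb
  refine (finrank_lt_of (χ.restrictScalars F) (fun k => ?_) s2 s0 (by
    obtain ⟨k, rfl⟩ := mem_pt.1 s1; simp [c])).ne (rk hm.r).symm
  obtain ⟨x, hx, e, e'⟩ := h.sg' (w := (-k / (ψ.ε * ψ.B v y)) • w) hv (by simp [a.1])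
  have e1 : ∀ z, ψ.B v z = 0 → ψ.B w z = 0 → x z = z := fun z p q => by simp [e z p, ψ.B_smul_left, q]
  have := hm.stab hx (fun z p q => by
    obtain ⟨k, rfl⟩ := mem_pt.1 p
    rwa [e1 _ (by simp [ψ.B_self_eq_zero hv]) (by simp [ψ.B_symm_zero a.1])]) h1 h2
    (by rwa [e1 _ h3 (ψ.B_symm_zero a.2)]) y hy
  obtain ⟨i, j⟩ := e' y
  refine ⟨_, sub_mem this hy, ?_⟩
  have := ψ.ε_ne_zero
  simp [j, c, d]; field_simp

omit [φ.Nondeg] in
theorem codim (hm : MP M (StQ F ψ) A B) (hp : ∀ a ∈ A, ∀ b ∈ B, φ.B a b = 0) (h1 : t ∈ B) (h2 : t ∉ A) (hy : y ∈ B) :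
    ∃ c : F, y - c • t ∈ A := by
  obtain ⟨g, hg, _, ⟨v, -, hv, rfl⟩, rfl, hm'⟩ := hm.std
  have h3 : g.symm t ∉ pt F K v := fun h => h2 (mem_map_iff.2 h)
  have h4 : ∀ b ∈ B, ψ.B v (g.symm b) = 0 := fun b hb => h.perp_iff.1 fun a ha => by
    rw [← h.Bm hg, g.apply_symm_apply]; exact hp _ (Submodule.mem_map_of_mem ha) b hb
  obtain ⟨u, hu, hu'⟩ := exists_not hm'.symm
  obtain ⟨c, hc⟩ := lemZ h.pr (S := (B.map (g.symm : V →ₗ[F] V)).comap
    ((LinearMap.toSpanSingleton K V v).restrictScalars F)) (t' := g.symm y)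
    (fun h0 => hm'.nb (eq_bot_iff.2 fun z hz => by
      obtain ⟨k, rfl⟩ := mem_pt.1 hz.1
      simp [show k = 0 from h0.le hz.2]))
    (fun h0 => by
      obtain ⟨k, rfl⟩ := mem_pt.1 hu
      exact hu' (h0.ge (Submodule.mem_top (x := k)))) h3 fun χ a b => by
    obtain ⟨w, rfl⟩ := ψ.exists_B_eq χ
    obtain ⟨x, hx, e, -⟩ := h.sg' hv (ψ.B_symm_zero a)
    have := hm'.stab hx (fun z hz hz' => by
      obtain ⟨k, rfl⟩ := mem_pt.1 hz
      rwa [e _ (by simp [ψ.B_self_eq_zero hv]), map_smul, a, smul_zero, zero_smul, add_zero])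
      (Submodule.mem_map_of_mem h1) h3
      (by rw [LinearEquiv.coe_coe, e _ (h4 t h1)]; exact add_mem (Submodule.mem_map_of_mem h1) b) _ (Submodule.mem_map_of_mem hy)
    rw [LinearEquiv.coe_coe, e _ (h4 y hy)] at this
    exact (add_mem_cancel_left (Submodule.mem_map_of_mem hy)).1 this
  exact ⟨c, mem_map_iff.2 (by rw [map_sub, map_smul]; exact hc)⟩

theorem exists_t1 (hk : 4 ≤ finrank K V) (hm : MP M (StQ F ψ) A B) :
    ∃ A B, MP M (StQ F ψ) A B ∧ ∀ a ∈ A, ∀ b ∈ B, φ.B a b = 0 := by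
  have H : ∀ A B, MP M (StQ F ψ) A B → ∀ t ∈ B, t ∉ A → (∀ a ∈ A, φ.B a t = 0) →
      ∃ A B, MP M (StQ F ψ) A B ∧ ∀ a ∈ A, ∀ b ∈ B, φ.B a b = 0 := fun A B hm t h1 h2 h3 => by
    obtain ⟨g, hg, _, ⟨v, -, hv, rfl⟩, rfl, hm'⟩ := hm.std
    exact ⟨_, _, hm', fun a ha b hb => h.perp_iff.2 (h.perp_of hk hm' hv (Submodule.mem_map_of_mem h1)
      (fun e => h2 (mem_map_iff.2 e)) (h.perp_iff.1 fun a ha => by
        rw [LinearEquiv.coe_coe, ← h.Bm hg, g.apply_symm_apply]; exact h3 _ (Submodule.mem_map_of_mem ha)) hb) a ha⟩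
  obtain ⟨_, -, _, ⟨v, v0, hv, rfl⟩, -, hm'⟩ := hm.std
  obtain ⟨B, hm⟩ : ∃ B, MP M (StQ F ψ) (pt F K v) B := ⟨_, hm'⟩
  obtain ⟨t, h1, h2⟩ := exists_not hm
  by_cases h3 : ∃ t ∈ B, t ∉ pt F K v ∧ ψ.B v t = 0
  · obtain ⟨t, a, b, c⟩ := h3; exact H _ _ hm t a b (h.perp_iff.2 c)
  push Not at h3
  let Y := φ.perp (pt F K v ⊔ B)
  have d1 : 2 * finrank F K < finrank F Y ∧ 2 * finrank F K + finrank F ↥(pt F K v ⊓ B) ≤ finrank F Y := by
    have := φ.finrank_perp (pt F K v ⊔ B)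
    have := Submodule.finrank_sup_add_finrank_inf_eq (pt F K v) B
    have := mt Submodule.finrank_eq_zero.1 hm.nb
    have := Nat.mul_le_mul_left (finrank F K) hk
    rw [finrank_mul_finrank, finrank_pt v0, rk hm.r] at *
    simp only [Y]; omega
  have d2 : ∀ y ∈ Y, ψ.B v y = 0 := fun y hy => h.perp_iff.1 fun a ha => φ.mem_perp.1 hy a (Submodule.mem_sup_left ha)
  obtain ⟨y, y1, y3, hy⟩ : ∃ y ∈ Y, y ∉ B ∧ ψ.B y y + (ψ.B t y + ψ.B y t) = 0 := by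
    obtain ⟨C, hC⟩ := (pt F K v ⊓ B).exists_isCompl
    obtain ⟨y, y1, y0, hy⟩ := h.cwE (Y ⊓ C) t (K0 h.σK) (fun y _ => by simp [mem_K0, h.hm'.σ_B, add_comm]) (by
      have := Submodule.finrank_sup_add_finrank_inf_eq Y C
      have := Submodule.finrank_add_eq_of_isCompl hC
      have := Submodule.finrank_le (Y ⊔ C)
      have := h.pr.pos
      rw [h.rk0]; omega)
    exact ⟨y, y1.1, fun e => y0 (hC.disjoint.le_bot ⟨⟨by_contra fun e' => h3 _ e e' (d2 _ y1.1), e⟩, y1.2⟩), hy⟩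
  have y2 : ∀ b ∈ B, φ.B b y = 0 := fun a ha => φ.mem_perp.1 y1 a (Submodule.mem_sup_right ha)
  have y4 : ψ.Q t = ψ.Q (t + y) := h.sq _ _ (by simp only [map_add, LinearMap.add_apply]; linear_combination -hy)
  obtain ⟨s, a, b, c⟩ := exists_siegel_map hv y4 (by simp [d2 y y1]) (h3 t h1 h2)
  obtain ⟨x, hx, e⟩ := h.mem _ (ψ.siegel_mem_E hv a b)
  have h4 : t + y ∈ B.map (x : V →ₗ[F] V) := ⟨t, h1, (e t).trans c⟩
  have h5 : t + y ∉ B := fun e => y3 ((add_mem_cancel_left h1).1 e)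
  have h6 : pt F K v ⊓ B ≤ B ⊓ B.map (x : V →ₗ[F] V) := fun z hz => ⟨hz.2, z, hz.2, by
    obtain ⟨k, rfl⟩ := mem_pt.1 hz.1
    exact (e _).trans (by rw [map_smul, siegel_apply_self hv a b])⟩
  exact H B _ ⟨hm.r, fam_map hm.r hx, fun e => h5 (e.ge h4), fun e => hm.nb (le_bot_iff.1 (h6.trans e.le)),
    fun _ a _ b c => (hm.mx _ a _ b c).trans (Submodule.finrank_mono h6)⟩ _ h4 h5 fun a ha => by
      rw [map_add, y2 a ha, (h.ts hm.r).B a ha t h1, add_zero]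

omit [φ.Nondeg] [ψ.Nondeg] [FiniteDimensional K V] in
theorem exists_mp (hA : A ∈ Fam M (StQ F ψ)) (hA' : A ∉ StQ F ψ) : ∃ A B, MP M (StQ F ψ) A B := by
  have := h.fin
  have := Module.finite_of_finite F (M := K)
  obtain ⟨v, v1, v0, hv⟩ := h.cwE A 0 (K0 h.σK ⊓ LinearMap.ker (l.restrictScalars _)) (fun y hy =>
    ⟨by simp [mem_K0, h.hm'.σ_B], by simpa [h.B] using (h.ts hA).B y hy y hy⟩) (by
      rw [rk hA, ← h.rk0]
      refine Submodule.finrank_lt_finrank_of_lt (inf_lt_left.2 fun e => ?_)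
      obtain ⟨a, i, j⟩ := h.exists_l (c := 1) (map_one _)
      exact one_ne_zero (j.symm.trans (e i)))
  replace hv : ψ.Q v = 0 := by simpa [h.hm'.Q_eq] using hv
  exact Mx.exists_mp hA (mem_fam ⟨v, v0, hv, rfl⟩) (fun e => hA' ⟨v, v0, hv, e⟩)
    ((Submodule.ne_bot_iff _).2 ⟨v, ⟨v1, self_mem_pt v⟩, v0⟩)

omit h [φ.Nondeg] [ψ.Nondeg] [FiniteDimensional F V] [FiniteDimensional K V] [FiniteDimensional F K] in
theorem pres (H : ∀ A ∈ Fam M (StQ F ψ), A ∈ StQ F ψ) {g : V ≃ₗ[F] V} (hg : g ∈ M) (k : K) (hv : ψ.Q v = 0) :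
    cn g ((LinearMap.lsmul K V k).restrictScalars F) v ∈ pt F K v := by
  by_cases v0 : v = 0
  · simp [v0]
  obtain ⟨w, -, -, e⟩ := H _ (fam_map (mem_fam ⟨v, v0, hv, rfl⟩) (symm_mem hg))
  obtain ⟨a, ha⟩ := mem_pt.1 (e.le (Submodule.mem_map_of_mem (self_mem_pt v)))
  simpa [← mul_smul, mul_comm, ← show a • w = g.symm v from ha] using mem_map_iff.1 (e.ge (smul_mem_pt (k * a) w))

omit [φ.Nondeg] [FiniteDimensional F V] [FiniteDimensional F K] in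
theorem nrm (hk : 3 ≤ finrank K V) (hN : ∀ v w, ψ.Q v = 0 → ψ.Q w = 0 → ψ.B v w ≠ 0 →
      ∃ u, ψ.Q u = 0 ∧ u ∉ (K ∙ v) ⊔ (K ∙ w) ∧ ψ.Q (v + w + u) = 0)
    (H : ∀ A ∈ Fam M (StQ F ψ), A ∈ StQ F ψ) : ∀ g ∈ M, ∀ k : K, ∃ k' : K, ∀ y, g (k • y) = k' • g y := fun g hg k => by
  set θ := cn g ((LinearMap.lsmul K V k).restrictScalars F) with eθ
  choose! a ha using fun v (hv : ψ.Q v = 0) => mem_pt.1 (pres H hg k hv)
  have h1 : ∀ v w, ψ.Q v = 0 → ψ.Q w = 0 → ψ.B v w ≠ 0 → a v = a w := fun v w hv hw b => by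
    obtain ⟨u, c, d, e⟩ := hN v w hv hw b
    obtain ⟨χ, i, j⟩ := exists_dual_sep d
    have m := ha _ e
    rw [map_add, map_add, ← ha v hv, ← ha w hw, ← ha u c] at m
    have n := congrArg χ m
    simp only [map_smul, map_add, i v (Submodule.mem_sup_left (Submodule.mem_span_singleton_self v)),
      i w (Submodule.mem_sup_right (Submodule.mem_span_singleton_self w)), j, smul_eq_mul, mul_zero, zero_add, mul_one] at n
    rw [n, smul_add, add_left_inj, smul_add] at m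
    have p := congrArg (ψ.B v) m
    have q := congrArg (ψ.B w) m
    simp [ψ.B_self_eq_zero hv, ψ.B_self_eq_zero hw, b, mt ψ.B_symm_zero b] at p q
    rw [← p, ← q]
  obtain ⟨e, -, e0, he⟩ := h.sing ⊤ (by simp; omega)
  obtain ⟨f, hyp⟩ := ψ.exists_hyp he e0
  let S : Submodule K V :=
    { carrier := {x | ∀ c : K, θ (c • x) = a e • c • x}
      zero_mem' := by simp
      add_mem' := fun hx hy c => by simp only [smul_add, map_add, hx c, hy c]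
      smul_mem' := fun d x hx c => by simpa only [smul_smul] using hx (c * d) }
  suffices ⊤ ≤ S from ⟨a e, fun y => by simpa [eθ] using this (Submodule.mem_top (x := g y)) 1⟩
  refine le_of_sing_mem hyp Submodule.mem_top Submodule.mem_top fun w _ _ hw c => ?_
  have hw' := ψ.Q_smul_of_sing hw c
  generalize c • w = w at hw'
  by_cases w0 : w = 0
  · simp [w0]
  rw [← ha w hw']; congr 1
  by_cases b : ψ.B e w = 0
  · obtain ⟨y, c, d, i⟩ := exists_common he e0 w0 b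
    rw [h1 e y he c d, h1 w y hw' c i]
  · exact (h1 e w he hw' b).symm

omit [ψ.Nondeg] [FiniteDimensional K V] [FiniteDimensional F K] in
theorem exists_f {a₀ : V} (h1 : a₀ ∉ B) (h2 : ∀ a ∈ A, ∃ c : F, a - c • a₀ ∈ B) :
    ∃ f, (∀ b ∈ B, φ.B f b = 0) ∧ φ.B f a₀ = 1 ∧ ∀ x : V ≃ₗ[F] V, (∀ y ∈ B, x y = y) → ∀ b, x a₀ = a₀ + b →
      ∀ a ∈ A, x a = a + φ.B f a • b := by
  obtain ⟨f, a, b⟩ := φ.exists_sep h1
  refine ⟨f, a, b, fun x c d e y hy => ?_⟩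
  obtain ⟨k, hk⟩ := h2 y hy
  have := a _ hk
  rw [map_sub, map_smul, b, smul_eq_mul, mul_one, sub_eq_zero] at this
  have i := c _ hk
  rw [map_sub, map_smul, e] at i
  rw [this]; linear_combination (norm := module) i

omit [φ.Nondeg] [ψ.Nondeg] [FiniteDimensional F V] [FiniteDimensional K V] [FiniteDimensional F K] in
theorem skew {Y : V →ₗ[F] V} (hA : φ.TS A) (hY : Zs M A Y) (z z' : V) : φ.B (Y z) z' = -φ.B z (Y z') := by
  obtain ⟨x, hx, e⟩ := hY.2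
  have := h.Bm hx z z'
  simp only [e, map_add, LinearMap.add_apply, hA.B _ (hY.1 _) _ (hY.1 _)] at this
  linear_combination this

omit [ψ.Nondeg] [FiniteDimensional F V] [FiniteDimensional K V] [FiniteDimensional F K] in
theorem Zker {Y : V →ₗ[F] V} (hA : φ.TS A) (hY : Zs M A Y) {z : V} (hz : ∀ a ∈ A, φ.B z a = 0) : Y z = 0 :=
  φ.eq_zero_of_B_left fun y => by rw [h.skew hA hY, hz _ (hY.1 y), neg_zero]

omit [ψ.Nondeg] [FiniteDimensional F V] [FiniteDimensional K V] [FiniteDimensional F K] in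
theorem Zsub {X Y : V →ₗ[F] V} (hA : φ.TS A) (hX : Zs M A X) (hY : Zs M A Y) : Zs M A (X - Y) :=
  ⟨fun z => sub_mem (hX.1 z) (hY.1 z), hX.2.sub hY.2 (fun z => h.Zker hA hX (hA.B _ (hY.1 z)))
    fun z => h.Zker hA hY (hA.B _ (hY.1 z))⟩

omit [ψ.Nondeg] [FiniteDimensional F V] [FiniteDimensional K V] [FiniteDimensional F K] in
theorem dl {Y : V →ₗ[F] V} {C : Submodule F V} (hC : φ.TS C) (hA : A ≤ C) (hY : Zs M A Y) {x : V ≃ₗ[F] V} (hx : x ∈ M)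
    {f b : V} (e : ∀ a ∈ A, x a = a + φ.B f a • b) (hb : b ∈ C) :
    ∃ D, Zs M C D ∧ ∀ z, D z = φ.B b z • Y f - φ.B (Y f) z • b + (φ.B f (Y f) * φ.B b z) • b := by
  have h1 : ∀ z, Y (x.symm z) = Y z + φ.B b z • Y f := fun z => φ.ext_B_right fun z' => by
    have := h.skew (hC.mono hA) hY z' (x.symm z)
    rw [← h.Bm hx, x.apply_symm_apply, e _ (hY.1 _), map_add, LinearMap.add_apply, φ.B_smul_left, h.hm.σ_B,
      h.skew (hC.mono hA) hY, h.skew (hC.mono hA) hY] at this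
    rw [map_add, map_smul, smul_eq_mul]; linear_combination this
  refine ⟨_, h.Zsub hC ⟨fun z => ?_, hY.2.cn hx⟩ ⟨fun z => hA (hY.1 z), hY.2⟩, fun z => ?_⟩
  · rw [cn_apply, e _ (hY.1 _)]; exact add_mem (hA (hY.1 _)) (C.smul_mem _ hb)
  rw [LinearMap.sub_apply, cn_apply, e _ (hY.1 _), h1, h.skew (hC.mono hA) hY f]
  simp only [map_add, map_smul, smul_eq_mul]; module

omit [φ.Nondeg] [FiniteDimensional F V] [FiniteDimensional F K] in
theorem tv (hA : A ∈ Fam M (StQ F ψ)) {f a : V} (ha : a ∈ A) (hf : φ.B f a ≠ 0) : ∃ g ∈ M, ∃ v, ψ.B v (g.symm f) ≠ 0 ∧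
    A = (pt F K v).map (g : V →ₗ[F] V) ∧ ∀ c, ψ.T c = 0 → ∃ Y, Zs M A Y ∧ Y f = g ((c * ψ.B v (g.symm f)) • v) := by
  obtain ⟨g, hg, _, ⟨v, -, hv, rfl⟩, rfl⟩ := hA
  refine ⟨g, hg, v, fun e => hf (φ.B_symm_zero ?_), rfl, fun c hc => ?_⟩
  · obtain ⟨a, ha, rfl⟩ := ha
    rw [LinearEquiv.coe_coe, ← h.perp_iff.2 e a ha, ← h.Bm hg a, g.apply_symm_apply]
  obtain ⟨x, hx, e⟩ := h.sg (w := 0) (s := -(ψ.ε * c)) hv (by simp) (by rcases ψ.ε_cases with e | e <;> simp [e, hc])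
  exact ⟨_, Zs.cn (Y := Mx.rk F v (c • ψ.B v)) ⟨fun z => smul_mem_pt _ _, x, hx, fun z => by simp [e]⟩ hg, by simp⟩

end FU
end H12.Xf
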