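import Mathlib
import Cfsg.Agent.H12.XfA
import Cfsg.Agent.H10.Subf

/-!
# Extension field subgroups of unitary groups, II
* `TF N u` : `N` contains the transvection group with centre `u`
* `FU.fin` : spreading; `FU.su_su` : the dichotomy for `dim_K V ≥ 4`
-/

namespace H12.Xf

open Module H10 H10.Form H10.Mx

variable {F K V : Type*} [Field F] [Field K] [Algebra F K] [AddCommGroup V] [Module F V] [Module K V]
  [IsScalarTower F K V]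

section tf
variable {φ : Form F V} [φ.Nondeg] [FiniteDimensional F V] {N : Subgroup φ.Isom} {p u w y : V} {t : F}

def TF (N : Subgroup φ.Isom) (u : V) : Prop := ∀ t, φ.T t = 0 → φ.siegel u 0 t ∈ N

theorem tv_apply (hφ : φ.IsHerm) (hu : φ.Q u = 0) (ht : φ.T t = 0) (z : V) :
    (φ.siegel u 0 t).1 z = z - (t * φ.B u z) • u := by
  rw [φ.siegel_apply hu (by simp) (by simpa using ht), hφ.ε_eq]; simp

theorem TF.map (h : TF N u) (hu : φ.Q u = 0) {g : φ.Isom} (hg : g ∈ N) : TF N (g.1 u) := fun t ht => by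
  simpa using siegel_conj_mem hg hu (w := 0) (by simp) (by simpa using ht) (h t ht)

theorem TF.smul (h : TF N u) (hu : φ.Q u = 0) (c : F) : TF N (c • u) := fun t ht => by
  rw [siegel_smul hu (by simp) (by simpa using ht), smul_zero]
  exact h _ (by rw [φ.T_norm, ht, mul_zero])

theorem inA_add (hφ : φ.IsHerm) (hp : φ.Q p = 0) (hw : φ.Q w = 0) (h0 : φ.B p w = 0) (h1 : TF N p) (h2 : TF N w)
    (h3 : TF N (p + w)) (ht : φ.T t = 0) : InA N p (t • w) := by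
  have e : φ.σ t = -t := by rw [hφ.T_eq] at ht; linear_combination ht
  have ht' : φ.T (-t) = 0 := by simp [ht]
  have hs : φ.T 0 = φ.Q (t • w) := by simp [φ.Q_smul_of_sing hw]
  refine ⟨by simp [h0], 0, hs, ?_⟩
  convert N.mul_mem (N.mul_mem (h3 t ht) (h1 _ ht')) (h2 _ ht') using 1
  refine Isom.ext fun z => ?_
  rw [φ.siegel_apply hp (by simp [h0]) hs, Isom.mul_apply, Isom.mul_apply, tv_apply hφ hw ht', tv_apply hφ hp ht',
    tv_apply hφ (by rw [φ.Q_add_of_orth h0, hp, hw, add_zero]) ht]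
  simp only [map_add, map_sub, map_smul, LinearMap.add_apply, φ.B_smul_left, e, h0, φ.B_symm_zero h0, φ.B_self_eq_zero hp,
    φ.B_self_eq_zero hw, hφ.ε_eq, smul_eq_mul]
  module

theorem inA_tv (hφ : φ.IsHerm) (hp : φ.Q p = 0) (hu : φ.Q u = 0) (h0 : φ.B u p = 0) (h1 : TF N u) (h2 : InA N p y)
    (ht : φ.T t = 0) : InA N p ((t * φ.B u y) • u) := by
  have := h2.map hp (h1 t ht)
  rw [tv_apply hφ hu ht, tv_apply hφ hu ht, h0, mul_zero, zero_smul, sub_zero] at this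
  simpa using h2.sub hp this

theorem mem_sg {hp : φ.Q p = 0} {hX : TF N p} : w ∈ sgSub N hp hX ↔ ∀ c : F, InA N p (c • w) :=
  ⟨fun h c => ⟨by simp [h.1], h.2 c⟩, fun h => ⟨by simpa using (h 1).1, fun c => (h c).2⟩⟩

theorem mem_sg_tv {q : ℕ} (hφ : φ.IsUnitary q) {hp : φ.Q p = 0} {hX : TF N p} (hu : φ.Q u = 0) (h0 : φ.B u p = 0)
    (h1 : TF N u) (h2 : y ∈ sgSub N hp hX) (h3 : φ.B u y ≠ 0) : u ∈ sgSub N hp hX := mem_sg.2 fun c => by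
  obtain ⟨t, t0, ht⟩ := hφ.exists_skew
  convert inA_tv hφ.herm hp hu h0 h1 (mem_sg.1 h2 (c / (t * φ.B u y))) ht using 2
  rw [map_smul, smul_eq_mul]; field_simp

end tf

namespace FU
variable {φ : Form F V} {ψ : Form K V} {l : Dual F K} {M : Subgroup (V ≃ₗ[F] V)} (h : FU φ ψ l M)
  {A B : Submodule F V} {u v w y s f : V}
  [φ.Nondeg] [ψ.Nondeg] [FiniteDimensional F V] [FiniteDimensional K V] [FiniteDimensional F K]
include h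

omit [ψ.Nondeg] [FiniteDimensional K V] [FiniteDimensional F K] in
theorem tf_of (hs : φ.Q s = 0) (H : ∀ t, φ.T t = 0 → ∃ D, Un M D ∧ ∀ z, D z = (t * φ.B s z) • s) :
    TF (M.subgroupOf φ.Isom) s := fun t ht => by
  obtain ⟨D, ⟨x, hx, e⟩, e'⟩ := H (-t) (by simp [ht])
  rwa [Subgroup.mem_subgroupOf, show (φ.siegel s 0 t).1 = x from LinearEquiv.ext fun z => by
    rw [tv_apply h.hm hs ht, e, e']; module]

omit [φ.Nondeg] [ψ.Nondeg] [FiniteDimensional F V] [FiniteDimensional K V] [FiniteDimensional F K] in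
theorem del : ∃ δ : F, δ ≠ 0 ∧ φ.σ δ = -δ := by
  obtain ⟨_, e⟩ := h.hφ
  obtain ⟨t, a, b⟩ := e.exists_skew
  exact ⟨t, a, by rw [e.herm.T_eq] at b; linear_combination b⟩

omit [φ.Nondeg] [FiniteDimensional F V] [FiniteDimensional F K] in
theorem orb (hv : ψ.Q v = 0) (hu : ψ.Q u = 0) (h0 : ψ.B v u ≠ 0) (h1 : ψ.σ (ψ.B v u) = -ψ.B v u) :
    ∃ g ∈ M, (∀ (k : K) y, g (k • y) = k • g y) ∧ (∀ x y, ψ.B (g x) (g y) = ψ.B x y) ∧ g v = u := by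
  have e1 : ψ.B u v = -ψ.B v u := by rw [h.hm'.B_comm, h1]
  have hp : ψ.Q (v - u) = 0 := by rw [ψ.Q_sub, hv, hu, h.hm'.T_eq, h1]; simp
  obtain ⟨s, a, b, c⟩ := exists_siegel_map hp (hv.trans hu.symm)
    (by simp [ψ.B_self_eq_zero hv, ψ.B_self_eq_zero hu, e1]) (by simpa [ψ.B_self_eq_zero hv, e1])
  obtain ⟨x, hx, e⟩ := h.mem _ (ψ.siegel_mem_E hp a b)
  exact ⟨x, hx, by simp [e], by simp [e], (e v).trans c⟩

omit [FiniteDimensional F K] in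
theorem tf_orb (hv : ψ.Q v = 0) (hu : ψ.Q u = 0) (h0 : ψ.B v u ≠ 0) (h1 : ψ.σ (ψ.B v u) = -ψ.B v u)
    (H : TF (M.subgroupOf φ.Isom) v) : TF (M.subgroupOf φ.Isom) u := by
  obtain ⟨g, hg, -, -, rfl⟩ := h.orb hv hu h0 h1
  exact H.map (h.Q v hv) (g := ⟨g, h.le hg⟩) hg

omit [φ.Nondeg] [ψ.Nondeg] [FiniteDimensional F V] [FiniteDimensional K V] [FiniteDimensional F K] in
theorem ker_dec {ω : F} (hω : φ.σ ω ≠ ω) {k : K} (hk : l k = 0) :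
    ∃ a b, ψ.σ a = a ∧ ψ.σ b = b ∧ l a = 0 ∧ l b = 0 ∧ k = a + ω • b := by
  obtain ⟨a, b, i, j, rfl⟩ := K0_dec h.σK hω φ.σσ ψ.σσ k
  obtain ⟨c, d⟩ := K0_inj (K := F) (τ := φ.σ) (fun _ => rfl) hω (a := l a) (b := l b) (by rw [← h.lσ, i]) (by rw [← h.lσ, j])
    (by simpa using hk)
  exact ⟨a, b, i, j, c, d, rfl⟩

theorem fin' (hv : ψ.Q v = 0) (v0 : v ≠ 0) (hX : TF (M.subgroupOf φ.Isom) v)
    (hA : ∀ k : K, InA (M.subgroupOf φ.Isom) v (k • v)) : φ.E ≤ M.subgroupOf φ.Isom := by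
  obtain ⟨q, hq⟩ := h.hφ
  obtain ⟨q', hq'⟩ := h.hψ
  obtain ⟨δ, δ0, hδ⟩ := h.del
  obtain ⟨ω, hω⟩ := h.om
  obtain ⟨f, hyp⟩ := ψ.exists_hyp hv v0
  set L := sgSub (M.subgroupOf φ.Isom) (h.Q v hv) hX
  have h1 : ∀ k : K, k • v ∈ L := fun k => mem_sg.2 fun c => by simpa using hA (c • k)
  have h2 : ∀ u, ψ.Q u = 0 → ∀ a, ψ.σ a = a → l a = 0 → a ≠ 0 → ψ.B v u = δ • a → u ∈ L := fun u hu a i j k e => by
    have b0 : ψ.B v u ≠ 0 := e ▸ smul_ne_zero δ0 k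
    obtain ⟨m, hm⟩ := exists_one h.l0
    have b1 := mt ψ.B_symm_zero b0
    exact mem_sg_tv hq (h.Q u hu) (φ.B_symm_zero (by simp [h.B, e, j]))
      (h.tf_orb hv hu b0 (by simp [e, tau_smul h.σK, hδ, i]) hX) (h1 (m / ψ.B u v)) (by simp [h.B, b1, hm])
  have h3 : ∀ a, ψ.σ a = a → l a = 0 → a • f ∈ L := fun a i j => by
    by_cases k : a = 0
    · simp [k]
    simpa [δ0] using L.smul_mem δ⁻¹ (h2 ((δ • a) • f) (ψ.Q_smul_of_sing hyp.Qf _) a i j k (by simp [hyp.Bef]))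
  have h4 : ∀ a, l a = 0 → a • f ∈ L := fun a j => by
    obtain ⟨a, b, i, j', c, d, rfl⟩ := h.ker_dec hω j
    simpa [add_smul] using add_mem (h3 a i c) (L.smul_mem ω (h3 b j' d))
  obtain ⟨a, a1, a2, a0⟩ : ∃ a, ψ.σ a = a ∧ l a = 0 ∧ a ≠ 0 := by
    obtain ⟨k, k0, k1⟩ := exists_ker (K := F) (V := K) h.pr.two_le l
    obtain ⟨a, b, i, j, c, d, rfl⟩ := h.ker_dec hω k1
    by_cases e : a = 0
    · exact ⟨b, j, d, by rintro rfl; simp [e] at k0⟩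
    · exact ⟨a, i, c, e⟩
  have h5 : ∀ w ∈ ψ.perp (Submodule.span K {v, f}), w ∈ L := fun w hw => by
    obtain ⟨c, d⟩ := ψ.mem_perp_pair.1 hw
    obtain ⟨b, hb⟩ := hq'.exists_T_eq (c := -ψ.Q w) (by rw [map_neg, hq'.herm.σ_Q])
    have e0 : ψ.σ (δ • a) ≠ 0 := by simp [δ0, a0]
    have := h2 (w + ((δ • a) • f + (b / ψ.σ (δ • a)) • v)) (by
      rw [ψ.Q_add_of_orth (by simp [ψ.B_symm_zero c, ψ.B_symm_zero d]), ψ.Q_add, ψ.Q_smul_of_sing hyp.Qf,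
        ψ.Q_smul_of_sing hv, ψ.B_smul_left, ψ.B_smul_right, hyp.Bfe, hq'.herm.ε_eq, mul_one,
        mul_div_cancel₀ _ e0, hb]; simp) a a1 a2 a0 (by simp [c, hyp.Bef, hyp.Bee])
    exact (add_mem_cancel_right (add_mem (h4 _ (by simp [a2])) (h1 _))).1 this
  have s4 : φ.Full (M.subgroupOf φ.Isom) v := full_of_le_sgSub (hp := h.Q v hv) fun x hx => by
    have := add_mem (add_mem (h5 _ (hyp.proj_mem x)) (h4 _ (h.B v x ▸ φ.mem_perp_singleton.1 hx))) (h1 (ψ.ε * ψ.B f x))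
    rwa [sub_add_cancel, sub_add_cancel] at this
  obtain ⟨m, m1, m2⟩ := h.exists_l (c := 1) (map_one _)
  obtain ⟨g, hg, -, -, e⟩ := h.orb hv (ψ.Q_smul_of_sing hyp.Qf (δ • m))
    (by simpa [hyp.Bef, δ0] using fun e => by simp [e] at m2) (by simp [hyp.Bef, tau_smul h.σK, hδ, m1])
  exact E_le_of_full s4 (h.Q v hv) (s4.map (h.Q v hv) (g := ⟨g, h.le hg⟩) hg) ((h.le hg).Q v ▸ h.Q v hv)
    (by simp [e, h.B, hyp.Bef, m2, δ0])

omit [φ.Nondeg] [FiniteDimensional F V] in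
theorem yf (hA : A ∈ Fam M (StQ F ψ)) {a : V} (ha : a ∈ A) (hf : φ.B f a ≠ 0) {t : F} (ht : φ.T t = 0) :
    ∃ y, φ.B f y = t ∧ ∀ c : F, φ.σ c = c → ∃ Y, Zs M A Y ∧ Y f = c • y := by
  obtain ⟨g, hg, v, b, -, d⟩ := h.tv hA ha hf
  obtain ⟨δ, δ0, hδ⟩ := h.del
  have e : φ.σ t = -t := by rw [h.hm.T_eq] at ht; linear_combination ht
  obtain ⟨k, k1, k2⟩ := h.exists_l (c := t / δ) (by simp [e, hδ])
  set m := ψ.B v (g.symm f) with em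
  have b' : ψ.σ m ≠ 0 := by simpa
  refine ⟨g ((δ • k / ψ.σ m) • v), ?_, fun c hc => ?_⟩
  · rw [← h.Bm' hg, h.B, map_smul, h.hm'.B_comm, ← em, smul_eq_mul, div_mul_cancel₀ _ b', map_smul, k2, smul_eq_mul,
      mul_div_cancel₀ _ δ0]
  · convert d (c • (δ • k / (m * ψ.σ m))) (by
      simp [h.hm'.T_eq, tau_smul h.σK, hc, hδ, k1, mul_comm, neg_div]) using 4
    rw [← map_smul, ← smul_assoc, smul_mul_assoc]; congr 3; field_simp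

theorem dd (hA : A ∈ Fam M (StQ F ψ)) {a : V} (ha : a ∈ A) (hf : φ.B f a ≠ 0) {t : F} (ht : φ.T t = 0) {s s' : V}
    (hs : s ∈ A) (hs' : s' ∈ A) (h1 : ∃ x ∈ M, ∀ a ∈ A, x a = a + φ.B f a • s) (h2 : ∃ x ∈ M, ∀ a ∈ A, x a = a + φ.B f a • s')
    (h3 : ∃ x ∈ M, ∀ a ∈ A, x a = a + φ.B f a • (s + s')) :
    ∃ D, Zs M A D ∧ ∀ z, D z = t • (φ.B s z • s' + φ.B s' z • s) := by
  obtain ⟨y, rfl, d⟩ := h.yf hA ha hf ht
  obtain ⟨Y, i, j⟩ := d 1 (map_one _)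
  rw [one_smul] at j; subst j
  obtain ⟨x₁, a₁, b₁⟩ := h1
  obtain ⟨x₂, a₂, b₂⟩ := h2
  obtain ⟨x₃, a₃, b₃⟩ := h3
  have hA' := h.ts hA
  obtain ⟨D₁, c₁, d₁⟩ := h.dl hA' le_rfl i a₁ b₁ hs
  obtain ⟨D₂, c₂, d₂⟩ := h.dl hA' le_rfl i a₂ b₂ hs'
  obtain ⟨D₃, c₃, d₃⟩ := h.dl hA' le_rfl i a₃ b₃ (add_mem hs hs')
  refine ⟨_, h.Zsub hA' (h.Zsub hA' c₃ c₁) c₂, fun z => ?_⟩
  simp only [LinearMap.sub_apply, d₁, d₂, d₃, map_add, LinearMap.add_apply]; module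

theorem su_su (hk : 4 ≤ finrank K V) :
    φ.E ≤ M.subgroupOf φ.Isom ∨ ∀ g ∈ M, ∀ k : K, ∃ k' : K, ∀ y, g (k • y) = k' • g y := by
  obtain ⟨q, hq⟩ := h.hφ
  obtain ⟨q', hq'⟩ := h.hψ
  by_cases H : ∀ A ∈ Fam M (StQ F ψ), A ∈ StQ F ψ
  · exact Or.inr (h.nrm (by omega) (hN_of fun v w _ _ _ W hW => (h.sing W (by omega)).imp fun _ h =>
      ⟨h.1, h.2.1, .inl h.2.2⟩) H)
  push Not at H
  obtain ⟨A, hA, hA'⟩ := H
  obtain ⟨A, B, hm⟩ := h.exists_mp hA hA'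
  obtain ⟨A, B, hm, hp⟩ := h.exists_t1 hk hm
  obtain ⟨g, hg, _, ⟨v, v0, hv, rfl⟩, rfl, hm'⟩ := hm.std
  obtain ⟨B, hm, hp⟩ : ∃ B, MP M (StQ F ψ) (pt F K v) B ∧ ∀ a ∈ B, ∀ b ∈ pt F K v, φ.B a b = 0 :=
    ⟨_, hm', fun a i b j => φ.B_symm_zero (by
      rw [← h.Bm hg]; exact hp _ (Submodule.mem_map_of_mem j) _ (by simpa using mem_map_iff.1 i))⟩
  obtain ⟨s, ⟨s1, s2⟩, s0⟩ := (Submodule.ne_bot_iff _).1 hm.nb
  obtain ⟨a, a1, a2⟩ := exists_not hm.symm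
  obtain ⟨f, f1, f2, f3⟩ := h.exists_f a2 fun _ => h.codim hm.symm hp a1 a2
  have s3 : ψ.Q s = 0 := by obtain ⟨k, rfl⟩ := mem_pt.1 s1; exact ψ.Q_smul_of_sing hv k
  have hx : ∀ b ∈ B, ∃ x ∈ M, ∀ a ∈ pt F K v, x a = a + φ.B f a • b := fun b hb => by
    obtain ⟨x, hx, i, j⟩ := h.rad hm.r (fun y hy => hp y hy a a1) a2 hb
    exact ⟨x, hx, f3 x i _ j⟩
  have hs := h.tf_of (h.Q s s3) fun t ht => by
    obtain ⟨θ, hθ⟩ := hq.exists_T_eq (map_one _)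
    obtain ⟨D, i, j⟩ := h.dd hm.l a1 (f2 ▸ one_ne_zero) ht s1 (Submodule.smul_mem _ θ s1) (hx s s2) (hx _ (B.smul_mem θ s2))
      (hx _ (add_mem s2 (B.smul_mem θ s2)))
    refine ⟨D, i.2, fun z => ?_⟩
    rw [hq.herm.T_eq] at hθ
    rw [j, φ.B_smul_left]; match_scalars; linear_combination (t * φ.B s z) * hθ
  have H : ∀ u, ψ.Q u = 0 → TF (M.subgroupOf φ.Isom) u := fun u hu => by
    by_cases u0 : u = 0
    · simpa [u0] using hs.smul (h.Q s s3) 0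
    obtain ⟨g, hg, -, -, rfl⟩ := h.trans (hq'.big (by omega)) s3 s0 hu u0
    exact hs.map (h.Q s s3) (g := ⟨g, h.le hg⟩) hg
  obtain ⟨t, t0, ht⟩ := hq.exists_skew
  refine Or.inl (h.fin' hv v0 (H v hv) fun k => ?_)
  have e := ψ.Q_smul_of_sing hv (t⁻¹ • k)
  simpa [t0] using inA_add hq.herm (h.Q v hv) (h.Q _ e) (by simp [h.B, ψ.B_self_eq_zero hv]) (H v hv) (H _ e)
    (H _ (by simpa [add_smul] using ψ.Q_smul_of_sing hv (1 + t⁻¹ • k))) ht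

end FU
end H12.Xf
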