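import Mathlib
import Cfsg.Agent.H12.XfB
import Cfsg.Agent.H10.MxU
import Cfsg.Agent.H10.Subf4

/-!
# Geometric maximal subgroups of `SU_n(q)` with small bounds on `n`
* `su_fld_of`, `su_fld` : extension field subgroups; `su_ts`, `su_nd`, `su_pair`, `su_subf`, `su_subf_sp`, `su_subf_o`
-/

namespace H12.Xf

open Module H10 H10.Form H10.Mx Matrix Cfsg Cfsg.Geo H10.As

section
variable {F K V : Type*} [Field F] [Field K] [Algebra F K] [AddCommGroup V] [Module F V] [Module K V]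
  [IsScalarTower F K V] {φ : Form F V} [φ.Nondeg]

theorem exists_adj [Nontrivial V] (h : ∀ k : K, ∃ k' : K, ∀ u v, φ.B u (k • v) = φ.B (k' • u) v) :
    ∃ τ : K →+* K, (∀ k u v, φ.B (k • u) v = φ.B u (τ k • v)) ∧ (∀ a, τ (τ a) = a) ∧
      ∀ c, τ (algebraMap F K c) = algebraMap F K (φ.σ c) := by
  replace h : ∀ k : K, ∃ k' : K, ∀ u v, φ.B (k • u) v = φ.B u (k' • v) := fun k => (h k).imp fun k' e u v => by
    rw [φ.symm v, e, φ.symm (k' • v)]
  choose t ht using h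
  obtain ⟨v, hv⟩ := exists_ne (0 : V)
  have H : ∀ {k a : K}, (∀ u, φ.B (k • u) v = φ.B u (a • v)) → t k = a := fun h =>
    smul_left_injective K hv (φ.ext_B_right fun u => (ht _ u v).symm.trans (h u))
  refine ⟨⟨⟨⟨t, H (by simp)⟩, fun a b => H fun u => ?_⟩, H (by simp), fun a b => H fun u => ?_⟩, ht, fun a => H fun u => ?_,
    fun c => H fun u => by simp [φ.B_smul_left]⟩
  · rw [mul_comm, mul_smul, ht, ht, mul_smul]
  · simp [add_smul, ht]
  · change φ.B (t a • u) v = _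
    rw [φ.symm v, ← ht, φ.symm (a • v)]

theorem exists_fu [Nontrivial V] [FiniteDimensional F K] {q : ℕ} (hq : φ.IsUnitary q) (hr : (finrank F K).Prime)
    (h : ∀ k : K, ∃ k' : K, ∀ u v, φ.B u (k • v) = φ.B (k' • u) v) : ∃ (ψ : Form K V) (l : Dual F K), FU φ ψ l φ.Isom := by
  obtain ⟨τ, a, b, c⟩ := exists_adj h
  obtain ⟨ω, hω⟩ := hq.exists_σ_ne
  have t : τ ≠ RingHom.id K := fun e => hω ((algebraMap F K).injective (by rw [← c, e]; rfl))
  obtain ⟨θ, hθ⟩ := hq.exists_T_eq (map_one _)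
  rw [hq.herm.T_eq] at hθ
  obtain ⟨m, hm⟩ := exists_tau (F := F) (K := K)
  let l : Dual F K := θ • m + ⟨⟨fun a => φ.σ (θ * m (τ a)), fun a b => by simp [mul_add]⟩, fun d a => by
    simp [tau_smul c, mul_left_comm]⟩
  have l0 : l ≠ 0 := fun e => by simpa [l, hθ, show m 1 = 1 by simpa using hm 1] using LinearMap.congr_fun e 1
  have lσ : ∀ a, l (τ a) = φ.σ (l a) := fun a => by simp [l, b, add_comm]
  obtain ⟨β, i⟩ := exists_beta a l0
  have hs : β.IsSymm := ⟨fun x y => sub_eq_zero.1 (eq_zero_of_mul l0 fun k => by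
    have := hq.herm.B_comm (k • x) y
    rw [i, i, ← lσ] at this
    rw [mul_sub, map_sub, sub_eq_zero]; simpa [b] using this.symm)⟩
  have := hq.finite
  have := Module.finite_of_finite F (M := K)
  obtain ⟨q', j, m⟩ := exists_q_of_involutive t b
  have hψ := isHerm_ofHerm τ b (exists_theta t b) β hs
  exact ⟨_, l, ⟨q, hq⟩, ⟨q', hψ, j, m⟩, c, l0, lσ, i, le_rfl, fun g _ => ⟨g.1.restrictScalars F,
    hq.herm.isIsom fun x y => by rw [i, i]; exact congrArg l (g.2.B x y), fun _ => rfl⟩, hr⟩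

variable {ψ : Form K V} {l : Dual F K} (h : FU φ ψ l φ.Isom)

/-- restriction of scalars -/
def rho : ψ.Isom →* φ.Isom := ⟨⟨fun g => ⟨g.1.restrictScalars F, h.hm.isIsom fun x y => by simp [h.B]⟩, rfl⟩, fun _ _ => rfl⟩

theorem rho_E [ψ.Nondeg] [FiniteDimensional F V] [FiniteDimensional K V] {g : ψ.Isom} (hg : g ∈ ψ.E) : rho h g ∈ φ.E := by
  refine (Subgroup.closure_le (φ.E.comap (rho h))).2 ?_ hg
  rintro _ ⟨v, w, s, a, b, c, rfl⟩
  by_cases v0 : v = 0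
  · simp [v0, siegel_zero_left c]
  have e : ∀ z, (rho h (ψ.siegel v w s)).1 z = _ := ψ.siegel_apply a b c
  have hA := h.ts (mem_fam ⟨v, v0, a, rfl⟩)
  refine rad_mem hA hA.le_perp le_rfl (fun p hp w hw s hs => φ.siegel_mem_E (hA.Q p hp) (hw p hp) hs) (fun z hz => ?_)
    (fun z => h.perp_iff.2 (by simp [e, b, ψ.B_self_eq_zero a])) fun z hz => ?_
  · obtain ⟨k, rfl⟩ := mem_pt.1 hz; simp [e, ψ.B_symm_zero b, ψ.B_self_eq_zero a]
  · simpa [e, h.perp_iff.1 hz] using smul_mem_pt _ v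

end

universe u
variable {F : Type u} [Field F] [Fintype F] {n q r : ℕ} (hF : Fintype.card F = q ^ 2)
include hF

theorem su_fld_of {K : Subalgebra F (Matrix (Fin n) (Fin n) F)} (hn : 4 ≤ n) (hr : r.Prime) (hK : IsFieldSubalgebra r K)
    (hac : IsAdjointClosedFor (hermForm n F q) K)
    (H : ∀ (E : Type u) [Field E] [Algebra F E] [Module E (Fin n → F)] [IsScalarTower F E (Fin n → F)] [FiniteDimensional F E]
      [FiniteDimensional E (Fin n → F)] (φ : Form F (Fin n → F)) [φ.Nondeg] (ψ : Form E (Fin n → F)) [ψ.Nondeg] l M,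
      FU φ ψ l M → φ.IsUnitary q → finrank F E = r → r * finrank E (Fin n → F) = n →
      (∀ g : ψ.Isom, ∃ x ∈ M, ∀ z, x z = (g ^ (q + 1)).1 z) →
      φ.E ≤ M.subgroupOf φ.Isom ∨ ∀ g ∈ M, ∀ k : E, ∃ k' : E, ∀ y, g (k • y) = k' • g y) :
    IsMaximalIn (GU n F q ⊓ specialLinear (Fin n) F) (subalgebraNormalizer K ⊓ (GU n F q ⊓ specialLinear (Fin n) F)) := by
  have hF' : Nat.card F = q ^ 2 := by rw [Nat.card_eq_fintype_card, hF]
  have hq := stdU_isUnitary hF' n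
  have : Nonempty (Fin n) := ⟨⟨0, by omega⟩⟩
  have hb := big_su hF' (n := n) (by omega) (by omega)
  rw [SU_eq_E hF' (by omega)] at hb ⊢
  refine fld_bridge hK fun E _ _ _ _ _ hE h1 h2 => ?_
  have := Module.Finite.of_restrictScalars_finite F E (Fin n → F)
  obtain ⟨ψ, l, h⟩ := exists_fu (K := E) hq (hE ▸ hr) fun k => by
    obtain ⟨a, ha, e⟩ := h2 k
    obtain ⟨b, hb, i⟩ := hac a ha
    obtain ⟨k', j⟩ := (h1 b).1 hb
    exact ⟨k', fun u v => by rw [← e, ← j, stdU_B, stdU_B, i]⟩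
  have := nondeg_of h.B
  refine isMaximalIn_map _ (fun e => hb.not_field hK hr.ne_one (Subgroup.map_le_iff_le_comap.2 e)) fun M hM g hg _ hg' => ?_
  have hm : ∀ g : ψ.Isom, rho h g ∈ (stdU hF' n).E → ∃ x ∈ M.map (stdU hF' n).Isom.subtype, ∀ z, x z = g.1 z := fun g hg =>
    ⟨_, Subgroup.mem_map_of_mem _ (hM ⟨hg, (mem_nrm_iff h1 h2).2 fun k => ⟨k, fun y => by
      simp only [toGL_mulVec]; exact map_smul g.1 k y⟩⟩), fun _ => rfl⟩
  refine ((H E _ ψ l (M.map (stdU hF' n).Isom.subtype)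
    { h with le := Subgroup.map_subtype_le _, mem := fun g hg => hm g (rho_E h hg) } hq hE
    (by simpa [hE] using finrank_mul_finrank F E (Fin n → F)) fun g => hm _ ?_).resolve_right
    fun e => hg' ((mem_nrm_iff h1 h2).2 (by simpa [toGL_mulVec] using e _ (Subgroup.mem_map_of_mem _ hg)))).trans
      (Subgroup.comap_map_eq_self_of_injective (stdU hF' n).Isom.subtype_injective M).le
  rw [hq.E_eq_SIsom (by simp; omega), map_pow, SIsom, MonoidHom.mem_ker, map_pow]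
  exact hq.range_det.le ⟨_, rfl⟩

theorem su_fld {K : Subalgebra F (Matrix (Fin n) (Fin n) F)} (hr : r.Prime) (hn : 3 * r < n) (hK : IsFieldSubalgebra r K)
    (hac : IsAdjointClosedFor (hermForm n F q) K) :
    IsMaximalIn (GU n F q ⊓ specialLinear (Fin n) F) (subalgebraNormalizer K ⊓ (GU n F q ⊓ specialLinear (Fin n) F)) :=
  su_fld_of hF (by have := hr.two_le; omega) hr hK hac fun _ _ _ _ _ _ _ _ _ _ _ _ _ h _ _ e _ =>
    h.su_su (lt_of_mul_lt_mul_left (a := r) (by omega) r.zero_le)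

theorem su_ts (hn : 10 ≤ n) (W : Submodule F (Fin n → F)) (hW0 : W ≠ ⊥) (hW : Cfsg.Geo.IsTotallySingularFor (Cfsg.hermForm n F q) W) : Cfsg.Geo.IsMaximalIn (Cfsg.GU n F q ⊓ Cfsg.Geo.specialLinear (Fin n) F) (Cfsg.Geo.subspaceStabilizer W ⊓ (Cfsg.GU n F q ⊓ Cfsg.Geo.specialLinear (Fin n) F)) := by
  have hF' : Nat.card F = q ^ 2 := by rw [Nat.card_eq_fintype_card, hF]
  have h0 := H10.stdU_isUnitary hF' n
  rw [H10.SU_eq_E hF' (by omega)]
  exact H10.isMaximalIn_TS (h0.std (by simp; omega)) (by simp; omega) hW0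
    (h0.herm.ts fun x hx y hy => hW y hy x hx) fun _ _ _ _ => Or.inl h0.exists_skew

theorem su_nd (hn : 10 ≤ n) (W : Submodule F (Fin n → F)) (hW0 : W ≠ ⊥) (hW : Cfsg.Geo.IsNondegenerateOn (Cfsg.hermForm n F q) W) (hdim : 2 * Module.finrank F W < n) : Cfsg.Geo.IsMaximalIn (Cfsg.GU n F q ⊓ Cfsg.Geo.specialLinear (Fin n) F) (Cfsg.Geo.subspaceStabilizer W ⊓ (Cfsg.GU n F q ⊓ Cfsg.Geo.specialLinear (Fin n) F)) := by
  have hF' : Nat.card F = q ^ 2 := by rw [Nat.card_eq_fintype_card, hF]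
  have h0 := H10.stdU_isUnitary hF' n
  have h1 := H10.nondegOn_herm hF' hW
  have h2 := (H10.stdU hF' n).finrank_perp W
  simp only [Module.finrank_fintype_fun_eq_card, Fintype.card_fin] at h2
  rw [H10.SU_eq_E hF' (by omega)]
  exact H10.isMaximalIn_nondeg (h0.std (by simp; omega)) h1.perp (Or.inr rfl) (by omega)
    (fun h => hW0 (by rw [← (H10.stdU hF' n).perp_perp W, h, H10.Form.perp_top]))
    (fun A hA x hx hxA hx0 => h0.le_of_wittClosed hA h1.perp.perp hx hxA hx0)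
    (H10.not_map_le_perp (by simp; omega))

theorem su_pair (hn : 10 ≤ n) (k : ℕ) (hk : 2 * k = n) (D : Fin 2 → Submodule F (Fin n → F)) (hD : Cfsg.Geo.IsMDecomposition k D) (hts : ∀ i, Cfsg.Geo.IsTotallySingularFor (Cfsg.hermForm n F q) (D i)) : Cfsg.Geo.IsMaximalIn (Cfsg.GU n F q ⊓ Cfsg.Geo.specialLinear (Fin n) F) (Cfsg.Geo.decompositionStabilizer D ⊓ (Cfsg.GU n F q ⊓ Cfsg.Geo.specialLinear (Fin n) F)) := by
  have hF' : Nat.card F = q ^ 2 := by rw [Nat.card_eq_fintype_card, hF]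
  have h0 := H10.stdU_isUnitary hF' n
  have h1 : (H10.stdU hF' n).TSPair (D 0) (D 1) := ⟨h0.herm.ts fun x hx y hy => hts 0 y hy x hx,
    h0.herm.ts fun x hx y hy => hts 1 y hy x hx, H10.isCompl_of_fin_two hD.indep hD.iSup_eq_top⟩
  rw [H10.SU_eq_E hF' (by omega)]
  refine H10.isMaximalIn_pair h1 (by rw [hD.finrank_eq]; omega) (fun t ht => ?_)
    (h1.exists_swap_E_unitary h0 (by simp; omega))
  obtain ⟨θ, hθ⟩ := h0.exists_T_eq (c := 1) (map_one _)
  rw [h0.herm.T_eq] at ht hθ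
  exact ⟨θ * t, by rw [h0.herm.ε_eq, map_mul, eq_neg_of_add_eq_zero_right ht]; linear_combination -t * hθ⟩

theorem su_subf (hn : 10 ≤ n) (F₀ : Subfield F) (r : ℕ) (hr : r.Prime) (hro : Odd r) (hcard : Fintype.card F = Nat.card F₀ ^ r) (P : Matrix.GeneralLinearGroup (Fin n) F) (hP : Cfsg.Geo.IsFormRationalStructure (Cfsg.hermForm n F q) F₀ 1 P) : Cfsg.Geo.IsMaximalIn (Cfsg.GU n F q ⊓ Cfsg.Geo.specialLinear (Fin n) F) (Cfsg.Geo.subfieldSubgroup F₀ P ⊓ (Cfsg.GU n F q ⊓ Cfsg.Geo.specialLinear (Fin n) F)) := by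
  have hF' : Nat.card F = q ^ 2 := by rw [Nat.card_eq_fintype_card, hF]
  have h0 := H10.stdU_isUnitary hF' n
  have hK := H10.finrank_eq_of_card hcard
  have h1 : ∀ a ∈ F₀, (H10.stdU hF' n).σ a ∈ F₀ := fun a ha => h0.σ_eq a ▸ F₀.pow_mem ha q
  let σ₀ : F₀ →+* F₀ := ((H10.stdU hF' n).σ.comp F₀.subtype).codRestrict F₀ fun a => h1 a a.2
  have h2 : σ₀ ≠ RingHom.id F₀ := fun h => by
    have := Subalgebra.isSimpleOrder_of_finrank_prime F₀ F (hK ▸ hr)
    let A : Subalgebra F₀ F :=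
      { (H10.stdU hF' n).σ.eqLocus (RingHom.id F) with
        algebraMap_mem' := fun a => congrArg Subtype.val (RingHom.congr_fun h a) }
    rcases eq_bot_or_eq_top A with h3 | h3
    · have h4 : Nat.card F₀ = q := by
        rw [← H10.card_fixed hF']
        refine Nat.card_congr (Equiv.subtypeEquivRight fun x => ⟨fun hx => ?_, fun hx => ?_⟩)
        · exact (h0.σ_eq x).symm.trans (A.algebraMap_mem ⟨x, hx⟩)
        · obtain ⟨a, rfl⟩ := Algebra.mem_bot.1 (h3.le ((h0.σ_eq x).trans hx))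
          exact a.2
      rw [h4, hF] at hcard
      rw [← Nat.pow_right_injective (H10.two_le_q hF') hcard] at hro
      exact absurd hro (by decide)
    · obtain ⟨a, ha⟩ := h0.exists_σ_ne
      exact ha (h3.ge Algebra.mem_top)
  have h3 : ∀ a, σ₀ (σ₀ a) = a := fun a => Subtype.ext ((H10.stdU hF' n).σ_σ a)
  obtain ⟨θ, hθ⟩ := H10.Form.exists_theta h2 h3
  replace hθ : (θ : F) + (H10.stdU hF' n).σ θ = 1 := congrArg Subtype.val hθ
  have h4 : (H10.stdU hF' n).RatS F₀ (H10.ratL F₀ P) :=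
    H10.ratS_of h1 (fun u v hu hv => by simpa [H10.stdU_B] using hP v u hv hu)
      (fun u hu => by simpa [H10.stdU_Q] using hP u u hu hu)
      (fun a ha => h0.herm.T_eq a ▸ F₀.add_mem ha (h1 a ha)) fun x _ hx => ⟨_, F₀.mul_mem θ.2 hx, by
        rw [h0.herm.T_eq, map_mul, h0.herm.σ_Q]; linear_combination (H10.stdU hF' n).Q x * hθ⟩
  obtain ⟨q₀, h5, h6⟩ := H10.exists_q_of_involutive h2 h3
  have h7 : h4.form.IsUnitary q₀ :=
    ⟨⟨Subtype.ext h0.herm.ε_eq, fun a => Subtype.ext (h0.herm.T_eq a)⟩, h5, h6⟩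
  rw [H10.SU_eq_E hF' (by omega)]
  refine H10.isMaximalIn_subfield9 h4 (fun W hW => ?_) (by simp; omega) (hK ▸ hr)
    (fun t ht => Or.inl ?_) (Or.inl ?_)
  · have := H10.Form.RatS.finiteDim (L := H10.ratL F₀ P)
    obtain ⟨v, h8, h9, h10⟩ := h7.exists_singular (W := W) (by omega)
    exact ⟨v, h8, h9, congrArg Subtype.val h10⟩
  · rw [h0.herm.T_eq] at ht
    exact ⟨θ * t, by
      rw [h0.herm.ε_eq, map_mul, eq_neg_of_add_eq_zero_right ht]; linear_combination -t * hθ⟩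
  · obtain ⟨t, h8, h9⟩ := h7.exists_skew
    exact ⟨t, t.2, by simpa using h8, congrArg Subtype.val h9⟩

theorem su_subf_sp (hn : 10 ≤ n) (F₀ : Subfield F) (hcard : Fintype.card F = Nat.card F₀ ^ 2) (ζ : F) (hζ0 : ζ ≠ 0) (hζ : ζ + ζ ^ q = 0) (P : Matrix.GeneralLinearGroup (Fin n) F) (hP : Cfsg.Geo.IsFormRationalStructure (Cfsg.hermForm n F q) F₀ ζ P) (halt : ∀ u : Fin n → F, (∀ i, u i ∈ F₀) → Cfsg.hermForm n F q (Matrix.mulVec (P : Matrix (Fin n) (Fin n) F) u) (Matrix.mulVec (P : Matrix (Fin n) (Fin n) F) u) = 0) : Cfsg.Geo.IsMaximalIn (Cfsg.GU n F q ⊓ Cfsg.Geo.specialLinear (Fin n) F) (Cfsg.Geo.subfieldSubgroup F₀ P ⊓ (Cfsg.GU n F q ⊓ Cfsg.Geo.specialLinear (Fin n) F)) := by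
  have hF' : Nat.card F = q ^ 2 := by rw [Nat.card_eq_fintype_card, hF]
  have h0 := H10.stdU_isUnitary hF' n
  have hK := H10.finrank_eq_of_card hcard
  have h1 : ∀ a ∈ F₀, (H10.stdU hF' n).σ a = a := fun a ha => by
    have := Fintype.ofFinite F₀
    rw [h0.σ_eq, Nat.pow_left_injective two_ne_zero (hF.symm.trans hcard), Nat.card_eq_fintype_card]
    exact congrArg Subtype.val (FiniteField.pow_card (⟨a, ha⟩ : F₀))
  have hz : (H10.stdU hF' n).σ ζ = -1 * ζ := by rw [h0.σ_eq]; linear_combination hζ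
  have h2 : ∀ a, ((H10.stdU hF' n).scale hζ0 (Or.inr rfl) hz).T a = a - (H10.stdU hF' n).σ a :=
    fun a => by rw [H10.Form.scale_T, h0.herm.T_eq, map_mul, map_inv₀, hz]; field_simp; ring
  rw [H10.SU_eq_E hF' (by omega), H10.scale_E_map_toGL _ hζ0 (Or.inr rfl) hz]
  have h3 : ∀ x ∈ H10.ratL F₀ P, ((H10.stdU hF' n).scale hζ0 (Or.inr rfl) hz).Q x = 0 := by
    rintro _ ⟨u, hu, rfl⟩
    simp [H10.stdU_Q, halt u hu]
  refine H10.isMaximalIn_subfield9 (H10.ratS_of (fun a ha => (h1 a ha).symm ▸ ha)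
    (fun u v hu hv => hP v u hv hu) (fun u hu => hP u u hu hu) (fun a ha => by simp [h2, h1 a ha])
    fun x hx _ => ⟨0, F₀.zero_mem, by rw [h3 x hx, map_zero]⟩) (H10.rSing_of_Q h3) (by simp; omega)
    (hK ▸ Nat.prime_two) (fun t ht => Or.inl ?_) (Or.inr (Or.inr hK))
  rw [h2, sub_eq_zero] at ht
  obtain ⟨b, rfl⟩ := h0.exists_T_eq ht.symm
  exact ⟨b, by simp [h0.herm.T_eq, h0.herm.ε_eq]⟩

theorem su_subf_o (hn : 10 ≤ n) (hodd : Odd q) (F₀ : Subfield F) (hcard : Fintype.card F = Nat.card F₀ ^ 2) (P : Matrix.GeneralLinearGroup (Fin n) F) (hP : Cfsg.Geo.IsFormRationalStructure (Cfsg.hermForm n F q) F₀ 1 P) : Cfsg.Geo.IsMaximalIn (Cfsg.GU n F q ⊓ Cfsg.Geo.specialLinear (Fin n) F) (Cfsg.Geo.subfieldSubgroup F₀ P ⊓ (Cfsg.GU n F q ⊓ Cfsg.Geo.specialLinear (Fin n) F)) := by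
  have hF' : Nat.card F = q ^ 2 := by rw [Nat.card_eq_fintype_card, hF]
  have h0 := H10.stdU_isUnitary hF' n
  have hK := H10.finrank_eq_of_card hcard
  have h1 : ∀ a ∈ F₀, (H10.stdU hF' n).σ a = a := fun a ha => by
    have := Fintype.ofFinite F₀
    rw [h0.σ_eq, Nat.pow_left_injective two_ne_zero (hF.symm.trans hcard), Nat.card_eq_fintype_card]
    exact congrArg Subtype.val (FiniteField.pow_card (⟨a, ha⟩ : F₀))
  have h2 : (2 : F) ≠ 0 := H10.two_ne_zero_of_odd_card (hF ▸ hodd.pow)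
  have h4 : (H10.stdU hF' n).RatS F₀ (H10.ratL F₀ P) :=
    H10.ratS_of (fun a ha => (h1 a ha).symm ▸ ha)
      (fun u v hu hv => by simpa [H10.stdU_B] using hP v u hv hu)
      (fun u hu => by simpa [H10.stdU_Q] using hP u u hu hu)
      (fun a ha => by rw [h0.herm.T_eq, h1 a ha]; exact F₀.add_mem ha ha) fun x _ hx => by
        have := F₀.div_mem hx (F₀.add_mem F₀.one_mem F₀.one_mem)
        refine ⟨_, this, ?_⟩
        rw [h0.herm.T_eq, h1 _ this, one_add_one_eq_two]; field_simp; ring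
  rw [H10.SU_eq_E hF' (by omega)]
  refine H10.isMaximalIn_subfield9 h4 (fun W hW => ?_) (by simp; omega) (hK ▸ Nat.prime_two)
    (fun t ht => Or.inl ?_) (Or.inr (Or.inr hK))
  · obtain ⟨v, h8, h9, h10⟩ := (H10.Form.isQuad_ofQuad (LinearMap.BilinMap.toQuadraticMap
      (LinearMap.mk₂ F₀ (fun x y => h4.form.B x y) (by simp) (fun c x y => Subtype.ext (by
        simp [h1 c c.2])) (by simp) (by simp)))).exists_singular hW
    exact ⟨v, h8, h9, (h0.herm.Q_eq _).trans (congrArg Subtype.val h10)⟩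
  · obtain ⟨θ, hθ⟩ := h0.exists_T_eq (c := 1) (map_one _)
    rw [h0.herm.T_eq] at ht hθ
    exact ⟨θ * t, by
      rw [h0.herm.ε_eq, map_mul, eq_neg_of_add_eq_zero_right ht]; linear_combination -t * hθ⟩

end H12.Xf
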