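import Cfsg.Agent.H07.Jordan
import Cfsg.Agent.H05.Burnside
import Cfsg.Agent.H05.Brauer
import Cfsg.Agent.H20.Block
import Cfsg.Agent.H21.Height

/-!
# Blichfeldt's `60°` lemma and eigenvalue multiplicities in the principal block (`H12.Bli.fix`, `central`, `mult`)
-/

namespace H12.Bli
open Cfsg H05 H07 H20 H21 Subgroup Module
open scoped ComplexConjugate InnerProductSpace

variable {G : Type*} [Group G] [Finite G]

theorem fix {E : Type*} [NormedAddCommGroup E] [InnerProductSpace ℂ E] (ρ : G →* (E →L[ℂ] E)) (hρ : ∀ g v, ‖ρ g v‖ = ‖v‖)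
    {x u : G} {c : ℂ} (hc : ‖c‖ = 1) (hx : ‖ρ x - c • 1‖ < 1) (hu : IsConj x u) {v : E} (hv : ρ x v = c • v) : ρ x (ρ u v) = c • ρ u v := by
  set A := ρ x - c • 1 with hA
  let W := A.ker
  let δ : G → ℝ := fun g => ‖(A * ρ g).comp W.subtypeL‖
  have mW : ∀ v, v ∈ W ↔ ρ x v = c • v := fun v => by simp [W, hA, sub_eq_zero]
  have d0 : ∀ g, δ g = 0 ↔ ∀ v ∈ W, ρ g v ∈ W := fun g => by
    refine (ContinuousLinearMap.opNorm_zero_iff _).trans ?_; rw [ContinuousLinearMap.ext_iff, Subtype.forall]; rfl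
  have mm : ∀ a b v, ρ (a * b) v = ρ a (ρ b v) := fun a b v => by rw [map_mul]; rfl
  suffices δ u = 0 from (mW _).1 ((d0 u).1 this v ((mW v).2 hv))
  by_contra h
  obtain ⟨u, ⟨hu, h⟩, m⟩ := Set.exists_min_image {u | IsConj x u ∧ δ u ≠ 0} δ (Set.toFinite _) ⟨u, hu, h⟩
  have e : ∀ v ∈ W, ρ (u⁻¹ * x * u) v - c • v = ρ u⁻¹ (A (ρ u v)) := fun v _ => by simp [hA, mm, ← mm u⁻¹ u]
  have h1 : δ (u⁻¹ * x * u) = 0 := by
    by_contra k
    refine (m _ ⟨isConj_iff.2 ⟨u⁻¹, by simp⟩, k⟩).not_gt (lt_of_le_of_lt (b := ‖A‖ * δ u) (ContinuousLinearMap.opNorm_le_bound _ (by positivity) fun w => ?_)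
      (mul_lt_of_lt_one_left (lt_of_le_of_ne (ContinuousLinearMap.opNorm_nonneg _) (Ne.symm h)) hx))
    have : A (ρ (u⁻¹ * x * u) w) = A (ρ u⁻¹ (A (ρ u w))) := by rw [← e w w.2, map_sub, map_smul, show A w = 0 from w.2]; simp
    calc _ = ‖A (ρ u⁻¹ (A (ρ u w)))‖ := congrArg norm this
      _ ≤ ‖A‖ * ‖A (ρ u w)‖ := (A.le_opNorm _).trans (by rw [hρ])
      _ ≤ _ := by rw [mul_assoc]; exact mul_le_mul_of_nonneg_left (((A * ρ u).comp W.subtypeL).le_opNorm w) (norm_nonneg _)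
  refine h ((d0 u).2 fun v hv => ?_)
  obtain ⟨w, hw⟩ : ∃ w, w = ρ u⁻¹ (A (ρ u v)) := ⟨_, rfl⟩
  have wW : w ∈ W := by rw [hw, ← e v hv]; exact sub_mem ((d0 _).1 h1 v hv) (W.smul_mem c hv)
  have uw : ρ u w = A (ρ u v) := by rw [hw, ← mm]; simp
  have cc : c * conj c = 1 := by rw [Complex.mul_conj, Complex.normSq_eq_norm_sq, hc]; simp
  have o : ⟪w, ρ u w⟫_ℂ = 0 := by
    have := (LinearMap.norm_map_iff_inner_map_map (ρ x : E →ₗ[ℂ] E)).1 (hρ x) w (ρ u v)
    simp only [ContinuousLinearMap.coe_coe, (mW w).1 wW, inner_smul_left] at this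
    rw [uw, hA, ContinuousLinearMap.sub_apply, inner_sub_right, ContinuousLinearMap.smul_apply, inner_smul_right,
      ContinuousLinearMap.one_apply, ← this, ← mul_assoc, cc, one_mul, sub_self]
  obtain ⟨g, rfl⟩ := isConj_iff.1 hu
  have b : ‖ρ (g * x * g⁻¹) w - c • w‖ ≤ ‖A‖ * ‖w‖ := by
    rw [show ρ (g * x * g⁻¹) w - c • w = ρ g (A (ρ g⁻¹ w)) by simp [hA, mm, ← mm g g⁻¹], hρ]
    exact (A.le_opNorm _).trans (by rw [hρ])
  have i := norm_inner_le_norm (𝕜 := ℂ) w (ρ (g * x * g⁻¹) w - c • w)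
  rw [inner_sub_right, o, inner_smul_right, inner_self_eq_norm_sq_to_K, zero_sub, norm_neg, norm_mul, hc, norm_pow, RCLike.norm_ofReal, abs_norm] at i
  have w0 : ‖w‖ = 0 := by
    by_contra k
    have := (norm_nonneg w).lt_of_ne' k
    nlinarith [mul_le_mul_of_nonneg_left b this.le, mul_pos this this]
  show A _ = 0
  rw [← uw, norm_eq_zero.1 w0, map_zero]

theorem norm_sub_lt {z w : ℂ} (hz : ‖z‖ = 1) (hw : ‖w‖ = 1) (h : ⌈(z.arg + Real.pi) / (Real.pi / 3)⌉ = ⌈(w.arg + Real.pi) / (Real.pi / 3)⌉) :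
    ‖z - w‖ < 1 := by
  have hp : 0 < Real.pi / 3 := by positivity
  have h2 : |(z.arg + Real.pi) / (Real.pi / 3) - (w.arg + Real.pi) / (Real.pi / 3)| < 1 := by
    have := Int.ceil_eq_iff.1 h
    have := Int.ceil_eq_iff.1 (rfl : ⌈(w.arg + Real.pi) / (Real.pi / 3)⌉ = _)
    rw [abs_lt]; constructor <;> linarith
  rw [← sub_div, abs_div, abs_of_pos hp, div_lt_one hp, add_sub_add_right_eq_sub] at h2
  have hc := Real.cos_lt_cos_of_nonneg_of_le_pi (abs_nonneg _) (by linarith [Real.pi_pos]) h2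
  rw [Real.cos_abs, Real.cos_pi_div_three, Real.cos_sub] at hc
  refine lt_of_pow_lt_pow_left₀ 2 zero_le_one ?_
  rw [Complex.sq_norm, Complex.normSq_apply, Complex.sub_re, Complex.sub_im, ← Complex.norm_mul_cos_arg z, ← Complex.norm_mul_cos_arg w,
    ← Complex.norm_mul_sin_arg z, ← Complex.norm_mul_sin_arg w, hz, hw]
  nlinarith [Real.sin_sq_add_cos_sq z.arg, Real.sin_sq_add_cos_sq w.arg]

theorem pigeon {p : ℕ} (R : Finset ℂ) (hR : ∀ t ∈ R, ‖t‖ = 1) (h : 6 ^ R.card < p) : ∃ u, 0 < u ∧ u < p ∧ ∀ t ∈ R, ‖t ^ u - 1‖ < 1 := by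
  classical
  have hp : 0 < Real.pi / 3 := by positivity
  let f : Fin p → R → Finset.Icc (1 : ℤ) 6 := fun i t => ⟨⌈((t.1 ^ i.1).arg + Real.pi) / (Real.pi / 3)⌉, by
    rw [Finset.mem_Icc, Int.one_le_ceil_iff, Int.ceil_le, div_le_iff₀ hp]
    exact ⟨div_pos (by linarith [Complex.neg_pi_lt_arg (t.1 ^ i.1)]) hp, by push_cast; linarith [Complex.arg_le_pi (t.1 ^ i.1)]⟩⟩
  obtain ⟨i, j, ij, e⟩ := Fintype.exists_ne_map_eq_of_card_lt f (by simpa using h)
  wlog l : i < j generalizing i j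
  · exact this j i ij.symm e.symm (ij.symm.lt_or_gt.resolve_right l)
  refine ⟨j - i, Nat.sub_pos_of_lt l, by omega, fun t ht => ?_⟩
  have := norm_sub_lt (by simp [hR t ht]) (by simp [hR t ht]) (congrArg Subtype.val (congrFun e.symm ⟨t, ht⟩))
  rwa [show t ^ j.1 - t ^ i.1 = t ^ i.1 * (t ^ (j.1 - i) - 1) by rw [mul_sub, ← pow_add, Nat.add_sub_cancel' l.le, mul_one],
    norm_mul, norm_pow, hR t ht, one_pow, one_mul] at this

theorem central [IsSimpleGroup G] {n : ℕ} (ρ : Representation ℂ G (Fin n → ℂ)) (hi : ρ.IsIrreducible) (hk : ρ.ker = ⊥) {x : G} {ι : Type*} [Fintype ι]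
    (b : Basis ι ℂ (Fin n → ℂ)) (ω : ι → ℂ) (hb : ∀ i, ρ x (b i) = ω i • b i) (j : ι) (hc : ‖ω j‖ = 1) (h : ∀ i, ‖ω i - ω j‖ < 1) : x ∈ center G := by
  obtain ⟨E, _, _, _, e, σ, h1, h2⟩ := exists_isometric_rep ρ
  obtain ⟨i0, hi0⟩ := @Finite.exists_max _ _ _ ⟨j⟩ _ fun i => ‖ω i - ω j‖
  have hx : ‖σ x - ω j • 1‖ < 1 := (opNorm_le_of_weights σ h1 (fun _ : Unit => x) (fun _ _ => .refl x) () _ (norm_nonneg _) fun χ w w0 hw => by
    obtain ⟨w, rfl⟩ := e.surjective w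
    obtain ⟨i, hi⟩ : ∃ i, b.repr w i ≠ 0 := by
      by_contra! k; exact w0 (by simp [b.forall_coord_eq_zero_iff.1 k])
    have : b.coord i ∘ₗ ρ x = ω i • b.coord i := b.ext fun l => by
      by_cases k : l = i <;> simp [hb, k, Finsupp.single_apply]
    have := LinearMap.congr_fun this w
    rw [LinearMap.comp_apply, e.injective ((h2 x w).symm.trans ((hw ()).trans (map_smul e _ _).symm))] at this
    rw [show χ () = ω i from mul_right_cancel₀ hi (by simpa using this)]; exact hi0 i).trans_lt (h i0)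
  by_cases x1 : x = 1
  · simp [x1]
  let W := LinearMap.ker (ρ x - ω j • 1)
  have mW : ∀ v, v ∈ W ↔ ρ x v = ω j • v := fun v => by simp [W, sub_eq_zero]
  have t := (normalClosure_normal (s := {x})).eq_bot_or_eq_top.resolve_left fun k => x1 (mem_bot.1 (k ▸ subset_normalClosure rfl))
  have iv : ∀ g, ∀ v ∈ W, ρ g v ∈ W := fun g => by
    have : g ∈ Submonoid.closure (Group.conjugatesOfSet {x}) := by rw [← closure_toSubmonoid_of_finite]; exact t.ge trivial
    induction this using Submonoid.closure_induction_left with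
    | one => simp
    | mul_left u hu y _ ih =>
      obtain ⟨y, k, hu⟩ := Group.mem_conjugatesOfSet_iff.1 hu
      intro v hv
      have := fix σ h1 hc hx (k ▸ hu) (v := e (ρ _ v)) (by rw [h2, (mW _).1 (ih v hv), map_smul])
      rw [h2, h2, ← map_smul] at this
      rw [map_mul]; exact (mW _).2 (e.injective this)
  have := (((isIrreducible_iff ρ).1 hi).2 W iv).resolve_left fun k => b.ne_zero j ((Submodule.mem_bot ℂ).1 (k ▸ (mW _).2 (hb j)))
  refine mem_center_iff.2 fun g => (ρ.ker_eq_bot_iff.1 hk) (LinearMap.ext fun v => ?_)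
  simp [(mW _).1 (this.ge trivial)]

open Classical in
theorem mult {p : ℕ} {M : Ideal AlgInt} (hM : IsPModular p M) {χ : IrrCharacter G} (hχ : χ ∈ principalBlock M G) {z : G}
    (hk : ¬ p ∣ (centralizer {z}).index) {ι : Type*} [Fintype ι] (ω : ι → ℂ) (h1 : ∀ i, ω i ^ p = 1) (h : ∀ k : ℕ, χ.1 (z ^ k) = ∑ i, ω i ^ k) :
    (Finset.univ.image ω).card ≤ (centralizer {z}).index.gcd (charDegree χ.1) := by
  have := hM.2.1
  have hp := hM.1
  set k := (centralizer {z}).index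
  set n := charDegree χ.1
  have n0 : 0 < n := χ.2.charDegree_pos
  obtain ⟨g, k', d, g0, co, ek, en⟩ := Nat.exists_coprime' (Nat.gcd_pos_of_pos_right k n0)
  have eg : k.gcd n = g := by rw [ek, en, Nat.gcd_mul_right, co, one_mul]
  have d0 : d ≠ 0 := by rintro rfl; omega
  have dc : (d : ℂ) ≠ 0 := by exact_mod_cast d0
  have gc : (g : ℂ) ≠ 0 := by exact_mod_cast g0.ne'
  have e1 : χ.1 1 = d * g := by rw [← χ.2.charDegree_eq]; exact_mod_cast en
  have key : ∀ i : ℕ, IsIntegral ℤ (χ.1 (z ^ i) / d) ∧ MemLocalIdeal M (χ.1 (z ^ i) / d - g) := fun i => by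
    obtain ⟨c, hc⟩ := index_dvd_of_le (show centralizer {z} ≤ centralizer {z ^ i} from fun x hx =>
      mem_centralizer_singleton_iff.2 (Commute.pow_right (mem_centralizer_singleton_iff.1 hx) i))
    have hc' : (k' : ℂ) * g = (centralizer {z ^ i}).index * c := by exact_mod_cast ek.symm.trans hc
    have e : (k' : ℂ) * (χ.1 (z ^ i) / d) = c * centralChar χ.1 (z ^ i) := by
      rw [centralChar, e1]; field_simp; linear_combination χ.1 (z ^ i) * hc'
    refine ⟨isIntegral_of_coprime_mul co (e ▸ (isIntegral_natCast c).mul (isIntegral_centralChar χ.2 _)) (by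
      rw [mul_div_cancel₀ _ dc]; exact χ.2.isIntegral _), (ideal_unit_mul_iff (ring_natCast k') (mt (ideal_natCast_iff hM).1 fun l =>
        hk (ek ▸ l.mul_right g))).1 ?_⟩
    have := ideal_mul_left (ring_natCast c) (ideal_neg (hχ (z ^ i)))
    rw [mul_sub, e, hc']; convert this using 1; simp [centralChar]; ring
  have m : ∀ μ ∈ Finset.univ.image ω, d ≤ (Finset.univ.filter fun i => ω i = μ).card := fun μ hμ => by
    obtain ⟨j, -, rfl⟩ := Finset.mem_image.1 hμ
    have j0 : ω j ≠ 0 := fun e => by simpa [e, hp.ne_zero] using h1 j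
    have j1 : (ω j)⁻¹ ^ p = 1 := by rw [inv_pow, h1, inv_one]
    set m := (Finset.univ.filter fun i => ω i = ω j).card
    have s : ((p * m : ℕ) : ℂ) / d = ∑ i ∈ Finset.range p, χ.1 (z ^ i) / d * (ω j)⁻¹ ^ i := by
      simp only [h, div_mul_eq_mul_div, ← Finset.sum_div, Finset.sum_mul, ← mul_pow]
      rw [Finset.sum_comm, ← Finset.sum_filter_add_sum_filter_not _ fun i => ω i = ω j, Finset.sum_eq_zero (s := Finset.filter (fun i => ¬ ω i = ω j) _), add_zero,
        Finset.sum_congr rfl (g := fun _ => (p : ℂ)) fun i hi => by simp [(Finset.mem_filter.1 hi).2, j0]]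
      · simp [m, mul_comm]
      · intro i hi
        have := mul_geom_sum (ω i * (ω j)⁻¹) p
        rw [mul_pow, h1, j1, one_mul, sub_self] at this
        exact (mul_eq_zero.1 this).resolve_left fun e => (Finset.mem_filter.1 hi).2 (by rwa [sub_eq_zero, mul_inv_eq_one₀ j0] at e)
    obtain ⟨t, ht⟩ := nat_dvd_of_isIntegral_div d0 (s ▸ IsIntegral.sum _ fun i _ => (key i).1.mul ((H05.isIntegral_of_pow_eq_one hp.ne_zero j1).pow i))
    have : MemLocalIdeal M (t : ℂ) := by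
      rw [ht, Nat.cast_mul, mul_div_cancel_left₀ _ dc] at s
      rw [s, ← sub_add_cancel (∑ i ∈ Finset.range p, _) (∑ i ∈ Finset.range p, (g : ℂ)), ← Finset.sum_sub_distrib]
      refine ideal_add (ideal_sum fun i _ => ?_) (by simpa using ideal_mul_right (ideal_p hM) (ring_natCast g))
      have a := ideal_mul_right (key i).2 (ring_pow (ring_of_isIntegral (H05.isIntegral_of_pow_eq_one hp.ne_zero j1)) i)
      have b := ideal_mul_left (ring_natCast g) (one_sub_root_mem hM (ζ := (ω j)⁻¹ ^ i) (k := 1) (by rw [pow_one, ← pow_mul, mul_comm, pow_mul, j1, one_pow]))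
      convert ideal_sub a b using 1; ring
    obtain ⟨t, rfl⟩ := (ideal_natCast_iff hM).1 this
    exact Nat.le_of_dvd (Finset.card_pos.2 ⟨j, by simp⟩) ⟨t, Nat.eq_of_mul_eq_mul_left hp.pos (by rw [ht]; ring)⟩
  have := Finset.card_nsmul_le_sum _ _ _ m
  rw [← Finset.card_eq_sum_card_image, smul_eq_mul, Finset.card_univ] at this
  have e2 : Fintype.card ι = g * d := by have := h 0; simp only [pow_zero, e1, Finset.sum_const, Finset.card_univ, nsmul_eq_mul, mul_one] at this; exact_mod_cast this.symm.trans (mul_comm _ _)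
  rw [eg]; exact Nat.le_of_mul_le_mul_right (e2 ▸ this) (Nat.pos_of_ne_zero d0)

end H12.Bli
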