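import Mathlib
import Cfsg.Agent.H22.Cn1

/-!
# A linear algebra contradiction for a `3`-local configuration
* `H12.E8c.c2`
-/

namespace H12.E8c

open H28.Al Module

universe u v

theorem inj4 {k : Type*} {a a' b b' c : k} (h1 : a ≠ a') (h2 : b ≠ b') (h3 : c = a) :
    Function.Injective ![![a, b], ![b, a'], ![a', b'], ![b', c]] := fun s t r => by
  have r0 := congrFun r 0
  have r1 := congrFun r 1
  fin_cases s <;> fin_cases t <;> simp at r0 r1 ⊢ <;> grind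

theorem inj3 {k : Type*} {a b c : k} (h1 : b ≠ a) (h2 : b ≠ c) (h3 : c ≠ a) :
    Function.Injective ![fun _ : Unit => a, fun _ => b, fun _ => c] := fun s t r => by
  have r0 := congrFun r ()
  fin_cases s <;> fin_cases t <;> simp at r0 ⊢ <;> grind

theorem c2 {k V : Type u} [Field k] [IsAlgClosed k] [AddCommGroup V] [Module k V] [FiniteDimensional k V] {G : Type v} [Group G] (ρ : G →* Module.End k V) (h3 : (3 : k) ≠ 0) (x : Fin 6 → G) (u v f i : G) (a b c : Equiv.Perm (Fin 6)) (h : (∀ s t, x s * x t = x t * x s) ∧ (∀ s, x s ^ 3 = 1) ∧ u ^ 3 = 1 ∧ v ^ 3 = 1 ∧ u * v = v * u ∧ (∀ s, u * x s * u⁻¹ = x (a s)) ∧ (∀ s, v * x s * v⁻¹ = x (b s)) ∧ (∀ s, f * x s * f⁻¹ = x (c s)) ∧ f * u * f⁻¹ = v ∧ f * v * f⁻¹ = u⁻¹ ∧ (∀ s, i * x s * i⁻¹ = (x s)⁻¹) ∧ i * u * i⁻¹ = u ∧ i * v * i⁻¹ = v ∧ finrank k (J (fun s => ρ (x s)) 1) = 12 ∧ finrank k (J (fun s => ρ (x s * (x 0)⁻¹)) 1) = 16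 ∧ ∀ w, ρ u w = w → ρ (x 0 * x 1 * x 2) w = w → ρ (x 4 * (x 3)⁻¹) w = w → ρ (x 5 * (x 3)⁻¹) w = w → ρ (x 3) w = w) : False := by
  obtain ⟨hc, x3, u3, v3, uv, ha, hb, hf, fu, fv, hi, -, -, d1, d2, H⟩ := h
  have mu : ∀ g g' w, ρ (g * g') w = ρ g (ρ g' w) := fun g g' w => by rw [map_mul]; rfl
  have iv : ∀ {g w} {γ : k}, γ ≠ 0 → ρ g w = γ • w → ρ g⁻¹ w = γ⁻¹ • w := fun {g w γ} r e => by
    rw [eq_inv_smul_iff₀ r, ← map_smul, ← e, ← mu, inv_mul_cancel, map_one]; rfl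
  have nz : ∀ g {w}, w ≠ 0 → ρ g w ≠ 0 := fun g w r e => r (by
    rw [← show ρ (g⁻¹ * g) w = w by rw [inv_mul_cancel, map_one]; rfl, mu, e, map_zero])
  have cb : ∀ {g w} {γ : k}, g ^ 3 = 1 → w ≠ 0 → ρ g w = γ • w → γ ^ 3 = 1 := fun {g w γ} r w0 e => smul_left_injective k w0 (by
    have : ρ (g ^ 3) w = w := by rw [r, map_one]; rfl
    rw [pow_three, mu, mu, e, map_smul, e, map_smul, map_smul, e, smul_smul, smul_smul] at this
    simpa [pow_three, mul_assoc] using this)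
  have cj : ∀ {g y z : G} (w), g * y * g⁻¹ = z → ρ y (ρ g⁻¹ w) = ρ g⁻¹ (ρ z w) := fun w e => by
    rw [← e, ← mu, ← mu]; congr 2; group
  set U := J (fun s => ρ (x s * (x 0)⁻¹)) 1
  have mU : ∀ w, w ∈ U ↔ ∀ s, ρ (x s) w = ρ (x 0) w := fun w => forall_congr' fun s => by
    change ρ (x s * (x 0)⁻¹) w = (1 : k) • w ↔ _
    rw [one_smul, show x s * (x 0)⁻¹ = (x 0)⁻¹ * x s by rw [mul_inv_eq_iff_eq_mul, mul_assoc, hc s, inv_mul_cancel_left], mu]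
    exact ⟨fun e => by nth_rw 2 [← e]; rw [← mu, ← mu, mul_inv_cancel, one_mul], fun e => by rw [e, ← mu, inv_mul_cancel, map_one]; rfl⟩
  let W : k → Submodule k V := fun γ => J (fun s => ρ (x s)) fun _ => γ
  have mW : ∀ γ w, w ∈ W γ ↔ ∀ s, ρ (x s) w = γ • w := fun _ _ => Iff.rfl
  have WU : ∀ γ, W γ ≤ U := fun γ w r => (mU w).2 fun s => (r s).trans (r 0).symm
  have inv : ∀ {g : G} {π : Equiv.Perm (Fin 6)}, (∀ s, g * x s * g⁻¹ = x (π s)) → ∀ γ, ∀ w ∈ W γ, ρ g w ∈ W γ := fun {g π} e γ w r t => by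
    change ρ (x t) (ρ g w) = γ • _
    rw [← π.apply_symm_apply t, ← e, ← mu, inv_mul_cancel_right, mu, (mW γ w).1 r, map_smul]
  obtain ⟨γ, w, ⟨w', r, rfl⟩, w0, e⟩ := exists_eig (ρ (x 0)) (U.map (ρ (x 0) - 1)) (fun e => by
    have := Submodule.finrank_mono (show U ≤ W 1 from fun w r s => by
      have := e.le (Submodule.mem_map_of_mem r)
      change ρ (x s) w = _
      rw [(mU w).1 r s, one_smul]; simpa [sub_eq_zero] using this)
    change finrank k (W 1) = 12 at d1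
    omega) (by
      rintro _ ⟨w, r, rfl⟩
      exact ⟨ρ (x 0) w, (mU _).2 fun s => by rw [← mu, hc, mu, (mU w).1 r], by simp⟩)
  have γ3 := cb (x3 0) w0 e
  have γ1 : γ ≠ 1 := by
    rintro rfl
    have : ρ (x 0 ^ 3) w' = w' := by rw [x3, map_one]; rfl
    rw [pow_three, mu, mu] at this
    have e2 := congrArg (ρ (x 0)) e
    simp only [LinearMap.sub_apply, Module.End.one_apply, map_sub, one_smul, this] at e e2 w0
    exact w0 ((smul_eq_zero.1 (show (3 : k) • (ρ (x 0) w' - w') = 0 by linear_combination (norm := module) -e2 - (2 : k) • e)).resolve_left h3)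
  have γ0 : γ ≠ 0 := by rintro rfl; simp at γ3
  have m : (ρ (x 0) - 1) w' ∈ W γ := fun s => by
    change ρ (x s) _ = γ • _
    rw [← e]
    exact (mU _).1 (sub_mem ((mU _).2 fun s => by rw [← mu, hc, mu, (mU w').1 r]) r) s
  generalize (ρ (x 0) - 1) w' = w at *
  obtain ⟨α, w1, m1, n1, e1⟩ := exists_eig (ρ u) (W γ) ((Submodule.ne_bot_iff _).2 ⟨w, m, w0⟩) (inv ha γ)
  obtain ⟨β, w, ⟨m, e1⟩, w0, e2⟩ := exists_eig (ρ v) (W γ ⊓ Eg (ρ u) α) ((Submodule.ne_bot_iff _).2 ⟨w1, ⟨m1, mem_Eg.2 e1⟩, n1⟩)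
    fun w r => ⟨inv hb γ w r.1, mem_Eg.2 (by rw [← mu, uv, mu, mem_Eg.1 r.2, map_smul])⟩
  replace e1 := mem_Eg.1 e1
  have A : ∀ w ∈ W γ, w ≠ 0 → ∀ α : k, ρ u w = α • w → α ≠ 1 := fun w r w0 α e s => γ1 (smul_left_injective k w0 (by
    have r := (mW γ w).1 r
    have := H w (by rw [e, s, one_smul]) (by rw [mu, mu, r, map_smul, r, map_smul, map_smul, r, smul_smul, smul_smul, ← pow_three', γ3, one_smul])
      (by rw [mu, iv γ0 (r 3), map_smul, r, smul_smul, inv_mul_cancel₀ γ0, one_smul])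
      (by rw [mu, iv γ0 (r 3), map_smul, r, smul_smul, inv_mul_cancel₀ γ0, one_smul])
    simpa [r] using this))
  have St : ∀ {w} {α β : k}, w ∈ W γ ∧ w ≠ 0 ∧ ρ u w = α • w ∧ ρ v w = β • w →
      ρ f⁻¹ w ∈ W γ ∧ ρ f⁻¹ w ≠ 0 ∧ ρ u (ρ f⁻¹ w) = β • ρ f⁻¹ w ∧ ρ v (ρ f⁻¹ w) = α⁻¹ • ρ f⁻¹ w := fun {w α β} ⟨r, w0, e1, e2⟩ =>
    ⟨fun s => by change ρ (x s) _ = γ • _; rw [cj w (hf s), (mW γ w).1 r, map_smul], nz _ w0, by rw [cj w fu, e2, map_smul], by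
      rw [cj w fv, iv (by rintro rfl; simpa using cb u3 w0 e1) e1, map_smul]⟩
  have s0 := And.intro m (And.intro w0 (And.intro e1 e2))
  have s1 := St s0
  have s2 := St s1
  have s3 := St s2
  have α3 := cb u3 w0 e1
  have β3 := cb v3 w0 e2
  have N : ∀ {α : k}, α ^ 3 = 1 → α ≠ 1 → α ≠ α⁻¹ := fun {α} r s t => s (by
    have : α ≠ 0 := by rintro rfl; simp at r
    have e : α * α = 1 := by nth_rw 2 [t]; exact mul_inv_cancel₀ this
    linear_combination r - α * e)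
  have α1 := N α3 (A w m w0 α e1)
  have β1 := N β3 (A _ s1.1 s1.2.1 β s1.2.2.1)
  have k4 := J_card ![ρ u, ρ v] ![![α, β], ![β, α⁻¹], ![α⁻¹, β⁻¹], ![β⁻¹, α⁻¹⁻¹]] (inj4 α1 β1 (inv_inv α)) (W γ) fun s => by
      fin_cases s
      exacts [⟨_, s0.1, s0.2.1, Fin.forall_fin_two.2 s0.2.2⟩, ⟨_, s1.1, s1.2.1, Fin.forall_fin_two.2 s1.2.2⟩,
        ⟨_, s2.1, s2.2.1, Fin.forall_fin_two.2 s2.2.2⟩, ⟨_, s3.1, s3.2.1, Fin.forall_fin_two.2 s3.2.2⟩]
  have k1 := pos_rk (W := W γ⁻¹) (v := ρ i⁻¹ w) (fun s => by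
    change ρ (x s) _ = γ⁻¹ • _
    rw [cj w (hi s), iv γ0 ((mW γ w).1 m s), map_smul]) (nz _ w0)
  have γ2 := N γ3 γ1
  have := J_sum (fun _ : Unit => ρ (x 0)) ![fun _ => 1, fun _ => γ, fun _ => γ⁻¹] (inj3 γ1 γ2 (by simpa)) ![W 1, W γ, W γ⁻¹] (fun s => by
      fin_cases s <;> exact fun w r _ => r 0) U fun s => by fin_cases s <;> exact WU _
  change finrank k (W 1) = 12 at d1
  rw [Fin.sum_univ_three] at this
  change finrank k (W 1) + finrank k (W γ) + finrank k (W γ⁻¹) ≤ _ at this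
  rw [Fintype.card_fin] at k4
  omega

end H12.E8c
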