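import Cfsg.Agent.H12.ExtB
import Cfsg.Agent.H10.UField

/-! # Extremal systems: unitary transvections (namespace `H12.Ext`): `su_main` -/

set_option autoImplicit false
open Cfsg Matrix

namespace H12.Ext

variable {F : Type*} [Field F] [Finite F] {q n : ℕ}

theorem herm_eq (u v : Fin n → F) : hermForm n F q u v = (fun i => v i ^ q) ⬝ᵥ u := by
  simp [hermForm, dotProduct, mul_comm]

theorem herm_add (u u' v : Fin n → F) :
    hermForm n F q (u + u') v = hermForm n F q u v + hermForm n F q u' v := by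
  simp [herm_eq]

theorem herm_smul (c : F) (u v : Fin n → F) :
    hermForm n F q (c • u) v = c * hermForm n F q u v := by
  simp [herm_eq]

theorem herm_symm (hF : Nat.card F = q ^ 2) (u v : Fin n → F) :
    hermForm n F q u v ^ q = hermForm n F q v u := by
  rw [← H10.conj_apply hF]
  simp only [hermForm, map_sum, map_mul, H10.conj_apply, H10.pow_q_q hF, mul_comm]

theorem herm_add' (hF : Nat.card F = q ^ 2) (u v v' : Fin n → F) :
    hermForm n F q u (v + v') = hermForm n F q u v + hermForm n F q u v' := by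
  rw [← herm_symm hF, herm_add, H10.add_pow_q hF, herm_symm hF, herm_symm hF]

theorem herm_smul' (hF : Nat.card F = q ^ 2) (c : F) (u v : Fin n → F) :
    hermForm n F q u (c • v) = c ^ q * hermForm n F q u v := by
  rw [← herm_symm hF, herm_smul, mul_pow, herm_symm hF]

theorem herm_ex (hF : Nat.card F = q ^ 2) {p : Fin n → F} (hp : p ≠ 0) :
    ∃ w, hermForm n F q w p ≠ 0 := by
  have : (fun i => p i ^ q) ≠ 0 := fun e => hp (funext fun i => by
    have := congrFun e i
    exact pow_eq_zero_iff (by have := H10.two_le_q hF; omega) |>.1 this)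
  simpa only [herm_eq] using exists_dot_ne this

theorem herm_ex1 (hF : Nat.card F = q ^ 2) {p : Fin n → F} (hp : p ≠ 0) :
    ∃ w, hermForm n F q w p = 1 := by
  obtain ⟨w, hw⟩ := herm_ex hF hp
  exact ⟨(hermForm n F q w p)⁻¹ • w, by rw [herm_smul, inv_mul_cancel₀ hw]⟩

theorem exists_trace (hF : Nat.card F = q ^ 2) {μ : F} (hμ : μ ^ q = μ) : ∃ a : F, a + a ^ q = μ := by
  obtain ⟨t, ht⟩ : ∃ t : F, t + t ^ q ≠ 0 := by
    by_contra! h
    obtain ⟨a, ha⟩ := H10.exists_not_fixed hF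
    have h1 := h 1
    rw [one_pow] at h1
    exact ha (by linear_combination h a - a * h1)
  refine ⟨μ * t / (t + t ^ q), ?_⟩
  rw [div_pow, mul_pow, hμ, H10.add_pow_q hF, H10.pow_q_q hF, add_comm (t ^ q)]
  field_simp

variable (n F q) in
/-- The natural representation of `SU`. -/
def suRep : SU n F q →* Matrix (Fin n) (Fin n) F := (slToMat n F).comp (SU n F q).subtype

variable (n q) in
/-- unitary transvection elements -/
def suE (δ : F) : Set (Matrix (Fin n) (Fin n) F) :=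
  {N | ∃ p : Fin n → F, p ≠ 0 ∧ hermForm n F q p p = 0 ∧ N = δ • vecMulVec p (fun i => p i ^ q)}

theorem su_mulVec (c : F) (p v : Fin n → F) :
    (1 + c • vecMulVec p (fun i => p i ^ q)) *ᵥ v = v + (c * hermForm n F q v p) • p := by
  rw [add_mulVec, one_mulVec, smul_mulVec, vv_mulVec, smul_smul, herm_eq]

theorem su_mul (δ : F) (p r : Fin n → F) :
    (δ • vecMulVec p (fun i => p i ^ q)) * (δ • vecMulVec r (fun i => r i ^ q)) =
      (δ * δ * hermForm n F q r p) • vecMulVec p (fun i => r i ^ q) := by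
  rw [smul_mul_smul_comm, vv_mul, smul_smul, herm_eq]

theorem su_3 (δ : F) (p r : Fin n → F) :
    (δ • vecMulVec p (fun i => p i ^ q)) * (δ • vecMulVec r (fun i => r i ^ q)) *
      (δ • vecMulVec p (fun i => p i ^ q)) =
      (δ * δ * (hermForm n F q r p * hermForm n F q p r)) • δ • vecMulVec p (fun i => p i ^ q) := by
  rw [su_mul, smul_mul_smul_comm, vv_mul, smul_smul, smul_smul, ← herm_eq]
  congr 1; ring

variable {L : Type*} [Field L] [Algebra L F]

theorem su_l (hF : Nat.card F = q ^ 2) (hL : ∀ x : F, x ^ q = x ↔ ∃ a, algebraMap L F a = x)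
    {δ : F} (hδ : δ ^ q = -δ) (p r : Fin n → F) :
    ∃ l : L, algebraMap L F l = δ * δ * (hermForm n F q r p * hermForm n F q p r) :=
  (hL _).1 (by rw [mul_pow, mul_pow, mul_pow, hδ, herm_symm hF, herm_symm hF]; ring)

theorem su_pres (g : SU n F q) (u v : Fin n → F) :
    hermForm n F q (suRep F q n g *ᵥ u) (suRep F q n g *ᵥ v) = hermForm n F q u v := g.2 u v

theorem su_sys (hF : Nat.card F = q ^ 2) (hL : ∀ x : F, x ^ q = x ↔ ∃ a, algebraMap L F a = x)
    {δ : F} (h0 : δ ≠ 0) (hδ : δ ^ q = -δ) : Sys L (suRep F q n) (suE q n δ) where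
  inj := fun a b h => Subtype.ext (Subtype.ext h)
  sq := by rintro _ ⟨p, -, h, rfl⟩; rw [su_mul, h, mul_zero, zero_smul]
  ne := by
    rintro _ ⟨p, hp, -, rfl⟩ e
    obtain ⟨x, hx⟩ := herm_ex hF hp
    have := su_mulVec (q := q) δ p x
    rw [e, add_zero, one_mulVec, left_eq_add, smul_eq_zero] at this
    exact this.elim (mul_ne_zero h0 hx) hp
  ex := by
    rintro _ ⟨p, -, h, rfl⟩ c
    rw [← algebraMap_smul F c, smul_smul]
    have hc : (algebraMap L F c * δ) ^ q = -(algebraMap L F c * δ) := by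
      rw [mul_pow, hδ, (hL _).2 ⟨c, rfl⟩, mul_neg]
    generalize algebraMap L F c * δ = d at hc
    refine ⟨⟨⟨1 + d • vecMulVec p (fun i => p i ^ q), by
      rw [← smul_vecMulVec, det_one_add_vv, dotProduct_smul, ← herm_eq, h]; simp⟩, fun u v => ?_⟩,
      rfl⟩
    change hermForm n F q ((1 + d • vecMulVec p (fun i => p i ^ q)) *ᵥ u)
      ((1 + d • vecMulVec p (fun i => p i ^ q)) *ᵥ v) = _
    simp only [su_mulVec, herm_add, herm_add' hF, herm_smul, herm_smul' hF, h, mul_pow, hc,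
      herm_symm hF]
    ring
  conj := by
    rintro _ ⟨p, hp, h, rfl⟩ g
    have e1 : suRep F q n g⁻¹ * suRep F q n g = 1 := by rw [← map_mul]; simp
    have e2 : suRep F q n g * suRep F q n g⁻¹ = 1 := by rw [← map_mul]; simp
    refine ⟨suRep F q n g *ᵥ p, fun e => hp ?_, by rw [su_pres, h], ?_⟩
    · rw [← one_mulVec p, ← e1, ← mulVec_mulVec, e, mulVec_zero]
    · rw [ext_iff_mulVec]
      intro v
      rw [← mulVec_mulVec, ← mulVec_mulVec, smul_mulVec, smul_mulVec, vv_mulVec, vv_mulVec,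
        ← herm_eq, ← herm_eq, ← su_pres g, mulVec_mulVec, e2, one_mulVec, mulVec_smul, mulVec_smul]
  pair := by
    rintro _ ⟨p, hp, h, rfl⟩ _ ⟨r, hr, h', rfl⟩
    obtain ⟨l, hl⟩ := su_l hF hL hδ p r
    refine ⟨l, by rw [su_3, ← hl, algebraMap_smul], by
      rw [su_3, mul_comm (hermForm n F q p r), ← hl, algebraMap_smul], fun e => Or.inl ?_⟩
    rw [e, map_zero, ← herm_symm hF r p] at hl
    have a : hermForm n F q r p = 0 := by
      by_contra a
      exact mul_ne_zero (mul_ne_zero h0 h0) (mul_ne_zero a (pow_ne_zero _ a)) hl.symm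
    have b : hermForm n F q p r = 0 := by
      rw [← herm_symm hF, a, zero_pow (by have := H10.two_le_q hF; omega)]
    rw [su_mul, su_mul, a, b]; simp

theorem su_opp (hF : Nat.card F = q ^ 2) (hL : ∀ x : F, x ^ q = x ↔ ∃ a, algebraMap L F a = x)
    {δ : F} (h0 : δ ≠ 0) (hδ : δ ^ q = -δ) {p r : Fin n → F} (h : hermForm n F q r p ≠ 0) :
    Opp L (δ • vecMulVec p (fun i => p i ^ q)) (δ • vecMulVec r (fun i => r i ^ q)) := by
  obtain ⟨l, hl⟩ := su_l hF hL hδ p r
  refine ⟨l, ?_, by rw [su_3, ← hl, algebraMap_smul], by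
      rw [su_3, mul_comm (hermForm n F q p r), ← hl, algebraMap_smul]⟩
  rintro rfl
  rw [map_zero, ← herm_symm hF r p] at hl
  exact mul_ne_zero (mul_ne_zero h0 h0) (mul_ne_zero h (pow_ne_zero _ h)) hl.symm

theorem su_deg (hF : Nat.card F = q ^ 2) (hL : ∀ x : F, x ^ q = x ↔ ∃ a, algebraMap L F a = x)
    {δ : F} (h0 : δ ≠ 0) (hδ : δ ^ q = -δ) :
    ∀ N ∈ suE q n δ, ∀ M ∈ suE q n δ, Opp L N M ∨ N * M = M * N := by
  rintro _ ⟨p, hp, h, rfl⟩ _ ⟨r, hr, h', rfl⟩
  by_cases a : hermForm n F q r p = 0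
  · right
    have b : hermForm n F q p r = 0 := by
      rw [← herm_symm hF, a, zero_pow (by have := H10.two_le_q hF; omega)]
    rw [su_mul, su_mul, a, b]; simp
  · exact Or.inl (su_opp hF hL h0 hδ a)

theorem su_conn (hF : Nat.card F = q ^ 2) (hL : ∀ x : F, x ^ q = x ↔ ∃ a, algebraMap L F a = x)
    {δ : F} (h0 : δ ≠ 0) (hδ : δ ^ q = -δ) : ∀ N ∈ suE q n δ, ∀ M ∈ suE q n δ,
    Relation.ReflTransGen (fun X Y => X ∈ suE q n δ ∧ Y ∈ suE q n δ ∧ Opp L X Y) N M := by
  rintro _ ⟨p, hp, h, rfl⟩ _ ⟨r, hr, h', rfl⟩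
  by_cases a : hermForm n F q p r = 0
  swap
  · exact .single ⟨⟨p, hp, h, rfl⟩, ⟨r, hr, h', rfl⟩, (su_opp hF hL h0 hδ a).symm⟩
  obtain ⟨w, -, w1, w2⟩ := two_ne (fun _ => True) (fun _ _ _ _ => trivial)
    (hermForm n F q · p) (hermForm n F q · r) (fun x y => herm_add x y p)
    (fun x y => herm_add x y r) (by simpa using herm_ex hF hp) (by simpa using herm_ex hF hr)
  obtain ⟨t, ht⟩ := exists_trace hF (μ := -hermForm n F q w w) (by
    rw [← H10.conj_apply hF, map_neg, H10.conj_apply, herm_symm hF])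
  have w3 : hermForm n F q p w ≠ 0 := by rw [← herm_symm hF]; exact pow_ne_zero _ w1
  obtain ⟨x, hx⟩ : ∃ x, x = w + (t / hermForm n F q p w) • p := ⟨_, rfl⟩
  have x1 : hermForm n F q x p ≠ 0 := by rw [hx, herm_add, herm_smul, h]; simpa using w1
  have x2 : hermForm n F q x r ≠ 0 := by rw [hx, herm_add, herm_smul, a]; simpa using w2
  have x0 : x ≠ 0 := by rintro rfl; simp [hermForm] at x1
  have x3 : hermForm n F q x x = 0 := by
    rw [hx]
    simp only [herm_add, herm_add' hF, herm_smul, herm_smul' hF, h, div_pow, herm_symm hF]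
    rw [div_mul_cancel₀ _ w3, mul_zero, add_zero, div_mul_cancel₀ _ w1]
    linear_combination ht
  exact (Relation.ReflTransGen.single ⟨⟨p, hp, h, rfl⟩, ⟨x, x0, x3, rfl⟩,
    su_opp hF hL h0 hδ x1⟩).tail ⟨⟨x, x0, x3, rfl⟩, ⟨r, hr, h', rfl⟩, (su_opp hF hL h0 hδ x2).symm⟩

theorem su_nonempty (hF : Nat.card F = q ^ 2) (δ : F) : (suE q (n + 2) δ).Nonempty := by
  obtain ⟨a, ha⟩ := H10.exists_norm_eq hF (μ := -1) (by
    rw [← H10.conj_apply hF, map_neg, map_one])
  have hq : q ≠ 0 := by have := H10.two_le_q hF; omega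
  refine ⟨_, Fin.cons 1 (Fin.cons a 0), fun e => one_ne_zero (congrFun e 0), ?_, rfl⟩
  simp [hermForm, Fin.sum_univ_succ, zero_pow hq, mul_comm a, ha]

theorem su_fam (hF : Nat.card F = q ^ 2) (hL : ∀ x : F, x ^ q = x ↔ ∃ a, algebraMap L F a = x)
    {δ : F} (h0 : δ ≠ 0) (hδ : δ ^ q = -δ) :
    {A : Subgroup ↥(SU n F q) | ∃ p : Fin n → F, p ≠ 0 ∧ hermForm n F q p p = 0 ∧
      A = Subgroup.closure {g : ↥(SU n F q) |
        (∀ v : Fin n → F, ∃ c : F, ((g : Matrix.SpecialLinearGroup (Fin n) F) :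
          Matrix (Fin n) (Fin n) F) *ᵥ v = v + c • p) ∧
        ∀ v : Fin n → F, hermForm n F q v p = 0 →
          ((g : Matrix.SpecialLinearGroup (Fin n) F) : Matrix (Fin n) (Fin n) F) *ᵥ v = v}} =
    fam L (suRep F q n) (suE q n δ) := by
  have e : ∀ p : Fin n → F, p ≠ 0 → hermForm n F q p p = 0 → Subgroup.closure {g : ↥(SU n F q) |
        (∀ v : Fin n → F, ∃ c : F, ((g : Matrix.SpecialLinearGroup (Fin n) F) :
          Matrix (Fin n) (Fin n) F) *ᵥ v = v + c • p) ∧
        ∀ v : Fin n → F, hermForm n F q v p = 0 →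
          ((g : Matrix.SpecialLinearGroup (Fin n) F) : Matrix (Fin n) (Fin n) F) *ᵥ v = v} =
      rt L (suRep F q n) (δ • vecMulVec p (fun i => p i ^ q)) := fun p hp h => by
    unfold rt
    congr 1
    ext g
    change ((∀ v, ∃ c : F, suRep F q n g *ᵥ v = v + c • p) ∧
      ∀ v, hermForm n F q v p = 0 → suRep F q n g *ᵥ v = v) ↔ ∃ c : L, suRep F q n g = _
    constructor
    · rintro ⟨h1, h2⟩
      obtain ⟨w, hw⟩ := herm_ex1 hF hp
      obtain ⟨c, hc⟩ := h1 w
      have hw' : hermForm n F q p w = 1 := by rw [← herm_symm hF, hw, one_pow]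
      have t := su_pres g w w
      rw [hc] at t
      simp only [herm_add, herm_add' hF, herm_smul, herm_smul' hF, h, hw, hw'] at t
      obtain ⟨a, ha⟩ := (hL (c / δ)).1 (by
        rw [div_pow, hδ, show c ^ q = -c by linear_combination t, neg_div_neg_eq])
      refine ⟨a, ext_iff_mulVec.2 fun v => ?_⟩
      rw [← algebraMap_smul F a, smul_smul, ha, div_mul_cancel₀ _ h0, su_mulVec]
      have := h2 (v + (-hermForm n F q v p) • w) (by rw [herm_add, herm_smul, hw]; ring)
      rw [mulVec_add, mulVec_smul, hc] at this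
      rw [← sub_eq_zero] at this ⊢
      rw [← this]
      module
    · rintro ⟨c, hc⟩
      rw [hc, ← algebraMap_smul F c, smul_smul]
      exact ⟨fun v => ⟨_, su_mulVec _ p v⟩, fun v hv => by rw [su_mulVec, hv]; simp⟩
  ext A
  constructor
  · rintro ⟨p, hp, h, rfl⟩
    exact ⟨_, ⟨p, hp, h, rfl⟩, e p hp h⟩
  · rintro ⟨_, ⟨p, hp, h, rfl⟩, rfl⟩
    exact ⟨p, hp, h, (e p hp h).symm⟩

theorem exists_L (hF : Nat.card F = q ^ 2) : ∃ (L : Type) (_ : Field L) (_ : Fintype L)
    (_ : Algebra L F), Fintype.card L = q ∧ ∀ x : F, x ^ q = x ↔ ∃ a, algebraMap L F a = x := by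
  let K : Subfield F := RingHom.eqLocusField (H10.conj hF) (RingHom.id F)
  have : Small.{0} K := inferInstance
  let e : Shrink.{0} K ≃+* K := Shrink.ringEquiv K
  let f : Shrink.{0} K →+* F := K.subtype.comp e.toRingHom
  have : Finite (Shrink.{0} K) := Finite.of_equiv _ e.toEquiv.symm
  refine ⟨Shrink.{0} K, inferInstance, Fintype.ofFinite _, f.toAlgebra, ?_, fun x => ⟨fun h => ?_, ?_⟩⟩
  · rw [← @Nat.card_eq_fintype_card _ (Fintype.ofFinite _), Nat.card_congr e.toEquiv]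
    exact H10.card_fixed hF
  · exact ⟨e.symm ⟨x, h⟩, by
      change (e (e.symm ⟨x, h⟩) : F) = x
      simp⟩
  · rintro ⟨a, rfl⟩
    exact (e a).2

end H12.Ext
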