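import Cfsg.Agent.H12.ExtB

/-! # Extremal systems: Siegel transvections (namespace `H12.Ext`): `sg_sys`, `sg_conn`, `sg_fam` -/

set_option autoImplicit false
open Cfsg Matrix

namespace H12.Ext

variable {F : Type*} [Field F] {n : ℕ}

/-- The polar form of the hyperbolic quadratic form. -/
def bt (u v : Fin n ⊕ Fin n → F) : F := (u ∘ Sum.swap) ⬝ᵥ v

theorem bt_eq (u v : Fin n ⊕ Fin n → F) :
    bt u v = (u ∘ Sum.inl) ⬝ᵥ (v ∘ Sum.inr) + (u ∘ Sum.inr) ⬝ᵥ (v ∘ Sum.inl) := by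
  simp [bt, dotProduct, add_comm]

theorem q_eq (u : Fin n ⊕ Fin n → F) : quadFormPlus n F u = (u ∘ Sum.inl) ⬝ᵥ (u ∘ Sum.inr) := rfl

theorem bt_comm (u v : Fin n ⊕ Fin n → F) : bt u v = bt v u := by
  rw [bt_eq, bt_eq, add_comm, dotProduct_comm, dotProduct_comm (u ∘ Sum.inl)]

theorem bt_add (u v w : Fin n ⊕ Fin n → F) : bt u (v + w) = bt u v + bt u w := by simp [bt]
theorem bt_sub (u v w : Fin n ⊕ Fin n → F) : bt u (v - w) = bt u v - bt u w := by simp [bt]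
theorem bt_smul (c : F) (u v : Fin n ⊕ Fin n → F) : bt u (c • v) = c * bt u v := by simp [bt]
theorem add_bt (u v w : Fin n ⊕ Fin n → F) : bt (u + v) w = bt u w + bt v w := by
  rw [bt_comm, bt_add, bt_comm w, bt_comm w]
theorem sub_bt (u v w : Fin n ⊕ Fin n → F) : bt (u - v) w = bt u w - bt v w := by
  rw [bt_comm, bt_sub, bt_comm w, bt_comm w]
theorem smul_bt (c : F) (u v : Fin n ⊕ Fin n → F) : bt (c • u) v = c * bt u v := by
  rw [bt_comm, bt_smul, bt_comm]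

theorem q_add (u v : Fin n ⊕ Fin n → F) :
    quadFormPlus n F (u + v) = quadFormPlus n F u + quadFormPlus n F v + bt u v := by
  simp only [quadFormPlus, bt_eq, dotProduct, Pi.add_apply, Function.comp_apply,
    ← Finset.sum_add_distrib]
  exact Finset.sum_congr rfl fun i _ => by ring

theorem q_smul (c : F) (u : Fin n ⊕ Fin n → F) :
    quadFormPlus n F (c • u) = c ^ 2 * quadFormPlus n F u := by
  simp only [quadFormPlus, Pi.smul_apply, smul_eq_mul, Finset.mul_sum]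
  exact Finset.sum_congr rfl fun i _ => by ring

theorem bt_self (u : Fin n ⊕ Fin n → F) : bt u u = 2 * quadFormPlus n F u := by
  rw [bt_eq, q_eq, dotProduct_comm (u ∘ Sum.inr), two_mul]

theorem bt_nd {u : Fin n ⊕ Fin n → F} (h : ∀ v, bt u v = 0) : u = 0 := by
  by_contra hu
  have : u ∘ Sum.swap ≠ 0 := fun e => hu (funext fun i => by
    simpa using congrFun e i.swap)
  obtain ⟨x, hx⟩ := exists_dot_ne this
  exact hx (h x)

/-- totally singular pairs -/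
def Sing (p r : Fin n ⊕ Fin n → F) : Prop :=
  quadFormPlus n F p = 0 ∧ quadFormPlus n F r = 0 ∧ bt p r = 0

/-- The Siegel element. -/
def sg (p r : Fin n ⊕ Fin n → F) : Matrix (Fin n ⊕ Fin n) (Fin n ⊕ Fin n) F :=
  vecMulVec p (r ∘ Sum.swap) - vecMulVec r (p ∘ Sum.swap)

theorem sg_mulVec (p r v : Fin n ⊕ Fin n → F) : sg p r *ᵥ v = bt r v • p - bt p v • r := by
  rw [sg, sub_mulVec, vv_mulVec, vv_mulVec]; rfl

variable (n F) in
/-- Siegel elements -/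
def sgE : Set (Matrix (Fin n ⊕ Fin n) (Fin n ⊕ Fin n) F) :=
  {N | ∃ p r, Sing p r ∧ N ≠ 0 ∧ N = sg p r}

variable (n F) in
/-- The natural representation. -/
def oRep : isometryGroup F (quadFormPlus n F) →* Matrix (Fin n ⊕ Fin n) (Fin n ⊕ Fin n) F :=
  (Units.coeHom _).comp (isometryGroup F (quadFormPlus n F)).subtype

theorem o_q (g : isometryGroup F (quadFormPlus n F)) (u : Fin n ⊕ Fin n → F) :
    quadFormPlus n F (oRep F n g *ᵥ u) = quadFormPlus n F u := g.2 u u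

theorem o_bt (g : isometryGroup F (quadFormPlus n F)) (u v : Fin n ⊕ Fin n → F) :
    bt (oRep F n g *ᵥ u) (oRep F n g *ᵥ v) = bt u v := by
  have := o_q g (u + v)
  rw [mulVec_add, q_add, q_add, o_q, o_q] at this
  exact add_left_cancel this

theorem Sing.bt {p r : Fin n ⊕ Fin n → F} (h : Sing p r) :
    bt p p = 0 ∧ bt r r = 0 ∧ bt p r = 0 ∧ bt r p = 0 :=
  ⟨by rw [bt_self, h.1, mul_zero], by rw [bt_self, h.2.1, mul_zero], h.2.2,
    by rw [bt_comm, h.2.2]⟩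

theorem Sing.q {p r : Fin n ⊕ Fin n → F} (h : Sing p r) (a b : F) :
    quadFormPlus n F (a • p + b • r) = 0 := by
  rw [q_add, q_smul, q_smul, bt_smul, smul_bt, h.1, h.2.1, h.2.2]; simp

theorem sg_sq {p r : Fin n ⊕ Fin n → F} (h : Sing p r) : sg p r * sg p r = 0 := by
  obtain ⟨h1, h2, h3, h4⟩ := h.bt
  rw [ext_iff_mulVec]
  intro v
  simp [← mulVec_mulVec, sg_mulVec, bt_sub, bt_smul, h1, h2, h3, h4]

theorem sg_3 (p r s t : Fin n ⊕ Fin n → F) :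
    sg p r * sg s t * sg p r = (bt p t * bt r s - bt p s * bt r t) • sg p r := by
  rw [ext_iff_mulVec]
  intro v
  simp only [← mulVec_mulVec, sg_mulVec, bt_sub, bt_smul, smul_mulVec, bt_comm t p, bt_comm s p,
    bt_comm t r, bt_comm s r]
  module

theorem sg_3' (p r s t : Fin n ⊕ Fin n → F) :
    sg s t * sg p r * sg s t = (bt p t * bt r s - bt p s * bt r t) • sg s t := by
  rw [sg_3, bt_comm s r, bt_comm t p, bt_comm s p, bt_comm t r, mul_comm]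

theorem exists_factor {A B C D : F} (h : B * C - A * D = 0) :
    ∃ x₁ x₂ y₁ y₂ : F, A = x₁ * y₁ ∧ B = x₁ * y₂ ∧ C = x₂ * y₁ ∧ D = x₂ * y₂ := by
  by_cases a : A = 0
  · by_cases b : B = 0
    · exact ⟨0, 1, C, D, by simp [a], by simp [b], by simp, by simp⟩
    · refine ⟨1, D / B, A, B, by simp, by simp, ?_, by field_simp⟩
      field_simp; linear_combination h
  · refine ⟨1, C / A, A, B, by simp, by simp, by field_simp, ?_⟩
    field_simp; linear_combination -h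

theorem sg_sys : Sys F (oRep F n) (sgE F n) where
  inj := fun a b h => Subtype.ext (Units.ext h)
  sq := by rintro _ ⟨p, r, h, -, rfl⟩; exact sg_sq h
  ne := by rintro _ ⟨p, r, -, h, -⟩; exact h
  ex := by
    rintro _ ⟨p, r, h, -, rfl⟩ c
    refine ⟨⟨⟨1 + c • sg p r, 1 + (-c) • sg p r, by rw [mul_one_add (sg_sq h)]; simp,
      by rw [mul_one_add (sg_sq h)]; simp⟩, fun u _ => ?_⟩, rfl⟩
    change quadFormPlus n F ((1 + c • sg p r) *ᵥ u) = quadFormPlus n F u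
    rw [add_mulVec, one_mulVec, smul_mulVec, sg_mulVec, q_add,
      show c • (bt r u • p - bt p u • r) = (c * bt r u) • p + (-(c * bt p u)) • r by module, h.q,
      bt_add, bt_smul, bt_smul, bt_comm u, bt_comm u]
    ring
  conj := by
    rintro _ ⟨p, r, h, h0, rfl⟩ g
    have e1 : oRep F n g⁻¹ * oRep F n g = 1 := by rw [← map_mul]; simp
    have e2 : oRep F n g * oRep F n g⁻¹ = 1 := by rw [← map_mul]; simp
    refine ⟨oRep F n g *ᵥ p, oRep F n g *ᵥ r, ⟨by rw [o_q, h.1], by rw [o_q, h.2.1],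
      by rw [o_bt, h.2.2]⟩, fun e => h0 ?_, ?_⟩
    · have := congrArg (fun z => oRep F n g⁻¹ * z * oRep F n g) e
      simpa only [← mul_assoc, e1, one_mul, mul_assoc (sg p r), mul_one, mul_zero, zero_mul]
        using this
    · rw [ext_iff_mulVec]
      intro v
      rw [← mulVec_mulVec, ← mulVec_mulVec, sg_mulVec, sg_mulVec, ← o_bt g r, ← o_bt g p,
        mulVec_mulVec, e2, one_mulVec, mulVec_sub, mulVec_smul, mulVec_smul]
  pair := by
    rintro _ ⟨p, r, h, -, rfl⟩ _ ⟨s, t, h', -, rfl⟩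
    refine ⟨_, sg_3 _ _ _ _, sg_3' _ _ _ _, fun h0 => ?_⟩
    obtain ⟨x₁, x₂, y₁, y₂, a, b, c, d⟩ := exists_factor h0
    have e : sg p r * sg s t - sg s t * sg p r =
        sg (y₂ • s + (-y₁) • t) (x₂ • p + (-x₁) • r) := by
      rw [ext_iff_mulVec]
      intro v
      simp only [sub_mulVec, ← mulVec_mulVec, sg_mulVec, bt_sub, bt_smul, add_bt, smul_bt,
        bt_comm s p, bt_comm s r, bt_comm t p, bt_comm t r, a, b, c, d]
      module
    by_cases h1 : sg p r * sg s t - sg s t * sg p r = 0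
    · exact Or.inl (sub_eq_zero.1 h1)
    · refine Or.inr ⟨_, _, ⟨h'.q _ _, h.q _ _, ?_⟩, h1, e⟩
      simp only [bt_add, bt_smul, add_bt, smul_bt, bt_comm s p, bt_comm s r, bt_comm t p,
        bt_comm t r, a, b, c, d]
      ring

/-- adjacency -/
abbrev Adj (X Y : Matrix (Fin n ⊕ Fin n) (Fin n ⊕ Fin n) F) : Prop :=
  X ∈ sgE F n ∧ Y ∈ sgE F n ∧ Opp F X Y

theorem edge {p r s t : Fin n ⊕ Fin n → F} (h : Sing p r) (h' : Sing s t)
    (hd : bt p t * bt r s - bt p s * bt r t ≠ 0) : Adj (sg p r) (sg s t) := by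
  refine ⟨⟨p, r, h, fun e => hd ?_, rfl⟩, ⟨s, t, h', fun e => hd ?_, rfl⟩, _, hd, sg_3 _ _ _ _,
    sg_3' _ _ _ _⟩
  · have := congrArg (fun z => bt t (z *ᵥ s)) e
    simp only [sg_mulVec, zero_mulVec, bt_sub, bt_smul, bt_comm t p, bt_comm t r] at this
    rw [show bt t 0 = 0 by simp [bt]] at this
    linear_combination this
  · have := congrArg (fun z => bt r (z *ᵥ p)) e
    simp only [sg_mulVec, zero_mulVec, bt_sub, bt_smul, bt_comm t, bt_comm s] at this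
    rw [show bt r 0 = 0 by simp [bt]] at this
    linear_combination this

theorem Adj.symm {X Y : Matrix (Fin n ⊕ Fin n) (Fin n ⊕ Fin n) F} (h : Adj X Y) : Adj Y X :=
  ⟨h.2.1, h.1, h.2.2.symm⟩

/-- independent pairs -/
def Ind (a b : Fin n → F) : Prop := ∃ c d, a ⬝ᵥ d * b ⬝ᵥ c - a ⬝ᵥ c * b ⬝ᵥ d ≠ 0

theorem bt_r (p : Fin n ⊕ Fin n → F) (c : Fin n → F) :
    bt p (Sum.elim 0 c) = (p ∘ Sum.inl) ⬝ᵥ c := by simp [bt_eq]

theorem bt_l (p : Fin n ⊕ Fin n → F) (c : Fin n → F) :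
    bt p (Sum.elim c 0) = (p ∘ Sum.inr) ⬝ᵥ c := by simp [bt_eq]

theorem sing_l (a b : Fin n → F) : Sing (Sum.elim a 0) (Sum.elim b 0) := by
  simp [Sing, q_eq, bt_l]

theorem sing_r (a b : Fin n → F) : Sing (Sum.elim 0 a) (Sum.elim 0 b) := by
  simp [Sing, q_eq, bt_r]

theorem edge_lr {a b c d : Fin n → F} (h : a ⬝ᵥ d * b ⬝ᵥ c - a ⬝ᵥ c * b ⬝ᵥ d ≠ 0) :
    Adj (sg (Sum.elim a 0) (Sum.elim b 0)) (sg (Sum.elim 0 c) (Sum.elim 0 d)) :=
  edge (sing_l a b) (sing_r c d) (by simpa [bt_r] using h)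

theorem Ind.symm {a b : Fin n → F} (h : Ind a b) : Ind b a :=
  let ⟨c, d, h⟩ := h; ⟨d, c, fun e => h (by linear_combination e)⟩

theorem Ind.ex {a b : Fin n → F} (h : Ind a b) :
    (∃ c, a ⬝ᵥ c ≠ 0) ∧ ∃ d, a ⬝ᵥ d = 0 ∧ b ⬝ᵥ d ≠ 0 := by
  obtain ⟨c, d, h⟩ := h
  refine ⟨?_, (a ⬝ᵥ d) • c - (a ⬝ᵥ c) • d, by simp [mul_comm], by simpa using h⟩
  by_contra! h0
  simp [h0] at h

/-- connected to `Z` -/
abbrev Cn (Z : Matrix (Fin n ⊕ Fin n) (Fin n ⊕ Fin n) F) (p r : Fin n ⊕ Fin n → F) : Prop :=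
  Relation.ReflTransGen Adj (sg p r) Z

variable {Z : Matrix (Fin n ⊕ Fin n) (Fin n ⊕ Fin n) F}

theorem cn_swap {a b : Fin n → F} (h : Ind a b) (hc : Cn Z (Sum.elim b 0) (Sum.elim a 0)) :
    Cn Z (Sum.elim a 0) (Sum.elim b 0) := by
  obtain ⟨c, d, h⟩ := h
  exact (hc.head (edge_lr (c := c) (d := d) fun e => h (by linear_combination -e)).symm).head
    (edge_lr h)

theorem cn_snd {a b b' : Fin n → F} (h : Ind a b) (h' : Ind a b')
    (hc : Cn Z (Sum.elim a 0) (Sum.elim b' 0)) : Cn Z (Sum.elim a 0) (Sum.elim b 0) := by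
  obtain ⟨c, hc0⟩ := h.ex.1
  obtain ⟨d, d0, d1, d2⟩ := two_ne (fun d => a ⬝ᵥ d = 0)
    (fun x y hx hy => by rw [dotProduct_add, hx, hy, add_zero]) (b ⬝ᵥ ·) (b' ⬝ᵥ ·)
    (dotProduct_add b) (dotProduct_add b') h.ex.2 h'.ex.2
  exact (hc.head (edge_lr (c := c) (d := d) (by simp [d0, hc0, d2])).symm).head
    (edge_lr (by simp [d0, hc0, d1]))

theorem ind_single {a : Fin n → F} {i j : Fin n} (hij : i ≠ j) (h : a j ≠ 0) :
    Ind a (Pi.single i 1) :=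
  ⟨Pi.single i 1, Pi.single j 1, by simpa [hij] using h⟩

theorem cn_l {i j : Fin n} (hij : i ≠ j)
    (hZ : Cn Z (Sum.elim (Pi.single i 1) 0) (Sum.elim (Pi.single j 1) 0)) {a b : Fin n → F}
    (h : Ind a b) : Cn Z (Sum.elim a 0) (Sum.elim b 0) := by
  have hji : Ind (Pi.single j 1 : Fin n → F) (Pi.single i 1) := ind_single hij (by simp)
  obtain ⟨k, hk⟩ : ∃ k, a k ≠ 0 := by
    obtain ⟨c, hc⟩ := h.ex.1
    by_contra! h0
    exact hc (by simp [dotProduct, h0])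
  by_cases e : i = k
  · have h1 := ind_single (e ▸ hij.symm : j ≠ k) hk
    exact cn_snd h h1 (cn_swap h1 (cn_snd h1.symm hji (cn_swap hji hZ)))
  · have h1 := ind_single e hk
    exact cn_snd h h1 (cn_swap h1 (cn_snd h1.symm hji.symm hZ))

theorem cn_all (hn : 3 ≤ n) {i j : Fin n} (hij : i ≠ j)
    (hZ : Cn Z (Sum.elim (Pi.single i 1) 0) (Sum.elim (Pi.single j 1) 0))
    {p r : Fin n ⊕ Fin n → F} (h : Sing p r) (h0 : sg p r ≠ 0) : Cn Z p r := by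
  have c1 : ∀ {p r : Fin n ⊕ Fin n → F}, Sing p r → Ind (p ∘ Sum.inr) (r ∘ Sum.inr) → Cn Z p r := by
    rintro p r h ⟨c, d, hd⟩
    exact (cn_l hij hZ (a := c) (b := d) ⟨r ∘ Sum.inr, p ∘ Sum.inr, fun e => hd (by
      simp only [dotProduct_comm c, dotProduct_comm d] at e; linear_combination -e)⟩).head
      (edge h (sing_l c d) (by simpa only [bt_l] using hd))
  have c2 : ∀ {p r : Fin n ⊕ Fin n → F}, Sing p r → Ind (p ∘ Sum.inl) (r ∘ Sum.inl) → Cn Z p r := by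
    rintro p r h ⟨c, d, hd⟩
    exact (c1 (sing_r c d) ⟨r ∘ Sum.inl, p ∘ Sum.inl, fun e => hd (by
      simp only [Sum.elim_comp_inr, dotProduct_comm c, dotProduct_comm d] at e
      linear_combination -e)⟩).head (edge h (sing_r c d) (by simpa only [bt_r] using hd))
  by_cases i1 : Ind (p ∘ Sum.inr) (r ∘ Sum.inr)
  · exact c1 h i1
  by_cases i2 : Ind (p ∘ Sum.inl) (r ∘ Sum.inl)
  · exact c2 h i2
  simp only [Ind, not_exists, not_not] at i1 i2
  obtain ⟨z₀, y, hy⟩ : ∃ z₀ y : Fin n → F, (r ∘ Sum.inr) ⬝ᵥ z₀ * (p ∘ Sum.inl) ⬝ᵥ y -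
      (p ∘ Sum.inr) ⬝ᵥ z₀ * (r ∘ Sum.inl) ⬝ᵥ y ≠ 0 := by
    by_contra! h1
    refine h0 (ext_iff_mulVec.2 fun v => (bt_nd fun z => ?_).trans (zero_mulVec v).symm)
    rw [sg_mulVec, sub_bt, smul_bt, smul_bt, bt_eq, bt_eq, bt_eq, bt_eq]
    linear_combination i1 (v ∘ Sum.inl) (z ∘ Sum.inl) + i2 (v ∘ Sum.inr) (z ∘ Sum.inr) +
      h1 (v ∘ Sum.inl) (z ∘ Sum.inr) - h1 (z ∘ Sum.inl) (v ∘ Sum.inr)
  obtain ⟨a, ha⟩ : ∃ a : Fin n → F, a = ((r ∘ Sum.inr) ⬝ᵥ z₀) • (p ∘ Sum.inl) -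
    ((p ∘ Sum.inr) ⬝ᵥ z₀) • (r ∘ Sum.inl) := ⟨_, rfl⟩
  obtain ⟨b, hb⟩ : ∃ b : Fin n → F, b = ((p ∘ Sum.inl) ⬝ᵥ y) • (r ∘ Sum.inr) -
    ((r ∘ Sum.inl) ⬝ᵥ y) • (p ∘ Sum.inr) := ⟨_, rfl⟩
  have ay : a ⬝ᵥ y ≠ 0 := by simpa [ha] using hy
  have bz : b ⬝ᵥ z₀ ≠ 0 := fun e => hy (by
    simp only [hb, sub_dotProduct, smul_dotProduct, smul_eq_mul] at e; linear_combination e)
  have ba : b ⬝ᵥ a = 0 := by
    obtain ⟨q1, q2, q3⟩ := h
    rw [q_eq] at q1 q2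
    rw [bt_eq] at q3
    have k1 := i1 z₀ (r ∘ Sum.inl)
    have k2 := i1 z₀ (p ∘ Sum.inl)
    simp only [ha, hb, sub_dotProduct, smul_dotProduct, dotProduct_sub, dotProduct_smul,
      smul_eq_mul, dotProduct_comm (r ∘ Sum.inr) (r ∘ Sum.inl), q1, q2,
      dotProduct_comm (p ∘ Sum.inr) (p ∘ Sum.inl),
      dotProduct_comm (r ∘ Sum.inr) (p ∘ Sum.inl)] at k1 k2 ⊢
    linear_combination ((r ∘ Sum.inr) ⬝ᵥ z₀ * (p ∘ Sum.inl) ⬝ᵥ y) * q3 -
      ((p ∘ Sum.inl) ⬝ᵥ y) * k1 + ((r ∘ Sum.inl) ⬝ᵥ y) * k2 +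
      ((p ∘ Sum.inr) ⬝ᵥ z₀ * (r ∘ Sum.inl) ⬝ᵥ y) * q3
  obtain ⟨z, hz⟩ : ∃ z : Fin n → F, z = z₀ - (z₀ ⬝ᵥ y / a ⬝ᵥ y) • a := ⟨_, rfl⟩
  have zy : z ⬝ᵥ y = 0 := by simp [hz, div_mul_cancel₀ _ ay]
  have bz' : b ⬝ᵥ z ≠ 0 := by simpa [hz, ba] using bz
  obtain ⟨x, hx, x0⟩ : ∃ x : Fin n → F, (y ⬝ᵥ x = 0 ∧ b ⬝ᵥ x = 0) ∧ x ≠ 0 := by
    have := LinearMap.ker_ne_bot_of_finrank_lt (f := (dotProductBilin F F y).prod
      (dotProductBilin F F b)) (by simp; omega)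
    obtain ⟨x, hx, x0⟩ := Submodule.exists_mem_ne_zero_of_ne_bot this
    exact ⟨x, by simpa using hx, x0⟩
  obtain ⟨c, hc⟩ := exists_dot_ne x0
  have hs : Sing (Sum.elim x y) (Sum.elim z 0) :=
    ⟨by simp [q_eq, dotProduct_comm x, hx.1], by simp [q_eq], by simp [bt_l, dotProduct_comm y, zy]⟩
  refine (c2 hs ⟨b, c, ?_⟩).head (edge h hs fun e => bz' ?_)
  · simp [dotProduct_comm x b, hx.2, hc, dotProduct_comm z b, bz']
  · simp only [bt_eq, Sum.elim_comp_inl, Sum.elim_comp_inr, dotProduct_zero, zero_add] at e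
    simp only [hb, sub_dotProduct, smul_dotProduct, smul_eq_mul]
    linear_combination i1 x z - e

theorem sg_conn (hn : 3 ≤ n) : ∀ N ∈ sgE F n, ∀ M ∈ sgE F n,
    Relation.ReflTransGen (fun X Y => X ∈ sgE F n ∧ Y ∈ sgE F n ∧ Opp F X Y) N M := by
  rintro _ ⟨p, r, h, h0, rfl⟩ _ ⟨s, t, h', h0', rfl⟩
  have hij : (⟨0, by omega⟩ : Fin n) ≠ ⟨1, by omega⟩ := by simp
  have sy : ∀ {X Y : Matrix (Fin n ⊕ Fin n) (Fin n ⊕ Fin n) F}, Relation.ReflTransGen Adj X Y →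
      Relation.ReflTransGen Adj Y X := by
    intro X Y h
    induction h with
    | refl => exact .refl
    | tail _ h2 ih => exact ih.head h2.symm
  exact (cn_all hn hij .refl h h0).trans (sy (cn_all hn hij .refl h' h0'))

theorem sg_ne_iff {p r : Fin n ⊕ Fin n → F} : sg p r ≠ 0 ↔ LinearIndependent F ![p, r] := by
  constructor
  · intro h0
    rw [LinearIndependent.pair_iff]
    intro a b hab
    by_contra hh
    refine h0 (ext_iff_mulVec.2 fun v => ?_)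
    have k := congrArg (bt · v) hab
    simp only [add_bt, smul_bt, show bt 0 v = 0 by simp [bt]] at k
    rw [sg_mulVec, zero_mulVec]
    by_cases a0 : a = 0
    · have b0 : b ≠ 0 := fun e => hh ⟨a0, e⟩
      have : r = 0 := by simpa [a0, b0] using hab
      simp [this, bt]
    · have e : p = (-b / a) • r := by
        rw [div_eq_inv_mul, mul_smul, eq_inv_smul_iff₀ a0, neg_smul, eq_neg_iff_add_eq_zero, hab]
      rw [e, smul_bt]; module
  · intro h e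
    have h1 := h.ne_zero 1
    refine h1 (bt_nd fun v => ?_)
    have := sg_mulVec p r v
    rw [e, zero_mulVec, sub_eq_add_neg, ← neg_smul] at this
    exact (LinearIndependent.pair_iff.1 h _ _ this.symm).1

theorem sg_rt {p r : Fin n ⊕ Fin n → F} (h : Sing p r) (h0 : sg p r ≠ 0)
    (g : isometryGroup F (quadFormPlus n F)) :
    (∀ v, bt v p = 0 → bt v r = 0 → oRep F n g *ᵥ v = v) ↔ ∃ c : F, oRep F n g = 1 + c • sg p r := by
  constructor
  swap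
  · rintro ⟨c, hc⟩ v h1 h2
    rw [hc, add_mulVec, one_mulVec, smul_mulVec, sg_mulVec, bt_comm r, bt_comm p, h1, h2]
    simp
  intro hg
  obtain ⟨v, z, hd⟩ : ∃ v z, bt r v * bt p z - bt p v * bt r z ≠ 0 := by
    by_contra! h1
    refine h0 (ext_iff_mulVec.2 fun v => (bt_nd fun z => ?_).trans (zero_mulVec v).symm)
    rw [sg_mulVec, sub_bt, smul_bt, smul_bt, h1]
  obtain ⟨p', a1, a2⟩ : ∃ p', bt p p' = 1 ∧ bt r p' = 0 :=
    ⟨(bt r v * bt p z - bt p v * bt r z)⁻¹ • (bt r v • z - bt r z • v), by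
      rw [bt_smul, bt_sub, bt_smul, bt_smul, mul_comm (bt r z), inv_mul_cancel₀ hd], by
      rw [bt_smul, bt_sub, bt_smul, bt_smul]; ring⟩
  obtain ⟨r', a3, a4⟩ : ∃ r', bt p r' = 0 ∧ bt r r' = 1 :=
    ⟨(bt r v * bt p z - bt p v * bt r z)⁻¹ • (bt p z • v - bt p v • z), by
      rw [bt_smul, bt_sub, bt_smul, bt_smul]; ring, by
      rw [bt_smul, bt_sub, bt_smul, bt_smul, mul_comm (bt p z), inv_mul_cancel₀ hd]⟩
  have dec : ∀ u, oRep F n g *ᵥ (u - bt p u • p' - bt r u • r') = u - bt p u • p' - bt r u • r' :=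
    fun u => hg _ (by rw [bt_comm]; simp [bt_sub, bt_smul, a1, a3])
      (by rw [bt_comm]; simp [bt_sub, bt_smul, a2, a4])
  have mv : ∀ u, ∃ a b : F, oRep F n g *ᵥ u = u + (a • p + b • r) := fun u => by
    refine ⟨bt (oRep F n g *ᵥ u - u) p', bt (oRep F n g *ᵥ u - u) r', ?_⟩
    rw [← sub_eq_iff_eq_add', ← sub_eq_zero]
    refine bt_nd fun w => ?_
    have := o_bt g u (w - bt p w • p' - bt r w • r')
    rw [dec] at this
    simp only [bt_sub, bt_smul, sub_bt, add_bt, smul_bt] at this ⊢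
    linear_combination this
  obtain ⟨a, b, e1⟩ := mv p'
  obtain ⟨c, d, e2⟩ := mv r'
  obtain ⟨h1, h2, h3, h4⟩ := h.bt
  have k1 := o_q g p'
  have k2 := o_q g r'
  have k3 := o_bt g p' r'
  rw [e1, q_add, h.q, bt_comm, add_bt, smul_bt, smul_bt, a1, a2] at k1
  rw [e2, q_add, h.q, bt_comm, add_bt, smul_bt, smul_bt, a3, a4] at k2
  rw [e1, e2] at k3
  simp only [bt_add, add_bt, bt_smul, smul_bt, h1, h2, h3, h4, a3, a4, bt_comm p' p, bt_comm p' r,
    a1, a2] at k3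
  obtain rfl : a = 0 := by linear_combination k1
  obtain rfl : d = 0 := by linear_combination k2
  obtain rfl : b = -c := by linear_combination k3
  refine ⟨c, ext_iff_mulVec.2 fun u => ?_⟩
  have := dec u
  rw [mulVec_sub, mulVec_sub, mulVec_smul, mulVec_smul, e1, e2] at this
  rw [add_mulVec, one_mulVec, smul_mulVec, sg_mulVec, ← sub_eq_zero, ← sub_eq_zero.2 this]
  module

theorem sg_fam : {A : Subgroup ↥(isometryGroup F (quadFormPlus n F)) |
    ∃ p r : Fin n ⊕ Fin n → F, LinearIndependent F ![p, r] ∧ quadFormPlus n F p = 0 ∧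
      quadFormPlus n F r = 0 ∧ quadFormPlus n F (p + r) = 0 ∧
      A = Subgroup.closure {σ : ↥(isometryGroup F (quadFormPlus n F)) | ∀ v : Fin n ⊕ Fin n → F,
        quadFormPlus n F (v + p) - quadFormPlus n F v - quadFormPlus n F p = 0 →
        quadFormPlus n F (v + r) - quadFormPlus n F v - quadFormPlus n F r = 0 →
          ((σ : Matrix.GeneralLinearGroup (Fin n ⊕ Fin n) F) :
            Matrix (Fin n ⊕ Fin n) (Fin n ⊕ Fin n) F) *ᵥ v = v}} = fam F (oRep F n) (sgE F n) := by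
  have e : ∀ p r : Fin n ⊕ Fin n → F, Sing p r → sg p r ≠ 0 →
      Subgroup.closure {σ : ↥(isometryGroup F (quadFormPlus n F)) | ∀ v : Fin n ⊕ Fin n → F,
        quadFormPlus n F (v + p) - quadFormPlus n F v - quadFormPlus n F p = 0 →
        quadFormPlus n F (v + r) - quadFormPlus n F v - quadFormPlus n F r = 0 →
          ((σ : Matrix.GeneralLinearGroup (Fin n ⊕ Fin n) F) :
            Matrix (Fin n ⊕ Fin n) (Fin n ⊕ Fin n) F) *ᵥ v = v} = rt F (oRep F n) (sg p r) := by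
    intro p r h h0
    unfold rt
    congr 1
    ext g
    rw [Set.mem_setOf_eq, Set.mem_setOf_eq, ← sg_rt h h0]
    simp only [q_add, add_sub_cancel_left, add_assoc]
    rfl
  ext A
  constructor
  · rintro ⟨p, r, hi, h1, h2, h3, rfl⟩
    have h : Sing p r := ⟨h1, h2, by simpa [q_add, h1, h2] using h3⟩
    exact ⟨_, ⟨p, r, h, sg_ne_iff.2 hi, rfl⟩, e p r h (sg_ne_iff.2 hi)⟩
  · rintro ⟨_, ⟨p, r, h, h0, rfl⟩, rfl⟩
    exact ⟨p, r, sg_ne_iff.1 h0, h.1, h.2.1, by simp [q_add, h.1, h.2.1, h.2.2], (e p r h h0).symm⟩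

end H12.Ext
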