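import Mathlib
import Cfsg.Agent.H10.FrE

/-! # Orthogonal frames in dimension five: basics (adapted from `H10.FrE`) -/

namespace H12.F5

open Module H10 H10.Form

variable {F V : Type*} [Field F] [AddCommGroup V] [Module F V] {φ : Form F V} {κ : Type*} [Fintype κ] [DecidableEq κ]

variable (φ) in
/-- orthogonal basis of five vectors of norm `N` -/
structure Fr5 (e : κ → V) (N : F) : Prop where
  q : φ.IsQuad
  h2 : (2 : F) ≠ 0
  N0 : N ≠ 0
  Qe : ∀ i, φ.Q (e i) = N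
  orth : ∀ i j, i ≠ j → φ.B (e i) (e j) = 0
  tot : ∀ x, (∀ i, φ.B (e i) x = 0) → x = 0
  n10 : Fintype.card κ = 5

open H10.Form.Fr (e_mem)

namespace Fr5
variable {e : κ → V} {N : F} (h : Fr5 φ e N) {T : Finset κ} {x y : V} {i j : κ}
include h

omit [DecidableEq κ] in
theorem ex (l : List κ) (hl : l.length < 5) : ∃ i, i ∉ l := by
  classical exact (ex_not ∅ l (by have := h.n10; simp; omega)).imp fun _ a => a.2

omit [DecidableEq κ] in
theorem Bee (i : κ) : φ.B (e i) (e i) = 2 * N := by rw [h.q.B_self, h.Qe]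

theorem Bij (i j : κ) : φ.B (e i) (e j) = if i = j then 2 * N else 0 := by
  split_ifs with a
  exacts [a ▸ h.Bee i, h.orth i j a]

theorem expand (x : V) : x = ∑ i, (φ.B (e i) x / (2 * N)) • e i :=
  sub_eq_zero.1 (h.tot _ fun j => by simp [h.Bij, h.h2, h.N0])

theorem mem_co : x ∈ co F e T ↔ ∀ i ∉ T, φ.B (e i) x = 0 := by
  refine ⟨fun hx i hi => ?_, fun hx => ?_⟩
  · induction hx using Submodule.span_induction with
    | mem x hx => obtain ⟨j, hj, rfl⟩ := hx; exact h.orth i j (by rintro rfl; exact hi hj)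
    | _ => simp_all
  · rw [h.expand x]
    exact sum_mem fun i _ => by by_cases a : i ∈ T <;> simp [Submodule.smul_mem, e_mem, a, hx i]

theorem mem_ln : x ∈ ln F e i ↔ ∀ j, j ≠ i → φ.B (e j) x = 0 := by
  simpa [co] using h.mem_co (x := x) (T := {i})

theorem mem_pair : x ∈ Submodule.span F {e i, e j} ↔ ∀ k, k ≠ i → k ≠ j → φ.B (e k) x = 0 := by
  simpa [co, Set.image_insert_eq] using h.mem_co (x := x) (T := {i, j})

theorem perp_co : φ.perp (co F e T) = co F e Tᶜ := by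
  ext x; rw [h.mem_co, co, mem_perp_span]; simp

theorem perp_of (hx : x ∈ co F e Tᶜ) : x ∈ φ.perp (co F e T) := by rwa [h.perp_co]

theorem nd (T : Finset κ) : φ.NondegOn (co F e T) := fun x hx H => h.tot x fun i => by
  by_cases a : i ∈ T
  exacts [φ.B_symm_zero (H _ (e_mem a)), h.mem_co.1 hx i a]

theorem split (T : Finset κ) (x : V) : ∃ u ∈ co F e T, ∃ w ∈ co F e Tᶜ, x = u + w := by
  refine ⟨∑ i ∈ T, (φ.B (e i) x / (2 * N)) • e i, sum_mem fun i a => Submodule.smul_mem _ _ (e_mem a),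
    ∑ i ∈ Tᶜ, (φ.B (e i) x / (2 * N)) • e i, sum_mem fun i a => Submodule.smul_mem _ _ (e_mem a), ?_⟩
  rw [Finset.sum_add_sum_compl, ← h.expand]

theorem li : LinearIndependent F e := Fintype.linearIndependent_iff.2 fun c hc i => by
  simpa [h.Bij, h.h2, h.N0] using congrArg (φ.B (e i)) hc

theorem finrank_co (T : Finset κ) : finrank F (co F e T) = T.card := by
  rw [co, Set.image_eq_range, finrank_span_eq_card (b := fun x : (T : Set κ) => e x)
    (h.li.comp _ Subtype.val_injective)]; simp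

theorem finrank_eq : finrank F V = Fintype.card κ := by
  rw [← finrank_top, ← show co F e Finset.univ = ⊤ from eq_top_iff.2 fun x _ => h.mem_co.2 (by simp), h.finrank_co,
    Finset.card_univ]

omit [DecidableEq κ] in
theorem ne0 (i : κ) : e i ≠ 0 := fun a => h.N0 (by rw [← h.Qe i, a, Q_zero])

variable [φ.Nondeg] [FiniteDimensional F V]

omit [φ.Nondeg] [FiniteDimensional F V] in
theorem blk : φ.Blk (ln F e) 1 :=
  ⟨h.q, ⟨fun i => φ.nondegOn_singleton (by simp [h.Bee, h.h2, h.N0]), fun i j a =>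
    (Submodule.span_singleton_le_iff_mem _ _).2 (φ.mem_perp_singleton.2 (h.orth i j a)), eq_top_iff.2 fun x _ => by
      rw [h.expand x]
      exact sum_mem fun i _ => Submodule.mem_iSup_of_mem i (Submodule.smul_mem _ _
        (Submodule.mem_span_singleton_self _))⟩, fun i => finrank_span_singleton (h.ne0 i),
    fun i j => isEquiv_singleton (fun _ => rfl) (fun _ => rfl) rfl (h.ne0 i) (h.ne0 j) (by rw [h.Qe, h.Qe]), by have := h.n10; rw [h.finrank_eq]; omega⟩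

omit [φ.Nondeg] in
theorem mem_dstab {g : φ.Isom} : g ∈ φ.dstab (ln F e) ↔ ∀ i, ∃ j, g.1 (e i) ∈ ln F e j :=
  ⟨fun ⟨σ, a⟩ i => ⟨σ i, a i ▸ ⟨_, Submodule.mem_span_singleton_self _, rfl⟩⟩, fun a =>
    h.blk.od.mem_dstab_of_le h.blk.rk one_pos fun i => (a i).imp fun j b => by
      rwa [Submodule.map_span, Set.image_singleton, Submodule.span_singleton_le_iff_mem]⟩

theorem root {u w : V} (hij : i ≠ j) (hu : u ∈ ln F e i) (hw : w ∈ ln F e j) (h0 : φ.Q u ≠ 0) (h1 : φ.Q w = φ.Q u) :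
    φ.Q (u + w) = 2 * φ.Q u ∧ φ.Rt e (u + w) ∧ (φ.refl (u + w)).1 u = -w := by
  have o : φ.B u w = 0 := h.blk.od.orth i j hij hw u hu
  have q : φ.Q (u + w) = 2 * φ.Q u := by rw [φ.Q_add_of_orth o, h1, two_mul]
  have q0 := mul_ne_zero h.h2 h0
  have r1 : (φ.refl (u + w)).1 u = -w := by
    rw [h.q.refl_apply, q, map_add, LinearMap.add_apply, h.q.B_self, φ.B_symm_zero o, add_zero, neg_mul,
      inv_mul_cancel₀ q0]; module
  have r2 : (φ.refl (u + w)).1 w = -u := by rw [← h.q.refl_inv, Isom.inv_apply_eq, map_neg, r1, neg_neg]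
  refine ⟨q, ⟨q ▸ q0, h.mem_dstab.2 fun k => ?_⟩, r1⟩
  have a : ∀ {i j u w}, u ∈ ln F e i → φ.Q u ≠ 0 → w ∈ ln F e j → ∀ r : φ.Isom, r.1 u = -w →
      r.1 (e i) ∈ ln F e j := fun hu h0 hw r hr => by
    obtain ⟨c, rfl⟩ := Submodule.mem_span_singleton.1 hu
    exact (Submodule.smul_mem_iff _ (by rintro rfl; simp at h0)).1 (map_smul r.1 c _ ▸ hr ▸ neg_mem hw)
  by_cases a1 : k = i
  · exact ⟨j, a1 ▸ a hu h0 hw _ r1⟩
  by_cases a2 : k = j
  · exact ⟨i, a2 ▸ a hw (h1 ▸ h0) hu _ r2⟩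
  exact ⟨k, by
    rw [h.q.refl_of_orth (φ.B_symm_zero (by simp [h.mem_ln.1 hu k a1, h.mem_ln.1 hw k a2]))]
    exact Submodule.mem_span_singleton_self _⟩

variable [Finite F]

theorem rt_ln (hx : x ∈ ln F e i) (h0 : x ≠ 0) : φ.Rt e x := by
  refine ⟨?_, h.blk.refl_mem hx⟩
  obtain ⟨c, rfl⟩ := Submodule.mem_span_singleton.1 hx
  simpa [h.q.Q_smul, h.Qe, h.N0, h.ne0] using h0

theorem rt_e (i : κ) : φ.Rt e (e i) := h.rt_ln (Submodule.mem_span_singleton_self _) (h.ne0 i)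

theorem rt_sub (hij : i ≠ j) : φ.Q (e i - e j) = 2 * N ∧ φ.Rt e (e i - e j) ∧ (φ.refl (e i - e j)).1 (e i) = e j := by
  simpa [h.Qe, ← sub_eq_add_neg] using h.root hij (Submodule.mem_span_singleton_self _)
    (neg_mem (Submodule.mem_span_singleton_self _)) (h.rt_e i).1 (by simp [h.Qe])

theorem rt_add (hij : i ≠ j) : φ.Q (e i + e j) = 2 * N ∧ φ.Rt e (e i + e j) := by
  have := h.root hij (Submodule.mem_span_singleton_self _) (Submodule.mem_span_singleton_self _) (h.rt_e i).1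
    (by simp [h.Qe])
  exact ⟨h.Qe i ▸ this.1, this.2.1⟩

theorem rt_diff {w : V} (hw : w ∈ ln F e j) (h1 : φ.Q w = N) (h0 : e i + w ≠ 0) : φ.Rt e (e i + w) := by
  by_cases a : i = j
  · exact h.rt_ln (add_mem (Submodule.mem_span_singleton_self _) (a ▸ hw)) h0
  · exact (h.root a (Submodule.mem_span_singleton_self _) hw (h.rt_e i).1 (by rw [h1, h.Qe])).2.1

theorem root_cls (hx : φ.Rt e x) (hi : φ.B (e i) x ≠ 0) : x ∈ ln F e i ∧ chi (φ.Q x) = chi N ∨
    ∃ j, j ≠ i ∧ x ∈ Submodule.span F {e i, e j} ∧ chi (φ.Q x) = chi (2 * N) := by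
  obtain ⟨j, hj⟩ := h.mem_dstab.1 hx.2 i
  have q := Isom.Q_map (φ.refl x) (e i)
  have c0 : (φ.Q x)⁻¹ * φ.B x (e i) ≠ 0 := by simp [hx.1, h.q.B_comm x, hi]
  have e1 : ((φ.Q x)⁻¹ * φ.B x (e i)) • x = e i + -(φ.refl x).1 (e i) := by rw [h.q.refl_apply]; module
  by_cases a : j = i
  · have := (Submodule.smul_mem_iff _ c0).1
      (e1 ▸ add_mem (Submodule.mem_span_singleton_self _) (neg_mem (a ▸ hj)) : _ ∈ ln F e i)
    refine Or.inl ⟨this, ?_⟩
    obtain ⟨c, rfl⟩ := Submodule.mem_span_singleton.1 this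
    rw [h.q.Q_smul, h.Qe, chi_mul (by simp_all) h.N0, chi_mul_self, one_mul]
  refine Or.inr ⟨j, a, (Submodule.smul_mem_iff _ c0).1 (e1 ▸ add_mem (Submodule.subset_span (by simp))
    (neg_mem (Submodule.span_mono (by simp) hj))), ?_⟩
  have := (h.root (Ne.symm a) (Submodule.mem_span_singleton_self _) (neg_mem hj) (h.rt_e i).1 (by simp)).1
  rw [← e1, h.q.Q_smul, h.Qe] at this
  rw [← this, chi_mul (mul_ne_zero c0 c0) hx.1, chi_mul_self, one_mul]

theorem root_ex (hx : φ.Rt e x) : ∃ i, φ.B (e i) x ≠ 0 := by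
  by_contra! H; exact hx.1 (by rw [h.tot x H, Q_zero])

theorem root_chi (hx : φ.Rt e x) : chi (φ.Q x) = chi N ∨ chi (φ.Q x) = chi (2 * N) :=
  (h.root_ex hx).elim fun _ a => (h.root_cls hx a).imp And.right fun ⟨_, a⟩ => a.2.2

theorem root_at (hx : φ.Rt e x) (hi : φ.B (e i) x ≠ 0) : ∃ j, j ≠ i ∧ x ∈ Submodule.span F {e i, e j} := by
  rcases h.root_cls hx hi with a | ⟨j, a⟩
  · obtain ⟨j, hj⟩ := h.ex [i] (by simp)
    exact ⟨j, by simpa using hj, Submodule.span_mono (by simp) a.1⟩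
  · exact ⟨j, a.1, a.2.1⟩

theorem root_supp (hx : φ.Rt e x) : (φ.supp e x).card ≤ 2 := by
  obtain ⟨i, hi⟩ := h.root_ex hx
  obtain ⟨j, -, hj⟩ := h.root_at hx hi
  exact (Finset.card_le_card fun k hk => by
    by_contra a; simp only [Finset.mem_insert, Finset.mem_singleton, not_or] at a
    exact mem_supp.1 hk (h.mem_pair.1 hj k a.1 a.2)).trans (Finset.card_le_two (a := i) (b := j))

theorem three_of (h0 : φ.Q x ≠ 0) (hx : ¬ φ.Rt e x) (H : ∀ i j, i ≠ j → φ.B (e i) x ≠ 0 → φ.B (e j) x ≠ 0 →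
    φ.B (e i) x * φ.B (e i) x = φ.B (e j) x * φ.B (e j) x) : 3 ≤ (φ.supp e x).card := by
  by_contra! a
  have x0 : x ≠ 0 := by rintro rfl; simp at h0
  obtain ⟨i, hi⟩ : ∃ i, φ.B (e i) x ≠ 0 := by by_contra! H; exact x0 (h.tot x H)
  obtain ⟨j, hj, hj'⟩ : ∃ j, j ≠ i ∧ φ.B (e j) x ≠ 0 := by by_contra! H; exact hx (h.rt_ln (h.mem_ln.2 H) x0)
  obtain ⟨s, t, rfl⟩ := Submodule.mem_span_pair.1 (h.mem_pair (i := i) (j := j).2 fun k k1 k2 => by
    by_contra b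
    exact absurd (Finset.two_lt_card_iff.2 ⟨i, j, k, mem_supp.2 hi, mem_supp.2 hj', mem_supp.2 b, hj.symm, k1.symm,
      k2.symm⟩) (by omega))
  have := H i j hj.symm hi hj'
  simp only [map_add, map_smul, h.Bij, hj, hj.symm, smul_eq_mul, if_true, if_false] at this hi
  refine hx (h.root hj.symm (Submodule.smul_mem _ s (Submodule.mem_span_singleton_self _))
    (Submodule.smul_mem _ t (Submodule.mem_span_singleton_self _)) (by simp_all [h.q.Q_smul, h.Qe, h.N0]) ?_).2.1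
  rw [h.q.Q_smul, h.q.Q_smul, h.Qe, h.Qe]
  exact mul_left_cancel₀ (mul_ne_zero (mul_ne_zero h.h2 h.h2) h.N0) (by linear_combination -this)

theorem neg (T : Finset κ) : ∃ z, Neg z (co F e T) ∧ z ∈ φ.dstab (ln F e) ∧ (Even T.card → z ∈ φ.E) ∧
    ∀ K : Subgroup φ.Isom, (∀ i ∈ T, φ.refl (e i) ∈ K) → z ∈ K := by
  suffices H : ∃ z, Neg z (co F e T) ∧ φ.dickson z = (-1) ^ T.card ∧ φ.spinor z = chi N ^ T.card ∧
      ∀ K : Subgroup φ.Isom, (∀ i ∈ T, φ.refl (e i) ∈ K) → z ∈ K by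
    obtain ⟨z, a, b, c, d⟩ := H
    exact ⟨z, a, d _ fun i _ => (h.rt_e i).2, fun e => h.blk.mem_E.2 ⟨by rw [b, e.neg_one_pow], by
      obtain ⟨k, hk⟩ := e; rw [c, hk, pow_add, Int.units_mul_self]⟩, d⟩
  induction T using Finset.induction_on with
  | empty => exact ⟨1, ⟨fun x hx => by simp_all [co], fun _ _ => rfl⟩, by simp, by simp, fun K _ => one_mem K⟩
  | insert i T hi ih =>
    obtain ⟨z, a, b, c, d⟩ := ih
    have r := (h.rt_e i).1
    refine ⟨φ.refl (e i) * z, ?_, by simp [b, hi, pow_succ', h.q.dickson_refl h.blk.good r],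
      by simp [c, hi, pow_succ', h.q.spinor_refl h.blk.good r, h.Qe], fun K hK =>
        mul_mem (hK i (by simp)) (d K fun j hj => hK j (by simp [hj]))⟩
    rw [co, Finset.coe_insert, Set.image_insert_eq, Submodule.span_insert]
    refine Neg.mul ⟨fun x hx => ?_, fun x hx => h.q.refl_of_orth (φ.mem_perp_singleton.1 hx)⟩ a
      fun x hx => φ.mem_perp_singleton.2 (h.mem_co.1 hx i hi)
    obtain ⟨c, rfl⟩ := Submodule.mem_span_singleton.1 hx
    simp [h.q.refl_self r]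

section
variable {L : Subgroup φ.Isom} (hL : φ.E ⊓ φ.dstab (ln F e) ≤ L)
include hL

theorem rr (hx : φ.Rt e x) (hy : φ.Rt e y) (a : chi (φ.Q x) = chi (φ.Q y)) : φ.refl x * φ.refl y ∈ L :=
  hL ⟨h.blk.rr_mem hx.1 hy.1 a, mul_mem hx.2 hy.2⟩

/-- localisation at two coordinates -/
theorem exK {a : V} (ha : Rf L a) (ha' : φ.Rt e a) (hE : ∀ g ∈ L, g ∈ φ.E ∨ g * φ.refl a ∈ φ.E) {m m' : κ}
    (hm : m ≠ m') : ∃ K : Subgroup φ.Isom, K ⊓ φ.E ≤ L ∧ (∀ g ∈ L, g.1 (e m) = e m → g.1 (e m') = e m' → g ∈ K) ∧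
      ∀ x, φ.Rt e x → φ.B (e m) x = 0 → φ.B (e m') x = 0 → Rf K x := by
  have f : ∀ g : φ.Isom, g.1 (e m) = e m → g.1 (e m') = e m' → g ∈ φ.fix (co F e {m, m'}) := fun g a b => by
    rw [co, mem_fix_span]; simp [a, b, or_imp, forall_and]
  refine ⟨loc L _ (h.nd {m, m'}), loc_inf_E _ hL ha.2 ha'.2 hE, fun g a b c =>
    ⟨f g b c, 1, one_mem _, one_mem _, by simpa⟩, fun x a b c => ⟨a.1,
      f _ (h.q.refl_of_orth (φ.B_symm_zero b)) (h.q.refl_of_orth (φ.B_symm_zero c)), ?_⟩⟩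
  rcases h.root_chi a with d | d
  · exact ⟨_, h.q.refl_mem_fix (e_mem (by simp)), (h.rt_e m).2, h.rr hL a (h.rt_e m) (by rw [d, h.Qe])⟩
  · exact ⟨_, h.q.refl_mem_fix (sub_mem (e_mem (by simp)) (e_mem (by simp))), (h.rt_sub hm).2.1.2,
      h.rr hL a (h.rt_sub hm).2.1 (by rw [d, (h.rt_sub hm).1])⟩


end

theorem om (hF : ∀ c : F, ∃ n : ℕ, c = n) {L : Subgroup φ.Isom} (p : ℕ) [Fact p.Prime] [CharP F p] {K : Subgroup φ.Isom} (hK : K ⊓ φ.E ≤ L) {i j : κ} (ij : i ≠ j)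
    (hi : Rf K (e i)) (hj : Rf K (e i - e j)) {u w : V} (hu : u ∈ Submodule.span F {e i, e j}) (u0 : u ≠ 0)
    (w0 : φ.Q w ≠ 0) (w1 : φ.B (e i) w = 0) (w2 : φ.B (e j) w = 0) (hx : Rf K (u + w))
    (h1 : 2 * φ.Q u ≠ φ.Q (u + w)) : Om L (Submodule.span F {e i, e j} ⊔ F ∙ w) := fun x a y b c d f g =>
  have y0 : φ.Q y ≠ 0 := fun e => c (by rw [g, e, mul_zero])
  hK ⟨h.q.dick p h.h2 hF hi hj (by rw [h.Qe, h.Qe]) (h.orth i j ij) w1 w2 hu u0 w0 hx h1 a b c f g,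
    h.blk.rr_mem c y0 (by rw [g, chi_mul (mul_ne_zero f f) y0, chi_mul_self, one_mul])⟩

theorem fr {g : φ.Isom} {a : V} (ha : φ.Rt e a) (hg : ∀ b, φ.Rt e b → chi (φ.Q a) = chi (φ.Q b) → φ.Rt e (g.1 b)) :
    g ∈ φ.dstab (ln F e) := h.mem_dstab.2 fun i => by
  by_cases c : chi (φ.Q a) = chi (2 * N)
  swap
  · have c' := (h.root_chi ha).resolve_right c
    have r := hg _ (h.rt_e i) (by rw [c', h.Qe])
    obtain ⟨j, hj⟩ := h.root_ex r
    exact ⟨j, ((h.root_cls r hj).resolve_right fun ⟨_, _, _, d⟩ => c (by rw [c', ← d, Isom.Q_map, h.Qe])).1⟩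
  have r1 : ∀ j, j ≠ i → φ.Rt e (g.1 (e j) + g.1 (e i)) := fun j a => map_add g.1 _ _ ▸
    hg _ (h.rt_add a).2 (by rw [c, (h.rt_add a).1])
  have r2 : ∀ j, j ≠ i → φ.Rt e (g.1 (e j) - g.1 (e i)) := fun j a => map_sub g.1 _ _ ▸
    hg _ (h.rt_sub a).2.1 (by rw [c, (h.rt_sub a).1])
  obtain ⟨j, hj⟩ := h.ex [i] (by simp)
  obtain ⟨k, hk, -⟩ := ex_not (φ.supp e (g.1 (e j) + g.1 (e i)) ∪ φ.supp e (g.1 (e j) - g.1 (e i))) [] (by
    have := h.root_supp (r1 j (by simpa using hj)); have := h.root_supp (r2 j (by simpa using hj))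
    have := Finset.card_union_le (φ.supp e (g.1 (e j) + g.1 (e i))) (φ.supp e (g.1 (e j) - g.1 (e i)))
    have := h.n10; simp only [List.length_nil]; omega)
  simp only [Finset.mem_union, mem_supp, not_or, not_not, map_add, map_sub] at hk
  replace hk : φ.B (e k) (g.1 (e i)) = 0 := mul_left_cancel₀ h.h2 (by linear_combination hk.1 - hk.2)
  clear hj j
  obtain ⟨j, hj⟩ : ∃ j, φ.B (e k) (g.1 (e j)) ≠ 0 := by
    by_contra! H
    exact h.ne0 k (by simpa using (h.tot ((g⁻¹).1 (e k)) fun j => by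
      rw [← Isom.B_map g, Isom.apply_inv_apply, h.q.B_comm, H]))
  have ji : j ≠ i := by rintro rfl; exact hj hk
  obtain ⟨l, l1, l2⟩ := h.root_at (i := k) (r1 j ji) (by simpa [hk])
  obtain ⟨m, m1, m2⟩ := h.root_at (i := k) (r2 j ji) (by simpa [hk])
  obtain rfl : l = m := by
    by_contra a
    obtain ⟨s, t, hs⟩ := Submodule.mem_span_pair.1 l2
    have a1 : φ.B (g.1 (e j) + g.1 (e i)) (g.1 (e j) - g.1 (e i)) = 0 := by simp [h.Bij, ji, ji.symm]
    have a2 := congrArg (φ.B (e k)) hs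
    rw [← hs] at a1
    simp only [map_add, map_smulₛₗ, LinearMap.add_apply, LinearMap.smul_apply, h.mem_pair.1 m2 l l1 a] at a1
    simp only [map_add, map_smul, h.Bee, h.orth k l l1.symm, hk, map_sub, smul_eq_mul, h.q.σ_eq] at a1 a2
    exact hj (by rw [show s = 0 by simpa [hj] using a1] at a2; simpa using a2.symm)
  refine ⟨l, h.mem_ln.2 fun n a => ?_⟩
  by_cases b : n = k
  · rw [b, hk]
  have a1 := h.mem_pair.1 l2 n b a
  have a2 := h.mem_pair.1 m2 n b a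
  rw [map_add] at a1; rw [map_sub] at a2
  exact mul_left_cancel₀ h.h2 (by linear_combination a1 - a2)

theorem not_E_le : ¬ φ.E ≤ φ.dstab (ln F e) := fun H => by
  have n := h.n10
  obtain ⟨i, -⟩ := h.ex [] (by simp)
  obtain ⟨p, p1, p0, p2⟩ := h.q.exists_singular (W := co F e {i}ᶜ) (by rw [h.finrank_co, Finset.card_compl]; simp; omega)
  have p3 := h.mem_co.1 p1 i (by simp)
  obtain ⟨g, g1, g2⟩ := h.blk.std.exists_E_map h.blk.n5 (h.ne0 i) (v := e i + p)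
    (fun a => by simpa [p3, h.Bee, h.h2, h.N0] using congrArg (φ.B (e i)) a) (by simp [φ.Q_add_of_orth p3, p2])
  obtain ⟨j, hj⟩ := h.mem_dstab.1 (H g1) i
  rw [g2, h.mem_ln] at hj
  obtain rfl : i = j := by_contra fun a => by simpa [p3, h.Bee, h.h2, h.N0] using hj i a
  exact p0 (h.tot p fun k => by
    by_cases a : k = i
    · rw [a, p3]
    · simpa [h.orth k i a] using hj k a)


end Fr5
end H12.F5
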