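import Mathlib
import Cfsg.Agent.H12.F5A

/-! # Orthogonal frames in dimension five: reflection vectors of support four and five -/

namespace H12.F5

open Module H10 H10.Form

variable {F V : Type*} [Field F] [AddCommGroup V] [Module F V] {φ : Form F V} {κ : Type*} [Fintype κ] [DecidableEq κ]

open H10.Form.Fr (e_mem)

/-- five distinct indices -/
structure Di (i j k l m : κ) : Prop where
  ij : i ≠ j
  ik : i ≠ k
  il : i ≠ l
  im : i ≠ m
  jk : j ≠ k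
  jl : j ≠ l
  jm : j ≠ m
  kl : k ≠ l
  km : k ≠ m
  lm : l ≠ m

omit [Fintype κ] [DecidableEq κ] in
theorem Di.s12 {i j k l m : κ} (d : Di i j k l m) : Di j i k l m :=
  ⟨d.ij.symm, d.jk, d.jl, d.jm, d.ik, d.il, d.im, d.kl, d.km, d.lm⟩
omit [Fintype κ] [DecidableEq κ] in
theorem Di.s23 {i j k l m : κ} (d : Di i j k l m) : Di i k j l m :=
  ⟨d.ik, d.ij, d.il, d.im, d.jk.symm, d.kl, d.km, d.jl, d.jm, d.lm⟩
omit [Fintype κ] [DecidableEq κ] in
theorem Di.s34 {i j k l m : κ} (d : Di i j k l m) : Di i j l k m :=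
  ⟨d.ij, d.il, d.ik, d.im, d.jl, d.jk, d.jm, d.kl.symm, d.lm, d.km⟩
omit [Fintype κ] [DecidableEq κ] in
theorem Di.s45 {i j k l m : κ} (d : Di i j k l m) : Di i j k m l :=
  ⟨d.ij, d.ik, d.im, d.il, d.jk, d.jm, d.jl, d.km, d.kl, d.lm.symm⟩

namespace Fr5
variable {e : κ → V} {N : F} (h : Fr5 φ e N) {x y : V} {i j k l m : κ}
include h

theorem univ_eq (d : Di i j k l m) : (Finset.univ : Finset κ) = {i, j, k, l, m} :=
  (Finset.eq_univ_of_card _ (by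
    rw [h.n10, Finset.card_insert_of_notMem (by simp [d.ij, d.ik, d.il, d.im]),
      Finset.card_insert_of_notMem (by simp [d.jk, d.jl, d.jm]), Finset.card_insert_of_notMem (by simp [d.kl, d.km]),
      Finset.card_pair d.lm])).symm

theorem cases5 (d : Di i j k l m) (n : κ) : n = i ∨ n = j ∨ n = k ∨ n = l ∨ n = m := by
  have : n ∈ ({i, j, k, l, m} : Finset κ) := h.univ_eq d ▸ Finset.mem_univ n
  simpa using this

theorem Bf (d : Di i j k l m) (x y : V) : 2 * N * φ.B x y = φ.B (e i) x * φ.B (e i) y + φ.B (e j) x * φ.B (e j) y +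
    φ.B (e k) x * φ.B (e k) y + φ.B (e l) x * φ.B (e l) y + φ.B (e m) x * φ.B (e m) y := by
  have q := congrArg (φ.B · y) (h.expand x)
  simp only [map_sum, LinearMap.sum_apply, h.q.B_smul_left] at q
  rw [h.univ_eq d, Finset.sum_insert (by simp [d.ij, d.ik, d.il, d.im]), Finset.sum_insert (by simp [d.jk, d.jl, d.jm]),
    Finset.sum_insert (by simp [d.kl, d.km]), Finset.sum_pair d.lm] at q
  have := h.h2; have := h.N0
  rw [q]; field_simp; ring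

theorem Qf (d : Di i j k l m) (x : V) : 2 * N * (2 * φ.Q x) = φ.B (e i) x ^ 2 + φ.B (e j) x ^ 2 +
    φ.B (e k) x ^ 2 + φ.B (e l) x ^ 2 + φ.B (e m) x ^ 2 := by
  rw [← h.q.B_self, h.Bf d]; ring

theorem ex2 (hij : i ≠ j) : ∃ k l m, Di i j k l m := by
  obtain ⟨k, hk⟩ := h.ex [i, j] (by simp)
  obtain ⟨l, hl⟩ := h.ex [i, j, k] (by simp)
  obtain ⟨m, hm⟩ := h.ex [i, j, k, l] (by simp)
  simp only [List.mem_cons, List.not_mem_nil, or_false, not_or] at hk hl hm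
  exact ⟨k, l, m, hij, Ne.symm hk.1, Ne.symm hl.1, Ne.symm hm.1, Ne.symm hk.2, Ne.symm hl.2.1, Ne.symm hm.2.1,
    Ne.symm hl.2.2, Ne.symm hm.2.2.1, Ne.symm hm.2.2.2⟩

theorem ex1 (i : κ) : ∃ j k l m, Di i j k l m := by
  obtain ⟨j, hj⟩ := h.ex [i] (by simp)
  exact ⟨j, h.ex2 (by simpa [eq_comm] using hj)⟩

variable [φ.Nondeg] [FiniteDimensional F V] [Finite F]

theorem cr (v : V) (a n : κ) : φ.B (e n) ((φ.refl v).1 (e a)) =
    (if n = a then 2 * N else 0) - (φ.Q v)⁻¹ * φ.B (e a) v * φ.B (e n) v := by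
  rw [h.q.refl_apply, map_add, map_smul, h.Bij, h.q.B_comm v, smul_eq_mul]; ring

theorem nr3 (ij : i ≠ j) (ik : i ≠ k) (jk : j ≠ k) (hi : φ.B (e i) x ≠ 0) (hj : φ.B (e j) x ≠ 0)
    (hk : φ.B (e k) x ≠ 0) : ¬ φ.Rt e x := fun r =>
  absurd (Finset.two_lt_card_iff.2 ⟨i, j, k, mem_supp.2 hi, mem_supp.2 hj, mem_supp.2 hk, ij, ik, jk⟩)
    (not_lt.2 (h.root_supp r))

theorem sq_of_rt (ij : i ≠ j) (hi : φ.B (e i) x ≠ 0) (hj : φ.B (e j) x ≠ 0) (r : φ.Rt e x) :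
    φ.B (e i) x ^ 2 = φ.B (e j) x ^ 2 ∧ chi (φ.Q x) = chi (2 * N) := by
  obtain ⟨k, l, m, d⟩ := h.ex2 ij
  have z : ∀ n, i ≠ n → j ≠ n → φ.B (e n) x = 0 := fun n a b => by_contra fun c => h.nr3 ij a b hi hj c r
  refine ⟨?_, ((h.root_cls r hi).resolve_left fun a => hj (h.mem_ln.1 a.1 j ij.symm)).elim fun _ a => a.2.2⟩
  obtain ⟨n, hn⟩ := h.mem_dstab.1 r.2 i
  rw [h.mem_ln] at hn
  have q := r.1
  have q2 := h.Qf d x
  rw [z k d.ik d.jk, z l d.il d.jl, z m d.im d.jm] at q2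
  by_cases a : n = i
  · have := hn j (a ▸ ij.symm)
    rw [h.cr, if_neg ij.symm] at this
    simp [q, hi, hj] at this
  have := hn i (Ne.symm a)
  rw [h.cr, if_pos rfl] at this
  field_simp at this
  linear_combination q2 - 2 * this

section
variable {L : Subgroup φ.Isom} (hL : φ.E ⊓ φ.dstab (ln F e) ≤ L) (hK : ∀ i, Rf L (e i))
  (hA : ∀ x, Rf L x → ∀ m m', m ≠ m' → φ.B (e m) x = 0 → φ.B (e m') x = 0 → φ.Rt e x)
include hL hK hA

omit hL hK in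
theorem A3 (d : Di i j k l m) (hx : Rf L x) (hi : φ.B (e i) x ≠ 0) (hj : φ.B (e j) x ≠ 0)
    (hk : φ.B (e k) x ≠ 0) (hl : φ.B (e l) x = 0) (hm : φ.B (e m) x = 0) : False :=
  h.nr3 d.ij d.ik d.jk hi hj hk (hA x hx l m d.lm hl hm)

omit hL in
/-- the dihedral step at the pair `i, j` -/
theorem step (d : Di i j k l m) {v : V} (hv : Rf L v) (hi : φ.B (e i) v ≠ 0) (hj : φ.B (e j) v ≠ 0)
    (hk : φ.B (e k) v ≠ 0) : φ.B (e i) v ^ 2 = φ.B (e j) v ^ 2 ∨ ∃ w, φ.B (e i) w = 0 ∧ φ.B (e j) w = 0 ∧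
      φ.B (e k) w = φ.B (e k) v ∧ φ.B (e l) w = φ.B (e l) v ∧ φ.B (e m) w = φ.B (e m) v ∧
      ((φ.Q w = 0 ∧ ∃ c : F, c ≠ 0 ∧ Rf L (e i + c • w)) ∨
        (φ.Q w ≠ 0 ∧ ∀ x, φ.B (e i) x = 0 → φ.B (e j) x = 0 → Rf L x → Rf L ((φ.refl w).1 x))) := by
  obtain ⟨z, hz, -, -, zK⟩ := h.neg {i, j}
  replace zK := zK L fun i _ => (hK i).2
  obtain ⟨u, hu, w, hw, rfl⟩ := h.split {i, j} v
  have hw' := h.perp_of hw
  have huv : φ.B u w = 0 := hw' u hu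
  have h7 := hv.map h.q zK
  rw [map_add, hz.1 u hu, hz.2 w hw'] at h7
  have h8 := hv.1
  have i1 := h.mem_co.1 hw i (by simp)
  have j1 := h.mem_co.1 hw j (by simp)
  have k1 := h.mem_co.1 hu k (by simp [d.ik.symm, d.jk.symm])
  have l1 := h.mem_co.1 hu l (by simp [d.il.symm, d.jl.symm])
  have m1 := h.mem_co.1 hu m (by simp [d.im.symm, d.jm.symm])
  rw [φ.Q_add_of_orth huv] at h8
  simp only [map_add, i1, j1, k1, l1, m1, add_zero, zero_add] at hi hj hk ⊢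
  by_cases h4 : φ.Q w = 0
  · have h3 : φ.Q u ≠ 0 := by simpa [h4] using h8
    have := (hK i).map h.q (mul_mem hv.2 h7.2)
    rw [h.q.deg huv h3 h4 (φ.B_symm_zero i1)] at this
    exact .inr ⟨w, i1, j1, rfl, rfl, rfl, .inl ⟨h4, _, by simpa [h.h2, h3, h.q.B_comm u] using hi, this⟩⟩
  by_cases h5 : φ.Q u = 0
  · have := (hK k).map h.q (mul_mem hv.2 (h7.smul h.q (c := -1) (by simp)).2)
    rw [add_comm u w, show (-1 : F) • (-u + w) = -w + u by module,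
      h.q.deg (φ.B_symm_zero huv) h4 h5 (φ.B_symm_zero k1)] at this
    have c0 : 2 * φ.B w (e k) / φ.Q w ≠ 0 := by simpa [h.h2, h4, h.q.B_comm w] using hk
    exact (h.A3 hA d this (by simp [h.Bij, d.ik, c0, hi]) (by simp [h.Bij, d.jk, c0, hj])
      (by simp [h.Bij, k1, h.h2, h.N0]) (by simp [h.Bij, d.kl.symm, l1]) (by simp [h.Bij, d.km.symm, m1])).elim
  rcases h.q.dihedral h.h2 (h.nd {i, j}) hz zK hu hw' h5 h4 hv with h9 | ⟨y, hy, h9⟩
  · exact .inl (h.sq_of_rt d.ij hi hj (hA u ⟨h5, h9⟩ l m d.lm l1 m1)).1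
  refine .inr ⟨w, i1, j1, rfl, rfl, rfl, .inr ⟨h4, fun x a b c => ?_⟩⟩
  rw [← h9 x (h.perp_of (h.mem_co.2 fun n hn => by
    simp only [Finset.mem_compl, not_not, Finset.mem_insert, Finset.mem_singleton] at hn
    rcases hn with rfl | rfl <;> assumption))]
  exact c.map h.q hy

theorem L1 (d : Di i j k l m) {v : V} (hv : Rf L v) (hi : φ.B (e i) v ≠ 0) (hj : φ.B (e j) v ≠ 0)
    (hk : φ.B (e k) v ≠ 0) (hl : φ.B (e l) v ≠ 0) (hm : φ.B (e m) v = 0) :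
    φ.B (e i) v ^ 2 = φ.B (e j) v ^ 2 ∨ φ.B (e k) v ^ 2 = φ.B (e l) v ^ 2 := by
  rcases h.step hK hA d hv hi hj hk with a | ⟨w, w1, w2, w3, w4, w5, ⟨-, c, c0, a⟩ | ⟨q, a⟩⟩
  · exact .inl a
  · exact (h.A3 hA d.s23.s34 a (by simp [h.Bij, w1, h.h2, h.N0]) (by simp [h.Bij, d.ik.symm, c0, w3, hk])
      (by simp [h.Bij, d.il.symm, c0, w4, hl]) (by simp [h.Bij, d.ij.symm, w2])
      (by simp [h.Bij, d.im.symm, w5, hm])).elim
  refine .inr (by_contra fun b => ?_)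
  have q2 := h.Qf d w
  rw [w1, w2, w3, w4, w5, hm] at q2
  have r := a (e k) (h.orth _ _ d.ik) (h.orth _ _ d.jk) (hK k)
  have r1 : φ.B (e k) ((φ.refl w).1 (e k)) ≠ 0 := fun c => b (by
    rw [h.cr, if_pos rfl, w3] at c
    field_simp at c
    linear_combination q2 - 2 * c)
  have r2 : φ.B (e l) ((φ.refl w).1 (e k)) ≠ 0 := by simp [h.cr, d.kl.symm, q, w3, w4, hk, hl]
  have r3 := (h.sq_of_rt d.kl r1 r2 (hA _ r i j d.ij (by simp [h.cr, d.ik, w1]) (by simp [h.cr, d.jk, w2]))).2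
  rw [Isom.Q_map, h.Qe] at r3
  have s := h.rt_sub d.km
  have r4 := a (e k - e m) (by simp [h.Bij, d.ik, d.im]) (by simp [h.Bij, d.jk, d.jm])
    (h.blk.rf hL (hK k) (h.rt_e k).2 s.2.1.2 s.2.1.1 (by rw [s.1, h.Qe, r3]))
  have r5 : (φ.refl w).1 (e m) = e m := h.q.refl_of_orth (φ.B_symm_zero (w5.trans hm))
  rw [map_sub, r5] at r4
  exact h.A3 hA (i := k) (j := l) (k := m) (l := i) (m := j) d.s23.s12.s34.s23.s45.s34 r4
    (by simpa [h.Bij, d.km] using r1) (by simpa [h.Bij, d.lm] using r2)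
    (by simp [h.cr, h.Bij, d.km.symm, w5, hm, h.h2, h.N0]) (by simp [h.cr, h.Bij, d.ik, d.im, w1])
    (by simp [h.cr, h.Bij, d.jk, d.jm, w2])

theorem L2a (d : Di i j k l m) {v : V} (hv : Rf L v) (hi : φ.B (e i) v ≠ 0) (hj : φ.B (e j) v ≠ 0)
    (hk : φ.B (e k) v ≠ 0) (hl : φ.B (e l) v ≠ 0) (hm : φ.B (e m) v = 0)
    (e1 : φ.B (e i) v ^ 2 = φ.B (e j) v ^ 2) (e2 : φ.B (e i) v ^ 2 = φ.B (e k) v ^ 2) :
    φ.B (e i) v ^ 2 = φ.B (e l) v ^ 2 := by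
  have r := (hK i).map h.q hv.2
  have q := hv.1
  have q2 := h.Qf d v
  rw [hm] at q2
  have rj : φ.B (e j) ((φ.refl v).1 (e i)) ≠ 0 := by simp [h.cr, d.ij.symm, q, hi, hj]
  have rk : φ.B (e k) ((φ.refl v).1 (e i)) ≠ 0 := by simp [h.cr, d.ik.symm, q, hi, hk]
  have rl : φ.B (e l) ((φ.refl v).1 (e i)) ≠ 0 := by simp [h.cr, d.il.symm, q, hi, hl]
  have rm : φ.B (e m) ((φ.refl v).1 (e i)) = 0 := by simp [h.cr, d.im.symm, hm]
  by_cases ri : φ.B (e i) ((φ.refl v).1 (e i)) = 0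
  · exact (h.A3 hA d.s12.s23.s34 r rj rk rl ri rm).elim
  have := h.h2; have := h.N0
  rcases h.L1 hL hK hA d r ri rj rk rl rm with a | a
  · rw [h.cr, h.cr, if_pos rfl, if_neg d.ij.symm] at a
    have b : φ.B (e i) v ^ 2 = N * φ.Q v := by
      have : (2 * N * φ.Q v - φ.B (e i) v ^ 2) ^ 2 = φ.B (e i) v ^ 2 * φ.B (e j) v ^ 2 := by
        field_simp at a; linear_combination a
      rw [← e1] at this
      exact mul_left_cancel₀ (mul_ne_zero (mul_ne_zero (mul_ne_zero h.h2 h.h2) h.N0) q) (by linear_combination -this)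
    linear_combination q2 + 4 * b - e1 - e2
  · rw [h.cr, h.cr, if_neg d.ik.symm, if_neg d.il.symm] at a
    rw [e2]
    exact mul_left_cancel₀ (pow_ne_zero 2 (mul_ne_zero (inv_ne_zero q) hi)) (by linear_combination a)

theorem L2 (d : Di i j k l m) {v : V} (hv : Rf L v) (hi : φ.B (e i) v ≠ 0) (hj : φ.B (e j) v ≠ 0)
    (hk : φ.B (e k) v ≠ 0) (hl : φ.B (e l) v ≠ 0) (hm : φ.B (e m) v = 0) :
    φ.B (e i) v ^ 2 = φ.B (e j) v ^ 2 ∧ φ.B (e i) v ^ 2 = φ.B (e k) v ^ 2 ∧ φ.B (e i) v ^ 2 = φ.B (e l) v ^ 2 := by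
  have a1 := h.L1 hL hK hA d hv hi hj hk hl hm
  have a2 := h.L1 hL hK hA d.s23 hv hi hk hj hl hm
  have a3 := h.L1 hL hK hA d.s34.s23 hv hi hl hj hk hm
  have b1 := h.L2a hL hK hA d hv hi hj hk hl hm
  have b2 := h.L2a hL hK hA d.s34 hv hi hj hl hk hm
  have b3 := h.L2a hL hK hA d.s23.s34 hv hi hk hl hj hm
  have b4 := h.L2a hL hK hA d.s12.s23.s34 hv hj hk hl hi hm
  generalize φ.B (e i) v ^ 2 = a at *
  generalize φ.B (e j) v ^ 2 = b at *
  generalize φ.B (e k) v ^ 2 = c at *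
  generalize φ.B (e l) v ^ 2 = f at *
  grind

variable (h3 : (3 : F) ≠ 0)
include h3

theorem L3 (d : Di i j k l m) {v : V} (hv : Rf L v) (hi : φ.B (e i) v ≠ 0) (hj : φ.B (e j) v ≠ 0)
    (hk : φ.B (e k) v ≠ 0) (hl : φ.B (e l) v ≠ 0) (hm : φ.B (e m) v ≠ 0) :
    φ.B (e i) v ^ 2 = φ.B (e j) v ^ 2 := by
  rcases h.step hK hA d hv hi hj hk with a | ⟨w, w1, w2, w3, w4, w5, ⟨q, c, c0, a⟩ | ⟨q, a⟩⟩
  · exact a
  · have q2 := h.Qf d w
    rw [w1, w2, w3, w4, w5, q] at q2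
    obtain ⟨-, b1, b2⟩ := h.L2 hL hK hA (i := k) (j := i) (k := l) (l := m) (m := j) d.s23.s12.s34.s45 a
      (by simp [h.Bij, d.ik.symm, c0, w3, hk]) (by simp [h.Bij, w1, h.h2, h.N0])
      (by simp [h.Bij, d.il.symm, c0, w4, hl]) (by simp [h.Bij, d.im.symm, c0, w5, hm])
      (by simp [h.Bij, d.ij.symm, w2])
    simp only [map_add, map_smul, h.Bij, d.ik.symm, d.il.symm, d.im.symm, if_false, zero_add, smul_eq_mul, w3, w4, w5,
      mul_pow] at b1 b2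
    exact (mul_ne_zero (mul_ne_zero h3 (pow_ne_zero 2 c0)) (pow_ne_zero 2 hk)
      (by linear_combination b1 + b2 - c ^ 2 * q2)).elim
  have q2 := h.Qf d w
  rw [w1, w2, w3, w4, w5] at q2
  have A : ∀ k l m, Di i j k l m → φ.B (e k) w ≠ 0 → φ.B (e l) w ≠ 0 → φ.B (e m) w ≠ 0 →
      φ.B (e k) w ^ 2 = 2 * N * φ.Q w := fun k l m d a1 a2 a3 => by
    by_contra b
    refine h.A3 hA (i := k) (j := l) (k := m) (l := i) (m := j) d.s23.s12.s34.s23.s45.s34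
      (a (e k) (h.orth _ _ d.ik) (h.orth _ _ d.jk) (hK k)) (fun c => b ?_)
      (by simp [h.cr, d.kl.symm, q, a1, a2]) (by simp [h.cr, d.km.symm, q, a1, a3]) (by simp [h.cr, d.ik, w1])
      (by simp [h.cr, d.jk, w2])
    rw [h.cr, if_pos rfl] at c
    field_simp at c
    linear_combination -c
  have a1 := A k l m d (w3 ▸ hk) (w4 ▸ hl) (w5 ▸ hm)
  have a2 := A l k m d.s34 (w4 ▸ hl) (w3 ▸ hk) (w5 ▸ hm)
  have a3 := A m k l d.s45.s34 (w5 ▸ hm) (w3 ▸ hk) (w4 ▸ hl)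
  rw [w3] at a1; rw [w4] at a2; rw [w5] at a3
  exact (mul_ne_zero (mul_ne_zero h.h2 h.N0) q (by linear_combination -q2 - a1 - a2 - a3)).elim

theorem L4 (d : Di i j k l m) {v : V} (hv : Rf L v) (hi : φ.B (e i) v ≠ 0) (hj : φ.B (e j) v ≠ 0)
    (hk : φ.B (e k) v ≠ 0) (hl : φ.B (e l) v ≠ 0) (hm : φ.B (e m) v ≠ 0) : False := by
  have e1 := h.L3 hL hK hA h3 d hv hi hj hk hl hm
  have e2 := h.L3 hL hK hA h3 d.s23 hv hi hk hj hl hm
  have e3 := h.L3 hL hK hA h3 d.s34.s23 hv hi hl hj hk hm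
  have e4 := h.L3 hL hK hA h3 d.s45.s34.s23 hv hi hm hj hk hl
  have q := hv.1
  have q2 := h.Qf d v
  rw [← e1, ← e2, ← e3, ← e4] at q2
  have := h.h2; have := h.N0
  have r := (hK i).map h.q hv.2
  have ri : φ.B (e i) ((φ.refl v).1 (e i)) ≠ 0 := fun c => by
    rw [h.cr, if_pos rfl] at c
    field_simp at c
    exact mul_ne_zero h3 (pow_ne_zero 2 hi) (by linear_combination 2 * c - q2)
  have a := h.L3 hL hK hA h3 d r ri (by simp [h.cr, d.ij.symm, q, hi, hj]) (by simp [h.cr, d.ik.symm, q, hi, hk])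
    (by simp [h.cr, d.il.symm, q, hi, hl]) (by simp [h.cr, d.im.symm, q, hi, hm])
  rw [h.cr, h.cr, if_pos rfl, if_neg d.ij.symm] at a
  have b : φ.B (e i) v ^ 2 = N * φ.Q v := by
    have : (2 * N * φ.Q v - φ.B (e i) v ^ 2) ^ 2 = φ.B (e i) v ^ 2 * φ.B (e j) v ^ 2 := by
      field_simp at a; linear_combination a
    rw [← e1] at this
    exact mul_left_cancel₀ (mul_ne_zero (mul_ne_zero (mul_ne_zero h.h2 h.h2) h.N0) q) (by linear_combination -this)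
  exact pow_ne_zero 2 hi (by linear_combination -q2 - 4 * b)

theorem L5 (d : Di i j k l m) {v : V} (hv : Rf L v) (hi : φ.B (e i) v ≠ 0) (hj : φ.B (e j) v ≠ 0)
    (hk : φ.B (e k) v ≠ 0) (hl : φ.B (e l) v ≠ 0) (hm : φ.B (e m) v = 0) : False := by
  obtain ⟨e1, e2, e3⟩ := h.L2 hL hK hA d hv hi hj hk hl hm
  have q := hv.1
  have q2 := h.Qf d v
  rw [← e1, ← e2, ← e3, hm] at q2
  have := h.h2; have := h.N0
  have r1 := h.rt_sub d.lm
  have r2 := h.rt_sub d.kl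
  have r := (hv.map h.q (h.rr hL r1.2.1 r2.2.1 (by rw [r1.1, r2.1]))).map h.q hv.2
  set v' := (φ.refl (e l - e m) * φ.refl (e k - e l)).1 v with hv'
  have c : ∀ n, φ.B (e n) v' = φ.B (e n) v - (2 * N)⁻¹ * (φ.B (e k) v - φ.B (e l) v) * φ.B (e n) (e k - e l) -
      (2 * N)⁻¹ * φ.B (e k) v * φ.B (e n) (e l - e m) := fun n => by
    rw [hv', Isom.mul_apply, h.q.refl_apply, h.q.refl_apply, r1.1, r2.1]
    simp only [map_add, map_smul, map_sub, LinearMap.sub_apply, hm, h.Bij, d.kl.symm, d.km.symm, d.lm.symm, smul_eq_mul,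
      if_true, if_false]
    field_simp; ring
  have ci : φ.B (e i) v' = φ.B (e i) v := by simp [c, h.Bij, d.ik, d.il, d.im]
  have cj : φ.B (e j) v' = φ.B (e j) v := by simp [c, h.Bij, d.jk, d.jl, d.jm]
  have ck : φ.B (e k) v' = φ.B (e l) v := by
    simp only [c, map_sub, h.Bij, d.kl, d.km, if_true, if_false]; field_simp; ring
  have cl : φ.B (e l) v' = 0 := by
    simp only [c, map_sub, h.Bij, d.kl.symm, d.lm, if_true, if_false]; field_simp; ring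
  have cm : φ.B (e m) v' = φ.B (e k) v := by
    simp only [c, map_sub, h.Bij, d.km.symm, d.lm.symm, hm, if_true, if_false]; field_simp; ring
  have b := h.Bf d v v'
  rw [ci, cj, ck, cl, cm, hm] at b
  have f : ∀ n, φ.B (e n) ((φ.refl v).1 v') = φ.B (e n) v' - (φ.Q v)⁻¹ * φ.B v v' * φ.B (e n) v := fun n => by
    rw [h.q.refl_apply, map_add, map_smul, smul_eq_mul]; ring
  have s : φ.B (e k) v = φ.B (e l) v ∨ φ.B (e k) v = -φ.B (e l) v := sq_eq_sq_iff_eq_or_eq_neg.1 (e2.symm.trans e3)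
  have t : (φ.Q v)⁻¹ * φ.B v v' * (2 * φ.B (e i) v ^ 2) = 2 * φ.B (e i) v ^ 2 + φ.B (e k) v * φ.B (e l) v := by
    have q3 : φ.B (e i) v ^ 2 = N * φ.Q v :=
      mul_left_cancel₀ (mul_ne_zero h.h2 h.h2) (by linear_combination -q2)
    have : (φ.Q v)⁻¹ * φ.B v v' * (2 * (N * φ.Q v)) = 2 * N * φ.B v v' := by field_simp
    rw [q3, this, ← q3, b]; linear_combination -e1
  have i2 := pow_ne_zero 2 hi
  generalize (φ.Q v)⁻¹ * φ.B v v' = g at f t
  have g1 : 2 * g = 3 ∧ φ.B (e k) v = φ.B (e l) v ∨ 2 * g = 1 ∧ φ.B (e k) v = -φ.B (e l) v := s.imp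
    (fun s => ⟨mul_right_cancel₀ i2 (by rw [s] at t; linear_combination t - e3), s⟩)
    fun s => ⟨mul_right_cancel₀ i2 (by rw [s] at t; linear_combination t + e3), s⟩
  have g2 : 1 - g ≠ 0 := fun a => by
    rcases g1 with ⟨a1, -⟩ | ⟨a1, -⟩
    · exact one_ne_zero (α := F) (by linear_combination -a1 - 2 * a)
    · exact one_ne_zero (α := F) (by linear_combination a1 + 2 * a)
  have g3 : g ≠ 0 := fun a => by
    rcases g1 with ⟨a1, -⟩ | ⟨a1, -⟩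
    · exact h3 (by linear_combination -a1 + 2 * a)
    · exact one_ne_zero (α := F) (by linear_combination -a1 + 2 * a)
  refine h.L4 hL hK hA h3 d r (fun a => mul_ne_zero g2 hi ?_) (fun a => mul_ne_zero g2 hj ?_) (fun a => ?_)
    (fun a => mul_ne_zero g3 hl ?_) fun a => hk ?_
  · rw [f, ci] at a; linear_combination a
  · rw [f, cj] at a; linear_combination a
  · rw [f, ck] at a
    rcases g1 with ⟨a1, a2⟩ | ⟨a1, a2⟩ <;> rw [a2] at a
    · exact mul_ne_zero g2 hl (by linear_combination a)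
    · exact mul_ne_zero h3 hl (by linear_combination 2 * a - φ.B (e l) v * a1)
  · rw [f, cl] at a; linear_combination -a
  · rw [f, cm, hm] at a; linear_combination a

theorem allroot {v : V} (hv : Rf L v) : φ.Rt e v := by
  by_cases a : ∃ m, φ.B (e m) v = 0
  · obtain ⟨m, hm⟩ := a
    obtain ⟨i, j, k, l, d⟩ := h.ex1 m
    by_contra H
    have z : ∀ n, m ≠ n → φ.B (e n) v ≠ 0 := fun n a b => H (hA v hv m n a hm b)
    exact h.L5 hL hK hA h3 d.s12.s23.s34.s45 hv (z i d.ij) (z j d.ik) (z k d.il) (z l d.im) hm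
  · obtain ⟨i, -⟩ := h.ex [] (by simp)
    obtain ⟨j, k, l, m, d⟩ := h.ex1 i
    push Not at a
    exact (h.L4 hL hK hA h3 d hv (a i) (a j) (a k) (a l) (a m)).elim

end
end Fr5
end H12.F5
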