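import Mathlib
import Cfsg.Agent.H12.F5B

/-! # Orthogonal frames in dimension five: `Fr5.le_dstab`, `isMaximalIn_frame5` -/

namespace H12.F5

open Module H10 H10.Form

variable {F V : Type*} [Field F] [AddCommGroup V] [Module F V] {φ : Form F V} {κ : Type*} [Fintype κ] [DecidableEq κ]

open H10.Form.Fr (e_mem)

namespace Fr5
variable [φ.Nondeg] [FiniteDimensional F V] [Finite F]
variable {e : κ → V} {N : F} (h : Fr5 φ e N) {x y : V} {i j k l m : κ}
  {L : Subgroup φ.Isom} (hF : ∀ c : F, ∃ n : ℕ, c = n) (hL : φ.E ⊓ φ.dstab (ln F e) ≤ L) (hK : ∀ i, Rf L (e i))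
include h

include hK in
theorem fin (d : Di i j k l m) {p : V} (hpT : p ∈ co F e {i, j, k}) {hp : φ.Q p = 0} (p0 : p ≠ 0)
    (h1 : ∀ w ∈ co F e {i, j, k}, φ.B p w = 0 → w ∈ h.q.ss L hp) (hl : e l ∈ h.q.ss L hp) (hm : e m ∈ h.q.ss L hp) :
    φ.E ≤ L := by
  have h4 : co F e {i, j, k}ᶜ ≤ h.q.ss L hp := Submodule.span_le.2 (by
    rintro _ ⟨n, n1, rfl⟩
    rcases h.cases5 d n with rfl | rfl | rfl | rfl | rfl
    exacts [by simp at n1, by simp at n1, by simp at n1, hl, hm])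
  obtain ⟨n, hn⟩ : ∃ i, φ.B (e i) p ≠ 0 := by by_contra! H; exact p0 (h.tot p H)
  refine h.q.ss_E_le (hp := hp) (fun x hx => ?_) (hK n).2 ?_
  · obtain ⟨u, hu, w, hw, rfl⟩ := h.split {i, j, k} x
    exact add_mem (h1 u hu (by simpa [h.perp_of hw p hpT] using hx)) (h4 hw)
  · simp [h.q.refl_apply, φ.B_self_eq_zero hp, h.Qe, h.N0, hn, h.q.B_comm p]

include hF hL hK

theorem gf3 (h3 : (3 : F) = 0) {v : V} (hv : Rf L v) (hv' : ¬ φ.Rt e v) : φ.E ≤ L := by
  have s : ∀ c : F, c ≠ 0 → c * c = 1 := fun c hc => by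
    obtain ⟨n, rfl⟩ := hF c
    rw [← Nat.div_add_mod n 3] at hc ⊢
    have : n % 3 = 0 ∨ n % 3 = 1 ∨ n % 3 = 2 := by omega
    rcases this with a | a | a <;> simp only [a, Nat.cast_add, Nat.cast_mul, Nat.cast_ofNat, h3] at hc ⊢
    · simp at hc
    · simp
    · linear_combination h3
  have A : ∀ {i k j l m : κ} {v : V}, Di i k j l m → Rf L v → φ.B (e i) v ≠ 0 → φ.B (e k) v ≠ 0 → φ.B (e j) v = 0 →
      φ.B (e l) v ≠ 0 → φ.B (e m) v ≠ 0 → φ.E ≤ L := fun {i k j l n v} d hv hi hk hj hl hn => by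
    have ik := d.ij
    have ij := d.ik
    have kj := d.jk
    have s1 := s _ hi
    have s2 := s _ hk
    set x := φ.B (e i) v with hx
    set y := φ.B (e k) v with hy
    have m : ∀ (c : F) i, c • e i ∈ ln F e i := fun c i => Submodule.smul_mem _ c (Submodule.mem_span_singleton_self _)
    have r1 := h.root ik (m x i) (m y k) (by simp [h.q.Q_smul, s1, h.Qe, h.N0]) (by simp [h.q.Q_smul, s1, s2, h.Qe])
    have r2 := h.root ij (m (-x) i) (m 1 j) (by simp [h.q.Q_smul, s1, h.Qe, h.N0]) (by simp [h.q.Q_smul, s1, h.Qe])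
    have hp : φ.Q (x • e i - y • e k + e j) = 0 := by
      simp only [sub_eq_add_neg, h.q.Q_add, Q_neg, h.q.Q_smul, s1, s2, h.Qe]
      simp [h.Bij, ik, ij, kj]; linear_combination N * h3
    have h1 : x • e i + y • e k ∈ h.q.ss L hp := h.q.ss_of_rr hF (by
      simp [h.Bij, ik, ik.symm, ij.symm, kj.symm, h.q.σ_eq, ← mul_assoc, mul_right_comm, s1, s2])
      r1.2.1.1 (by
        convert h.rr hL r1.2.1 r2.2.1 (by rw [r1.1, r2.1]; simp [h.q.Q_smul, s1, h.Qe]) using 3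
        linear_combination (norm := module) (x * h3) • e i)
    have pT : x • e i - y • e k + e j ∈ co F e {i, k, j} := h.mem_co.2 fun a b => by simp_all [h.Bij]
    have h2 : v ∈ h.q.ss L hp := h.q.ss_refl hv (by simp [h.q.B_comm v (e _), ← hx, ← hy, s1, s2, hj]) h1 (by
      simp only [map_add, map_smul, h.q.B_comm v (e _), ← hx, ← hy, smul_eq_mul, s1, s2, one_add_one_eq_two]
      exact h.h2)
    refine h.fin hK d pT (hp := hp) (fun a => ?_) (fun w a b => ?_)
      (h.q.ss_refl (hK l) (h.mem_co.1 pT l (by simp [d.il.symm, d.jl.symm, d.kl.symm])) h2 hl)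
      (h.q.ss_refl (hK n) (h.mem_co.1 pT n (by simp [d.im.symm, d.jm.symm, d.km.symm])) h2 hn)
    · simpa [h.Bij, ij.symm, kj.symm, h.h2, h.N0] using congrArg (φ.B (e j)) a
    · simp only [co, Finset.coe_insert, Finset.coe_singleton, Set.image_insert_eq, Set.image_singleton,
        Submodule.mem_span_triple] at a
      obtain ⟨a, c, d, rfl⟩ := a
      have : a * x - c * y + d = 0 := mul_left_cancel₀ (mul_ne_zero h.h2 h.N0) (by
        simp [h.Bij, ik, ik.symm, ij, ij.symm, kj, kj.symm, h.q.σ_eq] at b; linear_combination b)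
      convert add_mem (Submodule.smul_mem _ d h.q.self_mem_ss) (Submodule.smul_mem _ (a * x - d) h1) using 1
      match_scalars
      · linear_combination (-a) * s1
      · linear_combination (-y) * this - c * s2 + d * y * h3
      · ring
  obtain ⟨i, k, l, hi, hk, hl, ik, il, kl⟩ := Finset.two_lt_card_iff.1
    (h.three_of hv.1 hv' fun i j _ a b => by rw [s _ a, s _ b])
  rw [mem_supp] at hi hk hl
  obtain ⟨m, hm⟩ := h.ex [i, k, l] (by simp)
  obtain ⟨n, hn⟩ := h.ex [i, k, l, m] (by simp)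
  simp only [List.mem_cons, List.not_mem_nil, or_false, not_or] at hm hn
  have d : Di i k l m n := ⟨ik, il, Ne.symm hm.1, Ne.symm hn.1, kl, Ne.symm hm.2.1, Ne.symm hn.2.1, Ne.symm hm.2.2,
    Ne.symm hn.2.2.1, Ne.symm hn.2.2.2⟩
  have q2 := h.Qf d v
  have q := hv.1
  simp only [sq, s _ hi, s _ hk, s _ hl] at q2
  by_cases a : φ.B (e m) v = 0 <;> by_cases b : φ.B (e n) v = 0
  · rw [a, b] at q2
    exact (mul_ne_zero (mul_ne_zero h.h2 h.N0) (mul_ne_zero h.h2 q) (by linear_combination q2 + h3)).elim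
  · exact A d.s34 hv hi hk a hl b
  · exact A d.s45.s34 hv hi hk b hl a
  rw [s _ a, s _ b] at q2
  refine A (i := k) (k := l) (j := i) (l := m) (m := n) d.s12.s23 ((hK i).map h.q hv.2)
    (by simp [h.cr, ik.symm, q, hi, hk]) (by simp [h.cr, il.symm, q, hi, hl]) ?_
    (by simp [h.cr, d.il.symm, q, hi, a]) (by simp [h.cr, d.im.symm, q, hi, b])
  rw [h.cr, if_pos rfl, mul_assoc, s _ hi]
  field_simp
  linear_combination 2 * q2 + (3 - 2 * N * φ.Q v) * h3

theorem finO (h3 : (3 : F) ≠ 0) (d : Di i j k l m) (hU : Om L (co F e {i, j, k})) : φ.E ≤ L := by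
  have N0 := h.N0
  have h2 := h.h2
  have h4 : (4 : F) ≠ 0 := by rw [show (4 : F) = 2 * 2 by norm_num]; exact mul_ne_zero h2 h2
  have T : ∀ l m, Di i j k l m → ∃ t ∈ L, t.1 (e k) = e l ∧ t.1 (e i) = e i ∧ t.1 (e j) = e j := fun l m d => by
    have r3 := h.rt_sub d.kl
    have r4 := h.rt_sub d.lm
    have t3 : ∀ n, k ≠ n → l ≠ n → m ≠ n → (φ.refl (e k - e l) * φ.refl (e l - e m)).1 (e n) = e n := fun n a b c => by
      rw [Isom.mul_apply, h.q.refl_of_orth (v := e l - e m) (by simp [h.Bij, b, c]),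
        h.q.refl_of_orth (by simp [h.Bij, a, b])]
    exact ⟨_, h.rr hL r3.2.1 r4.2.1 (by rw [r3.1, r4.1]), by
      rw [Isom.mul_apply, h.q.refl_of_orth (v := e l - e m) (by simp [h.Bij, d.kl.symm, d.km.symm]), r3.2.2],
      t3 i d.ik.symm d.il.symm d.im.symm, t3 j d.jk.symm d.jl.symm d.jm.symm⟩
  have ij := d.ij
  have im := d.ik
  have jm := d.jk
  by_cases h5 : (5 : F) = 0
  · have hp : φ.Q (e i + (2 : F) • e j) = 0 := by
      simp [h.q.Q_add, h.q.Q_smul, h.Qe, h.orth i j ij]; linear_combination N * h5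
    have pT : e i + (2 : F) • e j ∈ co F e {i, j, k} := h.mem_co.2 fun a b => by simp_all [h.Bij]
    have b : φ.B (e i + (2 : F) • e j) (e k) = 0 := by simp [h.Bij, im, jm]
    have S := h.q.ss_of_om h2 hF hU (hp := hp) pT (e_mem (i := k) (by simp)) b (h.rt_e k).1
    have A : ∀ l m, Di i j k l m → e l ∈ h.q.ss L hp := fun l m d => by
      obtain ⟨t, t1, t2, t3, t4⟩ := T l m d
      exact t2 ▸ h.q.ss_map t1 (by simp [t3, t4]) (S _ (e_mem (by simp)) b)
    exact h.fin hK d pT (fun a => by simpa [h.Bij, ij, h.h2, h.N0] using congrArg (φ.B (e i)) a) S (A l m d)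
      (A m l d.s45)
  obtain ⟨u, u1, u2⟩ := h.q.exists_Q_eq (h.nd {i, j}) (by rw [h.finrank_co, Finset.card_pair ij]) (-N)
  simp only [co, Finset.coe_insert, Finset.coe_singleton, Set.image_insert_eq, Set.image_singleton,
    Submodule.mem_span_pair] at u1
  obtain ⟨s, t, rfl⟩ := u1
  rw [h.q.Q_comb, h.Qe, h.Qe, h.orth i j ij] at u2
  have hp : φ.Q (s • e i + t • e j + e k) = 0 := by
    rw [h.q.Q_add, h.q.Q_comb]; simp [h.Qe, h.Bij, ij, im, jm]; linear_combination u2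
  have q3 : φ.Q (t • e i + (-s) • e j) = -N := by rw [h.q.Q_comb, h.Qe, h.Qe, h.orth i j ij]; linear_combination u2
  have pT : s • e i + t • e j + e k ∈ co F e {i, j, k} := h.mem_co.2 fun a b => by simp_all [h.Bij]
  have uT : t • e i + (-s) • e j ∈ co F e {i, j, k} := h.mem_co.2 fun a b => by simp_all [h.Bij]
  have b1 : φ.B (s • e i + t • e j + e k) (t • e i + (-s) • e j) = 0 := by
    simp [h.Bij, ij, ij.symm, im.symm, jm.symm, h.q.σ_eq]; ring
  have p0 : φ.B (e k) (s • e i + t • e j + e k) ≠ 0 := by simp [h.Bij, im.symm, jm.symm, h2, N0]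
  have b2 : φ.B (e k) (t • e i + (-s) • e j) = 0 := by simp [h.Bij, im.symm, jm.symm]
  have T' : ∀ l m, Di i j k l m → ∃ g ∈ L, g.1 (e k) = e l ∧ g.1 (t • e i + (-s) • e j) = t • e i + (-s) • e j :=
    fun l m d => (T l m d).imp fun g a => ⟨a.1, a.2.1, by simp only [map_add, map_smul, a.2.2.1, a.2.2.2]⟩
  generalize t • e i + (-s) • e j = u at *
  generalize s • e i + t • e j + e k = y at *
  have S := h.q.ss_of_om h2 hF hU (hp := hp) pT uT b1 (by simp [q3, N0])
  have q4 : φ.Q ((4 : F) • u + (5 : F) • e k) = 3 * 3 * φ.Q (e k) := by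
    rw [h.q.Q_comb, q3, h.Qe, φ.B_symm_zero b2]; ring
  have A : ∀ l m, Di i j k l m → e l ∈ h.q.ss L hp := fun l m d => by
    obtain ⟨t0, t1, t2, t5⟩ := T' l m d
    have lT : l ∉ ({i, j, k} : Finset κ) := by simp [d.il.symm, d.jl.symm, d.kl.symm]
    have t4 := mul_mem (mul_mem t1 (hU _ (add_mem (Submodule.smul_mem _ _ uT) (Submodule.smul_mem _ _
      (e_mem (by simp)))) _ (e_mem (by simp)) (by simp [q4, h.Qe, h3, N0]) 3 h3 q4)) (inv_mem t1)
    have q5 := Isom.Q_map t0 ((4 : F) • u + (5 : F) • e k)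
    rw [← conj_mul, h.q.refl_conj, h.q.refl_conj] at t4
    simp only [map_add, map_smul, t2, t5] at t4 q5
    have b3 := h.mem_co.1 pT l lT
    have b4 := h.mem_co.1 uT l lT
    have := h.q.ss_refl₂ (hp := hp) (by simp [q5, q4, h.Qe, h3, N0]) t4
      (by simp [φ.B_symm_zero b1, b3]) b3 (S _ uT b1) b4 (by simp [b4, h.q.B_self, q3, h2, h4, N0, h.q.σ_eq])
    exact (Submodule.smul_mem_iff _ h5).1 ((Submodule.add_mem_iff_right _ (Submodule.smul_mem _ _ (S _ uT b1))).1 this)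
  exact h.fin hK d pT (fun a => p0 (by simp [a])) S (A l m d) (A m l d.s45)

theorem gf {a v : V} (ha : Rf L a) (ha' : φ.Rt e a) (hE : ∀ g ∈ L, g ∈ φ.E ∨ g * φ.refl a ∈ φ.E) (hv : Rf L v)
    (hv' : ¬ φ.Rt e v) : φ.E ≤ L := by
  by_cases h3 : (3 : F) = 0
  · exact h.gf3 hF hL hK h3 hv hv'
  by_contra H
  refine hv' (h.allroot hL hK (fun x x1 m m' mm m1 m2 => by_contra fun x2 => H ?_) h3 hv)
  obtain ⟨K, K1, K2, K3⟩ := h.exK hL ha ha' hE mm
  replace x1 : Rf K x := ⟨x1.1, K2 _ x1.2 (h.q.refl_of_orth (φ.B_symm_zero m1)) (h.q.refl_of_orth (φ.B_symm_zero m2))⟩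
  obtain ⟨p, _, -, hp, -⟩ := @FiniteField.card' F _ (Fintype.ofFinite F)
  have := Fact.mk hp
  have h2 := h.h2
  have N0 := h.N0
  have A : ∀ i j k, Di i j k m m' → φ.B (e k) x ≠ 0 → φ.B (e k) x ^ 2 ≠ 2 * N * φ.Q x → φ.E ≤ L := fun i j k d a b => by
    set w := (φ.B (e k) x / (2 * N)) • e k with hw
    have w0 : φ.Q w = φ.B (e k) x ^ 2 / (4 * N) := by
      have h4 : (4 : F) ≠ 0 := by rw [show (4 : F) = 2 * 2 by norm_num]; exact mul_ne_zero h2 h2
      rw [hw, h.q.Q_smul, h.Qe]; field_simp; ring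
    have h4 : (4 : F) ≠ 0 := by rw [show (4 : F) = 2 * 2 by norm_num]; exact mul_ne_zero h2 h2
    have u1 : x - w ∈ Submodule.span F {e i, e j} := h.mem_pair.2 fun n n1 n2 => by
      rcases h.cases5 d n with rfl | rfl | rfl | rfl | rfl
      exacts [(n1 rfl).elim, (n2 rfl).elim, by simp [hw, h.Bij, h2, N0], by simp [hw, h.Bij, d.kl.symm, m1],
        by simp [hw, h.Bij, d.km.symm, m2]]
    have o : φ.B (x - w) w = 0 := by
      have := h.mem_pair.1 u1 k d.ik.symm d.jk.symm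
      generalize x - w = u at this
      rw [hw, map_smul, h.q.B_comm u, this, smul_zero]
    have q := φ.Q_add_of_orth o
    rw [sub_add_cancel] at q
    have hU := h.om hF p K1 d.ij (K3 _ (h.rt_e i) (h.orth _ _ d.il.symm) (h.orth _ _ d.im.symm))
      (K3 _ (h.rt_sub d.ij).2.1 (by simp [h.Bij, d.il.symm, d.jl.symm]) (by simp [h.Bij, d.im.symm, d.jm.symm])) u1
      (fun c => x2 (h.rt_ln (i := k) (sub_eq_zero.1 c ▸ Submodule.smul_mem _ _ (Submodule.mem_span_singleton_self _))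
        fun c => a (by simp [c]))) (w := w) (by simp [w0, a, h4, N0]) (by simp [hw, h.Bij, d.ik])
      (by simp [hw, h.Bij, d.jk]) (by rwa [sub_add_cancel]) (fun c => b (by
        rw [sub_add_cancel] at c
        have : φ.Q x = 2 * φ.Q w := by linear_combination c + 2 * q
        rw [this, w0]; field_simp; ring))
    rw [hw, Submodule.span_singleton_smul_eq (by simp [a, h2, N0])] at hU
    refine h.finO hF hL hK h3 d fun x a y b => hU x (?_ : _ ∈ _) y (?_ : _ ∈ _) <;>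
      refine SetLike.le_def.1 (?_ : co F e {i, j, k} ≤ _) ‹_› <;> rw [← Submodule.span_union] <;>
      exact Submodule.span_mono (by simp [Set.image_insert_eq, Set.insert_subset_iff])
  obtain ⟨i, j, k, d⟩ := h.ex2 mm
  replace d : Di i j k m m' := d.s23.s12.s34.s23.s45.s34
  by_contra H'
  have B : ∀ i j k, Di i j k m m' → φ.B (e k) x ≠ 0 → φ.B (e k) x ^ 2 = 2 * N * φ.Q x := fun i j k d a =>
    by_contra fun b => H' (A i j k d a b)
  have B' : ∀ n, φ.B (e n) x ≠ 0 → φ.B (e n) x ^ 2 = 2 * N * φ.Q x := fun n a => by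
    rcases h.cases5 d n with rfl | rfl | rfl | rfl | rfl
    exacts [B _ _ _ d.s12.s23 a, B _ _ _ d.s23 a, B _ _ _ d a, (a m1).elim, (a m2).elim]
  have c3 := h.three_of x1.1 x2 fun i j _ a b => by rw [← sq, ← sq, B' i a, B' j b]
  have s : φ.supp e x ⊆ {i, j, k} := fun n a => by
    rcases h.cases5 d n with rfl | rfl | rfl | rfl | rfl
    exacts [by simp, by simp, by simp, (mem_supp.1 a m1).elim, (mem_supp.1 a m2).elim]
  have s' := Finset.eq_of_subset_of_card_le s (Finset.card_le_three.trans c3)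
  have q2 := h.Qf d x
  rw [B' i (mem_supp.1 (by simp [s'])), B' j (mem_supp.1 (by simp [s'])), B' k (mem_supp.1 (by simp [s'])), m1, m2] at q2
  exact mul_ne_zero (mul_ne_zero h2 N0) x1.1 (by linear_combination -q2)

omit hL hK in
theorem le_dstab {M : Subgroup φ.Isom}
    (hM : φ.E ⊓ φ.dstab (ln F e) ≤ M) (hM' : M ≤ φ.E) (hE : ¬ φ.E ≤ M) {g : φ.Isom} (hg : g ∈ M) :
    g ∈ φ.dstab (ln F e) := by
  obtain ⟨i, -⟩ := h.ex [] (by simp)
  have ha := h.rt_e i
  obtain ⟨t, t1, t2, t3, -⟩ := h.neg {i}ᶜ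
  have t4 := hM ⟨t3 (by rw [Finset.card_compl, h.n10, Finset.card_singleton]; decide), t2⟩
  have t5 : ∀ x, (φ.refl (e i)).1 x = -t.1 x := fun x => by
    obtain ⟨u, a, w, b, rfl⟩ := h.split {i}ᶜ x
    obtain ⟨c, rfl⟩ := Submodule.mem_span_singleton.1 (h.mem_ln (i := i).2 (by simpa using h.mem_co.1 b))
    rw [map_add, map_add, t1.1 u a, t1.2 _ (h.perp_of b), h.q.refl_of_orth (h.mem_co.1 a i (by simp)), map_smul,
      h.q.refl_self ha.1]; module
  have r1 := h.q.refl_mul_self (e i)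
  have t6 : ∀ g ∈ M, g ∈ rex M _ r1 := fun g hg => .inl ⟨hg, by
    convert mul_mem (mul_mem t4 hg) t4 using 1
    exact Isom.ext fun x => by simp [Isom.mul_apply, t5]⟩
  set L := rex M _ r1
  have h1 : φ.E ⊓ φ.dstab (ln F e) ≤ L := fun x hx => t6 x (hM hx)
  have h2 : Rf L (e i) := ⟨ha.1, Or.inr (by simp [r1])⟩
  have h3 : ∀ g ∈ L, g ∈ φ.E ∨ g * φ.refl (e i) ∈ φ.E := fun g hg => hg.imp (fun e => hM' e.1) fun e => hM' e.1
  have h5 : ¬ φ.E ≤ L := fun e => hE fun x hx => (e hx).elim And.left fun e =>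
    (h.blk.refl_not_mem ha.1 ((φ.E.mul_mem_cancel_left hx).1 (hM' e.1))).elim
  exact h.fr ha fun b b1 b2 => by_contra fun c => h5 (h.gf hF h1 (fun j => h.blk.rf h1 h2 ha.2 (h.rt_e j).2
    (h.rt_e j).1 (by rw [h.Qe, h.Qe])) h2 ha h3 ((h.blk.rf h1 h2 ha.2 b1.2 b1.1 b2).map h.q (t6 g hg)) c)

end Fr5

section gl
open Matrix Cfsg Cfsg.Geo

/-- stabilisers of orthogonal frames over prime fields, dimension five -/
theorem isMaximalIn_frame5 {ι : Type} [Fintype ι] [DecidableEq ι] {F : Type*} [Field F] [Fintype F]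
    {Q : (ι → F) → F} (hQ : IsNondegenerateQuadraticForm Q) (hn : Fintype.card ι = 5)
    (hp : (Fintype.card F).Prime) {t : ℕ} {D : Fin t → Submodule F (ι → F)} (hD : IsOrthogonalMDecomposition Q 1 D) :
    IsMaximalIn (omegaGL Q) (decompositionStabilizer D ⊓ omegaGL Q) := by
  obtain ⟨Q, rfl, _⟩ := exists_ofQuad hQ
  have h := blk_of (by omega) hD
  have hc := card_eq_of_dec hD.decomp.decomp
  have hF : ∀ c : F, ∃ n : ℕ, c = n := fun c => by
    have := Fact.mk hp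
    obtain ⟨x, rfl⟩ := (ZMod.ringEquivOfPrime F hp rfl).surjective c
    exact ⟨x.val, by rw [← map_natCast (ZMod.ringEquivOfPrime F hp rfl), ZMod.natCast_zmod_val]⟩
  obtain ⟨i⟩ : Nonempty (Fin t) := ⟨⟨0, by omega⟩⟩
  have := (h.od.nondeg i).nondeg
  have h2 := (h.q.restrict (D i)).two_ne_zero_of_odd (by rw [h.rk]; exact odd_one)
  obtain ⟨a, ha, a0⟩ := h.q.exists_Q_ne (h.od.nondeg i) fun e => by have := h.rk i; rw [e, finrank_bot] at this; omega
  choose e e1 e2 e3 using h.exists_eq ha (by rintro rfl; simp at a0)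
  obtain rfl : D = Form.ln F e := funext fun j => (Submodule.eq_of_le_of_finrank_le
    ((Submodule.span_singleton_le_iff_mem _ _).2 (e1 j)) (by rw [h.rk, finrank_span_singleton (e2 j)])).symm
  have f : Fr5 (Form.ofQuad Q) e _ := ⟨h.q, h2, a0, e3, fun i j a => h.od.orth i j a (e1 j) _ (e1 i),
    fun x a => h.od.eq_zero fun i => (Form.ofQuad Q).mem_perp_singleton.2 (a i), by simp; omega⟩
  rw [omegaGL_eq_E _ (by omega)]
  refine isMaximalIn_map _ (by rw [comap_decompositionStabilizer]; exact f.not_E_le) fun M hM g hg hg1 hg2 => ?_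
  rw [comap_decompositionStabilizer] at hM
  by_contra hE
  exact hg2 ((comap_decompositionStabilizer _).ge (f.le_dstab hF (M := M ⊓ (Form.ofQuad Q).E)
    (le_inf hM inf_le_left) inf_le_right (fun e => hE (e.trans inf_le_left)) ⟨hg, hg1⟩))

end gl
end H12.F5
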