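import Mathlib
import Cfsg.Agent.H10.FrE

/-! # Non-degenerate 3-spaces in dimension five with reflections: `H12.Nd3.nd3` -/

namespace H12.Nd3

open Module H10 H10.Form

variable {F V : Type*} [Field F] [AddCommGroup V] [Module F V] {φ : Form F V} [φ.Nondeg] [FiniteDimensional F V]
  [Finite F] (hq : φ.IsQuad) (h2 : (2 : F) ≠ 0) (h5 : finrank F V = 5) (hF : 5 ≤ Nat.card F)
  {U : Submodule F V} (hU : φ.NondegOn U) (h3 : finrank F U = 3) {N : F} (hN : N ≠ 0) {L : Subgroup φ.Isom}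
  (hL : φ.E ⊓ φ.stab U ≤ L) (hr : ∀ x, x ∈ U ∨ x ∈ φ.perp U → φ.Q x = N → φ.refl x ∈ L)

omit [φ.Nondeg] in
include hq h2 hF in
theorem plane {x y : V} (hx : φ.Q x ≠ 0) (hy : φ.Q y ≠ 0) (o : φ.B x y = 0) {M : F} (hM : M ≠ 0) :
    ∃ s t : F, s ≠ 0 ∧ s ^ 2 * φ.Q x + t ^ 2 * φ.Q y = M := by
  have g : φ.B x x * φ.B y y - φ.B x y * φ.B y x ≠ 0 := by simp [o, hq.B_self, h2, hx, hy]
  have nd := φ.nondegOn_pair g
  obtain ⟨w, w1, w2⟩ := hq.exists_Q_eq nd (finrank_span_pair_of_li (φ.linearIndependent_pair_of_gram g)).ge M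
  by_contra! H
  have := hq.le_of_norm (A := F ∙ y) nd (fun a => by omega) w1 (w2 ▸ hM) (fun z z1 z2 => by
    obtain ⟨s, t, rfl⟩ := Submodule.mem_span_pair.1 z1
    rw [hq.Q_comb, o, mul_zero, add_zero, w2] at z2
    rw [by_contra fun a : s ≠ 0 => H s t a z2, zero_smul, zero_add]
    exact Submodule.smul_mem _ _ (Submodule.mem_span_singleton_self _)) (Submodule.subset_span (by simp) : x ∈ _)
  obtain ⟨c, rfl⟩ := Submodule.mem_span_singleton.1 this
  simp [hq.B_smul_left, hq.B_self, h2, hy] at o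
  simp [o] at hx

omit [Finite F] in
include hq in
theorem ss_semi {p w : V} {hp : φ.Q p = 0} {g : φ.Isom} (hg : g ∈ L) {c : F} (hc : c ≠ 0) (e : g.1 p = c • p)
    (hw : w ∈ hq.ss L hp) : g.1 w ∈ hq.ss L hp := by
  obtain ⟨w1, w2⟩ := hq.mem_ss.1 hw
  have o : φ.B p (g.1 w) = 0 := by
    have := Isom.B_map g p w
    rw [e, hq.B_smul_left, w1] at this
    simpa [hc] using this
  refine hq.mem_ss.2 ⟨o, fun d => ?_⟩
  have := mul_mem (mul_mem hg (w2 (d / c))) (inv_mem hg)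
  rwa [hq.sg_conj hp (by simp [w1]), e, hq.sg_smul hp (by simp [o]), map_smul, smul_smul, mul_div_cancel₀ _ hc] at this

include hq h5 in
theorem memE {g : φ.Isom} : g ∈ φ.E ↔ φ.dickson g = 1 ∧ φ.spinor g = 1 := by
  have gd := hq.good_of_finrank (by omega)
  rw [hq.E_eq_commutator gd (by omega), hq.mem_commutator_iff gd (by omega)]

include hq h5 in
theorem rrE {a b : V} (ha : φ.Q a ≠ 0) (e : φ.Q a = φ.Q b) : φ.refl a * φ.refl b ∈ φ.E := by
  rw [hq.E_eq_commutator (hq.good_of_finrank (by omega)) (by omega)]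
  exact hq.refl_mul_refl_mem ha one_ne_zero (by simp [e])

include hq h5 hL in
theorem rotL {p f : V} (hyp : φ.IsHyp p f) (h : p ∈ U ∧ f ∈ U ∨ p ∈ φ.perp U ∧ f ∈ φ.perp U) (c : F) (hc : c ≠ 0) :
    φ.rot p f (c * c) ∈ L := by
  have gd := hq.good_of_finrank (by omega)
  have c2 := mul_ne_zero hc hc
  refine hL ⟨by simp [memE hq h5, hq.dickson_rot gd hyp c2, hq.spinor_rot gd hyp c2, chi_mul_self], ?_⟩
  rcases h with ⟨a, b⟩ | ⟨a, b⟩
  · exact fix_perp_le_stab _ fun x hx => φ.rot_apply_of_orth hyp c2 (hx p a) (hx f b)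
  · exact φ.fix_le_stab _ fun x hx => φ.rot_apply_of_orth hyp c2 (φ.mem_perp'.1 a x hx) (φ.mem_perp'.1 b x hx)

omit [Finite F] in
include hq hN in
theorem fin {p f : V} (hyp : φ.IsHyp p f) (h : φ.refl (p + N • f) ∈ L)
    (H : ∀ w, φ.B p w = 0 → w ∈ hq.ss L hyp.Qe) : φ.E ≤ L :=
  hq.ss_E_le H h (by
    simp [hq.refl_apply, hq.Q_add, hq.Q_smul, hyp.Qe, hyp.Qf, hyp.Bef, hyp.Bee, hq.B_comm f, hN, hq.B_smul_left])

omit [φ.Nondeg] [FiniteDimensional F V] [Finite F] in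
include hq in
theorem Qh {p f : V} (hyp : φ.IsHyp p f) (c : F) : φ.Q (p + c • f) = c := by
  simp [hq.Q_add, hq.Q_smul, hyp.Qe, hyp.Qf, hyp.Bef]

include hq h2 h5 hU h3 in
theorem trans {a a' : V} (ha : a ∈ U) (ha' : a' ∈ U) (h0 : φ.Q a ≠ 0) (e : φ.Q a = φ.Q a') :
    ∃ k ∈ φ.E ⊓ φ.stab U, k.1 a = a' ∧ ∀ x ∈ φ.perp U, k.1 x = x := by
  have a0 : a ≠ 0 := by rintro rfl; simp at h0
  obtain ⟨k, hk, hk'⟩ := hU.exists_fix_map ha ha' a0 (by rintro rfl; simp [e] at h0) e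
  have na := φ.nondegOn_singleton (hq.B_self_ne_zero h2 h0)
  have hW := hU.inf_perp na ((Submodule.span_singleton_le_iff_mem _ _).2 ha)
  have hW' := finrank_le_inf_perp (φ := φ) U (F ∙ a)
  rw [finrank_span_singleton a0] at hW'
  obtain ⟨r, hr, hr'⟩ := (hq.std h5.ge).adj _ hW (by omega) k
  have h9 := φ.fix_anti (φ.perp_anti inf_le_left) hr
  exact ⟨k * r, ⟨hr', fix_perp_le_stab _ (mul_mem hk h9)⟩, by
    rw [Isom.mul_apply, hr a fun y hy => φ.B_symm_zero (φ.mem_perp_singleton.1 hy.2), hk'], mul_mem hk h9⟩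

include hq h2 h5 hF hU h3 hN hL hr

/-- a Siegel element at a singular point of `U` along `U^⊥` -/
theorem spreadU {p b : V} (hp : p ∈ U) (p0 : p ≠ 0) (hQ : φ.Q p = 0) (hb : b ∈ φ.perp U) (b0 : b ≠ 0)
    (H : φ.sg p b ∈ L) : φ.E ≤ L := by
  obtain ⟨f, hf, hyp⟩ := exists_hyp_mem hU hp p0 hQ
  have hW := hU.inf_perp hyp.nondegOn (by rw [Submodule.span_le]; rintro y (rfl | rfl) <;> assumption)
  have hW' := finrank_le_inf_perp (φ := φ) U (Submodule.span F {p, f})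
  rw [hyp.finrank_span] at hW'
  obtain ⟨u, ⟨u1, u2⟩, u0⟩ := hq.exists_Q_ne hW (by rintro e; rw [e, finrank_bot] at hW'; omega)
  obtain ⟨u2, u3⟩ := φ.mem_perp_pair.1 u2
  have b1 := hq.ss_of_rot hyp (rotL hq h5 hL hyp (.inl ⟨hp, hf⟩)) (hb p hp) (hb f hf) H
  have R : ∀ z ∈ φ.perp U, φ.Q z ≠ 0 → ∀ x ∈ φ.perp U, x ∈ hq.ss L hyp.Qe → (φ.refl z).1 x ∈ hq.ss L hyp.Qe :=
    fun z z1 z0 x x1 x2 => by
      have m : ∀ c : F, p + c • f ∈ U := fun c => add_mem hp (U.smul_mem c hf)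
      have s : ∀ y ∈ U, φ.refl y ∈ φ.stab U := fun y a => fix_perp_le_stab _ (hq.refl_mem_fix a)
      have k := hL ⟨mul_mem (rrE hq h5 z0 (Qh hq hyp _).symm) (rrE hq h5 (a := p + φ.Q u • f) (b := u)
        (by rwa [Qh hq hyp]) (Qh hq hyp _)), mul_mem (mul_mem (φ.stab_perp U ▸ fix_perp_le_stab _
          (hq.refl_mem_fix z1)) (s _ (m _))) (mul_mem (s _ (m _)) (s _ u1))⟩
      have := ss_semi hq k (c := φ.Q u / φ.Q z) (div_ne_zero u0 z0) (by
        simp only [Isom.mul_apply]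
        rw [hq.refl_of_orth (φ.B_symm_zero u2), hq.refl_apply (p + φ.Q u • f), Qh hq hyp, map_add, map_smul,
          hq.refl_apply (p + φ.Q z • f), hq.refl_apply (p + φ.Q z • f), Qh hq hyp, map_add, map_smul,
          hq.refl_of_orth (φ.mem_perp'.1 z1 _ (add_mem hp (U.smul_mem _ (m _)))),
          hq.refl_of_orth (φ.mem_perp'.1 z1 _ (add_mem (m _) (U.smul_mem _ (m _))))]
        simp only [map_add, map_smul, LinearMap.add_apply, hq.B_smul_left, hyp.Bee, hyp.Bef, hyp.Bff, hq.B_comm f p,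
          smul_eq_mul]
        match_scalars <;> field_simp <;> ring) x2
      simpa only [Isom.mul_apply, hq.refl_of_orth (x1 u u1), hq.refl_of_orth (x1 _ (m _))] using this
  have d := φ.finrank_perp U
  obtain ⟨z, z1, z2, z0⟩ : ∃ z ∈ φ.perp U, z ∈ hq.ss L hyp.Qe ∧ φ.Q z ≠ 0 := by
    by_cases a : φ.Q b = 0
    · obtain ⟨f', hf', hy'⟩ := exists_hyp_mem hU.perp hb b0 a
      have m := add_mem hb ((φ.perp U).smul_mem 1 hf')
      have q : φ.Q (b + (1 : F) • f') ≠ 0 := by rw [Qh hq hy']; exact one_ne_zero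
      exact ⟨_, m, hq.mem_of_refl q b1 (R _ m q b hb b1) (by simp [hy'.Bee, hq.B_comm f', hy'.Bef]), q⟩
    · exact ⟨b, hb, b1, a⟩
  have P : φ.perp U ≤ hq.ss L hyp.Qe := hq.le_of_norm hU.perp (fun a => by omega) z1 z0 fun y y1 y2 => by
    by_cases a : φ.Q (z - y) = 0
    · have q : φ.Q (z + y) = 4 * φ.Q z := by
        rw [sub_eq_add_neg, hq.Q_add] at a; rw [hq.Q_add]; simp only [Q_neg, map_neg] at a
        linear_combination -a + 2 * y2
      have h4 : (4 : F) ≠ 0 := by rw [show (4 : F) = 2 * 2 by norm_num]; exact mul_ne_zero h2 h2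
      have := hq.mem_of_refl (q ▸ mul_ne_zero h4 z0) z2 (R _ (add_mem z1 y1) (q ▸ mul_ne_zero h4 z0) z z1 z2) (by
        rw [hq.Q_add, y2] at q
        rw [map_add, LinearMap.add_apply, hq.B_self, hq.B_comm y]
        intro e; exact mul_ne_zero h4 z0 (by linear_combination e - q))
      exact (Submodule.add_mem_iff_right _ z2).1 this
    · have := hq.mem_of_refl a z2 (R _ (sub_mem z1 y1) a z z1 z2) (by
        rw [map_sub, LinearMap.sub_apply, hq.B_self, hq.B_comm y]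
        intro e; apply a
        rw [sub_eq_add_neg, hq.Q_add]; simp only [Q_neg, map_neg]; linear_combination e + y2)
      exact (Submodule.sub_mem_iff_right _ z2).1 this
  refine fin hq hN hyp (hr _ (.inl (add_mem hp (U.smul_mem _ hf))) (Qh hq hyp _)) fun w hw => ?_
  obtain ⟨a, i, c, j, rfl⟩ := hU.split w
  have o : φ.B p a = 0 := by simpa [j p hp] using hw
  exact add_mem (hq.mem_ss_of_fix (W := U) ((inf_le_inf_left _ (fix_perp_le_stab _)).trans hL) hp i o) (P j)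

/-- a Siegel element at a singular point of `U^⊥` along `U` -/
theorem spreadP {p a : V} (hp : p ∈ φ.perp U) (p0 : p ≠ 0) (hQ : φ.Q p = 0) (ha : a ∈ U) (a0 : φ.Q a ≠ 0)
    (H : φ.sg p a ∈ L) : φ.E ≤ L := by
  obtain ⟨f, hf, hyp⟩ := exists_hyp_mem hU.perp hp p0 hQ
  have b1 := hq.ss_of_rot hyp (rotL hq h5 hL hyp (.inr ⟨hp, hf⟩)) (φ.mem_perp'.1 hp a ha) (φ.mem_perp'.1 hf a ha) H
  have P : U ≤ hq.ss L hyp.Qe := hq.le_of_norm hU (fun a => by omega) ha a0 fun y y1 y2 => by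
    obtain ⟨k, k1, k2, k3⟩ := trans hq h2 h5 hU h3 ha y1 a0 y2.symm
    exact k2 ▸ hq.ss_map (hL k1) (k3 p hp) b1
  refine fin hq hN hyp (hr _ (.inr (add_mem hp ((φ.perp U).smul_mem _ hf))) (Qh hq hyp _)) fun w hw => ?_
  obtain ⟨a, i, c, j, rfl⟩ := hU.split w
  have o : φ.B p c = 0 := by simpa [φ.mem_perp'.1 hp a i] using hw
  have d := φ.finrank_perp U
  obtain ⟨s, t, rfl⟩ := Submodule.mem_span_pair.1 ((Submodule.eq_of_le_of_finrank_le (show Submodule.span F {p, f} ≤ _ by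
    rw [Submodule.span_le]; rintro y (rfl | rfl) <;> assumption) (by rw [hyp.finrank_span]; omega)).ge j)
  rw [show t = 0 by simpa [hyp.Bee, hyp.Bef] using o, zero_smul, add_zero]
  exact add_mem (P i) (Submodule.smul_mem _ _ hq.self_mem_ss)

theorem case1 {a b p : V} (ha : a ∈ U) (hb : b ∈ φ.perp U) (a0 : a ≠ 0) (b0 : b ≠ 0) (hv : φ.refl (a + b) ∈ L)
    (hQ : φ.Q (a + b) = N) (H : φ.Q a = 0 ∨ p ∈ U ∧ p ≠ 0 ∧ φ.Q p = 0 ∧ φ.B p a = 0) : φ.E ≤ L := by
  have o : φ.B a b = 0 := hb a ha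
  by_cases q : φ.Q a = 0
  · have qb : φ.Q b = N := by rw [← hQ, φ.Q_add_of_orth o, q, zero_add]
    have := mul_mem (hr b (.inr hb) qb) hv
    rw [add_comm a, ← one_smul F a, hq.refl_refl q o (qb ▸ hN)] at this
    exact spreadU hq h2 h5 hF hU h3 hN hL hr ha a0 q ((φ.perp U).smul_mem _ hb)
      (smul_ne_zero (by simp [qb, hN]) b0) this
  obtain ⟨p1, p0, p2, p3⟩ := H.resolve_left q
  have a1 : a ∈ hq.ss L p2 := hq.mem_ss_of_fix (W := U) ((inf_le_inf_left _ (fix_perp_le_stab _)).trans hL) p1 ha p3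
  have := hq.ss_refl (hp := p2) ⟨hQ ▸ hN, hv⟩ (by simp [φ.B_symm_zero p3, φ.mem_perp'.1 hb p p1]) a1
    (by simp [φ.B_symm_zero o, hq.B_self, h2, q])
  exact spreadU hq h2 h5 hF hU h3 hN hL hr p1 p0 p2 hb b0 (by
    simpa using (hq.mem_ss.1 ((Submodule.add_mem_iff_right _ a1).1 this)).2 1)

theorem mixed {a b : V} (ha : a ∈ U) (hb : b ∈ φ.perp U) (a0 : a ≠ 0) (b0 : b ≠ 0) (hv : φ.refl (a + b) ∈ L)
    (hQ : φ.Q (a + b) = N) : φ.E ≤ L := by
  have o : φ.B a b = 0 := hb a ha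
  by_cases q : φ.Q a = 0
  · exact case1 hq h2 h5 hF hU h3 hN hL hr (p := 0) ha hb a0 b0 hv hQ (.inl q)
  have e := φ.Q_add_of_orth o
  by_cases qb : φ.Q b = 0
  · have qa : φ.Q a = N := by rw [← hQ, e, qb, add_zero]
    have := mul_mem (hr a (.inl ha) qa) hv
    rw [← one_smul F b, hq.refl_refl qb (φ.B_symm_zero o) q] at this
    exact spreadP hq h2 h5 hF hU h3 hN hL hr hb b0 qb (U.smul_mem _ ha) (by simp [hq.Q_smul, q]) this
  obtain ⟨p, p1, p0, p2⟩ := hq.exists_singular h3.ge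
  obtain ⟨f, hf, hyp⟩ := exists_hyp_mem hU p1 p0 p2
  have hW := hU.inf_perp hyp.nondegOn (by rw [Submodule.span_le]; rintro y (rfl | rfl) <;> assumption)
  have hW' := finrank_le_inf_perp (φ := φ) U (Submodule.span F {p, f})
  rw [hyp.finrank_span] at hW'
  obtain ⟨u, ⟨u1, u2⟩, u0⟩ := hq.exists_Q_ne hW (by rintro e; rw [e, finrank_bot] at hW'; omega)
  obtain ⟨u2, -⟩ := φ.mem_perp_pair.1 u2
  obtain ⟨l, m, l0, l2, hl⟩ : ∃ l m : F, l ≠ 0 ∧ l ≠ 2 ∧ l ^ 2 * φ.Q b + m ^ 2 * φ.Q u = N := by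
    obtain ⟨l, m, l0, hl⟩ := plane hq h2 hF qb u0 (φ.mem_perp'.1 hb u u1) hN
    by_cases c : l = 2
    · refine ⟨-l, m, neg_ne_zero.2 l0, fun d => mul_ne_zero h2 h2 (by linear_combination -c - d), by rwa [neg_sq]⟩
    · exact ⟨l, m, l0, c, hl⟩
  set x : F := ((1 - l) * N - 2 * φ.Q b) / (2 * φ.Q a) with hx
  have na := φ.nondegOn_singleton (hq.B_self_ne_zero h2 q)
  have hY' := finrank_le_inf_perp (φ := φ) U (F ∙ a)
  rw [finrank_span_singleton a0] at hY'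
  obtain ⟨y, ⟨y1, y2⟩, y3⟩ := hq.exists_Q_eq (hU.inf_perp na ((Submodule.span_singleton_le_iff_mem _ _).2 ha))
    (by omega) (φ.Q a * (1 - x ^ 2))
  replace y2 := φ.mem_perp_singleton.1 y2
  obtain ⟨k, k1, k2, k3⟩ := trans hq h2 h5 hU h3 ha (add_mem (U.smul_mem x ha) y1) q (by
    rw [hq.Q_add, hq.Q_smul, y3, hq.B_smul_left, y2]; ring)
  have r := (Rf.map hq ⟨hQ ▸ hN, hv⟩ (hL k1)).map hq hv
  have r2 : φ.Q ((φ.refl (a + b)).1 (k.1 (a + b))) = N := by rw [Isom.Q_map, Isom.Q_map, hQ]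
  have r3 : (φ.refl (a + b)).1 (k.1 (a + b)) = ((x - (1 - l)) • a + y) + l • b := by
    rw [map_add k.1, k2, k3 b hb, hq.refl_apply, hQ]
    simp only [map_add, map_smul, LinearMap.add_apply, hq.B_self, y2, o, φ.B_symm_zero o, φ.mem_perp'.1 hb y y1,
      smul_eq_mul]
    have : N⁻¹ * (x * (2 * φ.Q a) + 2 * φ.Q b) = 1 - l := by rw [hx]; field_simp; ring
    match_scalars
    · linear_combination -this
    · ring
    · linear_combination -this
  rw [r3] at r r2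
  have m1 : (x - (1 - l)) • a + y ∈ U := add_mem (U.smul_mem _ ha) y1
  have m2 := (φ.perp U).smul_mem l hb
  have m0 : (x - (1 - l)) • a + y ≠ 0 := fun c => by
    have c1 : x = 1 - l := by simpa [y2, hq.B_self, h2, q, sub_eq_zero] using congrArg (φ.B a) c
    have c2 : y = 0 := by simpa [c1] using c
    rw [c2, Q_zero, c1] at y3
    exact mul_ne_zero (mul_ne_zero q l0) (sub_ne_zero.2 l2) (by linear_combination y3)
  have m3 : φ.Q ((x - (1 - l)) • a + y) = φ.Q (m • u) := by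
    rw [φ.Q_add_of_orth (m2 _ m1), hq.Q_smul l] at r2
    rw [hq.Q_smul m]; linear_combination r2 - hl
  generalize (x - (1 - l)) • a + y = a' at *
  by_cases c : m = 0
  · exact case1 hq h2 h5 hF hU h3 hN hL hr (p := 0) m1 m2 m0 (smul_ne_zero l0 b0) r.2 r2 (.inl (by simp [m3, c]))
  obtain ⟨g, g1, g2⟩ := hU.exists_fix_map (U.smul_mem m u1) m1 (smul_ne_zero c (by rintro rfl; simp at u0)) m0 m3.symm
  exact case1 hq h2 h5 hF hU h3 hN hL hr (p := g.1 p) m1 m2 m0 (smul_ne_zero l0 b0) r.2 r2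
    (.inr ⟨(fix_perp_le_stab _ g1 p).1 p1, by simpa using p0, by rw [Isom.Q_map, p2], by
      rw [← g2, Isom.B_map]; simp [u2]⟩)

/-- overgroups of the stabiliser of a non-degenerate 3-space containing the reflections of norm `N` -/
theorem nd3 {g : φ.Isom} (hg : g ∈ L) (h1 : g ∉ φ.stab U) : φ.E ≤ L := by
  by_contra hE
  have A : ∀ x ∈ U, φ.Q x = N → g.1 x ∈ U ∨ g.1 x ∈ φ.perp U := fun x x1 x2 => by
    obtain ⟨a, i, b, j, e⟩ := hU.split (g.1 x)
    by_contra! c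
    exact hE (mixed hq h2 h5 hF hU h3 hN hL hr i j (by rintro rfl; exact c.2 (by simpa [e])) 
      (by rintro rfl; exact c.1 (by simpa [e])) (e ▸ (Rf.map hq ⟨x2 ▸ hN, hr x (.inl x1) x2⟩ hg).2)
      (by rw [← e, Isom.Q_map, x2]))
  obtain ⟨x, x1, x2⟩ := hq.exists_Q_eq hU (by omega) N
  have x0 : φ.Q x ≠ 0 := x2 ▸ hN
  have C : ∀ x ∈ U, φ.Q x = N → ∀ y ∈ U, φ.Q y = N → g.1 x ∈ U → g.1 y ∈ U := fun x x1 x2 y y1 y2 a => by
    refine (A y y1 y2).resolve_right fun b => ?_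
    have o : φ.B x y = 0 := by rw [← Isom.B_map g]; exact b _ a
    have gr : φ.B x x * φ.B y y - φ.B x y * φ.B y x ≠ 0 := by simp [o, hq.B_self, h2, x2, y2, hN]
    have hW := hU.inf_perp (φ.nondegOn_pair gr) (by rw [Submodule.span_le]; rintro y (rfl | rfl) <;> assumption)
    have hW' := finrank_le_inf_perp (φ := φ) U (Submodule.span F {x, y})
    rw [finrank_span_pair_of_li (φ.linearIndependent_pair_of_gram gr)] at hW'
    obtain ⟨z, ⟨z1, z2⟩, z0⟩ := hq.exists_Q_ne hW (by rintro e; rw [e, finrank_bot] at hW'; omega)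
    obtain ⟨z2, z3⟩ := φ.mem_perp_pair.1 z2
    obtain ⟨c, c0, c1⟩ : ∃ c : F, c ≠ 0 ∧ c ^ 2 ≠ 1 := by
      classical
      have := Fintype.ofFinite F
      obtain ⟨c, -, hc⟩ := Finset.exists_mem_notMem_of_card_lt_card (s := ({0, 1, -1} : Finset F)) (t := Finset.univ)
        (Finset.card_le_three.trans_lt (by rw [Finset.card_univ, ← Nat.card_eq_fintype_card]; omega))
      exact ⟨c, by simpa [not_or] using hc⟩
    obtain ⟨s, t, s0, hs⟩ := plane hq h2 hF (y2 ▸ hN) z0 z3 (M := N * (1 - c ^ 2))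
      (mul_ne_zero hN (sub_ne_zero.2 c1.symm))
    rcases A (c • x + (s • y + t • z)) (add_mem (U.smul_mem _ x1) (add_mem (U.smul_mem _ y1) (U.smul_mem _ z1))) (by
      rw [hq.Q_add, hq.Q_comb, hq.Q_smul, z3, hq.B_smul_left, map_add, map_smul, map_smul, o, z2, x2]
      simp only [smul_eq_mul]; linear_combination hs) with d | d
    · have := b _ d
      rw [Isom.B_map] at this
      simp [o, φ.B_symm_zero z3, hq.B_self, h2, s0, y2, hN, hq.B_smul_left] at this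
    · have := d _ a
      rw [Isom.B_map] at this
      simp [o, z2, hq.B_self, h2, c0, x2, hN] at this
  rcases A x x1 x2 with a | a
  · exact h1 (φ.mem_stab_of_le (hq.le_of_norm (A := U.comap (g.1 : V →ₗ[F] V)) hU (fun a => by omega) x1 x0
      fun y y1 y2 => C x x1 x2 y y1 (y2.trans x2) a))
  · have P := hq.le_of_norm (A := (φ.perp U).comap (g.1 : V →ₗ[F] V)) hU (fun a => by omega) x1 x0
      fun y y1 y2 => (A y y1 (y2.trans x2)).resolve_left fun b => x0 (by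
        have c := C y y1 (y2.trans x2) x x1 x2 b
        rw [← Isom.Q_map g, Submodule.disjoint_def.1 (φ.nondegOn_iff_disjoint.1 hU) _ c a, Q_zero])
    have := Submodule.finrank_mono (Submodule.map_le_iff_le_comap.2 P)
    have d := φ.finrank_perp U
    rw [LinearEquiv.finrank_map_eq] at this
    omega

end H12.Nd3
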