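import Mathlib
import Cfsg.Agent.H12.F6A

/-! # Orthogonal frames in dimension six: two frames of one overgroup, vectors with zero coordinates -/

namespace H12.F6

open Module H10 H10.Form

variable {F V : Type*} [Field F] [AddCommGroup V] [Module F V] {φ : Form F V} {κ : Type*} [Fintype κ] [DecidableEq κ]

open H10.Form.Fr (e_mem)

/-- six distinct indices -/
def Di (i j k l m n : κ) : Prop := [i, j, k, l, m, n].Nodup

omit [Fintype κ] [DecidableEq κ] in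
theorem Di.ne {i j k l m n : κ} (d : Di i j k l m n) : (i ≠ j ∧ i ≠ k ∧ i ≠ l ∧ i ≠ m ∧ i ≠ n) ∧
    (j ≠ k ∧ j ≠ l ∧ j ≠ m ∧ j ≠ n) ∧ (k ≠ l ∧ k ≠ m ∧ k ≠ n) ∧ (l ≠ m ∧ l ≠ n) ∧ m ≠ n := by
  simpa [Di] using d

omit [Fintype κ] [DecidableEq κ] in
theorem Di.of {i j k l m n : κ} (d : (i ≠ j ∧ i ≠ k ∧ i ≠ l ∧ i ≠ m ∧ i ≠ n) ∧
    (j ≠ k ∧ j ≠ l ∧ j ≠ m ∧ j ≠ n) ∧ (k ≠ l ∧ k ≠ m ∧ k ≠ n) ∧ (l ≠ m ∧ l ≠ n) ∧ m ≠ n) : Di i j k l m n := by
  simpa [Di] using d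

variable (φ) in
/-- two frames share a line -/
def Same (e f : κ → V) : Prop := ∃ i j, f j ∈ ln F e i

namespace Fr6
variable {e f : κ → V} {N : F} (h : Fr6 φ e N) {x y : V} {i j k l m n : κ}
include h

theorem univ_eq (d : Di i j k l m n) : (Finset.univ : Finset κ) = {i, j, k, l, m, n} :=
  (Finset.eq_univ_of_card _ (by
    have := List.toFinset_card_of_nodup d
    rw [h.n10]; simpa using this)).symm

theorem cases6 (d : Di i j k l m n) (a : κ) : a = i ∨ a = j ∨ a = k ∨ a = l ∨ a = m ∨ a = n := by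
  have : a ∈ ({i, j, k, l, m, n} : Finset κ) := h.univ_eq d ▸ Finset.mem_univ a
  simpa using this

theorem Bs (x y : V) : 2 * N * φ.B x y = ∑ i, φ.B (e i) x * φ.B (e i) y := by
  have q := congrArg (φ.B · y) (h.expand x)
  simp only [map_sum, LinearMap.sum_apply, h.q.B_smul_left] at q
  have := h.h2; have := h.N0
  rw [q, Finset.mul_sum]
  exact Finset.sum_congr rfl fun i _ => by field_simp

theorem Bf (d : Di i j k l m n) (x y : V) : 2 * N * φ.B x y = φ.B (e i) x * φ.B (e i) y + φ.B (e j) x * φ.B (e j) y +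
    φ.B (e k) x * φ.B (e k) y + φ.B (e l) x * φ.B (e l) y + φ.B (e m) x * φ.B (e m) y + φ.B (e n) x * φ.B (e n) y := by
  have := d.ne
  rw [h.Bs, h.univ_eq d, Finset.sum_insert (by simp [this]), Finset.sum_insert (by simp [this]),
    Finset.sum_insert (by simp [this]), Finset.sum_insert (by simp [this]), Finset.sum_pair this.2.2.2.2]
  ring

theorem Qf (d : Di i j k l m n) (hx : φ.Q x = N) : φ.B (e i) x ^ 2 + φ.B (e j) x ^ 2 +
    φ.B (e k) x ^ 2 + φ.B (e l) x ^ 2 + φ.B (e m) x ^ 2 + φ.B (e n) x ^ 2 = (2 * N) ^ 2 := by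
  have := h.Bf d x x
  rw [h.q.B_self, hx] at this
  linear_combination -this

theorem ex3 (ij : i ≠ j) (ik : i ≠ k) (jk : j ≠ k) : ∃ l m n, Di i j k l m n := by
  obtain ⟨l, hl⟩ := h.ex [i, j, k] (by simp)
  obtain ⟨m, hm⟩ := h.ex [i, j, k, l] (by simp)
  obtain ⟨n, hn⟩ := h.ex [i, j, k, l, m] (by simp)
  simp only [List.mem_cons, List.not_mem_nil, or_false, not_or] at hl hm hn
  exact ⟨l, m, n, Di.of (by grind)⟩

theorem ex2 (ij : i ≠ j) : ∃ k l m n, Di i j k l m n := by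
  obtain ⟨k, hk⟩ := h.ex [i, j] (by simp)
  simp only [List.mem_cons, List.not_mem_nil, or_false, not_or] at hk
  exact ⟨k, h.ex3 ij (Ne.symm hk.1) (Ne.symm hk.2)⟩

theorem symm (h' : Fr6 φ f N) (s : Same e f (F := F)) : Same f e (F := F) := by
  obtain ⟨i, j, s⟩ := s
  obtain ⟨c, hc⟩ := Submodule.mem_span_singleton.1 s
  have c0 : c ≠ 0 := by rintro rfl; exact h'.ne0 j (by simp [← hc])
  exact ⟨j, i, Submodule.mem_span_singleton.2 ⟨c⁻¹, by rw [← hc, smul_smul, inv_mul_cancel₀ c0, one_smul]⟩⟩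

omit [DecidableEq κ] in
theorem exnz (hx : x ≠ 0) : ∃ i, φ.B (e i) x ≠ 0 := by by_contra! H; exact hx (h.tot x H)

omit [DecidableEq κ] in
theorem three {p q u v w : V} (hu : u ∈ Submodule.span F {p, q}) (hv : v ∈ Submodule.span F {p, q})
    (hw : w ∈ Submodule.span F {p, q}) (u0 : φ.Q u ≠ 0) (v0 : φ.Q v ≠ 0) (w0 : φ.Q w ≠ 0) (uv : φ.B u v = 0)
    (uw : φ.B u w = 0) (vw : φ.B v w = 0) : False := by
  have g : φ.B u u * φ.B v v - φ.B u v * φ.B v u ≠ 0 := by simp [uv, h.q.B_self, h.h2, u0, v0]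
  have : FiniteDimensional F (Submodule.span F {p, q}) := .span_of_finite F (Set.toFinite _)
  obtain ⟨s, t, rfl⟩ := Submodule.mem_span_pair.1 ((Submodule.eq_of_le_of_finrank_le (show Submodule.span F {u, v} ≤ _ by
    rw [Submodule.span_le]; rintro y (rfl | rfl) <;> assumption) (by
      rw [finrank_span_pair_of_li (φ.linearIndependent_pair_of_gram g)]; exact finrank_span_pair_le p q)).ge hw)
  simp [uv, φ.B_symm_zero uv, h.q.B_self, h.h2, u0, v0] at uw vw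
  simp [uw, vw] at w0

variable [φ.Nondeg] [FiniteDimensional F V] [Finite F]

theorem tri {g : φ.Isom} (hg : g ∈ φ.dstab (ln F e)) (i : κ) :
    g.1 (e i) = e i ∨ g.1 (e i) = -e i ∨ φ.B (e i) (g.1 (e i)) = 0 := by
  obtain ⟨j, hj⟩ := h.mem_dstab.1 hg i
  by_cases a : i = j
  · subst a
    obtain ⟨c, hc⟩ := Submodule.mem_span_singleton.1 hj
    have := Isom.Q_map g (e i)
    rw [← hc, h.q.Q_smul, h.Qe] at this
    rcases mul_self_eq_one_iff.1 (mul_right_cancel₀ h.N0 (this.trans (one_mul N).symm)) with rfl | rfl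
    exacts [.inl (by simp [← hc]), .inr (.inl (by simp [← hc]))]
  · exact .inr (.inr (h.mem_ln.1 hj i a))

theorem ce (a b : κ) (x : V) : φ.B (e b) ((φ.refl (e a)).1 x) = if b = a then -φ.B (e b) x else φ.B (e b) x := by
  rw [h.q.refl_apply, map_add, map_smul, h.Bij, h.Qe, smul_eq_mul]
  split_ifs with c
  · have := h.N0; rw [c]; field_simp; ring
  · simp

theorem cs {a b : κ} (ab : a ≠ b) (c : κ) (x : V) : φ.B (e c) ((φ.refl (e a - e b)).1 x) =
    if c = a then φ.B (e b) x else if c = b then φ.B (e a) x else φ.B (e c) x := by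
  rw [h.q.refl_apply, map_add, map_smul, (h.rt_sub ab).1, map_sub, map_sub, LinearMap.sub_apply, h.Bij, h.Bij, smul_eq_mul]
  have := h.N0; have := h.h2
  by_cases c1 : c = a
  · subst c1; simp only [if_true, ab, if_false]; field_simp; ring
  by_cases c2 : c = b
  · subst c2; simp only [if_true, c1, if_false]; field_simp; ring
  simp [c1, c2]

theorem rts (ij : i ≠ j) {ε : F} (hε : ε ^ 2 = 1) : φ.Q (e i + ε • e j) = 2 * N ∧ φ.Rt e (e i + ε • e j) := by
  have := h.root ij (Submodule.mem_span_singleton_self _) (Submodule.smul_mem _ ε (Submodule.mem_span_singleton_self _))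
    (h.rt_e i).1 (by rw [h.q.Q_smul, h.Qe, h.Qe, ← sq, hε, one_mul])
  exact ⟨h.Qe i ▸ this.1, this.2.1⟩

theorem T (h' : Fr6 φ f N) (ij : i ≠ j) (ht : φ.refl (e i) * φ.refl (e j) ∈ φ.dstab (ln F f)) (b : κ) :
    (φ.B (e i) (f b) = 0 ∧ φ.B (e j) (f b) = 0) ∨ (∀ k, k ≠ i → k ≠ j → φ.B (e k) (f b) = 0) ∨
      2 * (φ.B (e i) (f b) ^ 2 + φ.B (e j) (f b) ^ 2) = (2 * N) ^ 2 := by
  have h2 := h.h2
  rcases h'.tri ht b with a | a | a
  · have a1 := congrArg (φ.B (e i)) a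
    have a2 := congrArg (φ.B (e j)) a
    simp only [Isom.mul_apply, h.ce, ij, ij.symm, if_true, if_false] at a1 a2
    exact .inl ⟨mul_left_cancel₀ h2 (by linear_combination -a1), mul_left_cancel₀ h2 (by linear_combination -a2)⟩
  · refine .inr (.inl fun k k1 k2 => ?_)
    have a1 := congrArg (φ.B (e k)) a
    simp only [Isom.mul_apply, h.ce, k1, k2, if_false, map_neg] at a1
    exact mul_left_cancel₀ h2 (by linear_combination a1)
  · obtain ⟨k, l, m, n, d⟩ := h.ex2 ij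
    have b1 := h.Bf d (f b) ((φ.refl (e i) * φ.refl (e j)).1 (f b))
    have b2 := h.Qf d (h'.Qe b)
    obtain ⟨⟨-, d1, d2, d3, d4⟩, ⟨d5, d6, d7, d8⟩, -⟩ := d.ne
    rw [a] at b1
    simp only [Isom.mul_apply, h.ce, ij, ij.symm, if_true, if_false, d1.symm, d2.symm, d3.symm, d4.symm, d5.symm,
      d6.symm, d7.symm, d8.symm] at b1
    exact .inr (.inr (by linear_combination b1 + b2))

theorem C3 (h' : Fr6 φ f N) (ij : i ≠ j) (ik : i ≠ k) (jk : j ≠ k)
    (ht : φ.refl (e i - e j) * φ.refl (e j - e k) ∈ φ.dstab (ln F f)) (b : κ) :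
    (φ.B (e i) (f b) = φ.B (e j) (f b) ∧ φ.B (e j) (f b) = φ.B (e k) (f b)) ∨
      φ.B (e i) (f b) * φ.B (e j) (f b) + φ.B (e j) (f b) * φ.B (e k) (f b) + φ.B (e k) (f b) * φ.B (e i) (f b) +
        (2 * N) ^ 2 = φ.B (e i) (f b) ^ 2 + φ.B (e j) (f b) ^ 2 + φ.B (e k) (f b) ^ 2 := by
  have h2 := h.h2
  obtain ⟨l, m, n, d⟩ := h.ex3 ij ik jk
  have b1 := h.Bf d (f b) ((φ.refl (e i - e j) * φ.refl (e j - e k)).1 (f b))
  have b2 := h.Qf d (h'.Qe b)
  obtain ⟨⟨-, -, d2, d3, d4⟩, ⟨-, d6, d7, d8⟩, ⟨d9, d10, d11⟩, -⟩ := d.ne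
  rcases h'.tri ht b with a | a | a
  · have a1 := congrArg (φ.B (e j)) a
    have a2 := congrArg (φ.B (e k)) a
    simp only [Isom.mul_apply, h.cs ij, h.cs jk, ij, ij.symm, ik, ik.symm, jk.symm, if_true, if_false] at a1 a2
    exact .inl ⟨a1, a2⟩
  · have a0 := congrArg (φ.B (e i)) a
    have a1 := congrArg (φ.B (e j)) a
    have a2 := congrArg (φ.B (e k)) a
    have a3 := congrArg (φ.B (e l)) a
    have a4 := congrArg (φ.B (e m)) a
    have a5 := congrArg (φ.B (e n)) a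
    simp only [Isom.mul_apply, h.cs ij, h.cs jk, ij, ij.symm, ik, ik.symm, jk.symm, jk, if_true, if_false, map_neg, d2.symm,
      d3.symm, d4.symm, d6.symm, d7.symm, d8.symm, d9.symm, d10.symm, d11.symm] at a0 a1 a2 a3 a4 a5
    have := pow_ne_zero 2 (mul_ne_zero h2 h.N0)
    grind
  · rw [a] at b1
    simp only [Isom.mul_apply, h.cs ij, h.cs jk, ij, ij.symm, ik, ik.symm, jk.symm, jk, if_true, if_false, d2.symm,
      d3.symm, d4.symm, d6.symm, d7.symm, d8.symm, d9.symm, d10.symm, d11.symm] at b1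
    exact .inr (by linear_combination -b1 - b2)

theorem fix {z : φ.Isom} (hz : z ∈ φ.dstab (ln F e)) (z2 : ∀ x, z.1 (z.1 x) = x) {ε : F} (hε : ε ^ 2 = 1) {p q : V}
    (H : ∀ x, x + -ε • z.1 x ∈ Submodule.span F {p, q}) (a : κ) : ∃ b, b ≠ a ∧ ε • z.1 (e b) = e b := by
  by_contra! c
  choose σ hσ using h.mem_dstab.1 hz
  have r : ∀ b, b ≠ a → φ.Q (e b + -ε • z.1 (e b)) ≠ 0 := fun b hb => (h.rt_diff (Submodule.smul_mem _ _ (hσ b))
    (by rw [h.q.Q_smul, Isom.Q_map, h.Qe, neg_mul_neg, ← sq, hε, one_mul])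
    fun d => c b hb (by linear_combination (norm := module) -d)).1
  have o : ∀ b b', b' ≠ b → b' ≠ σ b → φ.B (e b + -ε • z.1 (e b)) (e b' + -ε • z.1 (e b')) = 0 := fun b b' b1 b2 => by
    have e1 : φ.B (e b') (z.1 (e b)) = 0 := h.mem_ln.1 (hσ b) b' b2
    have e2 : φ.B (e b) (z.1 (e b')) = 0 := by rw [← Isom.B_map z, z2, h.q.B_comm, e1]
    simp [h.orth b b' b1.symm, e2, φ.B_symm_zero e1]
  obtain ⟨b1, h1⟩ := h.ex [a] (by simp)
  obtain ⟨b2, h2⟩ := h.ex [a, b1, σ b1] (by simp)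
  obtain ⟨b3, h3⟩ := h.ex [a, b1, σ b1, b2, σ b2] (by simp)
  simp only [List.mem_cons, List.not_mem_nil, or_false, not_or] at h1 h2 h3
  exact h.three (H (e b1)) (H (e b2)) (H (e b3)) (r _ h1) (r _ h2.1) (r _ h3.1) (o _ _ h2.2.1 h2.2.2)
    (o _ _ h3.2.1 h3.2.2.1) (o _ _ h3.2.2.2.1 h3.2.2.2.2)

end Fr6

variable [φ.Nondeg] [FiniteDimensional F V] [Finite F]

variable (φ) in
/-- a frame whose stabiliser lies in `M` and contains the stabiliser in `M` of each of its lines -/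
structure Gd (e : κ → V) (N : F) (M : Subgroup φ.Isom) : Prop where
  h : Fr6 φ e N
  hM : φ.E ⊓ φ.dstab (ln F e) ≤ M
  st : ∀ g ∈ M, ∀ a b, g.1 (e a) ∈ ln F e b → g ∈ φ.dstab (ln F e)

namespace Gd
variable {e f : κ → V} {N : F} {M : Subgroup φ.Isom} (S : Gd φ e N M) {x y : V} {i j k l m n a : κ}
include S

theorem fx {g : φ.Isom} (hg : g ∈ M) (h : g.1 (e a) = e a) : g ∈ φ.dstab (ln F e) :=
  S.st g hg a a (by rw [h]; exact Submodule.mem_span_singleton_self _)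

theorem rrM (hx : φ.Rt e x) (hy : φ.Rt e y) (c : φ.Q x = φ.Q y) : φ.refl x * φ.refl y ∈ M :=
  S.h.rr S.hM hx hy (by rw [c])

theorem conj {g : φ.Isom} (hg : g ∈ M) : Gd φ (fun i => g.1 (e i)) N M := by
  have h' : Fr6 φ (fun i => g.1 (e i)) N := ⟨S.h.q, S.h.h2, S.h.N0, fun i => by rw [Isom.Q_map, S.h.Qe],
    fun i j a => by rw [Isom.B_map, S.h.orth i j a], fun x hx => by
      simpa using congrArg g.1 (S.h.tot ((g⁻¹).1 x) fun i => by rw [← Isom.B_map g, Isom.apply_inv_apply, hx]), S.h.n10⟩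
  have L : ∀ x j, x ∈ ln F (fun i => g.1 (e i)) j ↔ (g⁻¹).1 x ∈ ln F e j := fun x j => by
    rw [h'.mem_ln, S.h.mem_ln]
    exact forall₂_congr fun k _ => by rw [← Isom.B_map g (e k), Isom.apply_inv_apply]
  have D : ∀ u : φ.Isom, u ∈ φ.dstab (ln F fun i => g.1 (e i)) ↔ g⁻¹ * u * g ∈ φ.dstab (ln F e) := fun u => by
    simp only [h'.mem_dstab, S.h.mem_dstab, L, Isom.mul_apply]
  refine ⟨h', fun u hu => ?_, fun u hu a b c => (D u).2 (S.st _ (mul_mem (mul_mem (inv_mem hg) hu) hg) a b ((L _ _).1 c))⟩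
  have := mul_mem (mul_mem hg (S.hM ⟨by simpa using φ.E_normal.conj_mem u hu.1 g⁻¹, (D u).1 hu.2⟩)) (inv_mem hg)
  simpa [mul_assoc] using this

theorem resign {s : κ → F} (hs : ∀ i, s i ^ 2 = 1) : ln F (fun i => s i • e i) = ln F e ∧ Gd φ (fun i => s i • e i) N M := by
  have s0 : ∀ i, s i ≠ 0 := fun i a => by simpa [a] using hs i
  have L : ln F (fun i => s i • e i) = ln F e := funext fun i => Submodule.span_singleton_smul_eq (s0 i).isUnit _
  refine ⟨L, ⟨S.h.q, S.h.h2, S.h.N0, fun i => by rw [S.h.q.Q_smul, S.h.Qe, ← sq, hs, one_mul],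
    fun i j a => by simp [S.h.orth i j a], fun x hx => S.h.tot x fun i => by simpa [s0 i] using hx i, S.h.n10⟩,
    L ▸ S.hM, fun g hg a b c => L ▸ S.st g hg a b ?_⟩
  rwa [L, map_smul, Submodule.smul_mem_iff _ (s0 a)] at c

variable (S' : Gd φ f N M)
include S'

theorem tfx (ij : i ≠ j) (hi : φ.B (e i) (f a) = 0) (hj : φ.B (e j) (f a) = 0) :
    φ.refl (e i) * φ.refl (e j) ∈ φ.dstab (ln F f) :=
  S'.fx (S.rrM (S.h.rt_e i) (S.h.rt_e j) (by rw [S.h.Qe, S.h.Qe])) (by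
    rw [Isom.mul_apply, S.h.q.refl_of_orth hj, S.h.q.refl_of_orth hi])

theorem cfx (ij : i ≠ j) (jk : j ≠ k) (hi : φ.B (e i) (f a) = φ.B (e j) (f a)) (hj : φ.B (e j) (f a) = φ.B (e k) (f a)) :
    φ.refl (e i - e j) * φ.refl (e j - e k) ∈ φ.dstab (ln F f) :=
  S'.fx (a := a) (S.rrM (S.h.rt_sub ij).2.1 (S.h.rt_sub jk).2.1 (by rw [(S.h.rt_sub ij).1, (S.h.rt_sub jk).1])) (by
    rw [Isom.mul_apply, S.h.q.refl_of_orth (v := e j - e k) (by simp [hj]), S.h.q.refl_of_orth (by simp [hi])])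

theorem z3c (nS : ¬ Same e f (F := F)) (d : Di i j k l m n) (hl : φ.B (e l) (f a) = 0) (hm : φ.B (e m) (f a) = 0)
    (hn : φ.B (e n) (f a) = 0) {b : κ} (hb : φ.B (e l) (f b) ≠ 0) : 4 * φ.B (e l) (f b) ^ 2 = (2 * N) ^ 2 ∧
      4 * φ.B (e m) (f b) ^ 2 = (2 * N) ^ 2 ∧ 4 * φ.B (e n) (f b) ^ 2 = (2 * N) ^ 2 := by
  obtain ⟨⟨-, -, d2, d3, d4⟩, ⟨-, d6, d7, d8⟩, ⟨d9, d10, d11⟩, ⟨lm, ln'⟩, mn⟩ := d.ne
  have t1 := S.h.T S'.h lm (S.tfx S' lm hl hm) b
  have t2 := S.h.T S'.h ln' (S.tfx S' ln' hl hn) b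
  have t3 := S.h.T S'.h mn (S.tfx S' mn hm hn) b
  have c := S.h.C3 S'.h lm ln' mn (S.cfx S' lm mn (hl.trans hm.symm) (hm.trans hn.symm)) b
  have q := S.h.Qf d (S'.h.Qe b)
  have s : ¬ (φ.B (e i) (f b) = 0 ∧ φ.B (e j) (f b) = 0 ∧ φ.B (e k) (f b) = 0 ∧ φ.B (e m) (f b) = 0 ∧
      φ.B (e n) (f b) = 0) := fun s => nS ⟨l, b, S.h.mem_ln.2 fun r hr => by
    rcases S.h.cases6 d r with rfl | rfl | rfl | rfl | rfl | rfl
    exacts [s.1, s.2.1, s.2.2.1, (hr rfl).elim, s.2.2.2.1, s.2.2.2.2]⟩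
  replace t1 := t1.imp_right (Or.imp_left fun t => And.intro (t i d2 d3) (And.intro (t j d6 d7)
    (And.intro (t k d9 d10) (t n ln'.symm mn.symm))))
  replace t2 := t2.imp_right (Or.imp_left fun t => And.intro (t i d2 d4) (And.intro (t j d6 d8)
    (And.intro (t k d9 d11) (t m lm.symm mn))))
  replace t3 := t3.imp_right (Or.imp_left fun t => t l lm ln')
  have D := pow_ne_zero 2 (mul_ne_zero S.h.h2 S.h.N0)
  have h2 := S.h.h2
  generalize (2 * N) ^ 2 = D' at *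
  generalize φ.B (e i) (f b) = x1 at *
  generalize φ.B (e j) (f b) = x2 at *
  generalize φ.B (e k) (f b) = x3 at *
  generalize φ.B (e l) (f b) = p at *
  generalize φ.B (e m) (f b) = r at *
  generalize φ.B (e n) (f b) = t at *
  have p2 := pow_ne_zero 2 hb
  rcases t3 with ⟨rfl, rfl⟩ | t3 | t3
  · rcases t1 with t1 | t1 | t1
    · exact (hb t1.1).elim
    · exact (s ⟨t1.1, t1.2.1, t1.2.2.1, rfl, rfl⟩).elim
    · exact (c.elim (fun c => hb c.1) fun c => p2 (by linear_combination c + t1)).elim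
  · exact (hb t3).elim
  rcases t1 with t1 | ⟨rfl, rfl, rfl, rfl⟩ | t1
  · exact (hb t1.1).elim
  · have r0 : r ≠ 0 := by rintro rfl; exact D (by linear_combination -t3)
    exact (c.elim (fun c => r0 c.2) fun c => mul_ne_zero hb r0 (by linear_combination c + q)).elim
  rcases t2 with t2 | ⟨rfl, rfl, rfl, rfl⟩ | t2
  · exact (hb t2.1).elim
  · have r0 : t ≠ 0 := by rintro rfl; exact D (by linear_combination -t3)
    exact (c.elim (fun c => hb c.1) fun c => mul_ne_zero hb r0 (by linear_combination c + q)).elim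
  exact ⟨by linear_combination t1 + t2 - t3, by linear_combination t1 + t3 - t2, by linear_combination t2 + t3 - t1⟩

theorem z4 (ij : i ≠ j) (H : ∀ k, k ≠ i → k ≠ j → φ.B (e k) (f a) = 0) : Same e f (F := F) := by
  by_contra nS
  obtain ⟨k, l, m, n, d⟩ := S.h.ex2 ij
  obtain ⟨⟨-, ik, il, im, in'⟩, ⟨jk, jl, jm, jn⟩, ⟨kl, km, kn⟩, ⟨lm, ln'⟩, mn⟩ := d.ne
  have hk := H k ik.symm jk.symm
  have hl := H l il.symm jl.symm
  have hm := H m im.symm jm.symm
  have hn := H n in'.symm jn.symm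
  obtain ⟨b, hb⟩ := S'.h.exnz (S.h.ne0 l)
  rw [S.h.q.B_comm] at hb
  have ab : a ≠ b := by rintro rfl; exact hb hl
  obtain ⟨l2, m2, n2⟩ := S.z3c S' nS d hl hm hn hb
  obtain ⟨-, -, k2⟩ := S.z3c S' nS (Di.of (by have := d.ne; grind) : Di i j n l m k) hl hm hk hb
  have q := S.h.Qf d (S'.h.Qe b)
  have q' := S.h.Qf d (S'.h.Qe a)
  have o := S.h.Bf d (f a) (f b)
  rw [S'.h.orth a b ab] at o
  rw [hk, hl, hm, hn] at o q'
  have h2 := S.h.h2
  have N0 := S.h.N0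
  have h4 : (4 : F) ≠ 0 := by rw [show (4 : F) = 2 * 2 by norm_num]; exact mul_ne_zero h2 h2
  have D := pow_ne_zero 2 (mul_ne_zero h2 N0)
  have q0 : φ.B (e i) (f b) ^ 2 + φ.B (e j) (f b) ^ 2 = 0 :=
    mul_left_cancel₀ h4 (by linear_combination 4 * q - l2 - m2 - n2 - k2)
  have bi : φ.B (e i) (f b) = 0 := pow_eq_zero_iff two_ne_zero |>.1 (mul_left_cancel₀ D (by
    linear_combination -φ.B (e i) (f b) ^ 2 * q' + φ.B (e j) (f a) ^ 2 * q0 -
      (φ.B (e i) (f a) * φ.B (e i) (f b) - φ.B (e j) (f a) * φ.B (e j) (f b)) * o))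
  have bj : φ.B (e j) (f b) = 0 := by simpa [bi] using q0
  have bk : φ.B (e k) (f b) ≠ 0 := fun c => D (by rw [← k2, c]; ring)
  have e1 : (-(φ.B (e k) (f b) / φ.B (e l) (f b))) ^ 2 = 1 := by
    field_simp; exact mul_left_cancel₀ h4 (by linear_combination k2 - l2)
  have r1 := S.h.rts kl e1
  have r2 := S.h.rt_sub ij
  have n1 := S'.fx (a := b) (S.rrM r1.2 r2.2.1 (by rw [r1.1, r2.1])) (by
    rw [Isom.mul_apply, S.h.q.refl_of_orth (v := e i - e j) (by simp [bi, bj]), S.h.q.refl_of_orth (by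
      simp [S.h.q.σ_eq, hb])])
  have e2 : (φ.refl (e k + (-(φ.B (e k) (f b) / φ.B (e l) (f b))) • e l) * φ.refl (e i - e j)).1 (f a) =
      (φ.refl (e i - e j)).1 (f a) := by
    rw [Isom.mul_apply, S.h.q.refl_of_orth (by
      simp [S.h.cs ij, ik.symm, il.symm, jk.symm, jl.symm, hk, hl])]
  have ai : φ.B (e i) (f a) ≠ 0 := fun c => nS ⟨j, a, S.h.mem_ln.2 fun r hr => by
    by_cases b : r = i
    exacts [b ▸ c, H r b hr]⟩
  have aj : φ.B (e j) (f a) ≠ 0 := fun c => nS ⟨i, a, S.h.mem_ln.2 fun r hr => by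
    by_cases b : r = j
    exacts [b ▸ c, H r hr b]⟩
  have sq : φ.B (e i) (f a) ^ 2 = φ.B (e j) (f a) ^ 2 := by
    rcases S'.h.tri n1 a with c | c | c <;> rw [e2] at c
    · have := congrArg (φ.B (e i)) c
      rw [S.h.cs ij, if_pos rfl] at this; rw [this]
    · have := congrArg (φ.B (e i)) c
      rw [S.h.cs ij, if_pos rfl, map_neg] at this; rw [this, neg_sq]
    · have := S.h.Bf d (f a) ((φ.refl (e i - e j)).1 (f a))
      simp only [c, S.h.cs ij, ij.symm, if_true, if_false, hk, hl, hm, hn] at this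
      exact (mul_ne_zero h2 (mul_ne_zero ai aj) (by linear_combination -this)).elim
  have e3 : (-(φ.B (e i) (f a) / φ.B (e j) (f a))) ^ 2 = 1 := by field_simp; exact sq
  have r3 := S.h.rts ij e3
  have n2 := S'.fx (a := a) (S.h.rr S.hM r3.2 (S.h.rt_e k) (by
    rw [r3.1, S.h.Qe, show 2 * N = (2 * N / φ.B (e i) (f a)) * (2 * N / φ.B (e i) (f a)) * N by
      have : φ.B (e i) (f a) ^ 2 = 2 * N ^ 2 := mul_left_cancel₀ h2 (by linear_combination q' + sq)
      rw [div_mul_div_comm, ← pow_two (φ.B (e i) (f a)), this]; field_simp, chi_mul (by simp [h2, N0, ai]) N0, chi_mul_self, one_mul])) (by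
    rw [Isom.mul_apply, S.h.q.refl_of_orth hk, S.h.q.refl_of_orth (by simp [S.h.q.σ_eq, aj])])
  have e4 : (φ.refl (e i + (-(φ.B (e i) (f a) / φ.B (e j) (f a))) • e j) * φ.refl (e k)).1 (f b) =
      (φ.refl (e k)).1 (f b) := by
    rw [Isom.mul_apply, S.h.q.refl_of_orth (by simp [S.h.ce, ik, jk, bi, bj])]
  rcases S'.h.tri n2 b with c | c | c <;> rw [e4] at c
  · have := congrArg (φ.B (e k)) c
    rw [S.h.ce, if_pos rfl] at this
    exact mul_ne_zero h2 bk (by linear_combination -this)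
  · have := congrArg (φ.B (e l)) c
    rw [S.h.ce, if_neg kl.symm, map_neg] at this
    exact mul_ne_zero h2 hb (by linear_combination this)
  · have := S.h.Bf d (f b) ((φ.refl (e k)).1 (f b))
    simp only [c, S.h.ce, ik, jk, kl.symm, km.symm, kn.symm, if_true, if_false] at this
    exact mul_ne_zero h2 (pow_ne_zero 2 bk) (by linear_combination k2 - q - this)

end Gd
end H12.F6
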