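import Mathlib
import Cfsg.Agent.H12.F6B

/-! # Orthogonal frames in dimension six: the two-zero lemma `Gd.z2` -/

namespace H12.F6

open Module H10 H10.Form

variable {F V : Type*} [Field F] [AddCommGroup V] [Module F V] {φ : Form F V} {κ : Type*} [Fintype κ] [DecidableEq κ]

theorem algH {a b c d D : F} (h2 : (2 : F) ≠ 0) (D0 : D ≠ 0) (s : a + b + c + d = 0)
    (q : 2 * (a ^ 2 + b ^ 2 + c ^ 2 + d ^ 2) = D)
    (h1 : a = b ∧ b = c ∨ a * b + b * c + c * a + D = a ^ 2 + b ^ 2 + c ^ 2)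
    (h3 : a = b ∧ b = d ∨ a * b + b * d + d * a + D = a ^ 2 + b ^ 2 + d ^ 2)
    (h4 : a = c ∧ c = d ∨ a * c + c * d + d * a + D = a ^ 2 + c ^ 2 + d ^ 2)
    (h5 : b = c ∧ c = d ∨ b * c + c * d + d * b + D = b ^ 2 + c ^ 2 + d ^ 2) : False := by
  have A : ∀ {a b c d : F}, a + b + c + d = 0 → 2 * (a ^ 2 + b ^ 2 + c ^ 2 + d ^ 2) = D →
      a * b + b * c + c * a + D = a ^ 2 + b ^ 2 + c ^ 2 → 8 * d ^ 2 = -D := fun {a b c d} s q h => by
    linear_combination 4 * h + 3 * q - 2 * (a + b + c - d) * s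
  have h8 : (8 : F) ≠ 0 := by rw [show (8 : F) = 2 ^ 3 by norm_num]; exact pow_ne_zero 3 h2
  have B : ∀ {a d : F}, a + a + a + d = 0 → 2 * (a ^ 2 + a ^ 2 + a ^ 2 + d ^ 2) = D → a = d ∨ 8 * a ^ 2 = -D → False :=
    fun {a d} s q h => by
      obtain rfl : d = -3 * a := by linear_combination s
      rcases h with h | h
      · have : a = 0 := mul_left_cancel₀ (mul_ne_zero h2 h2) (by linear_combination h)
        exact D0 (by rw [← q, this]; ring)
      · exact mul_ne_zero (mul_ne_zero h2 h2) D0 (by linear_combination 3 * h - q)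
  rcases h1 with ⟨rfl, rfl⟩ | h1
  · exact B s q (h3.imp And.right fun h => A (by linear_combination s) (by linear_combination q) h)
  rcases h3 with ⟨rfl, rfl⟩ | h3
  · exact B (d := c) (by linear_combination s) (by linear_combination q) (.inr (A s q h1))
  rcases h4 with ⟨rfl, rfl⟩ | h4
  · exact B (d := b) (by linear_combination s) (by linear_combination q) (.inr (A s q h1))
  rcases h5 with ⟨rfl, rfl⟩ | h5
  · exact B (d := a) (by linear_combination s) (by linear_combination q) (.inr (A s q h1))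
  have a1 := A s q h1
  have a2 := A (a := a) (b := b) (c := d) (d := c) (by linear_combination s) (by linear_combination q) h3
  have a3 := A (a := a) (b := c) (c := d) (d := b) (by linear_combination s) (by linear_combination q) h4
  have a4 := A (a := b) (b := c) (c := d) (d := a) (by linear_combination s) (by linear_combination q) h5
  exact mul_ne_zero h8 D0 (by linear_combination a1 + a2 + a3 + a4 - 4 * q)

variable [φ.Nondeg] [FiniteDimensional F V] [Finite F]

namespace Gd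
variable {e f : κ → V} {N : F} {M : Subgroup φ.Isom} (S : Gd φ e N M) {x y : V} {i j k l m n a : κ} (S' : Gd φ f N M)
include S S'

theorem hs0 (d : Di i j k l m n) (hm : φ.B (e m) (f a) = 0) (hn : φ.B (e n) (f a) = 0) (hi : φ.B (e i) (f a) ≠ 0)
    (e1 : φ.B (e i) (f a) = φ.B (e j) (f a)) (e2 : φ.B (e j) (f a) = φ.B (e k) (f a))
    (e3 : φ.B (e k) (f a) = φ.B (e l) (f a)) : Same e f (F := F) := by
  obtain ⟨⟨ij, ik, il, im, in'⟩, ⟨jk, jl, jm, jn⟩, ⟨kl, km, kn⟩, ⟨lm, ln'⟩, mn⟩ := d.ne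
  obtain ⟨b, hb⟩ := S'.h.exnz (S.h.ne0 m)
  rw [S.h.q.B_comm] at hb
  have ab : a ≠ b := by rintro rfl; exact hb hm
  rcases S.h.T S'.h mn (S.tfx S' mn hm hn) b with t | t | t
  · exact (hb t.1).elim
  · exact S.z4 S' mn t
  have q := S.h.Qf d (S'.h.Qe b)
  have o := S.h.Bf d (f a) (f b)
  rw [S'.h.orth a b ab, hm, hn, ← e3, ← e2, ← e1] at o
  exact (algH S.h.h2 (pow_ne_zero 2 (mul_ne_zero S.h.h2 S.h.N0)) (mul_left_cancel₀ hi (by linear_combination -o))
    (by linear_combination 2 * q - t) (S.h.C3 S'.h ij ik jk (S.cfx S' ij jk e1 e2) b)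
    (S.h.C3 S'.h ij il jl (S.cfx S' ij jl e1 (e2.trans e3)) b) (S.h.C3 S'.h ik il kl (S.cfx S' ik kl (e1.trans e2) e3) b)
    (S.h.C3 S'.h jk jl kl (S.cfx S' jk kl e2 e3) b)).elim

theorem hs (mn : m ≠ n) (hm : φ.B (e m) (f a) = 0) (hn : φ.B (e n) (f a) = 0)
    (H : ∀ k, k ≠ m → k ≠ n → 4 * φ.B (e k) (f a) ^ 2 = (2 * N) ^ 2) : Same e f (F := F) := by
  obtain ⟨i, j, k, l, d⟩ := S.h.ex2 mn
  obtain ⟨⟨-, mi, mj, mk, ml⟩, ⟨ni, nj, nk, nl⟩, -⟩ := d.ne
  have N0 := S.h.N0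
  have h2 := S.h.h2
  have A : ∀ r, r ≠ m → r ≠ n → φ.B (e r) (f a) ^ 2 = N ^ 2 := fun r a b =>
    mul_left_cancel₀ (mul_ne_zero h2 h2) (by linear_combination H r a b)
  obtain ⟨L, S0⟩ := S.resign (s := fun r => if r = m ∨ r = n then 1 else φ.B (e r) (f a) / N) fun r => by
    split_ifs with c
    · simp
    · rw [div_pow, A r (not_or.1 c).1 (not_or.1 c).2, div_self (pow_ne_zero 2 N0)]
  have B : ∀ r, m ≠ r → n ≠ r → φ.B ((if r = m ∨ r = n then 1 else φ.B (e r) (f a) / N) • e r) (f a) = N := fun r a b => by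
    rw [if_neg (not_or.2 ⟨a.symm, b.symm⟩), S.h.q.B_smul_left, div_mul_eq_mul_div, ← sq, A r a.symm b.symm]; field_simp
  have := S0.hs0 S' (a := a) (Di.of (by have := d.ne; grind) : Di i j k l m n) (by simp [hm]) (by simp [hn])
    (by rw [B i mi ni]; exact N0) (by rw [B i mi ni, B j mj nj]) (by rw [B k mk nk, B j mj nj])
    (by rw [B k mk nk, B l ml nl])
  rwa [Same, L] at this

theorem z3 (d : Di i j k l m n) (hl : φ.B (e l) (f a) = 0) (hm : φ.B (e m) (f a) = 0)
    (hn : φ.B (e n) (f a) = 0) : Same e f (F := F) := by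
  by_contra nS
  have A : ∀ b ∈ φ.supp f (e l), 4 * φ.B (f b) (e l) ^ 2 = (2 * N) ^ 2 := fun b hb => by
    rw [mem_supp, S.h.q.B_comm] at hb
    rw [S.h.q.B_comm]; exact (S.z3c S' nS d hl hm hn hb).1
  have h2 := S.h.h2
  have D := pow_ne_zero 2 (mul_ne_zero h2 S.h.N0)
  have q := congrArg (4 * ·) (S'.h.Bs (e l) (e l))
  simp only [Finset.mul_sum, S.h.Bee] at q
  rw [← Finset.sum_subset (φ.supp f (e l)).subset_univ fun k _ a => by simp [not_not.1 (mt mem_supp.2 a)],
    Finset.sum_congr rfl (g := fun _ => (2 * N) ^ 2) fun k a => by rw [← A k a]; ring, Finset.sum_const,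
    nsmul_eq_mul] at q
  have q' : ((φ.supp f (e l)).card : F) = 4 := mul_right_cancel₀ D (by linear_combination -q)
  have c : (φ.supp f (e l)).card < 6 := S.h.n10 ▸ Finset.card_lt_card (Finset.ssubset_univ_iff.2 fun c => by
    have : a ∈ φ.supp f (e l) := c ▸ Finset.mem_univ a
    exact mem_supp.1 this (φ.B_symm_zero hl))
  have c1 : (φ.supp f (e l)).card ≠ 1 := fun c => by
    obtain ⟨b, hb⟩ := Finset.card_eq_one.1 c
    exact nS (S'.h.symm S.h ⟨b, l, S'.h.mem_ln.2 fun r hr => by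
      by_contra x; exact hr (by simpa [hb] using mem_supp.2 x)⟩)
  have c4 : (φ.supp f (e l)).card ≠ 4 := fun c => by
    obtain ⟨r, s, rs, h⟩ := Finset.card_eq_two.1 (show (φ.supp f (e l))ᶜ.card = 2 by rw [Finset.card_compl, S.h.n10, c])
    have z : ∀ t, t = r ∨ t = s ↔ φ.B (f t) (e l) = 0 := fun t => by
      have : t ∈ (φ.supp f (e l))ᶜ ↔ t ∈ ({r, s} : Finset κ) := by rw [h]
      simpa [mem_supp] using this.symm
    exact nS (S'.h.symm S.h (S'.hs S rs ((z r).1 (.inl rfl)) ((z s).1 (.inr rfl)) fun t t1 t2 =>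
      A t (mem_supp.2 fun x => ((z t).2 x).elim t1 t2)))
  generalize (φ.supp f (e l)).card = c' at *
  interval_cases c'
  · exact mul_ne_zero h2 h2 (by push_cast at q'; linear_combination -q')
  · exact c1 rfl
  · exact h2 (by push_cast at q'; linear_combination -q')
  · exact one_ne_zero (α := F) (by push_cast at q'; linear_combination -q')
  · exact c4 rfl
  · exact one_ne_zero (α := F) (by push_cast at q'; linear_combination q')

theorem z2 (mn : m ≠ n) (hm : φ.B (e m) (f a) = 0) (hn : φ.B (e n) (f a) = 0) : Same e f (F := F) := by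
  by_contra nS
  have h2 := S.h.h2
  have N0 := S.h.N0
  have hq := S.h.q
  have nz : ∀ r, r ≠ m → r ≠ n → φ.B (e r) (f a) ≠ 0 := fun r r1 r2 c => by
    obtain ⟨i, j, k, d⟩ := S.h.ex3 r1 r2 mn
    exact nS (S.z3 S' (Di.of (by have := d.ne; grind) : Di i j k r m n) c hm hn)
  have tf := S.tfx S' mn hm hn
  set t := φ.refl (e m) * φ.refl (e n) with ht
  have tc : ∀ r x, φ.B (e r) (t.1 x) = if r = m ∨ r = n then -φ.B (e r) x else φ.B (e r) x := fun r x => by
    rw [ht, Isom.mul_apply, S.h.ce, S.h.ce]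
    by_cases r1 : r = m
    · simp [r1, mn]
    by_cases r2 : r = n <;> simp [r1, r2, mn.symm]
  have t2 : ∀ x, t.1 (t.1 x) = x := fun x => sub_eq_zero.1 (S.h.tot _ fun r => by
    rw [map_sub, tc, tc]; split_ifs <;> simp)
  obtain ⟨a', aa, ha'⟩ := S'.h.fix tf t2 (ε := 1) (by simp) (p := e m) (q := e n) (fun x => S.h.mem_pair.2 fun r r1 r2 => by
    simp [tc, r1, r2]) a
  rw [one_smul] at ha'
  have hm' : φ.B (e m) (f a') = 0 := mul_left_cancel₀ h2 (by
    have := congrArg (φ.B (e m)) ha'; rw [tc, if_pos (.inl rfl)] at this; linear_combination -this)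
  have hn' : φ.B (e n) (f a') = 0 := mul_left_cancel₀ h2 (by
    have := congrArg (φ.B (e n)) ha'; rw [tc, if_pos (.inr rfl)] at this; linear_combination -this)
  have ta : t.1 (f a) = f a := by rw [ht, Isom.mul_apply, hq.refl_of_orth hn, hq.refl_of_orth hm]
  have sd := S'.tfx S aa.symm (φ.B_symm_zero hm) (φ.B_symm_zero hm')
  obtain ⟨b, hb⟩ := S'.h.exnz (S.h.ne0 m)
  rw [hq.B_comm] at hb
  have o : φ.B (f b) (t.1 (f b)) = 0 := by
    rcases S'.h.tri tf b with c | c | c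
    · have := congrArg (φ.B (e m)) c
      rw [tc, if_pos (.inl rfl)] at this
      exact (mul_ne_zero h2 hb (by linear_combination -this)).elim
    · refine (nS (S.z4 S' (a := b) mn fun r r1 r2 => mul_left_cancel₀ h2 ?_)).elim
      have := congrArg (φ.B (e r)) c
      rw [tc, if_neg (not_or.2 ⟨r1, r2⟩), map_neg] at this
      linear_combination this
    · exact c
  have w1 : φ.Q (f b + t.1 (f b)) = 2 * N := by rw [hq.Q_add, o, Isom.Q_map, S'.h.Qe]; ring
  obtain ⟨b', hb'⟩ := S'.h.mem_dstab.1 tf b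
  have w2 := S'.h.rt_diff (i := b) hb' (by rw [Isom.Q_map, S'.h.Qe]) fun c => mul_ne_zero h2 N0 (by rw [← w1, c, Q_zero])
  have w3 : φ.B (f b + t.1 (f b)) (e m) = 0 := φ.B_symm_zero (by simp [tc])
  have ba : a ≠ b := by rintro rfl; exact hb hm
  have ba' : a' ≠ b := by rintro rfl; exact hb hm'
  have w4 : φ.B (f b + t.1 (f b)) (f a) = 0 := by
    rw [map_add, LinearMap.add_apply, ← ta, Isom.B_map, ta, S'.h.orth b a ba.symm, add_zero]
  have w5 : φ.B (f b + t.1 (f b)) (f a') = 0 := by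
    rw [map_add, LinearMap.add_apply, ← ha', Isom.B_map, ha', S'.h.orth b a' ba'.symm, add_zero]
  generalize f b + t.1 (f b) = w at w1 w2 w3 w4 w5
  have o1 := S'.h.orth a a' aa.symm
  have o2 := S'.h.orth a' a aa
  refine nS (S.hs S' mn hm hn fun r r1 r2 => ?_)
  have r0 := nz r r1 r2
  rw [hq.B_comm] at r0 ⊢
  have A : ∀ ε : F, ε ^ 2 = 1 → φ.B (f a) (e r) ^ 2 = φ.B (f a') (e r) ^ 2 ∨
      φ.B w (e r) ^ 2 + (φ.B (f a) (e r) + ε * φ.B (f a') (e r)) ^ 2 = (2 * N) ^ 2 := fun ε hε => by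
    have u := S'.h.rts aa.symm hε
    have n1 := S.fx (a := m) (S'.rrM w2 u.2 (by rw [w1, u.1])) (by
      rw [Isom.mul_apply, hq.refl_of_orth (v := f a + ε • f a') (by simp [φ.B_symm_zero hm, φ.B_symm_zero hm']),
        hq.refl_of_orth w3])
    have c0 : ∀ y, φ.B y ((φ.refl w * φ.refl (f a + ε • f a')).1 (e r)) = φ.B y (e r) - (2 * N)⁻¹ * φ.B w (e r) * φ.B y w -
        (2 * N)⁻¹ * (φ.B (f a) (e r) + ε * φ.B (f a') (e r)) * (φ.B y (f a) + ε * φ.B y (f a')) := fun y => by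
      rw [Isom.mul_apply, hq.refl_apply, hq.refl_apply, w1, u.1]
      simp only [map_add, map_smul, LinearMap.add_apply, hq.B_smul_left, w4, w5, smul_eq_mul]
      ring
    have c1 : φ.B (f a) ((φ.refl w * φ.refl (f a + ε • f a')).1 (e r)) = -ε * φ.B (f a') (e r) := by
      rw [c0, φ.B_symm_zero w4, o1, S'.h.Bee]; field_simp; ring
    have c3 := c0 (e r)
    rw [S.h.Bee, hq.B_comm (e r) w, hq.B_comm (e r) (f a), hq.B_comm (e r) (f a')] at c3
    rcases S.h.tri n1 r with c | c | c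
    · rw [c] at c1
      exact .inl (by rw [c1]; linear_combination φ.B (f a') (e r) ^ 2 * hε)
    · rw [c, map_neg, neg_eq_iff_eq_neg] at c1
      exact .inl (by rw [c1]; linear_combination φ.B (f a') (e r) ^ 2 * hε)
    · rw [c] at c3
      field_simp at c3
      exact .inr (by linear_combination c3)
  have c0 : ∀ y, φ.B y ((φ.refl (f a) * φ.refl (f a')).1 (e r)) = φ.B y (e r) - N⁻¹ * φ.B (f a) (e r) * φ.B y (f a) -
      N⁻¹ * φ.B (f a') (e r) * φ.B y (f a') := fun y => by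
    rw [Isom.mul_apply, hq.refl_apply, hq.refl_apply, S'.h.Qe, S'.h.Qe]
    simp only [map_add, map_smul, o1, smul_eq_mul]
    ring
  have B : 2 * (φ.B (f a) (e r) ^ 2 + φ.B (f a') (e r) ^ 2) = (2 * N) ^ 2 :=
    ((S'.h.T S.h aa.symm sd r).resolve_left fun c => r0 c.1).resolve_left fun c =>
      nS (S'.h.symm S.h (S'.z4 S aa.symm c))
  by_contra H
  have A' : φ.B (f a) (e r) ^ 2 ≠ φ.B (f a') (e r) ^ 2 := fun c => H (by linear_combination B + 2 * c)
  have a1 := (A 1 (by simp)).resolve_left A'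
  have a2 := (A (-1) (by simp)).resolve_left A'
  have a3 : φ.B (f a') (e r) = 0 := mul_left_cancel₀ (mul_ne_zero (mul_ne_zero h2 h2) r0) (by linear_combination a1 - a2)
  obtain ⟨i, j, k, d⟩ := S.h.ex3 r1 r2 mn
  obtain ⟨⟨-, -, ri, rj, -⟩, ⟨-, mi, mj, -⟩, ⟨ni, nj, -⟩, ⟨ij, -⟩, -⟩ := d.ne
  obtain ⟨s, hs⟩ := S.h.mem_dstab.1 sd r
  have C : ∀ i, r ≠ i → m ≠ i → n ≠ i → i = s := fun i b1 b2 b3 => by_contra fun c => by
    have := S.h.mem_ln.1 hs i c
    rw [c0, a3, S.h.orth i r b1.symm] at this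
    simp [N0, r0, nz i b2.symm b3.symm] at this
  exact ij ((C i ri mi ni).trans (C j rj mj nj).symm)

theorem dz {z : φ.Isom} (hz : z ∈ φ.dstab (ln F f)) {ε : F} (hε : ε ^ 2 = 1) (ij : i ≠ j)
    (H : ∀ r x, ε * φ.B (e r) (z.1 x) = if r = i ∨ r = j then -φ.B (e r) x else φ.B (e r) x) : Same e f (F := F) := by
  have z2 : ∀ x, z.1 (z.1 x) = x := fun x => sub_eq_zero.1 (S.h.tot _ fun r => by
    have a := H r x
    have b := H r (z.1 x)
    rw [map_sub]
    split_ifs at a b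
    · linear_combination ε * b - a - φ.B (e r) (z.1 (z.1 x)) * hε
    · linear_combination ε * b + a - φ.B (e r) (z.1 (z.1 x)) * hε)
  obtain ⟨b, -, hb⟩ := S'.h.fix hz z2 hε (p := e i) (q := e j) (fun x => S.h.mem_pair.2 fun r r1 r2 => by
    have := H r x
    rw [if_neg (not_or.2 ⟨r1, r2⟩)] at this
    rw [map_add, map_smul, smul_eq_mul]; linear_combination -this) i
  have A : ∀ r, r = i ∨ r = j → φ.B (e r) (f b) = 0 := fun r a => mul_left_cancel₀ S.h.h2 (by
    have := congrArg (φ.B (e r)) hb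
    rw [map_smul, smul_eq_mul, H, if_pos a] at this
    linear_combination -this)
  exact S.z2 S' ij (A i (.inl rfl)) (A j (.inr rfl))

end Gd
end H12.F6
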