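import Mathlib
import Cfsg.Agent.H12.F6C

/-! # Orthogonal frames in dimension six: `Fr6.le_dstab`, `isMaximalIn_frame6` -/

namespace H12.F6

open Module H10 H10.Form

theorem dih {G : Type*} [Group G] [Finite G] {M : Subgroup G} {s t : G} (hs : s ∈ M) (ht : t ∈ M) (s2 : s * s = 1)
    (t2 : t * t = 1) : (∃ w ∈ M, w * w = 1 ∧ w * s * w⁻¹ = t) ∨ ∃ z ∈ M, z ≠ 1 ∧ z * s = s * z ∧ z * t = t * z ∧
      ∃ d ∈ M, s * z = d * s * d⁻¹ ∨ s * z = d * t * d⁻¹ := by
  have si := inv_eq_of_mul_eq_one_right s2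
  have ti := inv_eq_of_mul_eq_one_right t2
  have hr := mul_mem hs ht
  have e : t = s * (s * t) := by rw [← mul_assoc, s2, one_mul]
  have c1 : s * (s * t) * s⁻¹ = (s * t)⁻¹ := by rw [← e, mul_inv_rev, si, ti]
  generalize s * t = r at *
  have key : ∀ n : ℕ, s * r ^ n = (r ^ n)⁻¹ * s := fun n => by
    have := congrArg (· ^ n) c1
    simp only [conj_pow, inv_pow] at this
    rw [← this, inv_mul_cancel_right]
  have b := pow_orderOf_eq_one r
  obtain ⟨q, hq | hq⟩ := Nat.even_or_odd' (orderOf r)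
  · have y1 : r ^ q * r ^ q = 1 := by rw [← pow_add, ← two_mul, ← hq, b]
    have y2 : r ^ q * s = s * r ^ q := by rw [key, inv_eq_of_mul_eq_one_right y1]
    refine .inr ⟨r ^ q, pow_mem hr q, pow_ne_one_of_lt_orderOf (by have := orderOf_pos r; omega)
      (by have := orderOf_pos r; omega), y2, by rw [e, ← mul_assoc, y2, mul_assoc, mul_assoc, pow_mul_comm'], ?_⟩
    obtain ⟨m, hm | hm⟩ := Nat.even_or_odd' q
    · exact ⟨(r ^ m)⁻¹, inv_mem (pow_mem hr m), .inl (by rw [← key, inv_inv, mul_assoc, ← pow_add, hm, two_mul])⟩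
    · exact ⟨(r ^ m)⁻¹, inv_mem (pow_mem hr m), .inr (by
        rw [e, ← mul_assoc, ← key, inv_inv, mul_assoc, mul_assoc, ← pow_succ', ← pow_add, hm, two_mul, add_assoc])⟩
  · have w2 : s * r ^ (q + 1) * (s * r ^ (q + 1)) = 1 := by
      nth_rw 1 [key]
      rw [mul_assoc, ← mul_assoc s, s2, one_mul, inv_mul_cancel]
    refine .inl ⟨s * r ^ (q + 1), mul_mem hs (pow_mem hr _), w2, ?_⟩
    rw [inv_eq_of_mul_eq_one_right w2, mul_assoc, ← mul_assoc s s, s2, one_mul, mul_assoc, ← pow_add, e,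
      show q + 1 + (q + 1) = orderOf r + 1 by omega, pow_succ, b, one_mul]

theorem lemU {κ α : Type*} {u v : κ → α} {a b c d : κ} (ab : a ≠ b) (ac : a ≠ c) (ad : a ≠ d) (bc : b ≠ c) (bd : b ≠ d)
    (cd : c ≠ d) (H : ∀ k l, k ≠ l → u l = v k ∨ u k = v l) :
    ∃ x i j, i ≠ j ∧ (∀ k, k ≠ i → u k = x) ∧ ∀ k, k ≠ j → v k = x := by
  classical
  obtain ⟨k, hk⟩ : ∃ k, u k = v k := by
    have h1 := H a b ab; have h2 := H a c ac; have h3 := H a d ad; have h4 := H b c bc; have h5 := H b d bd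
    have h6 := H c d cd
    by_contra! n
    have := n a; have := n b; have := n c; have := n d
    grind
  have A : ∀ l, u l ≠ u k → v l = u k := fun l h => by
    have := H l k (by rintro rfl; exact h rfl); grind
  by_cases h1 : ∃ i, u i ≠ u k
  · obtain ⟨i, hi⟩ := h1
    have B : ∀ l, l ≠ i → u l = u k := fun l h => by_contra fun c => by
      have := H l i h; have := A l c; have := A i hi; grind
    by_cases h2 : ∃ j, v j ≠ u k
    · obtain ⟨j, hj⟩ := h2
      have ij : i ≠ j := by rintro rfl; exact hj (A i hi)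
      exact ⟨u k, i, j, ij, B, fun l h => by_contra fun c => by
        have := H l j h; have := A l; have := A j; grind⟩
    · push Not at h2
      exact ⟨u k, i, if i = a then b else a, by grind, B, fun l _ => h2 l⟩
  · push Not at h1
    by_cases h2 : ∃ j, v j ≠ u k
    · obtain ⟨j, hj⟩ := h2
      exact ⟨u k, if j = a then b else a, j, by grind, fun l _ => h1 l, fun l h => by_contra fun c => by
        have := H l j h; have := h1 l; have := h1 j; grind⟩
    · push Not at h2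
      exact ⟨u k, a, b, ab, fun l _ => h1 l, fun l _ => h2 l⟩

variable {F V : Type*} [Field F] [AddCommGroup V] [Module F V] {φ : Form F V} {κ : Type*} [Fintype κ] [DecidableEq κ]
  [φ.Nondeg] [FiniteDimensional F V] [Finite F]

theorem Fr6.cc {e : κ → V} {N : F} (h : Fr6 φ e N) {i j : κ} (ij : i ≠ j) (r : κ) (x : V) :
    φ.B (e r) ((φ.refl (e i) * φ.refl (e j)).1 x) = if r = i ∨ r = j then -φ.B (e r) x else φ.B (e r) x := by
  rw [Isom.mul_apply, h.ce, h.ce]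
  by_cases r1 : r = i
  · simp [r1, ij]
  by_cases r2 : r = j <;> simp [r1, r2, ij.symm]

theorem Fr6.t2 {e : κ → V} {N : F} (h : Fr6 φ e N) {i j : κ} (ij : i ≠ j) :
    φ.refl (e i) * φ.refl (e j) * (φ.refl (e i) * φ.refl (e j)) = 1 :=
  Isom.ext fun x => sub_eq_zero.1 (h.tot _ fun r => by
    rw [map_sub, Isom.mul_apply, h.cc ij, h.cc ij]; split_ifs <;> simp)

theorem Fr6.sgn {e : κ → V} {N : F} (h : Fr6 φ e N) {x : V} {i : κ} (hx : x ∈ ln F e i) (q : φ.Q x = N) :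
    ∃ c : F, c ^ 2 = 1 ∧ c ≠ 0 ∧ x = c • e i := by
  obtain ⟨c, rfl⟩ := Submodule.mem_span_singleton.1 hx
  rw [h.q.Q_smul, h.Qe] at q
  have : c ^ 2 = 1 := mul_right_cancel₀ h.N0 (by linear_combination q)
  exact ⟨c, this, by rintro rfl; simp at this, rfl⟩

namespace Gd
variable {e : κ → V} {N : F} {M : Subgroup φ.Isom} (S : Gd φ e N M) {i j k l : κ} {g : φ.Isom}
include S

theorem all (hg : g ∈ M) (s : Same e (fun i => g.1 (e i)) (F := F)) : g ∈ φ.dstab (ln F e) :=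
  s.elim fun a s => s.elim fun b s => S.st g hg b a s

theorem tM : φ.refl (e i) * φ.refl (e j) ∈ M := S.rrM (S.h.rt_e i) (S.h.rt_e j) (by rw [S.h.Qe, S.h.Qe])

theorem tD : φ.refl (e i) * φ.refl (e j) ∈ φ.dstab (ln F e) := mul_mem (S.h.rt_e i).2 (S.h.rt_e j).2

theorem cz (hg : g ∈ M) (ij : i ≠ j) (c : g * (φ.refl (e i) * φ.refl (e j)) = φ.refl (e i) * φ.refl (e j) * g) :
    g ∈ φ.dstab (ln F e) := by
  obtain ⟨m, _, _, _, d⟩ := S.h.ex2 ij
  have A : ∀ r, r = i ∨ r = j → φ.B (e r) (g.1 (e m)) = 0 := fun r a => mul_left_cancel₀ S.h.h2 (by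
    have := congrArg (fun u : φ.Isom => φ.B (e r) (u.1 (e m))) c
    simp only [Isom.mul_apply g, Isom.mul_apply _ g, S.h.cc ij, if_pos a] at this
    rw [Isom.mul_apply, S.h.q.refl_of_orth (S.h.orth j m d.ne.2.1.1), S.h.q.refl_of_orth (S.h.orth i m d.ne.1.2.1)] at this
    linear_combination this)
  exact S.all hg (S.z2 (S.conj hg) (a := m) ij (A i (.inl rfl)) (A j (.inr rfl)))

theorem two (hg : g ∈ M) (h0 : g ∉ φ.dstab (ln F e)) (ij : i ≠ j) (kl : k ≠ l) :
    φ.B (e j) (g.1 (e k)) ^ 2 = φ.B (e i) (g.1 (e l)) ^ 2 ∨ φ.B (e i) (g.1 (e k)) ^ 2 = φ.B (e j) (g.1 (e l)) ^ 2 := by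
  have : Finite V := Module.finite_of_finite F
  have S' := S.conj hg
  have hq := S.h.q
  rcases dih (S.tM (i := i) (j := j)) (S'.tM (i := k) (j := l)) (S.h.t2 ij) (S'.h.t2 kl) with
    ⟨w, wM, w2, hw⟩ | ⟨z, zM, z1, z2, z3, d, dM, hd⟩
  · have S1 := S.conj wM
    rw [← conj_mul, hq.refl_conj, hq.refl_conj] at hw
    obtain ⟨a, b, s⟩ := S1.h.symm S'.h (S1.dz S' (S'.tD (i := k) (j := l)) (ε := 1) (by simp) ij fun r x => by
      rw [one_mul, ← hw]; exact S1.h.cc ij r x)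
    have u := S'.h.mem_dstab.1 (S'.st _ (mul_mem wM (inv_mem hg)) b a (by simpa [Isom.mul_apply] using s))
    simp only [Isom.mul_apply, Isom.inv_apply_apply] at u
    have A : ∀ r, r = i ∨ r = j → ∃ y, (y = k ∨ y = l) ∧ ∃ c : F, c ^ 2 = 1 ∧ c ≠ 0 ∧ w.1 (e r) = c • g.1 (e y) :=
      fun r hr => by
        obtain ⟨y, hy⟩ := u r
        obtain ⟨c, c1, c2, c3⟩ := S'.h.sgn hy (by rw [Isom.Q_map, S.h.Qe])
        refine ⟨y, by_contra fun n => ?_, c, c1, c2, c3⟩
        have a1 := S1.h.cc ij r (w.1 (e r))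
        have a2 := S'.h.cc kl y (w.1 (e r))
        rw [if_pos hr, hw, S1.h.Bee, c3, hq.B_smul_left, ← c3] at a1
        rw [if_neg n] at a2
        rw [a2, c3, map_smul, S'.h.Bee, smul_eq_mul] at a1
        exact mul_ne_zero (mul_ne_zero S.h.h2 S.h.h2) S.h.N0 (by linear_combination a1 - 2 * N * c1)
    obtain ⟨y, y1, c, c1, c2, c3⟩ := A i (.inl rfl)
    obtain ⟨y', y2, c', c4, c5, c6⟩ := A j (.inr rfl)
    have yy : y ≠ y' := by
      rintro rfl
      have := S1.h.orth i j ij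
      simp only [c3, c6, map_smul, hq.B_smul_left, S'.h.Bee, smul_eq_mul] at this
      simp [c2, c5, S.h.h2, S.h.N0] at this
    have sy : φ.B (e j) (g.1 (e y)) ^ 2 = φ.B (e i) (g.1 (e y')) ^ 2 := by
      have := Isom.B_map w (e i) (w.1 (e j))
      rw [← Isom.mul_apply, w2, Isom.one_apply, c3, c6, hq.B_smul_left, map_smul, smul_eq_mul, hq.B_comm] at this
      linear_combination (c * φ.B (e j) (g.1 (e y)) + c' * φ.B (e i) (g.1 (e y'))) * this - φ.B (e j) (g.1 (e y)) ^ 2 * c1 +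
        φ.B (e i) (g.1 (e y')) ^ 2 * c4
    rcases y1 with rfl | rfl <;> rcases y2 with rfl | rfl
    exacts [(yy rfl).elim, .inl sy, .inr sy.symm, (yy rfl).elim]
  exfalso
  have ze := S.cz zM ij z2
  have zf := S'.cz zM kl z3
  obtain ⟨u, uM, a, b, ab, hu⟩ : ∃ u ∈ M, ∃ a b, a ≠ b ∧
      φ.refl (e i) * φ.refl (e j) * z = φ.refl (u.1 (e a)) * φ.refl (u.1 (e b)) := by
    rw [← conj_mul, ← conj_mul, hq.refl_conj, hq.refl_conj, hq.refl_conj, hq.refl_conj] at hd
    exact hd.elim (fun h => ⟨d, dM, i, j, ij, h⟩) fun h => ⟨d * g, mul_mem dM hg, k, l, kl, h⟩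
  have S1 := S.conj uM
  have u1 := S.h.mem_dstab.1 (S.all uM (S1.h.symm S.h (S1.dz S (mul_mem (S.tD (i := i) (j := j)) ze) (ε := 1) (by simp) ab
    fun r x => by rw [one_mul, hu]; exact S1.h.cc ab r x)))
  obtain ⟨a', ha⟩ := u1 a
  obtain ⟨b', hb⟩ := u1 b
  obtain ⟨c, c1, c2, c3⟩ := S.h.sgn ha (by rw [Isom.Q_map, S.h.Qe])
  obtain ⟨c', c4, c5, c6⟩ := S.h.sgn hb (by rw [Isom.Q_map, S.h.Qe])
  have ab' : a' ≠ b' := by
    rintro rfl
    have := S1.h.orth a b ab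
    simp only [c3, c6, map_smul, hq.B_smul_left, S.h.Bee, smul_eq_mul] at this
    simp [c2, c5, S.h.h2, S.h.N0] at this
  rw [c3, c6, hq.refl_smul c2, hq.refl_smul c5] at hu
  have H : ∀ r x, φ.B (e r) (z.1 x) = if (r = i ∨ r = j ↔ r = a' ∨ r = b') then φ.B (e r) x else -φ.B (e r) x :=
    fun r x => by
      have := congrArg (fun u : φ.Isom => φ.B (e r) (u.1 x)) hu
      simp only [Isom.mul_apply _ z, S.h.cc ij, S.h.cc ab'] at this
      by_cases a : r = i ∨ r = j <;> by_cases b : r = a' ∨ r = b' <;> simp only [a, b, if_true, if_false] at this <;>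
        simp [a, b, ← this]
      simpa using this
  have K : ∀ p q, p ≠ q → (∀ r, (r = i ∨ r = j ↔ r = a' ∨ r = b') ↔ ¬ (r = p ∨ r = q)) → False := fun p q pq h =>
    h0 (S.all hg (S.dz S' zf (ε := 1) (by simp) pq fun r x => by
      rw [H, one_mul]
      by_cases a : r = p ∨ r = q
      · rw [if_pos a, if_neg fun b => (h r).1 b a]
      · rw [if_neg a, if_pos ((h r).2 a)]))
  by_cases d1 : a' = i ∨ a' = j <;> by_cases d2 : b' = i ∨ b' = j
  · exact z1 (Isom.ext fun x => sub_eq_zero.1 (S.h.tot _ fun r => by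
      rw [map_sub, H, if_pos (by grind), Isom.one_apply, sub_self]))
  · exact K (if a' = i then j else i) b' (by grind) (by grind)
  · exact K (if b' = i then j else i) a' (by grind) (by grind)
  obtain ⟨p, hp⟩ := S.h.ex [i, j, a', b'] (by simp)
  obtain ⟨q, hq'⟩ := S.h.ex [i, j, a', b', p] (by simp)
  simp only [List.mem_cons, List.not_mem_nil, or_false, not_or] at hp hq'
  have d : Di i j a' b' p q := Di.of (by grind)
  exact h0 (S.all hg (S.dz S' zf (ε := -1) (by simp) (Ne.symm hq'.2.2.2.2) fun r x => by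
    have := S.h.cases6 d r
    rw [H]
    by_cases h : r = p ∨ r = q
    · rw [if_pos h, if_pos (by grind)]; ring
    · rw [if_neg h, if_neg (by grind)]; ring))

theorem shape (hg : g ∈ M) (h0 : g ∉ φ.dstab (ln F e)) (kl : k ≠ l) : ∃ c i j, c ≠ 0 ∧ i ≠ j ∧
    (∀ r, r ≠ i → φ.B (e r) (g.1 (e k)) ^ 2 = c) ∧ ∀ r, r ≠ j → φ.B (e r) (g.1 (e l)) ^ 2 = c := by
  obtain ⟨a, b, _, _, d⟩ := S.h.ex2 kl
  obtain ⟨⟨-, d1, d2, -⟩, ⟨d3, d4, -⟩, ⟨d5, -⟩, -⟩ := d.ne
  obtain ⟨c, i, j, ij, h1, h2⟩ := lemU (u := fun r => φ.B (e r) (g.1 (e k)) ^ 2) (v := fun r => φ.B (e r) (g.1 (e l)) ^ 2)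
    kl d1 d2 d3 d4 d5 fun r s rs => S.two hg h0 rs kl
  refine ⟨c, i, j, fun c0 => ?_, ij, h1, h2⟩
  obtain ⟨p, q, _, _, d⟩ := S.h.ex2 ij
  exact h0 (S.all hg (S.z2 (S.conj hg) (a := k) d.ne.2.2.1.1 (by simpa [c0] using h1 p d.ne.1.2.1.symm)
    (by simpa [c0] using h1 q d.ne.1.2.2.1.symm)))

theorem main (hg : g ∈ M) : g ∈ φ.dstab (ln F e) := by
  by_contra h0
  have S' := S.conj hg
  have hq := S.h.q
  have h2 := S.h.h2
  have N0 := S.h.N0
  obtain ⟨k, -⟩ := S.h.ex [] (by simp)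
  obtain ⟨l, kl⟩ := S.h.ex [k] (by simp)
  replace kl : k ≠ l := by simpa [eq_comm] using kl
  obtain ⟨c, i, j, c0, ij, h1, h3⟩ := S.shape hg h0 kl
  have t0 : φ.refl (g.1 (e k)) * φ.refl (g.1 (e l)) ∉ φ.dstab (ln F e) := fun t =>
    h0 (S.all hg (S'.h.symm S.h (S'.dz S t (ε := 1) (by simp) kl fun r x => by rw [one_mul]; exact S'.h.cc kl r x)))
  have tM := S'.tM (i := k) (j := l)
  set t := φ.refl (g.1 (e k)) * φ.refl (g.1 (e l)) with ht
  set α := fun r => φ.B (e r) (g.1 (e k)) with hα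
  set β := fun r => φ.B (e r) (g.1 (e l)) with hβ
  have X : ∀ r s, N * φ.B (e r) (t.1 (e s)) = N * φ.B (e r) (e s) - (α s * α r + β s * β r) := fun r s => by
    rw [ht, Isom.mul_apply, hq.refl_apply, hq.refl_apply, S'.h.Qe, S'.h.Qe]
    simp only [map_add, map_smul, S'.h.orth k l kl, smul_eq_mul, hα, hβ, hq.B_comm _ (e s)]
    field_simp; ring
  have Z : ∀ s r r', r ≠ r' → φ.B (e r) (t.1 (e s)) = 0 → φ.B (e r') (t.1 (e s)) = 0 → False := fun s r r' a b c =>
    t0 (S.all tM (S.z2 (S.conj tM) (a := s) a b c))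
  have P : ∀ r s, r ≠ i → r ≠ j → s ≠ i → s ≠ j → α r * β r = α s * β s ∨ φ.B (e r) (t.1 (e s)) = 0 := fun r s a b a' b' => by
    by_cases rs : r = s
    · exact .inl (by rw [rs])
    have e1 : α r ^ 2 = c := h1 r a
    have e2 : α s ^ 2 = c := h1 s a'
    have e3 : β r ^ 2 = c := h3 r b
    have e4 : β s ^ 2 = c := h3 s b'
    refine (sq_eq_sq_iff_eq_or_eq_neg.1 (by rw [mul_pow, mul_pow, e1, e2, e3, e4])).imp_right fun h => ?_
    have := X r s
    rw [S.h.orth r s rs] at this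
    refine mul_left_cancel₀ N0 (this.trans (pow_eq_zero_iff two_ne_zero |>.1 ?_ |>.trans (mul_zero N).symm))
    linear_combination α s ^ 2 * e1 + β s ^ 2 * e3 + c * e2 + c * e4 + 2 * α s * β s * h - 2 * β s ^ 2 * e2 - 2 * c * e4
  obtain ⟨p, q, r, s, d⟩ := S.h.ex2 ij
  obtain ⟨⟨-, ip, iq, ir, is⟩, ⟨jp, jq, jr, js⟩, ⟨pq, pr, ps⟩, ⟨qr, qs⟩, rs⟩ := d.ne
  have E : α q * β q = α p * β p ∧ α r * β r = α p * β p ∧ α s * β s = α p * β p := by
    have a1 := P q p iq.symm jq.symm ip.symm jp.symm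
    have a2 := P r p ir.symm jr.symm ip.symm jp.symm
    have a3 := P s p is.symm js.symm ip.symm jp.symm
    have b1 := P p q ip.symm jp.symm iq.symm jq.symm
    have b2 := P r q ir.symm jr.symm iq.symm jq.symm
    have b3 := P s q is.symm js.symm iq.symm jq.symm
    have c1 := P p r ip.symm jp.symm ir.symm jr.symm
    have c2 := P q r iq.symm jq.symm ir.symm jr.symm
    have d1 := P p s ip.symm jp.symm is.symm js.symm
    have d2 := P q s iq.symm jq.symm is.symm js.symm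
    have := Z p q r qr; have := Z p q s qs; have := Z p r s rs; have := Z q p r pr; have := Z q p s ps
    have := Z r p q pq; have := Z s p q pq
    generalize α q * β q = x1 at *
    generalize α r * β r = x2 at *
    generalize α s * β s = x3 at *
    generalize α p * β p = x0 at *
    grind
  obtain ⟨E1, E2, E3⟩ := E
  have o := S.h.Bf d (g.1 (e k)) (g.1 (e l))
  rw [S'.h.orth k l kl] at o
  change _ = α i * β i + α j * β j + α p * β p + α q * β q + α r * β r + α s * β s at o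
  have q1 := S.h.Qf d (S'.h.Qe k)
  have q2 := S.h.Qf d (S'.h.Qe l)
  rw [h1 j ij.symm, h1 p ip.symm, h1 q iq.symm, h1 r ir.symm, h1 s is.symm] at q1
  rw [h3 i ij, h3 p jp.symm, h3 q jq.symm, h3 r jr.symm, h3 s js.symm] at q2
  change α i ^ 2 + _ + _ + _ + _ + _ = _ at q1
  change _ + β j ^ 2 + _ + _ + _ + _ = _ at q2
  have aj : α j ^ 2 = c := h1 j ij.symm
  have bi : β i ^ 2 = c := h3 i ij
  have ap : α p ^ 2 = c := h1 p ip.symm
  have bp : β p ^ 2 = c := h3 p jp.symm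
  have π0 : α p * β p ≠ 0 := fun h => pow_ne_zero 2 c0 (by rw [← show (α p * β p) ^ 2 = c ^ 2 by rw [mul_pow, ap, bp, sq], h]; ring)
  have A : α i * β i = -2 * (α p * β p) ∧ α j * β j = -2 * (α p * β p) := by
    rcases sq_eq_sq_iff_eq_or_eq_neg.1 (show (α i * β i) ^ 2 = (α j * β j) ^ 2 by
      rw [mul_pow, mul_pow, aj, bi]; linear_combination c * q1 - c * q2) with h | h
    · exact ⟨mul_left_cancel₀ h2 (by linear_combination h - o - E1 - E2 - E3),
        mul_left_cancel₀ h2 (by linear_combination -h - o - E1 - E2 - E3)⟩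
    · exact (mul_ne_zero (mul_ne_zero h2 h2) π0 (by linear_combination -h - o - E1 - E2 - E3)).elim
  have ai : α i ^ 2 = 4 * c := mul_left_cancel₀ c0 (by
    linear_combination (α i * β i - 2 * (α p * β p)) * A.1 - α i ^ 2 * bi + 4 * β p ^ 2 * ap + 4 * c * bp)
  have bj : β j ^ 2 = 4 * c := by linear_combination ai + q2 - q1
  have Y1 : ∀ r, r ≠ i → r ≠ j → r ≠ p → α r * β r = α p * β p → (N * φ.B (e r) (t.1 (e p))) ^ 2 = 4 * c ^ 2 :=
    fun r a b a' h => by
      have e1 : α r ^ 2 = c := h1 r a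
      have e3 : β r ^ 2 = c := h3 r b
      rw [X, S.h.orth r p a']
      linear_combination α p ^ 2 * e1 + β p ^ 2 * e3 + c * ap + c * bp + 2 * α p * β p * h + 2 * β p ^ 2 * ap + 2 * c * bp
  have Y2 : (N * φ.B (e i) (t.1 (e p))) ^ 2 = c ^ 2 := by
    rw [X, S.h.orth i p ip]
    linear_combination α p ^ 2 * ai + β p ^ 2 * bi + 4 * c * ap + c * bp + 2 * α p * β p * A.1 - 4 * β p ^ 2 * ap - 4 * c * bp
  have Y3 : (N * φ.B (e j) (t.1 (e p))) ^ 2 = c ^ 2 := by
    rw [X, S.h.orth j p jp]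
    linear_combination α p ^ 2 * aj + β p ^ 2 * bj + c * ap + 4 * c * bp + 2 * α p * β p * A.2 - 4 * β p ^ 2 * ap - 4 * c * bp
  obtain ⟨c', i', -, -, -, h4, -⟩ := S.shape tM t0 pq
  have y1 := Y1 q iq.symm jq.symm pq.symm E1
  have y2 := Y1 r ir.symm jr.symm pr.symm E2
  have y3 : N ^ 2 * c' = 4 * c ^ 2 := by
    by_cases a : q = i'
    · rw [← h4 r (a ▸ qr.symm), ← mul_pow, y2]
    · rw [← h4 q a, ← mul_pow, y1]
  have y4 : N ^ 2 * c' = c ^ 2 := by
    by_cases a : i = i'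
    · rw [← h4 j (a ▸ ij.symm), ← mul_pow, Y3]
    · rw [← h4 i a, ← mul_pow, Y2]
  have h3' : (3 : F) = 0 := mul_right_cancel₀ (pow_ne_zero 2 c0) (by linear_combination y4 - y3)
  exact pow_ne_zero 2 (mul_ne_zero h2 N0) (by linear_combination -q1 + ai + 3 * c * h3')

end Gd

theorem Fr6.le_dstab {e : κ → V} {N : F} (h : Fr6 φ e N) (hF : ∀ c : F, ∃ n : ℕ, c = n) {M : Subgroup φ.Isom}
    (hM : φ.E ⊓ φ.dstab (ln F e) ≤ M) (hM' : M ≤ φ.E) (hE : ¬ φ.E ≤ M) {g : φ.Isom} (hg : g ∈ M) :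
    g ∈ φ.dstab (ln F e) :=
  Gd.main ⟨h, hM, fun _ hu _ _ => h.star hF hM hM' hE hu⟩ hg

section gl
open Matrix Cfsg Cfsg.Geo

/-- stabilisers of orthogonal frames over prime fields of odd order, dimension six -/
theorem isMaximalIn_frame6 {ι : Type} [Fintype ι] [DecidableEq ι] {F : Type*} [Field F] [Fintype F]
    {Q : (ι → F) → F} (hQ : IsNondegenerateQuadraticForm Q) (hn : Fintype.card ι = 6)
    (hp : (Fintype.card F).Prime) {t : ℕ} {D : Fin t → Submodule F (ι → F)} (hD : IsOrthogonalMDecomposition Q 1 D) :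
    IsMaximalIn (omegaGL Q) (decompositionStabilizer D ⊓ omegaGL Q) := by
  obtain ⟨Q, rfl, _⟩ := exists_ofQuad hQ
  have h := blk_of (by omega) hD
  have hc := card_eq_of_dec hD.decomp.decomp
  have hF : ∀ c : F, ∃ n : ℕ, c = n := fun c => by
    have := Fact.mk hp
    obtain ⟨x, rfl⟩ := (ZMod.ringEquivOfPrime F hp rfl).surjective c
    exact ⟨x.val, by rw [← map_natCast (ZMod.ringEquivOfPrime F hp rfl), ZMod.natCast_zmod_val]⟩
  obtain ⟨i⟩ : Nonempty (Fin t) := ⟨⟨0, by omega⟩⟩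
  have := (h.od.nondeg i).nondeg
  have h2 := (h.q.restrict (D i)).two_ne_zero_of_odd (by rw [h.rk]; exact odd_one)
  obtain ⟨a, ha, a0⟩ := h.q.exists_Q_ne (h.od.nondeg i) fun e => by have := h.rk i; rw [e, finrank_bot] at this; omega
  choose e e1 e2 e3 using h.exists_eq ha (by rintro rfl; simp at a0)
  obtain rfl : D = Form.ln F e := funext fun j => (Submodule.eq_of_le_of_finrank_le
    ((Submodule.span_singleton_le_iff_mem _ _).2 (e1 j)) (by rw [h.rk, finrank_span_singleton (e2 j)])).symm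
  have f : Fr6 (Form.ofQuad Q) e _ := ⟨h.q, h2, a0, e3, fun i j a => h.od.orth i j a (e1 j) _ (e1 i),
    fun x a => h.od.eq_zero fun i => (Form.ofQuad Q).mem_perp_singleton.2 (a i), by simp; omega⟩
  rw [omegaGL_eq_E _ (by omega)]
  refine isMaximalIn_map _ (by rw [comap_decompositionStabilizer]; exact f.not_E_le) fun M hM g hg hg1 hg2 => ?_
  rw [comap_decompositionStabilizer] at hM
  by_contra hE
  exact hg2 ((comap_decompositionStabilizer _).ge (f.le_dstab hF (M := M ⊓ (Form.ofQuad Q).E)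
    (le_inf hM inf_le_left) inf_le_right (fun e => hE (e.trans inf_le_left)) ⟨hg, hg1⟩))

end gl
end H12.F6
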