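import Mathlib
import Cfsg.Agent.H12.XfB

/-!
# Groups generated by unitary reflections, I : planes
* `QF K u` : `K` contains all quasi-reflections with centre `u`
* `plane` : two reflection groups in a non-degenerate plane; `degen` : in a degenerate plane
-/

namespace H12.Fr

open Module H10 H10.Form H12.Xf

variable {F V : Type*} [Field F] [AddCommGroup V] [Module F V] {φ : Form F V} {q : ℕ}

section fld
variable (hq : φ.IsUnitary q)
include hq

theorem ns (S : AddSubgroup F) (h : ∀ d, φ.σ d * d = 1 → ∀ s ∈ S, d * s ∈ S) {s : F} (hs : s ∈ S) (s0 : s ≠ 0) (a : F) :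
    a ∈ S := by
  have := hq.finite
  have q2 := hq.two_le
  let R : Subfield F :=
    { carrier := {r | ∀ s ∈ S, r * s ∈ S}
      mul_mem' := fun ha hb s hs => by rw [mul_assoc]; exact ha _ (hb s hs)
      one_mem' := fun s hs => by rwa [one_mul]
      add_mem' := fun ha hb s hs => by rw [add_mul]; exact S.add_mem (ha s hs) (hb s hs)
      zero_mem' := fun s _ => by simp
      neg_mem' := fun ha s hs => by rw [neg_mul]; exact S.neg_mem (ha s hs)
      inv_mem' := fun x hx s hs => by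
        by_cases x0 : x = 0
        · simp [x0]
        obtain ⟨t, e⟩ := (Finite.injective_iff_surjective (f := fun t : S => (⟨x * t, hx t t.2⟩ : S))).1
          (fun a b e => Subtype.ext (mul_left_cancel₀ x0 (congrArg Subtype.val e))) ⟨s, hs⟩
        simpa [← show x * t = s from congrArg Subtype.val e, x0] using t.2 }
  have h1 : q + 1 ≤ Nat.card R := hq.card_norm one_ne_zero (map_one _) ▸ Nat.card_le_card_of_injective
    (fun d => (⟨d.1, h d.1 d.2⟩ : R)) fun a b e => Subtype.ext (congrArg (fun x : R => x.1) e)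
  have h2 := natCard_eq_pow_finrank (K := R) (V := F)
  have h3 : finrank R F = 1 := by
    by_contra h3
    have := finrank_pos (R := R) (M := F)
    have := Nat.pow_le_pow_right (n := Nat.card R) (by omega) (show 2 ≤ finrank R F by omega)
    have := Nat.pow_le_pow_left h1 2
    rw [hq.card] at h2; nlinarith
  obtain ⟨r, e⟩ := (finrank_eq_one_iff_of_nonzero' (1 : F) one_ne_zero).1 h3 (a / s)
  simpa [show (r : F) = a / s by simpa [Subfield.smul_def] using e, s0] using r.2 s hs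

theorem exists_c : ∃ c, φ.σ c * c = 1 ∧ φ.σ c ≠ c := by
  by_contra! H
  have := hq.finite
  obtain ⟨a, ha⟩ := hq.exists_σ_ne
  exact ha (ns hq (φ.σ.eqLocus (RingHom.id F)).toAddSubgroup (fun d e s hs =>
    (φ.σ.eqLocus (RingHom.id F)).mul_mem (H d e) hs) (φ.σ.eqLocus (RingHom.id F)).one_mem one_ne_zero a)

theorem ph {α l ρ : F} (a0 : α ≠ 0) (l0 : l ≠ 0) (h : φ.σ α * α ≠ φ.σ l * l) (r0 : ρ ≠ 0) (hr : φ.σ ρ = ρ) :
    ∃ d d', φ.σ d * d = 1 ∧ φ.σ d' * d' = 1 ∧ φ.σ (α - d * l) * (α - d * l) = ρ * (φ.σ (α - d' * l) * (α - d' * l)) := by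
  classical
  have := hq.finite
  have := Fintype.ofFinite F
  have q2 := hq.two_le
  by_contra! H
  set f : F → F := fun d => φ.σ (α - d * l) * (α - d * l)
  set C := Finset.univ.filter fun d => φ.σ d * d = 1
  have h1 : C.card = q + 1 := by rw [← hq.card_norm one_ne_zero (map_one _), Nat.card_eq_fintype_card, Fintype.card_subtype]
  have h2 := Finset.card_le_mul_card_image (f := f) C 2 fun a ha => by
    obtain ⟨d, hd, rfl⟩ := Finset.mem_image.1 ha
    refine (Finset.card_le_card (t := {d, α * φ.σ (d * l) / (φ.σ α * l)}) fun d' hd' => ?_).trans Finset.card_le_two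
    simp only [Finset.mem_filter, C, f, Finset.mem_univ, true_and, map_sub, map_mul, Finset.mem_insert,
      Finset.mem_singleton] at hd hd' ⊢
    refine or_iff_not_imp_left.2 fun e => ?_
    have : φ.σ α ≠ 0 := by simpa
    have d0 : d' ≠ 0 := by rintro rfl; simp at hd'
    rw [eq_div_iff (by simp [a0, l0])]
    refine mul_left_cancel₀ (sub_ne_zero.2 e) ?_
    linear_combination (-d') * hd'.2 + (d' * l * φ.σ l - α * φ.σ l) * hd'.1 + (α * φ.σ l - d' * l * φ.σ l) * hd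
  have h3 : ∀ d ∈ C, f d ≠ 0 ∧ f d ^ q = f d := fun d hd => ⟨fun e => h (by
    have : α = d * l := sub_eq_zero.1 (by simpa only [f, mul_eq_zero, σ_eq_zero, or_self] using e)
    rw [this, map_mul]; linear_combination (φ.σ l * l) * (Finset.mem_filter.1 hd).2), by simp [← hq.σ_eq, f, mul_comm]⟩
  have h4 : ((C.image f) ∪ (C.image f).image (ρ * ·)).card ≤ q - 1 := by
    rw [← card_fixed_ne hq.card, Nat.card_eq_fintype_card, Fintype.card_subtype]
    refine Finset.card_le_card fun x hx => Finset.mem_filter.2 ⟨Finset.mem_univ _, ?_⟩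
    simp only [Finset.mem_union, Finset.mem_image] at hx
    obtain ⟨d, hd, rfl⟩ | ⟨_, ⟨d, hd, rfl⟩, rfl⟩ := hx
    · exact h3 d hd
    · exact ⟨mul_ne_zero r0 (h3 d hd).1, by rw [mul_pow, (h3 d hd).2, ← hq.σ_eq, hr]⟩
  rw [Finset.card_union_of_disjoint (Finset.disjoint_left.2 fun x h1 h2 => ?_),
    Finset.card_image_of_injective _ (mul_right_injective₀ r0)] at h4
  · omega
  simp only [Finset.mem_image] at h1 h2
  obtain ⟨d, hd, rfl⟩ := h1
  obtain ⟨_, ⟨d', hd', rfl⟩, e⟩ := h2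
  exact H d d' (Finset.mem_filter.1 hd).2 (Finset.mem_filter.1 hd').2 e.symm

theorem cast_q : (q : F) = 0 := by
  have := hq.finite
  have := Fintype.ofFinite F
  have h := FiniteField.cast_card_eq_zero F
  rw [← Nat.card_eq_fintype_card, hq.card] at h
  simpa using h

end fld

variable (φ) in
/-- displacement in `W` -/
def Dsp (W : Submodule F V) : Subgroup φ.Isom where
  carrier := {g | ∀ v, g.1 v - v ∈ W}
  one_mem' := fun v => by simp
  mul_mem' := fun {a b} ha hb v => by simpa using add_mem (ha (b.1 v)) (hb v)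
  inv_mem' := fun {a} ha v => by simpa using neg_mem (ha ((a⁻¹).1 v))

theorem Dsp.mono {W W' : Submodule F V} (h : W ≤ W') : Dsp φ W ≤ Dsp φ W' := fun _ hg v => h (hg v)

variable [φ.Nondeg] [FiniteDimensional F V] {K : Subgroup φ.Isom} {u e x p w z : V} {k c : F}

omit [FiniteDimensional F V] in
theorem Dsp.fix {W : Submodule F V} {g : φ.Isom} (h : g ∈ Dsp φ W) (hz : ∀ y ∈ W, φ.B z y = 0) : g.1 z = z :=
  φ.ext_B_left fun y => by
    rw [← g.1.apply_symm_apply y, Isom.B_map, ← sub_eq_zero, ← map_sub]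
    simpa using hz _ (neg_mem (h (g.1.symm y)))

variable (φ) in
def Cd (u : V) (k : F) : Prop := φ.T (φ.ε * k) + φ.σ k * k * φ.Q u = 0
def QF (K : Subgroup φ.Isom) (u : V) : Prop := ∀ k, Cd φ u k → φ.quasi u k ∈ K

omit [φ.Nondeg] [FiniteDimensional F V] in
theorem cd_iff (h : φ.IsHerm) : Cd φ u k ↔ k + φ.σ k + φ.σ k * k * φ.Q u = 0 := by rw [Cd, h.ε_eq, one_mul, h.T_eq]

theorem QF.map (h : QF K u) {g : φ.Isom} (hg : g ∈ K) : QF K (g.1 u) := fun k hk => by
  rw [← φ.quasi_conj g (by simpa [Cd] using hk)]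
  exact K.mul_mem (K.mul_mem hg (h k (by simpa [Cd] using hk))) (K.inv_mem hg)

theorem QF.smul (hφ : φ.IsHerm) (h : QF K u) (c : F) : QF K (c • u) := fun k hk => by
  have : Cd φ u (φ.σ c * c * k) := by
    rw [cd_iff hφ, φ.Q_smul] at hk
    simp only [cd_iff hφ, map_mul, σ_σ]; linear_combination (φ.σ c * c) * hk
  convert h _ this using 1
  exact Isom.ext fun z => by rw [φ.quasi_apply hk, φ.quasi_apply this, φ.B_smul_left]; module

theorem QF.of_smul (hφ : φ.IsHerm) (h : QF K (c • u)) (c0 : c ≠ 0) : QF K u := by simpa [c0] using h.smul hφ c⁻¹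

theorem qf_iff (hφ : φ.IsHerm) (hx : φ.Q x = 0) : QF K x ↔ TF K x :=
  ⟨fun h t ht => φ.siegel_zero_eq_quasi hx ht ▸ h _ (by simp [Cd, hx, ht]), fun h k hk => by
    have ht : φ.T (-k) = 0 := by simpa [Cd, hx, hφ.ε_eq] using hk
    simpa [φ.siegel_zero_eq_quasi hx ht, hφ.ε_eq] using h _ ht⟩

theorem quasi_dsp (hk : Cd φ u k) {W : Submodule F V} (hu : u ∈ W) : φ.quasi u k ∈ Dsp φ W := fun v => by
  simpa [φ.quasi_apply hk] using W.smul_mem _ hu

omit [φ.Nondeg] [FiniteDimensional F V] in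
theorem cd_unit (hφ : φ.IsHerm) (he : φ.Q e = 1) (hc : φ.σ c * c = 1) : Cd φ e (c - 1) := by
  rw [cd_iff hφ, he, map_sub, map_one]; linear_combination hc

omit [φ.Nondeg] [FiniteDimensional F V] in
theorem cd_move (hφ : φ.IsHerm) (h0 : φ.B u z ≠ 0) (hQ : φ.Q (z + k • u) = φ.Q z) : Cd φ u (k / φ.B u z) := by
  rw [φ.Q_add, φ.Q_smul, hφ.T_eq, map_smul, smul_eq_mul, map_mul, hφ.σ_B, ← hφ.σ_B u z] at hQ
  have : φ.σ (φ.B u z) ≠ 0 := by simpa
  rw [cd_iff hφ, map_div₀]; field_simp; linear_combination hQ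

theorem plane (hq : φ.IsUnitary q) {e' : V} {α l : F} (he : φ.Q e = 1) (ho : φ.B e e' = 0) (h0 : φ.Q e' ≠ 0) (a0 : α ≠ 0)
    (hu : φ.Q (α • e + e') ≠ 0) (h1 : QF K e) (h2 : QF K (α • e + e')) (hl : φ.σ l * l = -φ.Q e') :
    TF K (l • e + e') ∧ ∀ a b a' b' : F, φ.Q (a • e + b • e') ≠ 0 → φ.Q (a' • e + b' • e') ≠ 0 →
      ∃ g ∈ K ⊓ Dsp φ (Submodule.span F {e, e'}), ∃ c : F, g.1 (a • e + b • e') = c • (a' • e + b' • e') := by
  have hφ := hq.herm
  set P := Submodule.span F {e, e'}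
  have m1 : e ∈ P := Submodule.subset_span (by simp)
  have m2 : e' ∈ P := Submodule.subset_span (by simp)
  have ho' := φ.B_symm_zero ho
  have ee : φ.B e e = 1 := hφ.Q_eq e ▸ he
  set β := φ.Q e' with hβ
  have ee' : φ.B e' e' = β := (hφ.Q_eq e').symm
  have βσ : φ.σ β = β := hφ.σ_Q e'
  have hQ : ∀ a b : F, φ.Q (a • e + b • e') = φ.σ a * a + φ.σ b * b * β := fun a b => by
    rw [φ.Q_add_of_orth (by simp [φ.B_smul_left, ho]), φ.Q_smul, φ.Q_smul, he, mul_one]
  have hQ' : ∀ a : F, φ.Q (a • e + e') = φ.σ a * a + β := fun a => by simpa using hQ a 1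
  have l0 : l ≠ 0 := by rintro rfl; exact h0 (by simpa using hl.symm)
  have n0 : ∀ d, φ.σ d * d = 1 → α - d * l ≠ 0 := fun d hd e => hu (by
    rw [hQ', sub_eq_zero.1 e, map_mul]; linear_combination hl + (φ.σ l * l) * hd)
  set x := l • e + e' with ex
  set u := α • e + e' with eu
  have hx : φ.Q x = 0 := by rw [hQ', hl, neg_add_cancel]
  have xx := φ.B_self_eq_zero hx
  have xu : φ.B x u = φ.σ l * (α - l) := by simp [ex, eu, φ.B_smul_left, ee, ho, ho', ee']; linear_combination hl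
  have xu0 : φ.B x u ≠ 0 := by simpa [xu, l0] using n0 1 (by simp)
  have bd : ∀ d, φ.σ d * d = 1 → ∃ b ∈ K ⊓ Dsp φ P, b.1 x = ((α - l) / (α - d * l)) • x ∧
      ∃ c : F, b.1 u = c • ((φ.σ d * α) • e + e') := fun d hd => by
    have := n0 d hd
    have e1 : x + (l * (d - 1) / (α - d * l)) • u = ((α - l) / (α - d * l)) • ((d * l) • e + e') := by
      have := mul_inv_cancel₀ this
      simp only [ex, eu, div_eq_mul_inv]; match_scalars
      · linear_combination (-l) * this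
      · linear_combination -this
    have c1 := cd_move hφ (mt φ.B_symm_zero xu0) (e1 ▸ (φ.Q_smul_of_sing (by
      rw [hQ', map_mul]; linear_combination hl + (φ.σ l * l) * hd) _).trans hx.symm)
    have c2 := cd_unit hφ he (c := φ.σ d) (by rw [σ_σ, mul_comm, hd])
    refine ⟨_, mul_mem ⟨h1 _ c2, quasi_dsp c2 m1⟩ ⟨h2 _ c1, quasi_dsp c1 (add_mem (P.smul_mem _ m1) m2)⟩, ?_,
      1 + l * (d - 1) / (α - d * l) / φ.B u x * φ.B u u, ?_⟩
    · rw [Isom.mul_apply, φ.quasi_apply c1, div_mul_cancel₀ _ (mt φ.B_symm_zero xu0), e1, map_smul, φ.quasi_apply c2]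
      simp only [ex, map_add, map_smul, ee, ho, smul_eq_mul]; match_scalars
      · linear_combination ((α - l) / (α - d * l) * l) * hd
      · ring
    · rw [Isom.mul_apply, φ.quasi_apply c1, show ∀ c : F, u + c • u = (1 + c) • u from fun c => by module, map_smul,
        φ.quasi_apply c2]
      simp only [eu, map_add, map_smul, ee, ho, smul_eq_mul]; module
  have mx : x ∈ P := add_mem (P.smul_mem _ m1) m2
  have mu : u ∈ P := add_mem (P.smul_mem _ m1) m2
  have iv : ∀ {b : φ.Isom} {μ : F}, μ ≠ 0 → b.1 x = μ • x → (b⁻¹).1 x = μ⁻¹ • x := fun {b μ} m e => by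
    rw [eq_inv_smul_iff₀ m, ← map_smul, ← e]; simp
  have bb : ∀ d d', φ.σ d * d = 1 → φ.σ d' * d' = 1 → ∃ b ∈ K ⊓ Dsp φ P, b.1 x = ((α - d * l) / (α - d' * l)) • x ∧
      ∀ c : F, b.1 u = c • u → d = d' := fun d d' hd hd' => by
    obtain ⟨b, i, j, c, k⟩ := bd d hd
    obtain ⟨b', i', j', c', k'⟩ := bd d' hd'
    have := n0 d hd
    have := n0 d' hd'
    have := n0 1 (by simp)
    rw [one_mul] at this
    refine ⟨_, mul_mem (inv_mem i) i', ?_, fun m r => ?_⟩
    · rw [Isom.mul_apply, j', map_smul, iv (by simp [*]) j, smul_smul]; congr 1; field_simp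
    replace r : b'.1 u = m • b.1 u := by rw [← map_smul, ← r]; simp
    have c0 : c' ≠ 0 := by rintro rfl; simp at k'; simp [k'] at xu0
    rw [k, k'] at r
    have e1 := congrArg (φ.B e) r
    have e2 := congrArg (φ.B e') r
    simp [ee, ho, ho', ee', h0] at e1 e2
    exact φ.σ.injective (mul_left_cancel₀ (mul_ne_zero (mul_ne_zero c0 a0) h0)
      (by linear_combination (-β) * e1 + (φ.σ d * α) * e2))
  have lam : ∀ ρ, ρ ≠ 0 → φ.σ ρ = ρ → ∃ b ∈ K ⊓ Dsp φ P, ∃ μ : F, b.1 x = μ • x ∧ φ.σ μ * μ = ρ := fun ρ r0 hr => by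
    obtain ⟨d, d', i, j, e⟩ := ph hq a0 l0 (fun e => hu (by rw [hQ', e, hl, neg_add_cancel])) r0 hr
    obtain ⟨b, m, n, -⟩ := bb d d' i j
    refine ⟨b, m, _, n, ?_⟩
    rw [map_div₀, div_mul_div_comm, e, mul_div_cancel_right₀]
    simpa only [ne_eq, mul_eq_zero, σ_eq_zero, or_self] using n0 d' j
  have line : ∀ w ∈ P, φ.B x w = 0 → ∃ s : F, w = s • x := fun w hw e => by
    obtain ⟨a, b, rfl⟩ := Submodule.mem_span_pair.1 hw
    simp [ex, φ.B_smul_left, ee, ho, ho', ee'] at e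
    refine ⟨b, ?_⟩
    rw [show a = b * l from mul_left_cancel₀ h0 (by linear_combination a * hl - l * e), ex]; module
  have act : ∀ b ∈ Dsp φ P, ∀ μ : F, b.1 x = μ • x → ∀ w ∈ P, ∀ w' ∈ P, φ.B x w = 1 → φ.B x w' = 1 →
      φ.σ μ * μ * φ.Q w = φ.Q w' → ∃ s, φ.T s = 0 ∧ φ.σ μ • b.1 w = w' + s • x := fun b hb μ e w hw w' hw' i j k => by
    obtain ⟨s, hs⟩ := line (φ.σ μ • b.1 w - w') (sub_mem (P.smul_mem _ (by simpa using add_mem (hb w) hw)) hw') (by
      rw [map_sub, map_smul, smul_eq_mul, ← φ.B_smul_left, ← e, Isom.B_map, i, j, sub_self])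
    rw [sub_eq_iff_eq_add'] at hs
    refine ⟨s, ?_, hs⟩
    have := congrArg φ.Q hs
    rw [φ.Q_smul, σ_σ, Isom.Q_map, mul_comm μ, k, φ.Q_add, φ.Q_smul_of_sing hx, map_smul, hφ.B_comm, j] at this
    simpa using this
  have tf : TF K x := by
    obtain ⟨d, d', i, j, m, n⟩ : ∃ d d', φ.σ d * d = 1 ∧ φ.σ d' * d' = 1 ∧ d ≠ d' ∧
        φ.σ (α - d * l) * (α - d * l) = φ.σ (α - d' * l) * (α - d' * l) := by
      have a1 : φ.σ α ≠ 0 := by simpa
      have l1 : φ.σ l ≠ 0 := by simpa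
      obtain ⟨d, i, j⟩ : ∃ d, φ.σ d * d = 1 ∧ φ.σ (φ.σ α * l * d) ≠ φ.σ α * l * d := by
        by_cases e : φ.σ (φ.σ α * l) = φ.σ α * l
        · exact (exists_c hq).imp fun c h => ⟨h.1, by rw [map_mul, e]; simpa [a0, l0] using h.2⟩
        · exact ⟨1, by simp, by simpa using e⟩
      refine ⟨d, α * φ.σ l * φ.σ d / (φ.σ α * l), i, ?_, fun e => j ?_, ?_⟩
      · simp only [map_mul, map_div₀, σ_σ]; field_simp; linear_combination i
      · rw [eq_div_iff (by simp [*])] at e; simp only [map_mul, σ_σ]; linear_combination -e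
      · simp only [map_mul, map_div₀, map_sub, σ_σ]; field_simp
    obtain ⟨b, b1, b2, b3⟩ := bb d d' i j
    set μ := (α - d * l) / (α - d' * l)
    have hμ : φ.σ μ * μ = 1 := by
      rw [map_div₀, div_mul_div_comm, n, div_self]; simpa only [ne_eq, mul_eq_zero, σ_eq_zero, or_self] using n0 d' j
    set w := (φ.B x u)⁻¹ • u with ew
    have w1 : φ.B x w = 1 := by simp [ew, xu0]
    obtain ⟨s, s1, s2⟩ := act b b1.2 μ b2 w (P.smul_mem _ mu) w (P.smul_mem _ mu) w1 w1 (by rw [hμ, one_mul])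
    replace s2 : b.1 w = μ • (w + s • x) := by rw [← s2, smul_smul, mul_comm, hμ, one_smul]
    have s0 : s ≠ 0 := by
      rintro rfl
      exact m (b3 μ (by simpa [ew, smul_comm μ, xu0] using s2))
    have pw : ∀ n : ℕ, (b ^ n).1 x = μ ^ n • x ∧ (b ^ n).1 w = μ ^ n • (w + (n * s) • x) := fun n => by
      induction n with
      | zero => simp
      | succ n ih => simp only [pow_succ', Isom.mul_apply, ih, map_smul, map_add, b2, s2, Nat.cast_succ]; constructor <;> module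
    obtain ⟨p1, p2⟩ := pw (q + 1)
    rw [pow_succ μ, ← hq.σ_eq, hμ, one_smul] at p1 p2
    rw [Nat.cast_succ, cast_q hq, zero_add, one_mul] at p2
    have g1 := mul_mem (quasi_dsp (u := x) (k := -s) (by simp [Cd, hx, s1, hφ.ε_eq]) mx) (pow_mem b1.2 (q + 1))
    have g2 : ∀ y ∈ P, (φ.quasi x (-s) * b ^ (q + 1)).1 y = y := fun y hy => by
      obtain ⟨t, e⟩ := line (y - φ.B x y • w) (sub_mem hy (P.smul_mem _ (P.smul_mem _ mu))) (by simp [w1])
      rw [sub_eq_iff_eq_add.1 e, Isom.mul_apply, φ.quasi_apply (by simp [hx, s1, hφ.ε_eq])]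
      simp only [map_add, map_smul, p1, p2, xx, w1, smul_eq_mul]; module
    have g3 : φ.quasi x (-s) * b ^ (q + 1) = 1 := Isom.ext fun z => by
      obtain ⟨a, c, r⟩ := Submodule.mem_span_pair.1 (g1 z)
      have H : ∀ y ∈ P, φ.B y (a • e + c • e') = 0 := fun y hy => by
        rw [r, map_sub, ← g2 y hy, Isom.B_map, g2 y hy, sub_self]
      have h3 := H e m1
      have h4 := H e' m2
      simp [ee, ho, ho', ee', h0] at h3 h4
      rwa [h3, h4, zero_smul, zero_smul, add_zero, eq_comm, sub_eq_zero] at r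
    have g4 : φ.siegel x 0 s ∈ K := by
      rw [φ.siegel_zero_eq_quasi hx s1, hφ.ε_eq, one_mul, eq_inv_of_mul_eq_one_left g3]
      exact inv_mem (pow_mem b1.1 _)
    intro t ht
    by_cases t0 : t = 0
    · rw [t0, φ.siegel_zero hx]; exact one_mem _
    rw [hφ.T_eq, add_eq_zero_iff_neg_eq] at ht s1
    obtain ⟨g, g5, ν, g6, g7⟩ := lam (t / s) (by simp [*]) (by simp [← ht, ← s1])
    have := siegel_conj_mem g5.1 hx (w := 0) (by simp) (by simp [hφ.T_eq, ← s1]) g4
    rwa [g6, map_zero, siegel_smul hx (by simp) (by simp [hφ.T_eq, ← s1]), smul_zero, g7, div_mul_cancel₀ _ s0] at this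
  refine ⟨tf, fun a b a' b' i j => ?_⟩
  have mw : ∀ a b : F, a • e + b • e' ∈ P := fun a b => add_mem (P.smul_mem _ m1) (P.smul_mem _ m2)
  have nz : ∀ w ∈ P, φ.Q w ≠ 0 → φ.B x w ≠ 0 := fun w hw i e => by
    obtain ⟨s, rfl⟩ := line w hw e; exact i (φ.Q_smul_of_sing hx s)
  have i1 := mw a b
  have j1 := mw a' b'
  generalize a • e + b • e' = w at i i1
  generalize a' • e + b' • e' = w' at j j1
  have i2 := nz w i1 i
  have j2 := nz w' j1 j
  have i3 : φ.Q ((φ.B x w)⁻¹ • w) ≠ 0 := by simp [φ.Q_smul, i, i2]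
  obtain ⟨g, g1, μ, g2, g3⟩ := lam (φ.Q ((φ.B x w')⁻¹ • w') / φ.Q ((φ.B x w)⁻¹ • w)) (div_ne_zero (by simp [φ.Q_smul, j, j2]) i3)
    (by rw [map_div₀, hφ.σ_Q, hφ.σ_Q])
  obtain ⟨s, s1, s2⟩ := act g g1.2 μ g2 _ (P.smul_mem (φ.B x w)⁻¹ i1) _ (P.smul_mem (φ.B x w')⁻¹ j1) (by simp [i2]) (by simp [j2])
    (by rw [g3, div_mul_cancel₀ _ i3])
  have μ0 : φ.σ μ ≠ 0 := fun r => div_ne_zero (a := φ.Q ((φ.B x w')⁻¹ • w')) (by simp [φ.Q_smul, j, j2]) i3
    (by rw [← g3, r, zero_mul])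
  have c1 : Cd φ x (-s) := by simp [Cd, hx, s1, hφ.ε_eq]
  refine ⟨_, mul_mem ⟨(qf_iff hφ hx).2 tf _ c1, quasi_dsp c1 mx⟩ g1, φ.B x w / φ.σ μ / φ.B x w', ?_⟩
  rw [Isom.mul_apply, show g.1 w = (φ.B x w / φ.σ μ) • ((φ.B x w')⁻¹ • w' + s • x) by
    rw [← s2, map_smul, smul_smul, smul_smul]; field_simp; simp, map_smul, φ.quasi_apply c1]
  simp [xx, j2, smul_smul, div_eq_mul_inv]

theorem degen (hq : φ.IsUnitary q) (he : φ.Q e = 1) (hp : φ.Q p = 0) (ho : φ.B p e = 0) (h1 : QF K e) (h2 : QF K (e + p)) :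
    TF K p ∧ ∀ c : F, InA K p (c • e) := by
  have hφ := hq.herm
  have ee : φ.B e e = 1 := hφ.Q_eq e ▸ he
  have ho' := φ.B_symm_zero ho
  have pp := φ.B_self_eq_zero hp
  obtain ⟨c, c1, c2⟩ := exists_c hq
  let S : AddSubgroup F := AddSubgroup.ofSub {c | InA K p (c • e)} ⟨0, by simp, 0, by simp, by simp [φ.siegel_zero hp]⟩
    fun a ha b hb => by simpa [sub_smul, sub_eq_add_neg, add_smul] using InA.sub hp ha hb
  have H := ns hq S (fun d hd s hs => by
    have c3 := cd_unit hφ he hd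
    have := InA.map hp hs (h1 _ c3)
    rw [φ.quasi_apply c3, φ.quasi_apply c3] at this
    change InA K p _
    convert this using 1
    · simp [ho']
    · simp only [map_smul, ee, smul_eq_mul]; module) (s := 1 - c) (by
    have hs : φ.T (1 - c) = φ.Q ((1 - c) • e) := by
      simp only [φ.Q_smul, hφ.T_eq, he, map_sub, map_one]; linear_combination -c1
    have c3 := cd_unit hφ he (c := φ.σ c) (by rw [σ_σ, mul_comm, c1])
    have c4 := cd_unit hφ (e := e + p) (by rw [φ.Q_add_of_orth ho', he, hp, add_zero]) c1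
    refine ⟨by simp [ho], _, hs, ?_⟩
    convert mul_mem (h2 _ c4) (h1 _ c3) using 1
    refine Isom.ext fun z => ?_
    rw [φ.siegel_apply hp (by simp [ho]) hs, Isom.mul_apply, φ.quasi_apply c4, φ.quasi_apply c3]
    simp only [map_add, map_smul, LinearMap.add_apply, φ.B_smul_left, ee, ho, smul_eq_mul, hφ.ε_eq, map_sub, map_one]
    match_scalars
    · ring
    · linear_combination (-φ.B e z) * c1
    · linear_combination (-φ.B e z) * c1) (sub_ne_zero.2 (by rintro rfl; simp at c2))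
  refine ⟨fun t ht => ?_, H⟩
  obtain ⟨θ, hθ⟩ := hq.exists_T_eq (map_one _)
  obtain ⟨a1, s, a2, a3⟩ := H 1
  obtain ⟨b1, s', b2, b3⟩ := H (θ * t)
  have := mul_mem (mul_mem a3 b3) (inv_mem (mul_mem b3 a3))
  rw [φ.siegel_mul hp a1 a2 b1 b2, φ.siegel_mul hp b1 b2 a1 a2, add_comm ((θ * t) • e),
    siegel_inv hp (by simp [ho]) (by rw [add_comm ((1 : F) • e)]; exact φ.siegel_T_add b2 a2),
    φ.siegel_mul hp (by simp [ho]) (φ.siegel_T_add a2 b2) (by simp [ho])
      (by rw [T_ε_σ, Q_neg, add_comm ((1 : F) • e)]; exact φ.siegel_T_add b2 a2), add_neg_cancel] at this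
  convert this using 2
  rw [hφ.T_eq, φ.Q_smul, he] at a2 b2
  rw [hφ.T_eq] at hθ ht
  simp only [map_add, map_neg, map_smul, LinearMap.add_apply, φ.B_smul_left, ee, smul_eq_mul, hφ.ε_eq, map_mul, map_one,
    σ_σ] at a2 b2 ⊢
  linear_combination -a2 - b2 + (-t) * hθ + φ.σ θ * ht

end H12.Fr
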