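import Mathlib
import Cfsg.Agent.H12.FrA

/-!
# Groups generated by unitary reflections, II : overgroups of the monomial reflection group
* `ON φ e` : orthonormal basis; `Pt`, `Mn` : frame points, monomial group
* `thmR` : a non-frame reflection group yields a root configuration `Good`
-/

namespace H12.Fr

open Module H10 H10.Form H12.Xf

variable {F V : Type*} [Field F] [AddCommGroup V] [Module F V] {φ : Form F V} {q : ℕ} {ι : Type*} [Fintype ι] [DecidableEq ι]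
  {e : ι → V} {i j k l : ι} {u v w x p : V} {c : F}

theorem nmem (s : Finset ι) {n : ℕ} (h : s.card ≤ n) (hn : n < Fintype.card ι) : ∃ i, i ∉ s := by
  by_contra! H
  have := Finset.card_le_card (show Finset.univ ⊆ s from fun i _ => H i)
  rw [Finset.card_univ] at this; omega

variable (φ e) in
structure ON : Prop where
  herm : φ.IsHerm
  B : ∀ i j, φ.B (e i) (e j) = if i = j then 1 else 0
  sep : ∀ v, (∀ i, φ.B (e i) v = 0) → v = 0

variable (φ e) in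
def Pt (w : V) : Prop := ∃ j, ∀ i, i ≠ j → φ.B (e i) w = 0

namespace ON
variable (h : ON φ e)
include h

omit [Fintype ι] in
theorem Q (i : ι) : φ.Q (e i) = 1 := by simp [h.herm.Q_eq, h.B]
omit [Fintype ι] in
theorem ne (i : ι) : e i ≠ 0 := fun r => by simpa [r] using h.Q i
omit [Fintype ι] in
theorem ext (H : ∀ i, φ.B (e i) v = φ.B (e i) w) : v = w := sub_eq_zero.1 (h.sep _ fun i => by simp [H])
theorem sum (v : V) : v = ∑ i, φ.B (e i) v • e i := h.ext fun i => by simp [h.B]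
theorem mem {L : Submodule F V} (H : ∀ i, φ.B (e i) v ≠ 0 → e i ∈ L) : v ∈ L := by
  rw [h.sum v]
  exact sum_mem fun i _ => by by_cases r : φ.B (e i) v = 0; exacts [by simp [r], L.smul_mem _ (H i r)]
theorem ext' {g g' : φ.Isom} (H : ∀ i, g.1 (e i) = g'.1 (e i)) : g = g' := Isom.ext fun v => by
  rw [h.sum v]; simp [H]
omit [Fintype ι] in
theorem li : LinearIndependent F e :=
  φ.linearIndependent_of_orth (fun i j r => by simp [h.B, r]) fun i => by simp [h.B]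
omit [Fintype ι] in
theorem eq1 (H : ∀ i, i ≠ j → φ.B (e i) w = 0) : w = φ.B (e j) w • e j :=
  h.ext fun i => by by_cases r : i = j <;> simp [h.B, r, H]
omit [Fintype ι] in
theorem eq2 (r : i ≠ j) (H : ∀ l, l ≠ i → l ≠ j → φ.B (e l) w = 0) : w = φ.B (e i) w • e i + φ.B (e j) w • e j :=
  h.ext fun l => by by_cases l = i <;> by_cases l = j <;> simp_all [h.B]
omit [Fintype ι] in
theorem pt (c : F) (j : ι) : Pt φ e (c • e j) := ⟨j, fun i r => by simp [h.B, r]⟩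
omit [Fintype ι] in
theorem pt_iff : Pt φ e w ↔ ∃ j, ∃ c : F, w = c • e j := ⟨fun ⟨j, H⟩ => ⟨j, _, h.eq1 H⟩, by rintro ⟨j, c, rfl⟩; exact h.pt c j⟩
omit [Fintype ι] in
theorem Q_sub (w : V) (i : ι) : φ.Q (w - φ.B (e i) w • e i) = φ.Q w - φ.σ (φ.B (e i) w) * φ.B (e i) w := by
  rw [φ.Q_sub, φ.Q_smul, h.Q, h.herm.T_eq, map_smul, h.herm.B_comm (e i) w]; simp; ring
omit [Fintype ι] in
theorem Q_add (a : F) (r : φ.B (e i) w = 0) : φ.Q (a • e i + w) = φ.σ a * a + φ.Q w := by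
  rw [φ.Q_add_of_orth (by simp [φ.B_smul_left, r]), φ.Q_smul, h.Q, mul_one]
omit [Fintype ι] in
theorem map (g : φ.Isom) : ON φ (fun i => g.1 (e i)) :=
  ⟨h.herm, fun i j => by simp [h.B], fun v H => by
    simpa using h.sep ((g⁻¹).1 v) fun i => by rw [← Isom.B_map g]; simpa using H i⟩
omit [Fintype ι] in
theorem cd_sw (r : i ≠ j) : φ.T (φ.ε * -1) + φ.σ (-1) * -1 * φ.Q (e i - e j) = 0 := by
  simp [φ.Q_sub, h.Q, h.B, r, h.herm.T_eq, h.herm.ε_eq]

end ON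

omit [Fintype ι] [DecidableEq ι] in
theorem two (h : ¬ Pt φ e w) (i : ι) : ∃ i j, i ≠ j ∧ φ.B (e i) w ≠ 0 ∧ φ.B (e j) w ≠ 0 := by
  simp only [Pt, not_exists, not_forall] at h
  obtain ⟨j, -, a⟩ := h i
  obtain ⟨l, b, c⟩ := h j
  exact ⟨l, j, b, c, a⟩

variable [φ.Nondeg] [FiniteDimensional F V] {K : Subgroup φ.Isom}

variable (φ e) in
/-- the transposition `(i j)` -/
noncomputable def sw (i j : ι) : φ.Isom := φ.quasi (e i - e j) (-1)
variable (φ e) in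
/-- the reflection with eigenvalue `c` -/
noncomputable def rf (i : ι) (c : F) : φ.Isom := φ.quasi (e i) (c - 1)

namespace ON
variable (h : ON φ e)
include h

omit [Fintype ι] in
theorem sw_apply (r : i ≠ j) (z : V) : (sw φ e i j).1 z = z - (φ.B (e i) z - φ.B (e j) z) • (e i - e j) := by
  rw [sw, φ.quasi_apply (h.cd_sw r)]; simp only [map_sub, LinearMap.sub_apply]; module
omit [Fintype ι] in
theorem sw_e (r : i ≠ j) (l : ι) : (sw φ e i j).1 (e l) = e (Equiv.swap i j l) := by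
  rw [h.sw_apply r]
  by_cases l = i <;> by_cases l = j <;> simp_all [h.B, Equiv.swap_apply_of_ne_of_ne, eq_comm]
omit [Fintype ι] in
theorem rf_apply (hc : φ.σ c * c = 1) (z : V) : (rf φ e i c).1 z = z + ((c - 1) * φ.B (e i) z) • e i :=
  φ.quasi_apply (cd_unit h.herm (h.Q i) hc) z
omit [Fintype ι] in
theorem rf_e (hc : φ.σ c * c = 1) (l : ι) : (rf φ e i c).1 (e l) = (if i = l then c else 1) • e l := by
  rw [h.rf_apply hc]; by_cases r : i = l <;> simp [h.B, r, sub_smul]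
omit [Fintype ι] in
theorem det_sw (r : i ≠ j) : φ.det (sw φ e i j) = -1 := Units.ext (by
  rw [coe_det, sw, φ.det_quasi (h.cd_sw r)]; simp [h.B, r, r.symm])
omit [Fintype ι] in
theorem det_rf (hc : φ.σ c * c = 1) : (φ.det (rf φ e i c) : F) = c := by
  rw [coe_det, rf, φ.det_quasi (cd_unit h.herm (h.Q i) hc)]; simp [h.B]

/-- the monomial group -/
def Mn : Subgroup φ.Isom where
  carrier := {g | ∀ i, Pt φ e (g.1 (e i))}
  one_mem' := fun i => by simpa using h.pt 1 i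
  mul_mem' := fun {a b} ha hb i => by
    obtain ⟨j, c, r⟩ := h.pt_iff.1 (hb i)
    obtain ⟨l, d, s⟩ := h.pt_iff.1 (ha j)
    simpa [Isom.mul_apply, r, s, smul_smul] using h.pt (c * d) l
  inv_mem' := fun {a} ha i => by
    choose π c r using fun i => h.pt_iff.1 (ha i)
    have c0 : ∀ i, c i ≠ 0 := fun i s => h.ne i (by simpa [s] using r i)
    obtain ⟨j, rfl⟩ := (Finite.injective_iff_surjective (f := π)).1 (fun i j s => by_contra fun t => by
      simpa [r, s, φ.B_smul_left, h.B, t, c0] using Isom.B_map a (e i) (e j)) i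
    convert h.pt (c j)⁻¹ j
    rw [eq_inv_smul_iff₀ (c0 j), ← map_smul, ← r]; simp

theorem mem_Mn {g : φ.Isom} : g ∈ h.Mn ↔ ∀ i, Pt φ e (g.1 (e i)) := Iff.rfl
theorem sw_mem (r : i ≠ j) : sw φ e i j ∈ h.Mn := fun l => by simpa [h.sw_e r] using h.pt 1 _
theorem rf_mem (hc : φ.σ c * c = 1) : rf φ e i c ∈ h.Mn := fun l => by rw [h.rf_e hc]; exact h.pt _ _

theorem moved {t : φ.Isom} (ht : t ∈ h.Mn) (S : Finset ι) (W : Submodule F V) (h1 : ∀ a ∈ S, t.1 (e a) ≠ e a)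
    (h2 : ∀ a ∈ S, t.1 (e a) - e a ∈ W) : S.card ≤ 2 * finrank F W := by
  induction n : S.card using Nat.strong_induction_on generalizing S W with
  | _ n ih =>
  subst n
  obtain rfl | ⟨i, hi⟩ := S.eq_empty_or_nonempty
  · simp
  obtain ⟨j, hj⟩ := inv_mem ht i
  have h3 := ih _ (Finset.card_lt_card (s := S \ {i, j}) ⟨Finset.sdiff_subset, fun r => by simpa using r hi⟩) _
    (W ⊓ LinearMap.ker (φ.B (e i))) (fun a ha => h1 a (Finset.mem_sdiff.1 ha).1) (fun a ha => by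
      simp only [Finset.mem_sdiff, Finset.mem_insert, Finset.mem_singleton, not_or] at ha
      refine ⟨h2 a ha.1, ?_⟩
      have := φ.B_symm_zero (hj a ha.2.2)
      rw [← Isom.B_map t] at this
      simpa [h.B, Ne.symm ha.2.1] using this) rfl
  have h4 := Submodule.finrank_lt_finrank_of_lt (inf_lt_left.2 fun r : W ≤ LinearMap.ker (φ.B (e i)) => h1 i hi (by
    have := r (h2 i hi)
    obtain ⟨l, c, s⟩ := h.pt_iff.1 (ht i)
    by_cases u : i = l
    · subst u; simp [s, h.B, sub_eq_zero] at this; simp [s, this]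
    · simp [s, h.B, u] at this))
  have := Finset.le_card_sdiff {i, j} S
  have := Finset.card_le_two (a := i) (b := j)
  omega

theorem exists_fix {t : φ.Isom} (ht : t ∈ h.Mn) {W : Submodule F V} (hW : t ∈ Dsp φ W) (S : Finset ι)
    (hn : 2 * finrank F W + S.card < Fintype.card ι) : ∃ a, a ∉ S ∧ t.1 (e a) = e a := by
  classical
  obtain ⟨a, ha⟩ := nmem (S ∪ Finset.univ.filter fun a => t.1 (e a) ≠ e a) ((Finset.card_union_le _ _).trans
    (Nat.add_le_add_left (h.moved ht _ W (fun a ha => (Finset.mem_filter.1 ha).2) fun a _ => hW _) _)) (by omega)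
  exact ⟨a, by simpa using ha⟩

end ON

section thmR
variable (hq : φ.IsUnitary q) (h : ON φ e) {I : ι → Prop} (hR : ∀ i, I i → QF K (e i))

variable (φ e K I) in
structure DD (p : V) (j : ι) : Prop where
  ne : p ≠ 0
  Q : φ.Q p = 0
  supp : ∀ i, φ.B (e i) p ≠ 0 → I i
  mem : I j
  zero : φ.B (e j) p = 0
  tf : TF K p
  inA : ∀ c : F, InA K p (c • e j)

include hq h hR

omit [Fintype ι] in
theorem dd_of (h1 : QF K w) (h2 : φ.B (e j) w ≠ 0) (h3 : φ.Q w = φ.σ (φ.B (e j) w) * φ.B (e j) w) (r : k ≠ j)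
    (h4 : φ.B (e k) w ≠ 0) (h5 : ∀ i, φ.B (e i) w ≠ 0 → I i) : ∃ p, DD φ e K I p j ∧ ∀ i, φ.B (e i) w = 0 → φ.B (e i) p = 0 := by
  have a : φ.Q ((φ.B (e j) w)⁻¹ • (w - φ.B (e j) w • e j)) = 0 := φ.Q_smul_of_sing (by rw [h.Q_sub, h3, sub_self]) _
  have b : ∀ i, φ.B (e i) w = 0 → φ.B (e i) ((φ.B (e j) w)⁻¹ • (w - φ.B (e j) w • e j)) = 0 := fun i s => by
    by_cases t : i = j <;> simp [h.B, s, t]
  have c : φ.B (e j) ((φ.B (e j) w)⁻¹ • (w - φ.B (e j) w • e j)) = 0 := by simp [h.B]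
  obtain ⟨d, f⟩ := degen hq (h.Q j) a (φ.B_symm_zero c) (hR j (h5 j h2)) (by
    convert h1.smul h.herm (φ.B (e j) w)⁻¹ using 1; simp [smul_sub, h2])
  exact ⟨_, ⟨fun s => by simpa [h.B, r, h2, h4] using congrArg (φ.B (e k)) s, a, fun i s => h5 i (mt (b i) s), h5 j h2, c, d, f⟩, b⟩

omit [Fintype ι] in
theorem pf2 (hx : φ.Q x = 0) (h1 : TF K x) (h2 : φ.B (e i) x ≠ 0) (hi : I i) {a : F}
    (h3 : φ.σ a * a ≠ φ.σ (φ.B (e i) x) * φ.B (e i) x) : QF K (a • e i + (x - φ.B (e i) x • e i)) := by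
  have hφ := h.herm
  set b := φ.B (e i) x with eb
  set y := x - b • e i with ey
  have y0 : φ.B (e i) y = 0 := by simp [ey, eb, h.B]
  have y1 : φ.Q y = -(φ.σ b * b) := by rw [ey, h.Q_sub, hx, zero_sub]
  have b1 : φ.σ b ≠ 0 := by simpa
  have H : ∀ t, t ≠ 0 → φ.T t = 0 → QF K (((1 - t * (φ.σ b * b)) / (-t * φ.σ b)) • e i + y) := fun t t0 ht => by
    have := ((hR i hi).map (h1 t ht)).smul hφ (-t * φ.σ b)⁻¹
    rw [tv_apply hφ hx ht, hφ.B_comm, ← eb] at this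
    convert this using 1
    rw [ey]; match_scalars <;> field_simp <;> ring
  by_cases r : ∃ t, t ≠ 0 ∧ φ.T t = 0 ∧ t * (φ.σ b * b) ≠ 1
  · obtain ⟨t, t0, ht, r⟩ := r
    have σt : φ.σ t = -t := by rw [hφ.T_eq] at ht; linear_combination ht
    obtain ⟨g, g1, c, g2⟩ := (plane hq (h.Q i) y0 (by simp [y1, h2]) (div_ne_zero (sub_ne_zero.2 r.symm) (by simp [t0, h2])) (by
      rw [h.Q_add _ y0, y1, ← mul_ne_zero_iff_left (mul_ne_zero (mul_ne_zero t0 t0) (mul_ne_zero b1 h2))]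
      simp only [map_div₀, map_sub, map_mul, map_neg, σt, σ_σ, map_one]; field_simp; ring_nf; simp)
      (hR i hi) (H t t0 ht) (l := b) (by rw [y1, neg_neg])).2 1 0 a 1 (by simp [h.Q])
      (by rwa [one_smul, h.Q_add _ y0, y1, ← sub_eq_add_neg, sub_ne_zero])
    simp only [one_smul, zero_smul, add_zero] at g2
    exact QF.of_smul hφ (g2 ▸ (hR i hi).map g1.1) (by rintro rfl; exact h.ne i (by simpa using g2))
  push Not at r
  obtain ⟨t, t0, ht⟩ := hq.exists_skew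
  have n : ∀ a, a ≠ 0 → φ.σ a * a = 1 := fun a a0 => mul_right_cancel₀ (b := t * (φ.σ b * b)) (by simp [r t t0 ht]) (by
    rw [one_mul, ← mul_assoc, r _ (by simp [a0, t0]) (by rw [φ.T_norm, ht, mul_zero]), r t t0 ht])
  obtain rfl : a = 0 := by_contra fun a0 => h3 ((n a a0).trans (n b h2).symm)
  simpa [r t t0 ht] using H t t0 ht

omit [Fintype ι] in
theorem step (hx : φ.Q x = 0) (h1 : TF K x) (h5 : ∀ i, φ.B (e i) x ≠ 0 → I i) (r1 : i ≠ j) (r2 : k ≠ i) (r3 : k ≠ j)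
    (a1 : φ.B (e i) x ≠ 0) (a2 : φ.B (e j) x ≠ 0) (a3 : φ.B (e k) x ≠ 0) :
    ∃ p, DD φ e K I p j ∧ ∀ i, φ.B (e i) x = 0 → φ.B (e i) p = 0 := by
  obtain ⟨a, ha⟩ := hq.exists_norm (c := φ.σ (φ.B (e i) x) * φ.B (e i) x + φ.σ (φ.B (e j) x) * φ.B (e j) x) (by simp [mul_comm])
  have b : ∀ l, l ≠ i → φ.B (e l) (a • e i + (x - φ.B (e i) x • e i)) = φ.B (e l) x := fun l s => by simp [h.B, s]
  obtain ⟨p, c, d⟩ := dd_of hq h hR (j := j) (pf2 hq h hR hx h1 a1 (h5 i a1) (a := a) (by simp [ha, a2])) (by rwa [b _ r1.symm])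
    (by rw [b _ r1.symm, h.Q_add _ (by simp [h.B]), h.Q_sub, ha, hx]; ring) r3 (by rwa [b _ r2]) fun l s => by
      by_cases t : l = i; exacts [t ▸ h5 i a1, h5 l (b l t ▸ s)]
  exact ⟨p, c, fun l s => d l (by rwa [b l (by rintro rfl; exact a1 s)])⟩

theorem shrink (hp : DD φ e K I p j) : ∃ p j a b, DD φ e K I p j ∧ a ≠ b ∧ φ.B (e a) p ≠ 0 ∧ φ.B (e b) p ≠ 0 ∧
    ∀ l, l ≠ a → l ≠ b → φ.B (e l) p = 0 := by
  classical
  induction n : (Finset.univ.filter fun i => φ.B (e i) p ≠ 0).card using Nat.strong_induction_on generalizing p j with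
  | _ n ih =>
  subst n
  obtain ⟨a, b, r, s, t⟩ := two (φ := φ) (e := e) (w := p) (fun r => by
    obtain ⟨l, c, rfl⟩ := h.pt_iff.1 r
    exact hp.ne (by simpa [φ.Q_smul, h.Q, h.ne] using hp.Q)) j
  by_cases H : ∀ l, l ≠ a → l ≠ b → φ.B (e l) p = 0
  · exact ⟨p, j, a, b, hp, r, s, t, H⟩
  push Not at H
  obtain ⟨l, u, v, w⟩ := H
  obtain ⟨p', c, d⟩ := step hq h hR hp.Q hp.tf hp.supp r u v s t w
  refine ih _ (Finset.card_lt_card ⟨fun i => ?_, fun y => ?_⟩) c rfl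
  · simpa using mt (d i)
  · simpa [c.zero] using y (show b ∈ _ by simpa)

theorem thmR (hS : ∀ i j, I i → I j → i ≠ j → sw φ e i j ∈ K) (h3 : ∀ a b, ∃ c, I c ∧ c ≠ a ∧ c ≠ b) (h1 : QF K u)
    (h2 : φ.Q u ≠ 0) (h4 : ∀ i, φ.B (e i) u ≠ 0 → I i) (h5 : ¬ Pt φ e u) : ∃ p j a b, DD φ e K I p j ∧ a ≠ b ∧
      φ.B (e a) p ≠ 0 ∧ φ.B (e b) p ≠ 0 ∧ ∀ l, l ≠ a → l ≠ b → φ.B (e l) p = 0 := by
  suffices ∃ p j, DD φ e K I p j from this.elim fun _ => Exists.rec fun _ => shrink hq h hR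
  have hφ := h.herm
  obtain ⟨o, ho⟩ := not_forall.1 (mt (h.sep u) (by rintro rfl; simp at h2))
  obtain ⟨i, j, r, a, b⟩ := two h5 o
  by_cases r1 : φ.Q (u - φ.B (e i) u • e i) = 0
  · exact ⟨_, i, (dd_of hq h hR h1 a (by rwa [h.Q_sub, sub_eq_zero] at r1) r.symm b h4).choose_spec.1⟩
  obtain ⟨m, hm⟩ := hq.exists_norm (c := -φ.Q (u - φ.B (e i) u • e i)) (by rw [map_neg, hφ.σ_Q])
  obtain ⟨p1, p2⟩ := plane hq (K := K) (h.Q i) (by simp [h.B]) r1 a (by simpa) (hR i (h4 i a)) (by simpa) hm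
  have b' : ∀ l, l ≠ i → φ.B (e l) (m • e i + (u - φ.B (e i) u • e i)) = φ.B (e l) u := fun l s => by simp [h.B, s]
  by_cases r2 : ∃ k, k ≠ i ∧ k ≠ j ∧ φ.B (e k) u ≠ 0
  · obtain ⟨k, s, t, v⟩ := r2
    exact ⟨_, j, (step hq h hR (by rw [h.Q_add _ (by simp [h.B]), hm, neg_add_cancel]) p1 (fun l s => by
      by_cases t : l = i; exacts [t ▸ h4 i a, h4 l (b' l t ▸ s)]) r s t (by
        rintro y; simp [h.B] at y; simp [y, r1] at hm) (by rwa [b' _ r.symm]) (by rwa [b' _ s])).choose_spec.1⟩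
  push Not at r2
  have eu := h.eq2 r r2
  set α := φ.B (e i) u
  set β := φ.B (e j) u
  have hi := h4 i a
  have hj := h4 j b
  rw [eu, add_sub_cancel_left] at p2
  rw [eu] at h1 h2
  clear_value α β
  obtain ⟨k, hk, k1, k2⟩ := h3 i j
  have Q2 : ∀ {i j}, i ≠ j → ∀ a b : F, φ.Q (a • e i + b • e j) = φ.σ a * a + φ.σ b * b := fun r a b => by
    rw [h.Q_add _ (by simp [h.B, r]), φ.Q_smul, h.Q, mul_one]
  rw [Q2 r] at h2
  set n := φ.σ α * α / (φ.σ α * α + φ.σ β * β) with en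
  have n0 : n ≠ 0 := by simp [en, a, h2]
  have n1 : n - 1 ≠ 0 := by rw [en, div_sub_one h2]; simp [b, h2]
  have n2 : φ.σ n = n := by simp [en, mul_comm]
  clear_value n
  obtain ⟨y, y1⟩ := hq.exists_norm (c := n - 1) (by simp [n2])
  obtain ⟨z, z1⟩ := hq.exists_norm (c := -1) (by simp)
  obtain ⟨μ, z2⟩ := hq.exists_norm n2
  obtain ⟨g, g1, c, g2⟩ := p2 1 0 1 (y / β) (by simp [h.Q]) (by
    rw [smul_smul, div_mul_cancel₀ _ b, Q2 r, y1]; simpa)
  simp only [one_smul, zero_smul, add_zero, smul_smul, div_mul_cancel₀ _ b, zero_mul] at g2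
  have w1 := QF.of_smul hφ (g2 ▸ (hR i hi).map g1.1) (by rintro rfl; exact h.ne i (by simpa using g2))
  have w2 := h1.map (hS i k hi hk k1.symm)
  rw [map_add, map_smul, map_smul, h.sw_e k1.symm, h.sw_e k1.symm, Equiv.swap_apply_left,
    Equiv.swap_apply_of_ne_of_ne r.symm k2.symm, add_comm] at w2
  obtain ⟨m', hm'⟩ := hq.exists_norm (c := -φ.Q (α • e k)) (by rw [map_neg, hφ.σ_Q])
  obtain ⟨g', g3, c', g4⟩ := (plane hq (K := K) (h.Q j) (by simp [h.B, k2.symm]) (by simp [φ.Q_smul, h.Q, a]) b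
    (by rwa [Q2 k2.symm, add_comm]) (hR j hj) w2 hm').2 1 0 z (μ / α) (by simp [h.Q])
    (by rw [smul_smul, div_mul_cancel₀ _ a, Q2 k2.symm, z1, z2, neg_add_eq_sub]; exact n1)
  simp only [one_smul, zero_smul, add_zero, smul_smul, div_mul_cancel₀ _ a, zero_mul] at g4
  have g5 : g'.1 (e i) = e i := Dsp.fix g3.2 fun y hy => by
    obtain ⟨s, t, rfl⟩ := Submodule.mem_span_pair.1 hy; simp [h.B, r, k1.symm]
  have g6 := congrArg φ.Q g4
  rw [Isom.Q_map, h.Q, φ.Q_smul, Q2 k2.symm, z1, z2] at g6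
  have w3 := w1.map g3.1
  rw [map_add, map_smul, g5, g4] at w3
  have y0 : y ≠ 0 := by rintro rfl; exact n1 (by simpa using y1.symm)
  have c0 : c' ≠ 0 := by rintro rfl; simp at g6
  have μ0 : μ ≠ 0 := by rintro rfl; exact n0 (by simpa using z2.symm)
  refine ⟨_, k, (dd_of hq h hR (k := i) w3 (by simp [h.B, k1, k2, y0, c0, μ0]) ?_ k1.symm (by simp [h.B, r, k1.symm]) fun l s => ?_).choose_spec.1⟩
  · rw [← one_smul F (e i), h.Q_add _ (by simp [h.B, r, k1.symm]), φ.Q_smul, φ.Q_smul, Q2 k2.symm, z1, z2]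
    simp only [h.B, map_add, map_smul, k1, k2, if_false, if_true, smul_eq_mul, map_mul, map_one, mul_zero, zero_add, mul_one]
    linear_combination g6 - (φ.σ c' * c') * y1 - (φ.σ y * y * φ.σ c' * c') * z2
  · by_contra t
    have : ∀ m, I m → l ≠ m := fun m s r => t (r ▸ s)
    simp [h.B, this i hi, this j hj, this k hk] at s

end thmR
end H12.Fr
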