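import Mathlib
import Cfsg.Agent.H12.FrD
import Cfsg.Agent.H12.XfC
import Cfsg.Agent.H10.Dec

/-!
# Stabilisers of orthogonal decompositions in `SU_n(q)`
* `Bk.E_le` (blocks of dimension `≥ 2`), `su_dec`
-/

namespace H12.Fr

open Module H10 H10.Form H12.Xf

variable {F V : Type*} [Field F] [AddCommGroup V] [Module F V] {φ : Form F V} {q : ℕ} {κ : Type*} {D : κ → Submodule F V}
  {a b : κ} {k : ℕ} {p u x y : V} {M : Subgroup φ.Isom} {g : φ.Isom} {W : Submodule F V}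

theorem span_iso (hφ : φ.IsHerm) {A : Submodule F V} (hW : φ.NondegOn W) (hu : u ∈ W) (h0 : u ≠ 0) (hQ : φ.Q u = 0) (hA : u ∈ A)
    (H : ∀ w ∈ W, φ.Q w = 0 → φ.B u w ≠ 0 → w ∈ A) : W ≤ A := by
  have G : ∀ v ∈ W, φ.B u v ≠ 0 → v ∈ A := fun v hv s => by
    obtain ⟨c, r⟩ := φ.isHyp_of_B hQ (w := (φ.B u v)⁻¹ • v) (by simp [s])
    have := sub_mem (H _ (add_mem (W.smul_mem _ hv) (W.smul_mem _ hu)) r.Qf (by simp [r.Bef])) (A.smul_mem c hA)
    exact (A.smul_mem_iff (inv_ne_zero s)).1 (by simpa using this)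
  obtain ⟨f, hf, s⟩ : ∃ f ∈ W, φ.B u f ≠ 0 := by by_contra! s; exact h0 (hW u hu s)
  intro v hv
  by_cases r : φ.B u v = 0
  · simpa using sub_mem (G _ (add_mem hv hf) (by simpa [r])) (G f hf s)
  · exact G v hv r

theorem hyp_in (hW : φ.NondegOn W) (hu : u ∈ W) (h0 : u ≠ 0) (hQ : φ.Q u = 0) : ∃ f ∈ W, φ.IsHyp u f := by
  obtain ⟨f, hf, s⟩ : ∃ f ∈ W, φ.B u f ≠ 0 := by by_contra! s; exact h0 (hW u hu s)
  obtain ⟨c, r⟩ := φ.isHyp_of_B hQ (w := (φ.B u f)⁻¹ • f) (by simp [s])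
  exact ⟨_, add_mem (W.smul_mem _ hf) (W.smul_mem _ hu), r⟩

variable [φ.Nondeg] [FiniteDimensional F V]

theorem spl (h : φ.NondegOn W) (x : V) : ∃ u ∈ W, ∃ y ∈ φ.perp W, x = u + y := by
  obtain ⟨a, b, rfl⟩ := exists_add_of_isCompl h.isCompl_perp x
  exact ⟨a, a.2, b, b.2, rfl⟩

variable (φ) in
structure Bk (q : ℕ) (D : κ → Submodule F V) (k : ℕ) (M : Subgroup φ.Isom) : Prop where
  hq : φ.IsUnitary q
  od : φ.ODec D
  rk : ∀ i, finrank F (D i) = k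
  two : 2 ≤ k
  mem : ∀ g : φ.Isom, g ∈ φ.SIsom → g ∈ φ.dstab D → g ∈ M

namespace Bk
variable (h : Bk φ q D k M)
include h

theorem sg (hp : p ∈ D a) (hw : u ∈ D a) (h0 : φ.Q p = 0) (h1 : φ.B p u = 0) {s : F} (hs : φ.T s = φ.Q u) : φ.siegel p u s ∈ M :=
  h.mem _ (E_le_SIsom (φ.siegel_mem_E h0 h1 hs)) (h.od.fix_perp_le a fun x hx => siegel_apply_of_orth h0 h1 hs (hx p hp) (hx u hw))

theorem tf (hp : p ∈ D a) (h0 : φ.Q p = 0) : TF M p := fun _ ht => h.sg hp (zero_mem _) h0 (by simp) (by simpa)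

theorem iso (a : κ) : ∃ u ∈ D a, u ≠ 0 ∧ φ.Q u = 0 := h.hq.exists_singular (h.rk a ▸ h.two)

theorem adj (hg : g ∈ φ.dstab D) (hW : φ.NondegOn W) (h0 : W ≠ ⊥) (hl : W ≤ D a) : ∃ r ∈ φ.fix (φ.perp W), g * r ∈ M := by
  obtain ⟨r, r1, r2⟩ := h.hq.exists_fix_det hW h0 g
  exact ⟨r, r1, h.mem _ r2 (mul_mem hg (h.od.fix_perp_le a fun x hx => r1 x (φ.perp_anti hl hx)))⟩

theorem wit (hW : φ.NondegOn W) (hl : W ≤ D a) (hk : finrank F W < k) (hx : x ∈ W) (hy : y ∈ D a) (x0 : x ≠ 0) (y0 : y ≠ 0)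
    (hQ : φ.Q x = φ.Q y) : ∃ g ∈ M, g.1 x = y ∧ ∀ z ∈ φ.perp (D a), g.1 z = z := by
  obtain ⟨g, g1, g2⟩ := (h.od.nondeg a).exists_fix_map (hl hx) hy x0 y0 hQ
  obtain ⟨r, r1, r2⟩ := h.adj (h.od.fix_perp_le a g1) ((h.od.nondeg a).inf_perp hW hl) (fun e => by
    have := finrank_le_inf_perp (φ := φ) (D a) W
    rw [e, finrank_bot, h.rk] at this; omega) inf_le_left
  exact ⟨_, r2, by rw [Isom.mul_apply, r1 x fun z hz => φ.B_symm_zero (hz.2 x hx), g2], fun z hz => by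
    rw [Isom.mul_apply, r1 z (φ.perp_anti inf_le_left hz), g1 z hz]⟩

theorem ext (r : a ≠ b) (hp : p ∈ D a) (p0 : p ≠ 0) (h0 : φ.Q p = 0) (h1 : InA M p y) (h2 : y ∉ φ.perp (D b)) : φ.E ≤ M := by
  classical
  have hφ := h.hq.herm
  have hX := h.tf hp h0
  have o : ∀ u ∈ D b, φ.B u p = 0 := fun u hu => h.od.orth b a r.symm hp u hu
  obtain ⟨u, hu, u1, u2⟩ : ∃ u ∈ D b, φ.Q u = 0 ∧ φ.B u y ≠ 0 := by
    by_contra! H
    obtain ⟨u, hu, u0, u1⟩ := h.iso b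
    exact h2 (φ.le_perp_comm.1 (span_iso hφ (A := φ.perp (F ∙ y)) (h.od.nondeg b) hu u0 u1
      (φ.mem_perp_singleton.2 (φ.B_symm_zero (H u hu u1))) fun w hw s _ => φ.mem_perp_singleton.2 (φ.B_symm_zero (H w hw s)))
      (Submodule.mem_span_singleton_self y))
  have u0 : u ≠ 0 := by rintro rfl; simp at u2
  obtain ⟨f, hf, hyp⟩ := hyp_in (h.od.nondeg a) hp p0 h0
  obtain ⟨f', hf', hyp'⟩ := hyp_in (h.od.nondeg b) hu u0 u1
  obtain ⟨t, t0, ht⟩ := h.hq.exists_skew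
  let S : AddSubgroup F := AddSubgroup.ofSub {c | InA M p (c • u)} ⟨0, by simp, 0, by simp, by simp [φ.siegel_zero h0]⟩
    fun a ha b hb => by simpa [sub_smul, sub_eq_add_neg, add_smul] using InA.sub h0 ha hb
  have m : u ∈ sgSub M h0 hX := mem_sg.2 (ns h.hq S (fun d hd s hs => by
    by_cases e : d = -1
    · simpa [e] using S.neg_mem hs
    have c0 : 1 + φ.σ d ≠ 0 := fun s => e (eq_neg_of_add_eq_zero_right (by simpa using congrArg φ.σ s))
    have := InA.map h0 hs (h.mem (φ.rot p f (1 + φ.σ d) * φ.rot u f' (1 + φ.σ d)⁻¹) (by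
      rw [mem_SIsom, ← coe_det, map_mul, Units.val_mul, coe_det, coe_det, φ.det_rot hyp c0,
        φ.det_rot hyp' (inv_ne_zero c0), map_inv₀]
      have := (map_ne_zero φ.σ).2 c0
      field_simp) (mul_mem (h.od.fix_perp_le a fun x hx => φ.rot_apply_of_orth hyp c0 (hx p hp) (hx f hf))
        (h.od.fix_perp_le b fun x hx => φ.rot_apply_of_orth hyp' (inv_ne_zero c0) (hx u hu) (hx f' hf'))))
    rw [Isom.mul_apply, φ.rot_apply_of_orth hyp' (inv_ne_zero c0) (o u hu) (o f' hf'), φ.rot_apply_e hyp c0, map_smul,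
      Isom.mul_apply, φ.rot_apply_e hyp' (inv_ne_zero c0), map_smul, φ.rot_apply_of_orth hyp c0 (h.od.orth a b r hu p hp)
      (h.od.orth a b r hu f hf)] at this
    change InA M p _
    convert this.of_smul h0 c0 using 1
    rw [smul_smul, smul_smul, map_add, σ_σ, map_one]; congr 1; field_simp; linear_combination s * hd)
    (inA_tv hφ h0 u1 (o u hu) (h.tf hu u1) h1 ht) (mul_ne_zero t0 u2))
  have m2 : D b ≤ sgSub M h0 hX := span_iso hφ (h.od.nondeg b) hu u0 u1 m fun w hw s v =>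
    mem_sg_tv h.hq s (o w hw) (h.tf hw s) m (mt φ.B_symm_zero v)
  have m3 : ⊤ ≤ sgSub M h0 hX ⊔ D a := h.od.sup ▸ iSup_le fun c => by
    by_cases s : c = a
    · exact s ▸ le_sup_right
    refine le_trans ?_ le_sup_left
    by_cases s' : b = c
    · exact s' ▸ m2
    have := (h.od.nondeg b).nondeg
    have := (h.od.nondeg c).nondeg
    obtain ⟨e, he⟩ := (h.hq.restrict (D b)).exists_isEquiv (h.hq.restrict (D c)) (by rw [h.rk, h.rk])
    obtain ⟨g, g1, -, -, g2⟩ := h.od.exists_swap s' he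
    obtain ⟨r, r1, r2⟩ := h.adj (g := g) ⟨_, g1⟩ (h.od.nondeg b) (fun e => u0 (by simpa [e] using hu)) le_rfl
    rw [← Equiv.swap_apply_left b c, ← g1]
    rintro _ ⟨w, hw, rfl⟩
    simpa [Isom.mul_apply] using map_mem_sgSub r2 (by
      rw [Isom.mul_apply, r1 p (h.od.orth b a ‹a ≠ b›.symm hp), g2 p (h.od.orth b a ‹a ≠ b›.symm hp) (h.od.orth c a s hp)])
      (m2 (((φ.stab _).inv_mem (φ.fix_perp_le_stab _ r1) w).1 hw))
  refine (full_of_le_sgSub (hp := h0) (hX := hX) fun v hv => ?_).E_le h0 (h.tf hf hyp.Qf t ht) ?_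
  · obtain ⟨l, hl, d, hd, rfl⟩ := Submodule.mem_sup.1 (m3 (Submodule.mem_top (x := v)))
    have : φ.B p d = 0 := by simpa [hl.1] using φ.mem_perp_singleton.1 hv
    exact add_mem hl (mem_sgSub_of this fun c s hs => h.sg hp ((D a).smul_mem c hd) h0 (by simp [this]) hs)
  · simp [tv_apply hφ hyp.Qf ht, hyp.Bee, hyp.Bef, hyp.Bfe, t0, hφ.ε_eq]

theorem fin (r : a ≠ b) (hp : p ∈ D a) (p0 : p ≠ 0) (h0 : φ.Q p = 0) (hx : φ.Q x = 0) (h1 : TF M x) (h2 : x ∉ φ.perp (D b))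
    (h3 : φ.B p x = 0) (hg : g ∈ M) (h4 : g.1 x = p + x) : φ.E ≤ M := by
  obtain ⟨t, t0, ht⟩ := h.hq.exists_skew
  exact h.ext r hp p0 h0 (inA_add h.hq.herm h0 hx h3 (h.tf hp h0) h1 (h4 ▸ h1.map hx hg) ht) (by rwa [Submodule.smul_mem_iff _ t0])

theorem fin1 (H : 3 ≤ k ∨ ∃ c, φ.σ c = c ∧ c ≠ 0 ∧ c ≠ 1) (r : a ≠ b) (hp : p ∈ D a) (p0 : p ≠ 0) (h0 : φ.Q p = 0)
    (hy : y ∈ φ.perp (D a)) (hx : φ.Q (p + y) = 0) (h1 : TF M (p + y)) (h2 : p + y ∉ φ.perp (D b)) : φ.E ≤ M := by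
  obtain ⟨f, hf, hyp⟩ := hyp_in (h.od.nondeg a) hp p0 h0
  obtain ⟨c, c0, c1, g, hg, g1, g2⟩ : ∃ c : F, c ≠ 0 ∧ c ≠ 1 ∧ ∃ g ∈ M, g.1 p = c • p ∧ ∀ z ∈ φ.perp (D a), g.1 z = z := by
    obtain H | ⟨c, s, c0, c1⟩ := H
    · obtain ⟨c, c1, c2⟩ := exists_c h.hq
      have c0 : c ≠ 0 := by rintro rfl; simp at c1
      exact ⟨c, c0, by rintro rfl; simp at c2, h.wit hyp.nondegOn (Submodule.span_le.2 (by simp [Set.insert_subset_iff, hp, hf]))
        (by rw [hyp.finrank_span]; omega) (Submodule.subset_span (by simp)) ((D a).smul_mem c hp) p0 (smul_ne_zero c0 p0)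
        (by rw [φ.Q_smul_of_sing h0, h0])⟩
    · have : φ.rot p f c ∈ φ.fix (φ.perp (D a)) := fun x hx => φ.rot_apply_of_orth hyp c0 (hx p hp) (hx f hf)
      exact ⟨c, c0, c1, _, h.mem _ (by rw [mem_SIsom, φ.det_rot hyp c0, s, mul_inv_cancel₀ c0])
        (h.od.fix_perp_le a this), φ.rot_apply_e hyp c0, this⟩
  exact h.fin r ((D a).smul_mem (c - 1) hp) (smul_ne_zero (sub_ne_zero.2 c1) p0) (φ.Q_smul_of_sing h0 _) hx h1 h2
    (by simp [φ.B_smul_left, hy p hp, φ.B_self_eq_zero h0]) hg (by rw [map_add, g1, g2 y hy]; module)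

omit [φ.Nondeg] [FiniteDimensional F V] h in
theorem _root_.H12.Fr.exists_B (hq : φ.IsUnitary q) [φ.Nondeg] [FiniteDimensional F V] (hW : φ.NondegOn W) (h2 : 2 ≤ finrank F W)
    (hu : u ∈ W) (h0 : φ.Q u ≠ 0) (m : F) : ∃ y ∈ W, φ.Q y = φ.Q u ∧ φ.B u y = m := by
  have hφ := hq.herm
  obtain ⟨w, w1, w2⟩ := hq.exists_Q_eq (hW.inf_perp (φ.nondegOn_singleton (hφ.Q_eq u ▸ h0)) (by simpa)) (fun e => by
    have := finrank_le_inf_perp (φ := φ) W (F ∙ u)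
    have := finrank_span_singleton_le (F := F) u
    rw [e, finrank_bot] at *; omega) (c := φ.Q u - φ.σ m * m / φ.Q u) (by simp [hφ.σ_Q, mul_comm])
  have w3 := φ.mem_perp_singleton.1 w1.2
  refine ⟨(m / φ.Q u) • u + w, add_mem (W.smul_mem _ hu) w1.1, ?_, by simp [w3, ← hφ.Q_eq, h0]⟩
  rw [φ.Q_add_of_orth (by simp [φ.B_smul_left, w3]), φ.Q_smul, w2, map_div₀, hφ.σ_Q]; field_simp; ring

theorem E_le [Finite κ] [Nonempty κ] (H : 3 ≤ k ∨ ∃ c, φ.σ c = c ∧ c ≠ 0 ∧ c ≠ 1) (hg : g ∈ M) (hg' : g ∉ φ.dstab D) :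
    φ.E ≤ M := by
  have hφ := h.hq.herm
  obtain ⟨x, hx, x1, x2⟩ : ∃ x, φ.Q x = 0 ∧ TF M x ∧ ∀ j, x ∉ D j := by
    by_contra! G
    refine hg' (h.od.mem_dstab_of_le h.rk (by have := h.two; omega) fun i => ?_)
    obtain ⟨u, hu, u0, u1⟩ := h.iso i
    obtain ⟨j, hj⟩ := G _ (by simpa) ((h.tf hu u1).map u1 hg)
    refine ⟨j, Submodule.map_le_iff_le_comap.2 (span_iso hφ (h.od.nondeg i) hu u0 u1 hj fun w hw s t => ?_)⟩
    obtain ⟨l, hl⟩ := G _ (by simpa) ((h.tf hw s).map s hg)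
    obtain rfl : j = l := by_contra fun e => t (by simpa using h.od.orth j l e hl _ hj)
    exact hl
  obtain ⟨a, b, r, ha, hb⟩ := h.od.exists_two x2
  obtain ⟨u, hu, y, hy, rfl⟩ := spl (h.od.nondeg a) x
  have u0 : u ≠ 0 := by rintro rfl; exact ha (by simpa)
  by_cases u1 : φ.Q u = 0
  · exact h.fin1 H r hu u0 u1 hy hx x1 hb
  obtain H3 | ⟨c, c1, c2, c3⟩ := H
  · obtain ⟨p, hp, p0, p1⟩ := h.hq.exists_singular (W := D a ⊓ φ.perp (F ∙ u)) (by
      have := finrank_le_inf_perp (φ := φ) (D a) (F ∙ u)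
      have := finrank_span_singleton_le (F := F) u
      rw [h.rk] at *; omega)
    have p2 := φ.B_symm_zero (φ.mem_perp_singleton.1 hp.2)
    obtain ⟨s, hs, -⟩ := φ.half u
    exact h.fin r ((D a).smul_mem (φ.Q u) hp.1) (smul_ne_zero u1 p0) (φ.Q_smul_of_sing p1 _) hx x1 hb
      (by simp [φ.B_smul_left, hy p hp.1, p2]) (h.sg hp.1 hu p1 p2 hs)
      (by simp [φ.siegel_apply p1 p2 hs, hy p hp.1, p2, hy u hu, hφ.Q_eq, add_comm, add_left_comm])
  obtain ⟨v, hv, z, hz, rfl⟩ := spl (h.od.nondeg b) y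
  have va := h.od.orth a b r hv
  have ub := h.od.orth b a r.symm hu
  have za : z ∈ φ.perp (D a) := (add_mem_cancel_left va).1 hy
  have v0 : v ≠ 0 := by rintro rfl; exact hb (add_mem ub (by simpa))
  by_cases v1 : φ.Q v = 0
  · rw [add_left_comm] at hx x1 ha
    exact h.fin1 (.inr ⟨c, c1, c2, c3⟩) r.symm hv v0 v1 (add_mem ub hz) hx x1 ha
  obtain ⟨s, hs⟩ := h.hq.exists_norm c1
  obtain ⟨t, t0, ht⟩ := h.hq.exists_skew
  obtain ⟨θ, hθ⟩ := h.hq.exists_T_eq (c := φ.Q u * (1 + c)) (by simp [hφ.σ_Q, c1])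
  have s0 : s ≠ 0 := by rintro rfl; exact c2 (by simpa using hs.symm)
  obtain ⟨u', hu', a1, a2⟩ := exists_B h.hq (h.od.nondeg a) (h.rk a ▸ h.two) hu u1 (θ / s)
  obtain ⟨v', hv', b1, b2⟩ := exists_B h.hq (h.od.nondeg b) (h.rk b ▸ h.two) hv v1 (φ.σ (s / t) - θ / s - φ.Q z)
  have k1 : ∀ u : V, finrank F (F ∙ u) < k := fun u => by have := finrank_span_singleton_le (F := F) u; have := h.two; omega
  obtain ⟨g, g1, g2, g3⟩ := h.wit (φ.nondegOn_singleton (hφ.Q_eq u ▸ u1)) (by simpa) (k1 u) (Submodule.mem_span_singleton_self u)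
    hu' u0 (by rintro rfl; exact u1 (by simpa using a1.symm)) a1.symm
  obtain ⟨g', g4, g5, g6⟩ := h.wit (φ.nondegOn_singleton (hφ.Q_eq v ▸ v1)) (by simpa) (k1 v) (Submodule.mem_span_singleton_self v)
    hv' v0 (by rintro rfl; exact v1 (by simpa using b1.symm)) b1.symm
  have e : (g * g').1 (u + (v + z)) = u' + (v' + z) := by
    rw [Isom.mul_apply, map_add g'.1, map_add g'.1, g6 u ub, g5, g6 z hz, map_add, g2, g3 _ (add_mem (h.od.orth a b r hv') za)]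
  have y1 := x1.map hx (mul_mem g1 g4)
  have y2 := (Isom.Q_map (g * g') _).trans hx
  rw [e] at y1 y2
  have z1 := x1.map hx (y1 t ht)
  have z2 := (Isom.Q_map (φ.siegel (u' + (v' + z)) 0 t) _).trans hx
  have e2 : t * φ.B (u' + (v' + z)) (u + (v + z)) = s := by
    rw [hφ.B_comm]
    simp only [map_add, LinearMap.add_apply, a2, b2, za u hu, hz v hv, h.od.orth a b r hv' u hu, h.od.orth b a r.symm hu' v hv,
      φ.B_symm_zero (za u' hu'), φ.B_symm_zero (hz v' hv'), ← hφ.Q_eq, map_sub, σ_σ, map_zero]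
    field_simp; ring
  rw [tv_apply hφ y2 ht, e2, show u + (v + z) - s • (u' + (v' + z)) = (u - s • u') + ((v - s • v') + (z - s • z)) by module] at z1 z2
  have n : ∀ {u u' : V}, φ.Q u' = φ.Q u → φ.Q u ≠ 0 → u - s • u' ≠ 0 := fun {u u'} i j l => c3 (mul_right_cancel₀ j (by
    have := congrArg φ.Q (sub_eq_zero.1 l)
    rw [φ.Q_smul, hs, i] at this; rw [← this, one_mul]))
  have m := sub_mem hv ((D b).smul_mem s hv')
  exact h.fin1 (.inr ⟨c, c1, c2, c3⟩) r (sub_mem hu ((D a).smul_mem s hu')) (n a1 u1)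
    (by rw [φ.Q_sub, φ.Q_smul, hs, a1, map_smul, a2, smul_eq_mul, mul_div_cancel₀ _ s0, hθ]; ring)
    (add_mem (h.od.orth a b r m) (sub_mem za (Submodule.smul_mem _ s za))) z2 z1 fun l => n b1 v1 (h.od.nondeg b _ m fun w hw =>
      φ.B_symm_zero ((add_mem_cancel_right (sub_mem hz (Submodule.smul_mem _ s hz))).1 ((add_mem_cancel_left
        (h.od.orth b a r.symm (sub_mem hu ((D a).smul_mem s hu')))).1 l) w hw))

end Bk

theorem dec_le (hq : φ.IsUnitary q) (hn : 10 ≤ finrank F V) [Finite κ] (od : φ.ODec D) (rk : ∀ i, finrank F (D i) = k) (k0 : 0 < k)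
    (hex : ¬ (k = 2 ∧ q = 2)) (hM : φ.E ⊓ φ.dstab D ≤ M) (hg : g ∈ M) (hE : g ∈ φ.E) (hg' : g ∉ φ.dstab D) : φ.E ≤ M := by
  classical
  have := Fintype.ofFinite κ
  have eq := hq.E_eq_SIsom (by omega)
  have : Nonempty κ := by
    by_contra! r
    have := od.sup
    rw [iSup_of_empty] at this
    rw [← finrank_top, ← this, finrank_bot] at hn; omega
  by_cases h2 : 2 ≤ k
  · refine Bk.E_le ⟨hq, od, rk, h2, fun g a b => hM ⟨eq ▸ a, b⟩⟩ (or_iff_not_imp_left.2 fun r => ?_) hg hg'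
    have := hq.finite
    have := hq.two_le
    by_contra! H
    have := Nat.card_le_card_of_injective (fun x : {x : F // x ≠ 0 ∧ x ^ q = x} => ()) fun a b _ =>
      Subtype.ext ((H a (hq.σ_eq _ ▸ a.2.2) a.2.1).trans (H b (hq.σ_eq _ ▸ b.2.2) b.2.1).symm)
    rw [card_fixed_ne hq.card] at this
    simp at this; omega
  obtain rfl : k = 1 := by omega
  choose e e1 e2 using fun i => hq.exists_Q_eq (od.nondeg i) (fun r => by have := rk i; rw [r, finrank_bot] at this; omega) (c := 1) (map_one _)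
  have e3 : ∀ i, F ∙ e i = D i := fun i => Submodule.eq_of_le_of_finrank_eq (by simpa using e1 i)
    (by rw [rk, finrank_span_singleton (by rintro r; simpa [r] using e2 i)])
  have on : ON φ e := ⟨hq.herm, fun i j => by
    split_ifs with r; exacts [by rw [r, ← hq.herm.Q_eq, e2], od.orth i j r (e1 j) _ (e1 i)],
    fun v H => od.eq_zero fun i => e3 i ▸ φ.mem_perp_singleton.2 (H i)⟩
  have e4 : on.Mn ≤ φ.dstab D := fun g r => od.mem_dstab_of_le rk k0 fun i => by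
    obtain ⟨j, c, s⟩ := on.pt_iff.1 (r i)
    exact ⟨j, by rw [← e3, Submodule.map_span]; simpa [s] using (D j).smul_mem c (e1 j)⟩
  by_contra hE'
  refine hg' (e4 (Fr.le_mn (M := M ⊓ φ.E) ⟨hq, on, hn.trans ?_, fun g a b => ?_, fun g a => det_E a.2,
    fun r => hE' (r.trans inf_le_left)⟩ ⟨hg, hE⟩))
  · rw [← finrank_top, ← top_unique (show ⊤ ≤ Submodule.span F (Set.range e) from fun v _ => on.mem fun i _ =>
      Submodule.subset_span ⟨i, rfl⟩)]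
    exact finrank_range_le_card e
  · have : g ∈ φ.E := eq ▸ φ.mem_SIsom.2 (φ.coe_det g ▸ a)
    exact ⟨hM ⟨this, e4 b⟩, this⟩

theorem dec_ne (hq : φ.IsUnitary q) (hn : 10 ≤ finrank F V) (od : φ.ODec D) (rk : ∀ i, finrank F (D i) = k) (k0 : 0 < k)
    (r : a ≠ b) : ¬ φ.E ≤ φ.dstab D := fun H => by
  obtain ⟨u, hu, u1⟩ := hq.exists_Q_eq (od.nondeg a) (fun r => by have := rk a; rw [r, finrank_bot] at this; omega) (c := 1) (map_one _)
  have u0 : u ≠ 0 := by rintro rfl; simp at u1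
  obtain ⟨p, hp, p0, p1⟩ := hq.exists_singular (W := φ.perp (D a)) (by
    have := φ.finrank_perp (D a)
    have := Submodule.finrank_mono (od.orth a b r)
    rw [rk] at *; omega)
  have G : ∀ i, u + p ∉ D i := fun i hi => by
    by_cases s : a = i
    · exact p0 (od.nondeg a p ((add_mem_cancel_left hu).1 (s ▸ hi)) fun y hy => φ.B_symm_zero (hp y hy))
    · exact u0 (od.nondeg a u hu fun y hy => φ.B_symm_zero ((add_mem_cancel_right hp).1 (od.orth a i s hi) y hy))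
  obtain ⟨g, g1, g2⟩ := (hq.std (by omega)).exists_E_map (by omega) u0 (v := u + p) (fun s => G a (s ▸ zero_mem _))
    (by rw [φ.Q_add_of_orth (hp u hu), p1, add_zero])
  obtain ⟨σ, hσ⟩ := H g1
  exact G _ (g2 ▸ (hσ a).le (Submodule.mem_map_of_mem hu))

open Cfsg Cfsg.Geo in
theorem su_dec {F : Type*} [Field F] [Fintype F] {n q : ℕ} (hF : Fintype.card F = q ^ 2) (hn : 10 ≤ n) {t : ℕ} (k : ℕ)
    (D : Fin t → Submodule F (Fin n → F)) (hD : IsNondegenerateMDecomposition (hermForm n F q) k D) (hex : ¬ (k = 2 ∧ q = 2)) :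
    IsMaximalIn (GU n F q ⊓ specialLinear (Fin n) F) (decompositionStabilizer D ⊓ (GU n F q ⊓ specialLinear (Fin n) F)) := by
  have hF' : Nat.card F = q ^ 2 := by rw [Nat.card_eq_fintype_card, hF]
  have h0 := stdU_isUnitary hF' n
  have od : (stdU hF' n).ODec D := oDec_of (fun _ _ => .inr rfl) (fun x y => (stdU hF' n).B_eq_zero_comm) hD
  have := hD.decomp.two_le
  rw [SU_eq_E hF' (by omega)]
  refine isMaximalIn_map _ ?_ fun M hM g hg hg1 hg2 => ?_ <;> rw [comap_decompositionStabilizer] at *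
  · exact dec_ne h0 (by simpa) od hD.decomp.finrank_eq hD.decomp.pos (a := ⟨0, by omega⟩) (b := ⟨1, by omega⟩) (by simp)
  · exact dec_le h0 (by simpa) od hD.decomp.finrank_eq hD.decomp.pos hex hM hg hg1
      fun r => hg2 ((comap_decompositionStabilizer D).ge r)

end H12.Fr
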