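import Mathlib
import Cfsg.Agent.H12.FrE

/-!
# Frames in dimension six, I : two frames of a proper overgroup of the monomial group (`q ≥ 3`)
* `Fs`, `Fs.star`, `Fs.z2`, `Fs.e2`, `Fs.e4`
-/

namespace H12.Fr

open Module H10 H10.Form H12.Xf

variable {F V : Type*} [Field F] [AddCommGroup V] [Module F V] {φ : Form F V} {q : ℕ} {ι : Type*} [Fintype ι] [DecidableEq ι]
  {e f : ι → V} {a b i j k l : ι} {u v w x p : V} {c : F} {M : Subgroup φ.Isom} {g : φ.Isom}

variable [φ.Nondeg] [FiniteDimensional F V]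

variable (φ) in
structure Fs (q : ℕ) (M : Subgroup φ.Isom) (e : ι → V) : Prop where
  hq : φ.IsUnitary q
  on : ON φ e
  n : Fintype.card ι = 6
  q3 : 3 ≤ q
  mem : ∀ g : φ.Isom, (φ.det g : F) = 1 → g ∈ on.Mn → g ∈ M
  le : ∀ g ∈ M, (φ.det g : F) = 1
  ne : ¬ φ.E ≤ M

namespace Fs
variable (h : Fs φ q M e)
include h

theorem ex (l : List ι) (hl : l.length < 6) : ∃ i, i ∉ l :=
  (nmem l.toFinset (List.toFinset_card_le l) (hl.trans_eq h.n.symm)).imp fun _ r => by simpa using r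

theorem map (hg : g ∈ M) : Fs φ q M fun i => g.1 (e i) :=
  ⟨h.hq, h.on.map g, h.n, h.q3, fun k a b => by
    simpa [mul_assoc] using mul_mem (mul_mem hg (h.mem (g⁻¹ * k * g) (by simp [a]) fun i => (b i).imp fun j r l s => by
      rw [← Isom.B_map g]; simpa [Isom.mul_apply] using r l s)) (inv_mem hg), h.le, h.ne⟩

theorem rr (hc : φ.σ c * c = 1) : rf φ e i c * rf φ e j (φ.σ c) ∈ M :=
  have : φ.σ (φ.σ c) * φ.σ c = 1 := by rw [σ_σ, mul_comm, hc]
  h.mem _ (by rw [map_mul, Units.val_mul, h.on.det_rf hc, h.on.det_rf this, mul_comm, hc])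
    (mul_mem (h.on.rf_mem hc) (h.on.rf_mem this))

theorem sr (r : i ≠ j) : sw φ e i j * rf φ e k (-1) ∈ M :=
  h.mem _ (by simp [h.on.det_sw r, h.on.det_rf (c := -1)]) (mul_mem (h.on.sw_mem r) (h.on.rf_mem (by simp)))

theorem finish (r : a ≠ b) (hp : φ.Q p = 0) (ha : φ.B (e a) p ≠ 0) (hb : φ.B (e b) p ≠ 0)
    (h0 : ∀ l, l ≠ a → l ≠ b → φ.B (e l) p = 0) (hj : φ.B (e j) p = 0) (h1 : TF M p) (h2 : ∀ c : F, InA M p (c • e j)) : False := by
  have hφ := h.hq.herm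
  obtain ⟨c, c1, c2⟩ := exists_c h.hq
  have c3 : φ.σ (φ.σ c) * φ.σ c = 1 := by rw [σ_σ, mul_comm, c1]
  have m : e j ∈ sgSub M hp h1 := mem_sg.2 h2
  refine h.ne ((full_of_le_sgSub (hp := hp) (hX := h1) fun v hv => ?_).E_le hp (h.rr (i := a) (j := j) c1) ?_)
  · rw [φ.mem_perp_singleton] at hv
    rw [← sub_add_cancel v ((φ.B (e a) v / φ.B (e a) p) • p)]
    refine add_mem (h.on.mem fun l s => ?_) (Submodule.smul_mem _ _ self_mem_sgSub)
    have la : l ≠ a := by rintro rfl; simp [ha] at s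
    have lb : l ≠ b := by
      rintro rfl
      have : φ.B p (v - (φ.B (e a) v / φ.B (e a) p) • p) = 0 := by simp [hv, φ.B_self_eq_zero hp]
      nth_rw 1 [h.on.eq2 r h0] at this
      rw [map_add, LinearMap.add_apply, φ.B_smul_left, φ.B_smul_left, show φ.B (e a) (_ - _) = 0 by simp [ha]] at this
      exact s (by simpa [hb, -map_sub] using this)
    by_cases t : j = l
    · rwa [← t]
    have := map_mem_sgSub (h.sr (k := j) t) (by
      rw [Isom.mul_apply, h.on.rf_apply (by simp), hj, mul_zero, zero_smul, add_zero, h.on.sw_apply t, hj, h0 l la lb]; simp) m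
    simpa [Isom.mul_apply, h.on.rf_e, h.on.sw_e t] using this
  · rw [Isom.mul_apply, h.on.rf_apply c3, hj, mul_zero, zero_smul, add_zero, h.on.rf_apply c1]
    simp [φ.B_self_eq_zero hp, ha, sub_eq_zero, mt φ.B_symm_zero ha]
    rintro rfl; simp at c2

theorem loc (H : Hx φ e x) {g k : φ.Isom} (hg : g ∈ h.on.Mn) (h1 : g.1 x = x) (h2 : k.1 x = x)
    (h3 : ∀ z, φ.B x z = 0 → g.1 z - k.1 z ∈ F ∙ x) : k ∈ Loc M x := by
  obtain ⟨t, t1, t2, t3⟩ := H _ (φ.σ_det_mul_det g)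
  have s : ∀ y ∈ F ∙ x, g.1 y = y := φ.mem_fix_span.2 (by simpa)
  refine ⟨h2, g * t, ⟨h.mem _ (by rw [map_mul, Units.val_mul, t2, mul_comm, φ.σ_det_mul_det]) (mul_mem hg t1),
    φ.mem_stab_of_le fun y hy => ?_⟩, fun z hz => ?_⟩
  · obtain ⟨a, rfl⟩ := Submodule.mem_span_singleton.1 hy
    have := add_mem (t3 x (.inr rfl)) (Submodule.mem_span_singleton_self x)
    rw [map_smul, Isom.mul_apply, s _ (by simpa using this)]
    exact Submodule.smul_mem _ _ (by simpa using this)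
  · have := add_mem (t3 z (.inl hz)) (h3 z hz)
    rw [← s _ (t3 z (.inl hz))] at this
    simpa using this

theorem loc_qf (H : Hx φ e x) (h1 : φ.B x (e i) = 0) (h2 : φ.B x u = 0) (h3 : φ.Q u = 1) (h4 : u = e i + c • x) :
    QF (Loc M x) u := fun k hk => by
  have : φ.σ (k + 1) * (k + 1) = 1 := by
    rw [cd_iff h.hq.herm, h3] at hk; rw [map_add, map_one]; linear_combination hk
  refine h.loc H (h.on.rf_mem (i := i) this) (by simp [h.on.rf_apply this, φ.B_symm_zero h1])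
    (by simp [φ.quasi_apply hk, φ.B_symm_zero h2]) fun z hz => ?_
  rw [h.on.rf_apply this, φ.quasi_apply hk, h4]
  exact Submodule.mem_span_singleton.2 ⟨-(k * φ.B (e i) z * c), by simp [φ.B_smul_left, hz]; module⟩

theorem loc_sw (H : Hx φ e x) (r : i ≠ j) (h1 : φ.B (e i) x = 0) (h2 : φ.B (e j) x = 0) : sw φ e i j ∈ Loc M x :=
  have : (sw φ e i j).1 x = x := by simp [h.on.sw_apply r, h1, h2]
  h.loc H (h.on.sw_mem r) this this (by simp)

theorem hx1 (c0 : c ≠ 0) : Hx φ e (c • e j) := fun d hd =>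
  have : φ.σ (φ.σ d) * φ.σ d = 1 := by rw [σ_σ, mul_comm, hd]
  ⟨_, h.on.rf_mem (i := j) this, h.on.det_rf this, fun z _ => by
    simpa [h.on.rf_apply this, Submodule.span_singleton_smul_eq c0.isUnit] using
      Submodule.smul_mem _ _ (Submodule.mem_span_singleton_self _)⟩

theorem star (h' : Fs φ q M f) (H : Meet F e f) (i : ι) : Pt φ e (f i) := by
  obtain ⟨o, j, c, r⟩ := H
  by_cases io : i = o
  · rw [io, r]; exact h.on.pt _ _
  have c0 : c ≠ 0 := by rintro rfl; exact h'.on.ne o (by simpa using r)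
  have H := h.hx1 (j := j) c0
  have H' := h'.hx1 (j := o) one_ne_zero
  rw [one_smul] at H'
  rw [← r] at H
  have z : ∀ l, l ≠ j → φ.B (e l) (f o) = 0 := fun l s => by simp [r, h.on.B, s]
  by_contra t
  obtain ⟨p, l, a, b, d, s1, s2, s3, s4⟩ := thmR h.hq h.on (K := Loc M (f o)) (I := (· ≠ j))
    (fun l s => h.loc_qf H (c := 0) (φ.B_symm_zero (z l s)) (φ.B_symm_zero (z l s)) (h.on.Q l) (by simp))
    (fun a b s t u => h.loc_sw H u (z a s) (z b t)) (fun a b => by simpa using h.ex [j, a, b] (by simp))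
    (h'.loc_qf H' (c := 0) (i := i) (by simp [h'.on.B, Ne.symm io]) (by simp [h'.on.B, Ne.symm io]) (h'.on.Q i) (by simp))
    (by simp [h'.on.Q]) (fun l s u => s (by simpa [u, r, φ.B_smul_left, c0, Ne.symm io] using h'.on.B o i)) t
  have L : ∀ k ∈ φ.E, k ∈ Loc M (f o) → k ∈ M := fun k k1 ⟨k2, g, g1, g2⟩ => by
    obtain ⟨μ, m1, m2⟩ := h.hq.eq_qrefl_of_mem_fix (u := f o) (g := g⁻¹ * k) (by simp [h'.on.Q]) fun y hy => by
      rw [φ.mem_perp_singleton] at hy
      obtain ⟨s, t⟩ := Submodule.mem_span_singleton.1 (g2 y hy)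
      obtain ⟨s', t'⟩ := Submodule.mem_span_singleton.1 (((φ.stab _).inv_mem g1.2 _).1 (Submodule.mem_span_singleton_self (f o)))
      have := congrArg (φ.B (f o)) t
      rw [map_sub, ← k2, Isom.B_map, k2, hy, ← Isom.B_map g⁻¹ _ (g.1 y), Isom.inv_apply_apply, ← t', φ.B_smul_left, hy] at this
      rw [show s = 0 by simpa [h'.on.B] using this, zero_smul, eq_comm, sub_eq_zero] at t
      rw [Isom.mul_apply, ← t, Isom.inv_apply_apply]
    have := h'.on.det_rf (i := o) m1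
    rw [rf, show φ.quasi (f o) (μ - 1) = g⁻¹ * k by simp [m2, qrefl, h'.on.B]] at this
    obtain rfl : μ = 1 := by simpa [h.le g g1.1, det_E k1] using this.symm
    rw [show k = g from Isom.ext fun z => by
      simpa [qrefl, φ.quasi_apply (p := f o) (k := 0) (by simp), Isom.mul_apply] using congrArg (g.1 <| ·.1 z) m2]
    exact g1.1
  exact h.finish s1 d.Q s2 s3 s4 d.zero (fun t ht => L _ (φ.siegel_mem_E d.Q (by simp) (by simpa)) (d.tf t ht))
    fun c => (d.inA c).imp_right fun ⟨s, u, v⟩ => ⟨s, u, L _ (φ.siegel_mem_E d.Q (d.inA c).1 u) v⟩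

theorem mn (hg : g ∈ M) (H : Meet F e fun i => g.1 (e i)) : g ∈ h.on.Mn := h.star (h.map hg) H

theorem mn_fix (hg : g ∈ M) (H : g.1 (e i) = e i) : g ∈ h.on.Mn := h.mn hg ⟨i, i, 1, by simpa⟩

theorem three : ∃ c₁ c₂ c₃ : F, φ.σ c₁ * c₁ = 1 ∧ φ.σ c₂ * c₂ = 1 ∧ φ.σ c₃ * c₃ = 1 ∧ c₁ ≠ 1 ∧ c₂ ≠ 1 ∧ c₃ ≠ 1 ∧
    c₁ ≠ c₂ ∧ c₁ ≠ c₃ ∧ c₂ ≠ c₃ := by
  classical
  have := h.hq.finite
  have := Fintype.ofFinite F
  have q3 := h.q3
  set C := Finset.univ.filter fun d : F => φ.σ d * d = 1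
  have h1 : C.card = q + 1 := by rw [← h.hq.card_norm one_ne_zero (map_one _), Nat.card_eq_fintype_card, Fintype.card_subtype]
  have h2 := Finset.pred_card_le_card_erase (s := C) (a := 1)
  obtain ⟨a, b, c, ha, hb, hc, r1, r2, r3⟩ := Finset.two_lt_card_iff.1 (show 2 < (C.erase 1).card by omega)
  simp only [C, Finset.mem_erase, Finset.mem_filter, Finset.mem_univ, true_and] at ha hb hc
  exact ⟨a, b, c, ha.2, hb.2, hc.2, ha.1, hb.1, hc.1, r1, r2, r3⟩

theorem z1 (h' : Fs φ q M f) (r : k ≠ l) (h1 : φ.B (e k) (f i) = 0) (h2 : φ.B (e l) (f i) = 0) (j : ι) :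
    φ.B (e k) (f j) = 0 ∨ ∀ a, a ≠ k → a ≠ l → φ.B (e a) (f j) = 0 := by
  by_contra! H
  obtain ⟨a0, a, a1, a2, a3⟩ := H
  have hφ := h.hq.herm
  have G : ∀ c, φ.σ c * c = 1 → c ≠ 1 → 1 + (c - 1) * (φ.σ (φ.B (e k) (f j)) * φ.B (e k) (f j)) +
      (φ.σ c - 1) * (φ.σ (φ.B (e l) (f j)) * φ.B (e l) (f j)) = 0 := fun c c1 c2 => by
    have c3 : φ.σ (φ.σ c) * φ.σ c = 1 := by rw [σ_σ, mul_comm, c1]
    have ap : ∀ z, (rf φ e k c * rf φ e l (φ.σ c)).1 z = z + ((c - 1) * φ.B (e k) z) • e k + ((φ.σ c - 1) * φ.B (e l) z) • e l :=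
      fun z => by rw [Isom.mul_apply, h.on.rf_apply c1, h.on.rf_apply c3]; simp [h.on.B, r]; module
    have m := h'.mn_fix (i := i) (h.rr (i := k) (j := l) c1) (by rw [ap]; simp [h1, h2])
    obtain ⟨s, d, u⟩ := h'.on.pt_iff.1 (m j)
    rw [ap] at u
    by_cases v : s = j
    · have u1 := congrArg (φ.B (e k)) u
      have u2 := congrArg (φ.B (e a)) u
      simp only [map_add, map_smul, h.on.B, r, a1, a2, v, if_true, if_false, smul_eq_mul] at u1 u2
      obtain rfl : d = 1 := mul_right_cancel₀ a3 (by linear_combination -u2)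
      exact (c2 (mul_right_cancel₀ a0 (by linear_combination u1))).elim
    have := congrArg (φ.B (f j)) u
    simp only [map_add, map_smul, h'.on.B, if_true, Ne.symm v, if_false, smul_eq_mul, hφ.B_comm (e l) (f j),
      hφ.B_comm (e k) (f j)] at this
    linear_combination this
  obtain ⟨x, y, z, x1, y1, z1, x2, y2, z2, r1, r2, r3⟩ := h.three
  have gx := G x x1 x2
  have gy := G y y1 y2
  have gz := G z z1 z2
  generalize φ.σ (φ.B (e k) (f j)) * φ.B (e k) (f j) = A at *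
  generalize φ.σ (φ.B (e l) (f j)) * φ.B (e l) (f j) = B at *
  have px : A * x ^ 2 + (1 - A - B) * x + B = 0 := by linear_combination x * gx - B * x1
  have py : A * y ^ 2 + (1 - A - B) * y + B = 0 := by linear_combination y * gy - B * y1
  have pz : A * z ^ 2 + (1 - A - B) * z + B = 0 := by linear_combination z * gz - B * z1
  have e1 : A * (x + y) + (1 - A - B) = 0 := mul_left_cancel₀ (sub_ne_zero.2 r1) (by linear_combination px - py)
  have e2 : A * (x + z) + (1 - A - B) = 0 := mul_left_cancel₀ (sub_ne_zero.2 r2) (by linear_combination px - pz)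
  have e3 : A = 0 := mul_left_cancel₀ (sub_ne_zero.2 r3) (by linear_combination e1 - e2)
  subst e3
  exact one_ne_zero (α := F) (by linear_combination e1 + px - x * e1)

theorem z2 (h' : Fs φ q M f) (r : k ≠ l) (h1 : φ.B (e k) (f i) = 0) (h2 : φ.B (e l) (f i) = 0) : Meet F e f := by
  have N : ∀ a, ∃ j, φ.B (e a) (f j) ≠ 0 := fun a => by
    by_contra! H
    exact h.on.ne a (h'.on.sep _ fun j => φ.B_symm_zero (H j))
  obtain ⟨j, hj⟩ := N k
  have z := (h.z1 h' r h1 h2 j).resolve_left hj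
  obtain ⟨a, ha⟩ := h.ex [k, l] (by simp)
  obtain ⟨b, hb⟩ := h.ex [k, l, a] (by simp)
  obtain ⟨c, hc⟩ := h.ex [k, l, a, b] (by simp)
  simp only [List.mem_cons, List.not_mem_nil, or_false, not_or] at ha hb hc
  obtain ⟨s, hs⟩ := N a
  have s1 := (h.z1 h' (Ne.symm hb.2.2) (z a ha.1 ha.2) (z b hb.1 hb.2.1) s).resolve_left hs
  have s2 := (h.z1 h' (Ne.symm hc.2.2.1) (z a ha.1 ha.2) (z c hc.1 hc.2.1) s).resolve_left hs
  exact ⟨s, a, _, h.on.eq1 fun m t => by
    by_cases u : m = b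
    · exact s2 m t (by rintro rfl; exact hc.2.2.2 u)
    · exact s1 m t u⟩

section even
variable (h2 : (2 : F) = 0)
include h2

theorem hx2 (r : a ≠ b) (ha : φ.B (e a) x ≠ 0) (hb : φ.B (e b) x ≠ 0) (H : ∀ l, l ≠ a → l ≠ b → φ.B (e l) x = 0)
    (hQ : φ.σ (φ.B (e a) x) * φ.B (e a) x + φ.σ (φ.B (e b) x) * φ.B (e b) x = 0) : Hx φ e x := fun d hd => by
  have := h.hq.finite
  obtain ⟨m, hm⟩ := (Finite.injective_iff_surjective (f := fun m : F => m * m)).1 (fun a b r => by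
    rw [← sub_eq_zero, ← mul_self_eq_zero]; linear_combination r + (b * b - a * b) * h2) (φ.σ d)
  have n : φ.σ m * m = 1 := by
    have := congrArg φ.σ hm
    simp only [map_mul, σ_σ] at this hm
    rw [← sub_eq_zero, ← mul_self_eq_zero]
    linear_combination (m * m) * this + d * hm + hd + (1 - φ.σ m * m) * h2
  refine ⟨_, mul_mem (h.on.rf_mem (i := a) n) (h.on.rf_mem (i := b) n), by
    rw [map_mul, Units.val_mul, h.on.det_rf n, h.on.det_rf n]; exact hm, fun z hz =>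
      Submodule.mem_span_singleton.2 ⟨(m - 1) * φ.B (e a) z / φ.B (e a) x, ?_⟩⟩
  have : φ.B (e b) z = φ.B (e a) z / φ.B (e a) x * φ.B (e b) x := by
    obtain hz | rfl := hz
    · rw [h.on.eq2 r H, map_add, LinearMap.add_apply, φ.B_smul_left, φ.B_smul_left] at hz
      field_simp
      exact mul_left_cancel₀ ((map_ne_zero φ.σ).2 hb) (by linear_combination φ.B (e a) x * hz - φ.B (e a) z * hQ)
    · field_simp
  rw [Isom.mul_apply, h.on.rf_apply n, h.on.rf_apply n, this]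
  nth_rw 2 [h.on.eq2 r H]
  simp only [map_add, map_smul, h.on.B, r, if_false]
  match_scalars <;> field_simp <;> ring

theorem e2 (h' : Fs φ q M f) (h0 : x ≠ 0) (hx : φ.Q x = 0) (h3 : ∀ l, l ≠ a → l ≠ b → φ.B (e l) x = 0)
    (h4 : ∀ l, l ≠ i → l ≠ j → φ.B (f l) x = 0) : Meet F e f := by
  obtain ⟨a, b, r, ha, hb, h3, hQ⟩ := h.on.w2 h0 hx h3
  obtain ⟨a', b', r', ha', hb', h4, hQ'⟩ := h'.on.w2 h0 hx h4
  have H := h.hx2 h2 r ha hb h3 hQ
  obtain ⟨i, hi⟩ := h.ex [a', b'] (by simp)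
  have i1 := φ.B_symm_zero (h4 i (by grind) (by grind))
  set u := f i + (-(φ.B (e a) (f i) / φ.B (e a) x)) • x with eu
  have u1 : φ.B (e a) u = 0 := by simp [eu, ha]
  have u2 : φ.B x u = 0 := by simp [eu, i1, φ.B_self_eq_zero hx]
  have u3 : φ.B (e b) u = 0 := by
    nth_rw 1 [h.on.eq2 r h3] at u2
    simpa [φ.B_smul_left, u1, hb] using u2
  have u4 : φ.Q u = 1 := by rw [eu, φ.Q_add_of_orth (by simp [φ.B_symm_zero i1]), φ.Q_smul_of_sing hx, h'.on.Q, add_zero]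
  by_cases t : Pt φ e u
  · obtain ⟨j, t⟩ := t
    obtain ⟨k, hk⟩ := h.ex [a, b, j] (by simp)
    obtain ⟨l, hl⟩ := h.ex [a, b, j, k] (by simp)
    exact h.z2 h' (i := i) (k := k) (l := l) (by grind) (by simpa [eu, h3 k (by grind) (by grind)] using t k (by grind))
      (by simpa [eu, h3 l (by grind) (by grind)] using t l (by grind))
  obtain ⟨p, j, c, d, D, s1, s2, s3, s4⟩ := thmR h.hq h.on (K := Loc M x) (I := fun l => l ≠ a ∧ l ≠ b)
    (fun l s => h.loc_qf H (c := 0) (φ.B_symm_zero (h3 l s.1 s.2)) (φ.B_symm_zero (h3 l s.1 s.2)) (h.on.Q l) (by simp))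
    (fun c d s t u => h.loc_sw H u (h3 c s.1 s.2) (h3 d t.1 t.2)) (fun c d => by simpa [and_assoc] using h.ex [a, b, c, d] (by simp))
    (h'.loc_qf (h'.hx2 h2 r' ha' hb' h4 hQ') i1 u2 u4 eu) (by simp [u4]) (fun l s => by constructor <;> rintro rfl <;> simp_all) t
  obtain ⟨p1, s, p2, -, g, g1, g2⟩ := D.inA 1
  rw [one_smul] at p1 p2 g2
  have G : ∀ l m, l ≠ a → l ≠ b → m ≠ a → m ≠ b → φ.B (e m) (g.1 (e l)) = φ.B (e m) ((φ.siegel p (e j) s).1 (e l)) :=
    fun l m a1 a2 a3 a4 => by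
      obtain ⟨t, r⟩ := Submodule.mem_span_singleton.1 (g2 _ (φ.B_symm_zero (h3 l a1 a2)))
      simpa [h3 m a3 a4, sub_eq_zero, eq_comm (a := (0 : F))] using congrArg (φ.B (e m)) r
  obtain ⟨l, hl⟩ := h.ex [a, b, c, d, j] (by simp)
  obtain ⟨m, hm⟩ := h.ex [a, b, l] (by simp)
  obtain ⟨n, hn⟩ := h.ex [a, b, l, m] (by simp)
  have G' : ∀ m, m ∉ [a, b, l] → φ.B (e m) (g.1 (e l)) = 0 := fun m hm => by
    rw [G l m (by grind) (by grind) (by grind) (by grind), siegel_apply_of_orth D.Q p1 p2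
      (φ.B_symm_zero (s4 l (by grind) (by grind))) (by rw [h.on.B, if_neg (by grind)]), h.on.B, if_neg (by grind)]
  obtain ⟨o, ho⟩ := h.mn g1.1 (h.z2 (h.map g1.1) (i := l) (k := m) (l := n) (by grind) (G' m hm) (G' n (by grind))) j
  have G2 : ∀ c, φ.B (e c) p ≠ 0 → c = o := fun c s => by_contra fun t => s (by
    have := ho c t
    rw [G j c D.mem.1 D.mem.2 (D.supp c s).1 (D.supp c s).2, φ.siegel_apply D.Q p1 p2] at this
    simpa [p1, h.on.B, show c ≠ j by rintro rfl; exact s D.zero] using this)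
  exact (s1 ((G2 c s2).trans (G2 d s3).symm)).elim

theorem e4 (h' : Fs φ q M f) (h0 : x ≠ 0) (hx : φ.Q x = 0) (h3 : φ.B (e k) x = 0)
    (h4 : ∀ l, l ≠ i → l ≠ j → φ.B (f l) x = 0) : Meet F e f := by
  obtain ⟨a, b, r, ha, hb, h5, hQ⟩ := h'.on.w2 h0 hx h4
  have hφ := h.hq.herm
  set κ := -(φ.σ (φ.B (f a) x) * φ.B (f a) x)⁻¹ with eκ
  have c : Cd φ x κ := by
    rw [cd_iff hφ, hx, show φ.σ κ = κ by simp [eκ, mul_comm]]; linear_combination κ * h2
  have a1 := (map_ne_zero φ.σ).2 ha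
  have m := h.mn_fix (i := k) (h'.mem (φ.quasi x κ) (by rw [coe_det, φ.det_quasi c, φ.B_self_eq_zero hx]; simp) fun l => by
    rw [φ.quasi_apply c, hφ.B_comm]
    by_cases s : l = a
    · exact ⟨b, fun i t => by by_cases u : i = a <;> simp [s, h'.on.B, u, h5, t, eκ, ha]⟩
    by_cases s' : l = b
    · refine ⟨a, fun i t => ?_⟩
      by_cases u : i = b <;> simp [s', h'.on.B, u, h5, t, eκ]
      field_simp; linear_combination -hQ + φ.σ (φ.B (f a) x) * φ.B (f a) x * h2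
    simpa [h5 l s s'] using h'.on.pt 1 l) (by simp [φ.quasi_apply c, φ.B_symm_zero h3])
  obtain ⟨o, ho⟩ := not_forall.1 (mt (h.on.sep x) h0)
  obtain ⟨o', ho'⟩ := m o
  exact h.e2 h2 h' h0 hx (a := o) (b := o') (fun l s t => by
    have := ho' l t
    rw [φ.quasi_apply c] at this
    simpa [h.on.B, s, eκ, ha, mt φ.B_symm_zero ho] using this) h4

end even
end Fs
end H12.Fr
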