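import Mathlib
import Cfsg.Agent.H12.FsA

/-!
# Frames in dimension six, II : maximality of the monomial group of `SU_6(q)`, `q ≥ 3`
* `Fs.le_mn`, `su6_3`
-/

namespace H12.Fr

open Module H10 H10.Form H12.Xf

variable {F V : Type*} [Field F] [AddCommGroup V] [Module F V] {φ : Form F V} {q : ℕ} {ι : Type*} [Fintype ι] [DecidableEq ι]
  {e f : ι → V} {a b i j k l : ι} {M : Subgroup φ.Isom} {g t z : φ.Isom} [φ.Nondeg] [FiniteDimensional F V]

omit [φ.Nondeg] in
theorem det_inv (h : z * z = 1) : (φ.det z : F) = (-1) ^ finrank F (LinearMap.range ((z.1 : V →ₗ[F] V) - 1)) := by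
  set W := LinearMap.range ((z.1 : V →ₗ[F] V) - 1)
  have a : ∀ w ∈ W, z.1 w = -w := by
    rintro _ ⟨v, rfl⟩
    have := congrArg (fun g : φ.Isom => g.1 v) h
    simp only [Isom.mul_apply, Isom.one_apply] at this
    simp [this]
  have he : W ≤ W.comap (z.1 : V →ₗ[F] V) := fun w hw => by simpa [a w hw] using hw
  rw [coe_det, LinearMap.det_eq_det_mul_det W _ he, show (z.1 : V →ₗ[F] V).restrict he = (-1 : F) • LinearMap.id from
    LinearMap.ext fun w => Subtype.ext (by simpa using a w w.2), show W.mapQ W (z.1 : V →ₗ[F] V) he = LinearMap.id from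
    Submodule.linearMap_qext _ (LinearMap.ext fun v => by
      simpa using (Submodule.Quotient.eq W).2 ⟨v, by simp⟩), LinearMap.det_smul, LinearMap.det_id, LinearMap.det_id]
  simp

omit [φ.Nondeg] in
theorem ON.fr (h : ON φ e) : finrank F V = Fintype.card ι := le_antisymm (by
  rw [← finrank_top, ← top_unique (show ⊤ ≤ Submodule.span F (Set.range e) from fun v _ => h.mem fun i _ =>
    Submodule.subset_span ⟨i, rfl⟩)]
  exact finrank_range_le_card e) h.li.fintype_card_le_finrank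

namespace Fs
variable (h : Fs φ q M e)
include h

theorem neg_mem : φ.scalar (-1) ∈ M := h.mem _ (by
  rw [coe_det, φ.det_of_scalar (φ.scalar_apply (by simp)), h.on.fr, h.n]; norm_num)
  fun i => by rw [φ.scalar_apply (by simp)]; exact h.on.pt _ _

theorem red (h2 : (2 : F) ≠ 0) (hz : z ∈ M) (z2 : z * z = 1) {W : Submodule F V} (hW : z ∈ Dsp φ W) (W4 : finrank F W ≤ 4) :
    ∃ z' ∈ M, ∃ c : F, c * c = 1 ∧ (∀ v, z'.1 v = c • z.1 v) ∧ (z ≠ 1 → z' ≠ 1) ∧ ∃ W' : Submodule F V, finrank F W' ≤ 2 ∧ z' ∈ Dsp φ W' := by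
  have d := det_inv z2
  rw [h.le z hz, eq_comm, neg_one_pow_eq_one_iff_even (fun r => h2 (by linear_combination -r))] at d
  have zz : ∀ v, z.1 (z.1 v) = v := fun v => by rw [← Isom.mul_apply, z2, Isom.one_apply]
  have w1 := Submodule.finrank_mono (show LinearMap.range ((z.1 : V →ₗ[F] V) - 1) ≤ W by rintro _ ⟨v, rfl⟩; simpa using hW v)
  by_cases r : finrank F (LinearMap.range ((z.1 : V →ₗ[F] V) - 1)) ≤ 2
  · exact ⟨z, hz, 1, by simp, by simp, id, _, r, fun v => ⟨v, by simp⟩⟩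
  have w2 := LinearMap.finrank_range_add_finrank_ker ((z.1 : V →ₗ[F] V) - 1)
  rw [h.on.fr, h.n] at w2
  obtain ⟨s, d⟩ := d
  have ap : ∀ v, (φ.scalar (-1) * z).1 v = (-1 : F) • z.1 v := fun v => by rw [Isom.mul_apply, φ.scalar_apply (by simp)]
  refine ⟨_, mul_mem h.neg_mem hz, -1, by simp, ap, fun _ u => ?_, LinearMap.ker ((z.1 : V →ₗ[F] V) - 1), by omega, fun v => ?_⟩
  · have : LinearMap.ker ((z.1 : V →ₗ[F] V) - 1) = ⊥ := eq_bot_iff.2 fun v hv => by
      have h3 := ap v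
      have h4 : z.1 v = v := by simpa [sub_eq_zero] using hv
      rw [u, Isom.one_apply, h4] at h3
      exact (smul_eq_zero.1 (show (2 : F) • v = 0 by rw [two_smul]; nth_rw 1 [h3]; simp)).resolve_left h2
    rw [this, finrank_bot] at w2; omega
  · rw [LinearMap.mem_ker, ap]; simp [zz]; abel

theorem cen (h2 : (2 : F) ≠ 0) (hz : z ∈ M) (c : z * t = t * z) (h1 : t.1 (e a) = -e a) (r : k ≠ l) (h3 : t.1 (e k) = e k)
    (h4 : t.1 (e l) = e l) : z ∈ h.on.Mn := by
  have H : ∀ k, t.1 (e k) = e k → φ.B (e k) (z.1 (e a)) = 0 := fun k s => mul_left_cancel₀ h2 (by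
    have := Isom.B_map t (e k) (z.1 (e a))
    rw [s, ← Isom.mul_apply, ← c, Isom.mul_apply, h1, map_neg, map_neg] at this
    linear_combination -this)
  exact h.mn hz (h.z2 (h.map hz) (i := a) r (H k h3) (H l h4))

theorem cen2 (h2 : (2 : F) = 0) (hz : z ∈ M) (c : z * t = t * z) (r : a ≠ b) (h1 : t.1 (e a) = e b) (h3 : t.1 (e k) = e k) :
    z ∈ h.on.Mn :=
  h.mn hz (h.e4 h2 (h.map hz) (x := z.1 (e b - e a)) (k := k) (i := a) (j := b)
    (fun s => by simpa [h.on.B, r] using congrArg (φ.B (z.1 (e a))) s)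
    (by rw [Isom.Q_map, φ.Q_sub, h.on.Q, h.on.Q, h.on.B, if_neg r.symm, map_zero]; linear_combination h2)
    (by rw [map_sub, ← h1, ← Isom.mul_apply, c, Isom.mul_apply, map_sub, ← h3, Isom.B_map, h3, sub_self])
    fun l s u => by simp [h.on.B, s, u])

theorem dg (h' : Fs φ q M f) (h2 : (2 : F) ≠ 0) (r : k ≠ l)
    (H : ∀ v, t.1 v = v - (2 * φ.B (e k) v) • e k - (2 * φ.B (e l) v) • e l) (ht : t ∈ h'.on.Mn) (i : ι) :
    ∃ c : F, t.1 (f i) = c • f i := by
  obtain ⟨w, -, hw⟩ := h'.on.exists_fix ht (W := Submodule.span F {e k, e l}) (fun v => Submodule.mem_span_pair.2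
    ⟨-(2 * φ.B (e k) v), -(2 * φ.B (e l) v), by rw [H]; module⟩) ∅
    (by have := finrank_span_pair_le (F := F) (e k) (e l); have := h.n; simp; omega)
  rw [H] at hw
  obtain ⟨j, c, s⟩ := h.on.pt_iff.1 (h.star h' (h.z2 h' (i := w) r (by simpa [h.on.B, r, h2] using congrArg (φ.B (e k)) hw)
    (by simpa [h.on.B, r.symm, h2] using congrArg (φ.B (e l)) hw)) i)
  refine ⟨if j = k ∨ j = l then -1 else 1, ?_⟩
  rw [H, s]
  by_cases u : k = j <;> by_cases v : l = j <;> simp_all [h.on.B, eq_comm] <;> module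

theorem dg2 (h' : Fs φ q M f) (hz : z ∈ M) (h1 : z ≠ 1) (H : ∀ i, ∃ c : F, z.1 (e i) = c • e i) (h2 : z.1 (f a) = f a) :
    Meet F e f := by
  choose c H using H
  have G : ∀ i, c i ≠ 1 → φ.B (e i) (f a) = 0 := fun i s => φ.B_symm_zero (mul_left_cancel₀ (sub_ne_zero.2 s) (by
    have := Isom.B_map z (f a) (e i)
    rw [h2, H, map_smul, smul_eq_mul] at this; linear_combination this))
  obtain ⟨i, hi⟩ : ∃ i, c i ≠ 1 := by_contra fun s => h1 (h.on.ext' fun i => by simp [H, show c i = 1 by grind])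
  by_cases s : ∃ j, j ≠ i ∧ c j ≠ 1
  · obtain ⟨j, s, u⟩ := s
    exact h.z2 h' s (G j u) (G i hi)
  have n := h.on.nrm (by simp [h.on.Q]) (H i)
  refine (hi ?_).elim
  rw [← h.on.det_rf (i := i) n, ← h.le z hz, h.on.ext' (g := z) fun j => ?_]
  rw [h.on.rf_e n, H]; grind

theorem odd (h' : Fs φ q M f) (h2 : (2 : F) ≠ 0) : Meet F e f := by
  have := h.hq.finite
  have : Finite V := Module.finite_of_finite F
  have n := h.n
  obtain ⟨k, -⟩ := h.ex [] (by simp)
  obtain ⟨l, hl⟩ := h.ex [k] (by simp)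
  obtain ⟨m, hm⟩ := h.ex [k, l] (by simp)
  obtain ⟨i, hi⟩ := h.ex [k, l, m] (by simp)
  obtain ⟨j, hj⟩ := h.ex [k, l, m, i] (by simp)
  simp only [List.mem_cons, List.not_mem_nil, or_false, not_or] at hl hm hi hj
  have kl : k ≠ l := Ne.symm hl
  have n1 : φ.σ (-1) * -1 = 1 := by simp
  have xM := h.rr (i := k) (j := l) n1
  have yM := h'.sr (k := m) kl
  rw [map_neg, map_one] at xM
  have xN := mul_mem (h.on.rf_mem (i := k) n1) (h.on.rf_mem (i := l) n1)
  have yN := mul_mem (h'.on.sw_mem kl) (h'.on.rf_mem (i := m) n1)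
  have X : ∀ v, (rf φ e k (-1) * rf φ e l (-1)).1 v = v - (2 * φ.B (e k) v) • e k - (2 * φ.B (e l) v) • e l := fun v => by
    rw [Isom.mul_apply, h.on.rf_apply n1, h.on.rf_apply n1]; simp only [map_add, map_smul, h.on.B, kl, if_false]; module
  have Y : ∀ d, (sw φ f k l * rf φ f m (-1)).1 (f d) = (if m = d then -1 else 1 : F) • f (Equiv.swap k l d) := fun d => by
    rw [Isom.mul_apply, h'.on.rf_e n1, map_smul, h'.on.sw_e kl]
  set W := Submodule.span F {x | x ∈ [e k, e l, f k - f l, f m]}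
  have W4 : finrank F W ≤ 4 := finrank_span_list_le _
  have yW : sw φ f k l * rf φ f m (-1) ∈ Dsp φ W := mul_mem (quasi_dsp (h'.on.cd_sw kl) (Submodule.subset_span (by simp)))
    (quasi_dsp (cd_unit h.hq.herm (h'.on.Q m) n1) (Submodule.subset_span (by simp)))
  have xW : rf φ e k (-1) * rf φ e l (-1) ∈ Dsp φ W := mul_mem
    (quasi_dsp (cd_unit h.hq.herm (h.on.Q k) n1) (Submodule.subset_span (by simp)))
    (quasi_dsp (cd_unit h.hq.herm (h.on.Q l) n1) (Submodule.subset_span (by simp)))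
  generalize rf φ e k (-1) * rf φ e l (-1) = x at *
  generalize sw φ f k l * rf φ f m (-1) = y at *
  have x2 : x * x = 1 := Isom.ext fun v => by
    rw [Isom.mul_apply, X, X]; simp only [map_sub, map_smul, h.on.B, kl, hl, if_false, if_true, smul_eq_mul, Isom.one_apply]; module
  have y2 : y * y = 1 := h'.on.ext' fun d => by
    rw [Isom.mul_apply, Y, map_smul, Y, Equiv.swap_apply_self, smul_smul]
    by_cases s : m = d
    · simp [← s, Equiv.swap_apply_of_ne_of_ne hm.1 hm.2]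
    · simp [s, Equiv.eq_symm_apply, ← (Equiv.swap k l).symm_apply_eq, Equiv.swap_apply_of_ne_of_ne hm.1 hm.2]
  have D : ∀ {g : ι → V} (h' : Fs φ q M g) (s : ℕ), (x * y) ^ s * x * ((x * y) ^ s)⁻¹ ∈ h'.on.Mn →
      ∀ i, ∃ c : F, ((x * y) ^ s * x * ((x * y) ^ s)⁻¹).1 (g i) = c • g i := fun h' s => by
    refine (h.map (pow_mem (mul_mem xM yM) s)).dg h' h2 kl fun v => ?_
    generalize (x * y) ^ s = r
    rw [Isom.mul_apply, Isom.mul_apply, X, ← Isom.B_map r, ← Isom.B_map r (e l)]; simp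
  obtain ⟨s, r⟩ | ⟨s, z1, z2, z3, z4, s', r⟩ := dih x2 y2
  · obtain ⟨c, u⟩ := D h' s (r ▸ yN) k
    rw [← r, Y] at u
    simpa [h'.on.B, hl, hm] using congrArg (φ.B (f l)) u
  have zM := pow_mem (mul_mem xM yM) s
  have zW := pow_mem (mul_mem xW yW) s
  specialize @D
  generalize (x * y) ^ s = z at *
  have ze := h.cen h2 zM z3 (a := k) (k := i) (l := j) (by rw [X]; simp [h.on.B, hl]; module) (Ne.symm hj.2.2.2)
    (by simp [X, h.on.B, Ne.symm hi.1, Ne.symm hi.2.1]) (by simp [X, h.on.B, Ne.symm hj.1, Ne.symm hj.2.1])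
  have zf := h'.cen h2 zM z4 (a := m) (k := i) (l := j) (by simp [Y, Equiv.swap_apply_of_ne_of_ne, hm]) (Ne.symm hj.2.2.2)
    (by simp [Y, Equiv.swap_apply_of_ne_of_ne, hi, Ne.symm hi.2.2]) (by simp [Y, Equiv.swap_apply_of_ne_of_ne, hj, Ne.symm hj.2.2.1])
  obtain ⟨z', zM', ε, ε2, ap, z1', W', W2, zW'⟩ := h.red h2 zM z2 zW W4
  have mn : ∀ {g : ι → V} (h' : Fs φ q M g), z ∈ h'.on.Mn → z' ∈ h'.on.Mn := fun h' r i => by
    obtain ⟨j, c, s⟩ := h'.on.pt_iff.1 (r i)
    rw [ap, s, smul_smul]; exact h'.on.pt _ _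
  have z2' : z' * z' = 1 := Isom.ext fun v => by
    rw [Isom.mul_apply, ap, ap, map_smul, smul_smul, ε2, one_smul, ← Isom.mul_apply, z2]
  obtain r | r := r
  · obtain ⟨d, -, hd⟩ := h'.on.exists_fix (mn h' zf) zW' ∅ (by simp; omega)
    refine h.dg2 h' zM' (z1' z1) (fun a => ?_) hd
    obtain ⟨c, u⟩ := D h s' (r ▸ mul_mem xN ze) a
    obtain ⟨c', u'⟩ := D h 0 (by simpa) a
    rw [← r] at u
    exact ⟨ε * (c * c'), by rw [ap, mul_smul]; congr 1; rw [mul_smul, ← u', pow_zero, one_mul, inv_one, mul_one, ← map_smul, ← u, ← Isom.mul_apply, ← mul_assoc,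
      x2, one_mul]⟩
  have Z : ∀ d, ∃ c : F, z'.1 (f d) = c • f (Equiv.swap k l d) := fun d => by
    obtain ⟨c, u⟩ := D h' s' (r ▸ mul_mem yN zf) d
    rw [← r] at u
    exact ⟨ε * (c * _), by rw [ap, mul_smul]; congr 1; rw [mul_smul, ← Y, ← map_smul, ← u, ← Isom.mul_apply, ← mul_assoc, y2, one_mul]⟩
  replace ze := mn h ze
  clear ap mn z1' r zW z3 z4 zf zM z2 z1
  generalize z' = z at *
  have zM := zM'
  have z2 := z2'
  have zW := zW'
  choose c Z using Z
  obtain ⟨a, -, ha⟩ := h.on.exists_fix ze zW ∅ (by simp; omega)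
  obtain ⟨b, ab, hb⟩ := h.on.exists_fix ze zW {a} (by simp; omega)
  by_cases u : ∃ d, d ≠ k ∧ d ≠ l ∧ c d ≠ 1
  · obtain ⟨d, u1, u2, u3⟩ := u
    have G : ∀ a, z.1 (e a) = e a → φ.B (e a) (f d) = 0 := fun a s => mul_left_cancel₀ (sub_ne_zero.2 u3) (by
      have := Isom.B_map z (e a) (f d)
      rw [s, Z, Equiv.swap_apply_of_ne_of_ne u1 u2, map_smul, smul_eq_mul] at this; linear_combination this)
    exact h.z2 h' (by simpa using ab) (G b hb) (G a ha)
  have c1 := h'.on.nrm (by simp [h'.on.Q]) (Z k)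
  have c2 := h'.on.nrm (by simp [h'.on.Q]) (Z l)
  have c3 := congrArg (fun g : φ.Isom => φ.B (f k) (g.1 (f k))) z2
  have c4 := congrArg (fun g : φ.Isom => (φ.det g : F)) (h'.on.ext' (g := z * sw φ f k l) (g' := rf φ f k (c l) * rf φ f l (c k))
    fun d => by
      rw [Isom.mul_apply, Isom.mul_apply, h'.on.sw_e kl, Z, Equiv.swap_apply_self, h'.on.rf_e c1, map_smul, h'.on.rf_e c2, smul_smul]
      by_cases v : d = k
      · simp [v, hl]
      by_cases w : d = l
      · simp [w, kl]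
      simp [Equiv.swap_apply_of_ne_of_ne v w, Ne.symm v, Ne.symm w, show c d = 1 by grind])
  simp [Isom.mul_apply, Z, h'.on.B, h.le z zM, h'.on.det_sw kl, h'.on.det_rf c1, h'.on.det_rf c2] at c3 c4
  exact (h2 (by linear_combination -c4 - c3)).elim

theorem even0 (h' : Fs φ q M f) (h2 : (2 : F) = 0) (k l : ι) (hl : l ≠ k) : Meet F e f ∨ φ.B (f k - f l) (e k - e l) = 0 := by
  have := h.hq.finite
  have : Finite V := Module.finite_of_finite F
  have n := h.n
  obtain ⟨m, hm⟩ := h.ex [k, l] (by simp)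
  obtain ⟨i, hi⟩ := h.ex [k, l, m] (by simp)
  obtain ⟨j, hj⟩ := h.ex [k, l, m, i] (by simp)
  simp only [List.mem_cons, List.not_mem_nil, or_false, not_or] at hm hi hj
  have kl : k ≠ l := Ne.symm hl
  have mi : m ≠ i := Ne.symm hi.2.2
  have xM := h.mem _ (by rw [h.on.det_sw kl, Units.val_neg, Units.val_one]; linear_combination -h2) (h.on.sw_mem kl)
  have yM := h'.mem _ (by simp [h'.on.det_sw kl, h'.on.det_sw mi]) (mul_mem (h'.on.sw_mem kl) (h'.on.sw_mem mi))
  have X := h.on.sw_e kl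
  have X' := h.on.sw_apply kl
  have Y : ∀ d, (sw φ f k l * sw φ f m i).1 (f d) = f (Equiv.swap k l (Equiv.swap m i d)) := fun d => by
    rw [Isom.mul_apply, h'.on.sw_e mi, h'.on.sw_e kl]
  set W := Submodule.span F {x | x ∈ [e k - e l, f k - f l, f m - f i]}
  have W4 : finrank F W ≤ 3 := finrank_span_list_le _
  have yW : sw φ f k l * sw φ f m i ∈ Dsp φ W := mul_mem (quasi_dsp (h'.on.cd_sw kl) (Submodule.subset_span (by simp)))
    (quasi_dsp (h'.on.cd_sw mi) (Submodule.subset_span (by simp)))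
  have xW : sw φ e k l ∈ Dsp φ W := quasi_dsp (h.on.cd_sw kl) (Submodule.subset_span (by simp))
  generalize sw φ e k l = x at *
  generalize sw φ f k l * sw φ f m i = y at *
  have x2 : x * x = 1 := h.on.ext' fun d => by simp [Isom.mul_apply, X]
  have y2 : y * y = 1 := h'.on.ext' fun d => by
    rw [Isom.mul_apply, Y, Y, Isom.one_apply]; congr 1; simp only [Equiv.swap_apply_def]; grind
  have Y1 : y.1 (f k) = f l := by rw [Y]; congr 1; simp only [Equiv.swap_apply_def]; grind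
  obtain ⟨s, r⟩ | ⟨s, z1, z2, z3, z4, -⟩ := dih x2 y2
  · generalize (x * y) ^ s = g at r
    have H : ∀ v, ∃ c : F, y.1 v = v - c • g.1 (e k - e l) := fun v => ⟨_, by
      rw [r, Isom.mul_apply, Isom.mul_apply, X', map_sub, map_smul, Isom.apply_inv_apply]⟩
    obtain ⟨c, u⟩ := H (f k)
    obtain ⟨c', u'⟩ := H (f m)
    rw [Y1] at u
    rw [show y.1 (f m) = f i by rw [Y]; congr 1; simp only [Equiv.swap_apply_def]; grind] at u'
    generalize g.1 (e k - e l) = w at *
    have a1 := congrArg (φ.B (f k)) u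
    have a2 := congrArg (φ.B (f k)) u'
    have a3 := congrArg (φ.B (f m)) u'
    simp [h'.on.B, kl, mi, Ne.symm hm.1, Ne.symm hi.1] at a1 a2 a3
    obtain rfl | a2 := a2
    · simp at a3
    · simp [a2] at a1
  have zM := pow_mem (mul_mem xM yM) s
  have zW := pow_mem (mul_mem xW yW) s
  generalize (x * y) ^ s = z at *
  have ze := h.cen2 h2 zM z3 kl (k := m) (by simp [X]) (by simp [X, Equiv.swap_apply_of_ne_of_ne, hm])
  have zf := h'.cen2 h2 zM z4 kl (k := j) Y1 (by simp [Y, Equiv.swap_apply_of_ne_of_ne, hj])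
  have zz : ∀ v, z.1 (z.1 v) = v := fun v => by rw [← Isom.mul_apply, z2, Isom.one_apply]
  by_cases r : 3 ≤ finrank F (LinearMap.range ((z.1 : V →ₗ[F] V) - 1))
  · have := Submodule.eq_of_le_of_finrank_le (show LinearMap.range ((z.1 : V →ₗ[F] V) - 1) ≤ W by
      rintro _ ⟨v, rfl⟩; simpa using zW v) (W4.trans r)
    obtain ⟨v, hv⟩ := this.ge (Submodule.subset_span (show e k - e l ∈ _ by simp))
    obtain ⟨w, hw⟩ := this.ge (Submodule.subset_span (show f k - f l ∈ _ by simp))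
    have := Isom.B_map z (z.1 w) v
    rw [zz] at this
    right
    rw [← hv, ← hw]
    simp only [LinearMap.sub_apply, LinearEquiv.coe_coe, Module.End.one_apply, map_sub, Isom.B_map, this]
    linear_combination (φ.B w v - φ.B (z.1 w) v) * h2
  left
  obtain ⟨d, -, hd⟩ := h'.on.exists_fix zf (W := LinearMap.range ((z.1 : V →ₗ[F] V) - 1)) (fun v => ⟨v, by simp⟩) ∅ (by simp; omega)
  obtain ⟨a, ha⟩ := not_forall.1 (mt (h.on.ext' (g := z) (g' := 1)) z1)
  obtain ⟨b, hb⟩ := ze a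
  refine h.on.meet (h'.e4 h2 h (x := z.1 (e a) - e a) (k := d) (i := a) (j := b) (sub_ne_zero.2 ha) ?_
    (by rw [map_sub, ← hd, Isom.B_map, hd, sub_self]) fun l s u => by simp [hb l u, h.on.B, s])
  have := Isom.B_map z (z.1 (e a)) (e a)
  rw [← Isom.mul_apply, z2, Isom.one_apply] at this
  rw [φ.Q_sub, Isom.Q_map, h.on.Q, h.hq.herm.T_eq, h.hq.herm.σ_B, this]
  linear_combination (1 - φ.B (z.1 (e a)) (e a)) * h2

theorem even (h' : Fs φ q M f) (h2 : (2 : F) = 0) : Meet F e f := by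
  by_contra H
  obtain ⟨c, -, -, c1, -, -, c2, -⟩ := h.three
  have c3 : φ.σ (φ.σ c) * φ.σ c = 1 := by rw [σ_σ, mul_comm, c1]
  have G : ∀ k l, l ≠ k → φ.B (f k) (e k - e l) = 0 := fun k l r => by
    obtain ⟨m, hm⟩ := h.ex [k, l] (by simp)
    simp only [List.mem_cons, List.not_mem_nil, or_false, not_or] at hm
    have ap : ∀ d, (rf φ f k c * rf φ f m (φ.σ c)).1 (f d) = ((if m = d then φ.σ c else 1) * if k = d then c else 1) • f d :=
      fun d => by rw [Isom.mul_apply, h'.on.rf_e c3, map_smul, h'.on.rf_e c1, smul_smul]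
    have a1 := (h.even0 h' h2 k l r).resolve_left H
    have a2 := (h.even0 (h'.map (h'.rr (i := k) (j := m) c1)) h2 k l r).resolve_left fun ⟨i, j, d, u⟩ => H (by
      simp only [ap] at u
      have : ((if m = i then φ.σ c else 1) * if k = i then c else 1) ≠ 0 := by
        have : c ≠ 0 := by rintro rfl; simp at c1
        split_ifs <;> simp [this]
      exact ⟨i, j, _, by rw [← eq_inv_smul_iff₀ this, smul_smul] at u; exact u⟩)
    simp only [ap, hm.1, hm.2, r.symm, if_true, if_false, one_mul, one_smul, map_sub φ.B, LinearMap.sub_apply, φ.B_smul_left] at a1 a2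
    have : φ.σ c - 1 ≠ 0 := fun s => c2 (by simpa using congrArg φ.σ (sub_eq_zero.1 s))
    exact mul_left_cancel₀ this (by linear_combination a2 - a1)
  have S : ∀ k, f k = φ.B (e k) (f k) • ∑ i, e i := fun k => h.on.ext fun l => by
    have : φ.B (e l) (f k) = φ.B (e k) (f k) := by
      by_cases r : l = k
      · rw [r]
      have := φ.B_symm_zero (G k l r)
      rw [map_sub, LinearMap.sub_apply, sub_eq_zero] at this; exact this.symm
    simp [h.on.B, this]
  obtain ⟨k, -⟩ := h.ex [] (by simp)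
  obtain ⟨l, hl⟩ := h.ex [k] (by simp)
  have a1 := h'.on.B k k
  have a2 := h'.on.B k l
  rw [if_neg (by simpa [eq_comm] using hl)] at a2
  nth_rw 2 [S k] at a1
  rw [S l, map_smul, smul_eq_mul, mul_eq_zero] at a2
  obtain a2 | a2 := a2
  · exact h'.on.ne l (by rw [S l, a2, zero_smul])
  · simp only [map_smul, a2] at a1; simp at a1

theorem le_mn : M ≤ h.on.Mn := fun _ hg => h.mn hg ((em _).elim (h.even (h.map hg)) (h.odd (h.map hg)))

end Fs

theorem dec_le6 {κ : Type*} {D : κ → Submodule F V} (hq : φ.IsUnitary q) (q3 : 3 ≤ q) [Fintype κ] (hn : Fintype.card κ = 6)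
    (h3 : 3 ≤ finrank F V) (od : φ.ODec D) (rk : ∀ i, finrank F (D i) = 1)
    (hM : φ.E ⊓ φ.dstab D ≤ M) (hg : g ∈ M) (hE : g ∈ φ.E) (hg' : g ∉ φ.dstab D) : φ.E ≤ M := by
  classical
  have eq := hq.E_eq_SIsom h3
  choose e e1 e2 using fun i => hq.exists_Q_eq (od.nondeg i) (fun r => by have := rk i; rw [r, finrank_bot] at this; omega) (c := 1) (map_one _)
  have e3 : ∀ i, F ∙ e i = D i := fun i => Submodule.eq_of_le_of_finrank_eq (by simpa using e1 i)
    (by rw [rk, finrank_span_singleton (by rintro r; simpa [r] using e2 i)])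
  have on : ON φ e := ⟨hq.herm, fun i j => by
    split_ifs with r; exacts [by rw [r, ← hq.herm.Q_eq, e2], od.orth i j r (e1 j) _ (e1 i)],
    fun v H => od.eq_zero fun i => e3 i ▸ φ.mem_perp_singleton.2 (H i)⟩
  have e4 : on.Mn ≤ φ.dstab D := fun g r => od.mem_dstab_of_le rk one_pos fun i => by
    obtain ⟨j, c, s⟩ := on.pt_iff.1 (r i)
    exact ⟨j, by rw [← e3, Submodule.map_span]; simpa [s] using (D j).smul_mem c (e1 j)⟩
  by_contra hE'
  refine hg' (e4 (Fs.le_mn (M := M ⊓ φ.E) ⟨hq, on, hn, q3, fun g a b => ?_, fun g a => det_E a.2,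
    fun r => hE' (r.trans inf_le_left)⟩ ⟨hg, hE⟩))
  have : g ∈ φ.E := eq ▸ φ.mem_SIsom.2 (φ.coe_det g ▸ a)
  exact ⟨hM ⟨this, e4 b⟩, this⟩

theorem dec_ne6 {κ : Type*} {D : κ → Submodule F V} {a : κ} (hq : φ.IsUnitary q) (hn : 5 ≤ finrank F V) (od : φ.ODec D)
    (rk : ∀ i, finrank F (D i) = 1) : ¬ φ.E ≤ φ.dstab D := fun H => by
  obtain ⟨u, hu, u1⟩ := hq.exists_Q_eq (od.nondeg a) (fun r => by have := rk a; rw [r, finrank_bot] at this; omega) (c := 1) (map_one _)
  have u0 : u ≠ 0 := by rintro rfl; simp at u1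
  obtain ⟨p, hp, p0, p1⟩ := hq.exists_singular (W := φ.perp (D a)) (by
    have := φ.finrank_perp (D a)
    rw [rk] at *; omega)
  have G : ∀ i, u + p ∉ D i := fun i hi => by
    by_cases s : a = i
    · exact p0 (od.nondeg a p ((add_mem_cancel_left hu).1 (s ▸ hi)) fun y hy => φ.B_symm_zero (hp y hy))
    · exact u0 (od.nondeg a u hu fun y hy => φ.B_symm_zero ((add_mem_cancel_right hp).1 (od.orth a i s hi) y hy))
  obtain ⟨g, g1, g2⟩ := (hq.std (by omega)).exists_E_map (by omega) u0 (v := u + p) (fun s => G a (s ▸ zero_mem _))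
    (by rw [φ.Q_add_of_orth (hp u hu), p1, add_zero])
  obtain ⟨σ, hσ⟩ := H g1
  exact G _ (g2 ▸ (hσ a).le (Submodule.mem_map_of_mem hu))

open Cfsg Cfsg.Geo in
theorem su6_3 {F : Type*} [Field F] [Fintype F] {q : ℕ} (hF : Fintype.card F = q ^ 2) :
    (3 ≤ q → ∀ D : Fin 6 → Submodule F (Fin 6 → F), Cfsg.Geo.IsNondegenerateMDecomposition (Cfsg.hermForm 6 F q) 1 D → Cfsg.Geo.IsMaximalIn (Cfsg.GU 6 F q ⊓ Cfsg.Geo.specialLinear (Fin 6) F) (Cfsg.Geo.decompositionStabilizer D ⊓ (Cfsg.GU 6 F q ⊓ Cfsg.Geo.specialLinear (Fin 6) F))) := by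
  intro q3 D hD
  have hF' : Nat.card F = q ^ 2 := by rw [Nat.card_eq_fintype_card, hF]
  have h0 := stdU_isUnitary hF' 6
  have od : (stdU hF' 6).ODec D := oDec_of (fun _ _ => .inr rfl) (fun x y => (stdU hF' 6).B_eq_zero_comm) hD
  rw [SU_eq_E hF' (by omega)]
  refine isMaximalIn_map _ ?_ fun M hM g hg hg1 hg2 => ?_ <;> rw [comap_decompositionStabilizer] at *
  · exact dec_ne6 (a := 0) h0 (by simp) od hD.decomp.finrank_eq
  · exact dec_le6 h0 q3 (by simp) (by simp) od hD.decomp.finrank_eq hM hg hg1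
      fun r => hg2 ((comap_decompositionStabilizer D).ge r)

end H12.Fr
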