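import Mathlib
import Cfsg.Agent.H23.K0
import Cfsg.Agent.H26.JE

/-! Part C of S5567: the orbits of `N(A) ⊓ C(z)` outside `A ⊓ Q`. -/

set_option autoImplicit false
set_option linter.unusedSectionVars false
open Cfsg BG Subgroup H01.XS H01.XF Cfsg.Agent.H06.J Cfsg.Agent.H23.K
open H01.XT hiding Hy QS

namespace H12.KC
universe u
section
variable {V : Type u} [AddCommGroup V] [Module (ZMod 2) V] [Finite V] {β : V →+ V →+ ZMod 2} {q : V → ZMod 2}

def W (t : V →+ V) : AddSubgroup V := (AddMonoidHom.id V + t).range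

theorem mW {t : V →+ V} {n : V} : n ∈ W t ↔ ∃ v, v + t v = n := Iff.rfl

theorem kc {t : V →+ V} (c : {v | t v = v}.ncard = 256) : Nat.card (AddMonoidHom.id V + t).ker = 256 := by
  rw [← c, ← Nat.card_coe_set_eq]
  exact Nat.card_congr (Equiv.subtypeEquivRight fun v =>
    ⟨fun i => lc (show v + t v = 0 from i), fun i => show v + t v = 0 from lc (show t v = v from i)⟩)

theorem cW (h : QF β q) {t : V →+ V} (c : {v | t v = v}.ncard = 256) : Nat.card (W t) = 16 := by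
  have a := AddSubgroup.card_eq_card_quotient_mul_card_addSubgroup (AddMonoidHom.id V + t).ker
  rw [Nat.card_congr (QuotientAddGroup.quotientKerEquivRange _).toEquiv, kc c, h.card] at a
  unfold W; omega

theorem perpW (h : QF β q) {t : V →+ V} (k : ∀ v, q (t v) = q v) (c : {v | t v = v}.ncard = 256) {n : V}
    (m : ∀ u, t u = u → β u n = 0) : n ∈ W t := by
  let B : LinearMap.BilinForm (ZMod 2) V := LinearMap.mk₂ (ZMod 2) (fun u v => β u v) (by simp)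
    (fun c u v => ZMod.map_smul (β.flip v) c u) (by simp) fun c u v => ZMod.map_smul (β u) c v
  let S := AddSubgroup.toZModSubmodule 2 (AddMonoidHom.id V + t).ker
  let R := AddSubgroup.toZModSubmodule 2 (W t)
  have mS : ∀ u ∈ S, t u = u := fun u i => lc (show u + t u = 0 from i)
  have l : R ≤ B.orthogonal S := by
    rintro _ ⟨v, rfl⟩ u hu
    show β u (v + t v) = 0
    have := h.inv k u v
    rw [mS u hu] at this
    rw [map_add, this]
    exact CharTwo.add_self_eq_zero _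
  have a := LinearMap.BilinForm.finrank_orthogonal (B := B)
    ⟨fun u m => h.nd u m, fun u m => h.nd u fun v => (h.sym _ _).trans (m v)⟩ S
  have b := Module.natCard_eq_pow_finrank (K := ZMod 2) (V := V)
  have c1 : Nat.card (AddMonoidHom.id V + t).ker = _ := Module.natCard_eq_pow_finrank (K := ZMod 2) (V := S)
  have c2 : Nat.card (W t) = _ := Module.natCard_eq_pow_finrank (K := ZMod 2) (V := R)
  rw [h.card, Nat.card_zmod] at b
  rw [kc c, Nat.card_zmod] at c1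
  rw [cW h c, Nat.card_zmod] at c2
  have d : Module.finrank (ZMod 2) V = 12 := (Nat.pow_right_injective le_rfl (b.symm.trans (by norm_num : 4096 = 2 ^ 12)))
  have d1 : Module.finrank (ZMod 2) S = 8 := (Nat.pow_right_injective le_rfl (c1.symm.trans (by norm_num : 256 = 2 ^ 8)))
  have d2 : Module.finrank (ZMod 2) R = 4 := (Nat.pow_right_injective le_rfl (c2.symm.trans (by norm_num : 16 = 2 ^ 4)))
  have e := Submodule.eq_of_le_of_finrank_eq l (by omega)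
  have : n ∈ B.orthogonal S := fun u hu => m u (mS u hu)
  rw [← e] at this
  exact this
end

theorem c : CStmt.{u} := by
  intro G _ _ z Q V _ _ _ Γ _ _ f π ν T d M β q s K Y B A δ x h hc
  have l := s.md.lx
  have hx := x.hk.hx
  have zQ : z ∈ Q := l.aes.mem
  have mul := H26.JE.mul s
  have inv := H26.JE.inv s
  have π1 : ∀ r ∈ Q, π r = 1 := fun r i => (s.ker r (l.le i)).2 i
  have BA : s.md.pull B ≤ A := h.e3 ▸ inf_le_left
  have zA : z ∈ A := BA ⟨zQ, s.md.zz ▸ zero_mem B⟩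
  have nB : ∀ a ∈ A, a ∉ s.md.pull B ↔ π a ≠ 1 := fun a i => not_congr
    ⟨fun j => π1 a j.1, fun j => h.e3 ▸ ⟨i, (s.ker a (x.Az i)).1 j⟩⟩
  choose! c cA cδ cπ using h.YA
  have cQ : ∀ a ∈ A, c (π a) * a ∈ Q := fun a i => (s.ker _ (x.Az (mul_mem (cA _ (x.AY a i)) i))).1 (by
    rw [mul _ (x.Az (cA _ (x.AY a i))) _ (x.Az i), cπ _ (x.AY a i), hx.Y2 _ (x.AY a i)])
  obtain ⟨N, hN⟩ : ∃ N : G → V, ∀ a, N a = ν (c (π a) * a) := ⟨_, fun _ => rfl⟩
  have NB : ∀ a ∈ A, N a ∈ B := fun a i => by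
    have : c (π a) * a ∈ s.md.pull B := h.e3 ▸ ⟨mul_mem (cA _ (x.AY a i)) i, cQ a i⟩
    rw [hN]; exact this.2
  have uq : ∀ a ∈ A, ∀ e ∈ A, e ∈ C_[δ] → π e = π a → N a = ν (e * a) := fun a i e j j' k => by
    have y := x.AY a i
    have m : e * (c (π a))⁻¹ ∈ Q := (s.ker _ (x.Az (mul_mem j (inv_mem (cA _ y))))).1 (by
      rw [mul _ (x.Az j) _ (inv_mem (x.Az (cA _ y))), inv _ (x.Az (cA _ y)), cπ _ y, k, mul_inv_cancel])
    rcases H26.JE.cq s x.δz x.δd m (mul_mem j' (inv_mem (cδ _ y))) with o | o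
    · rw [hN, mul_inv_eq_one.1 o]
    · rw [hN, mul_inv_eq_iff_eq_mul.1 o, mul_assoc, s.md.zm (cQ a i)]
  have eqz : ∀ a ∈ A, ∀ b ∈ A, π a = π b → N a = N b → a = b ∨ a = b * z := fun a i b j e e' => by
    rw [hN, hN] at e'
    rcases s.md.eq (cQ a i) (cQ b j) e' with o | o <;> rw [e] at o
    · exact .inl (mul_left_cancel o)
    · rw [← mem_cent1.1 (x.Az (mul_mem (cA _ (x.AY b j)) j)), mul_assoc] at o
      exact .inr (mul_left_cancel o)
  have cz' : ∀ m ∈ C_[z], m * z * m⁻¹ = z := fun m i => by rw [mem_cent1.1 i, mul_inv_cancel_right]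
  have QN : ∀ r ∈ Q, r ∈ N_(A) := fun r i => (h.mN r (l.le i)).2 fun v j => by rw [π1 r i, s.gm.one]; exact j
  have πc : ∀ g ∈ C_[z], ∀ a ∈ A, π (g * a * g⁻¹) = π g * π a * (π g)⁻¹ := fun g i a j => by
    rw [mul _ (mul_mem i (x.Az j)) _ (inv_mem i), mul _ i _ (x.Az j), inv _ i]
  have mvQ : ∀ a ∈ A, ∀ b ∈ A, π a = π b → N b + N a ∈ W (T (π b)) →
      ∃ r ∈ Q, r * a * r⁻¹ = b ∨ r * a * r⁻¹ = b * z := fun a i b j e w => by
    obtain ⟨v, ev⟩ := mW.1 w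
    obtain ⟨r, rQ, rfl⟩ := s.md.sur v
    have e1 : π (r * a * r⁻¹) = π a := by rw [πc r (l.le rQ) a i, π1 r rQ]; group
    have cz := x.Az (cA _ (x.AY a i))
    refine ⟨r, rQ, eqz _ (conj_mem_of_norm (QN r rQ) i) b j (e1.trans e) ?_⟩
    rw [hN, e1, show c (π a) * (r * a * r⁻¹) = c (π a) * r * (c (π a))⁻¹ * (c (π a) * a) * r⁻¹ by group,
      s.md.mul _ (mul_mem (l.cE cz rQ) (cQ a i)) _ (inv_mem rQ), s.md.mul _ (l.cE cz rQ) _ (cQ a i), ← s.act _ cz r rQ,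
      s.md.inv rQ, ← hN, cπ _ (x.AY a i), e]
    exact lc ev
  have mvK : ∀ k ∈ K, ∃ g ∈ C_[z], g ∈ N_(A) ∧ ∀ a ∈ A, π (g * a * g⁻¹) = k * π a * k⁻¹ ∧ N (g * a * g⁻¹) = T k (N a) :=
    fun k i => by
    obtain ⟨g, j, rfl⟩ := H26.JE.su s x.δz x.δd x.δ3 k (x.hk.KM i)
    have gN : g ∈ N_(A) := (h.mN g j.1).2 (x.pj.KB _ i)
    refine ⟨g, j.1, gN, fun a o => ⟨πc g j.1 a o, ?_⟩⟩
    have y := x.AY a o
    rw [uq _ (conj_mem_of_norm gN o) (g * c (π a) * g⁻¹) (conj_mem_of_norm gN (cA _ y))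
      (mul_mem (mul_mem j.2 (cδ _ y)) (inv_mem j.2)) (by rw [πc g j.1 _ (cA _ y), πc g j.1 a o, cπ _ y]), conj_mul,
      hN, s.act g j.1 _ (cQ a o)]
  have TW : ∀ k y n, n ∈ W (T y) → T k n ∈ W (T (k * y * k⁻¹)) := fun k y n w => by
    obtain ⟨v, rfl⟩ := mW.1 w
    exact mW.2 ⟨T k v, by rw [map_add, ← s.gm.mul, ← s.gm.mul, inv_mul_cancel_right]⟩
  have TW' : ∀ k y n, T k n ∈ W (T (k * y * k⁻¹)) → n ∈ W (T y) := fun k y n w => by
    have := TW k⁻¹ _ _ w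
    rwa [← s.gm.mul, inv_mul_cancel, s.gm.one, show k⁻¹ * (k * y * k⁻¹) * k⁻¹⁻¹ = y by group] at this
  have dy : ∀ y ∈ Y, d * y * d⁻¹ = y := fun y i => by rw [← s.gm.Md y (x.hk.KM (hx.YK i)), mul_inv_cancel_right]
  have WB : ∀ y ∈ Y, W (T y) ≤ B := fun y i n w => by
    obtain ⟨v, rfl⟩ := mW.1 w
    exact x.pj.cm y i v
  have flip : ∀ a ∈ A, π a ≠ 1 → N a ∉ W (T (π a)) → ∃ r ∈ Q, r * (a * z) * r⁻¹ = a := fun a i n w => by
    have y := x.AY a i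
    obtain ⟨v, ev, nv⟩ : ∃ v, T (π a) v = v ∧ β v (N a) ≠ 0 := by
      by_contra o
      push Not at o
      exact w (perpW s.gm.toQF (s.gm.qT _) (hc _ y n) o)
    obtain ⟨r, rQ, rfl⟩ := s.md.sur v
    have e1 := mul_inv_eq_iff_eq_mul.1 (h.cz _ (x.Az (cA _ y)) (cδ _ y) r rQ (by rw [cπ _ y]; exact ev))
    rw [hN] at nv
    have e2 := (l.cm rQ (cQ a i)).resolve_left fun o => nv ((s.b r rQ _ (cQ a i)).2 o)
    have e3 : a = c (π a) * (c (π a) * a) := by rw [← mul_assoc, x.A2 _ (cA _ y), one_mul]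
    have e4 := mem_cent1.1 (x.Az (cA _ y))
    have e5 := mem_cent1.1 (l.le (cQ a i))
    have e6 := mem_cent1.1 (l.le rQ)
    refine ⟨r, rQ, ?_⟩
    generalize c (π a) * a = b at e2 e3 e5
    generalize c (π a) = e at e1 e3 e4
    rw [mul_inv_eq_iff_eq_mul, e3]
    calc r * (e * b * z) = e * (r * b) * z := by rw [← mul_assoc, ← mul_assoc, ← e1]; group
      _ = e * b * (z * z) * r := by rw [e2, ← e5, mul_assoc e, mul_assoc (b * z), e6]; group
      _ = e * b * r := by rw [l.zz, mul_one]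
  have cE : {a | a ∈ A ∧ π a ≠ 1 ∧ N a ∈ W (T (π a))}.ncard = 480 := by
    classical
    have := Fintype.ofFinite {y // y ∈ Y ∧ y ≠ 1}
    let φ : (Σ y : {y // y ∈ Y ∧ y ≠ 1}, s.md.pull (W (T y))) → G := fun p => c p.1 * p.2
    have pA : ∀ y ∈ Y, ∀ p ∈ s.md.pull (W (T y)), p ∈ A := fun y i p j => BA ⟨j.1, WB y i j.2⟩
    have pπ : ∀ y ∈ Y, ∀ p ∈ s.md.pull (W (T y)), π (c y * p) = y := fun y i p j => by
      rw [mul _ (x.Az (cA _ i)) _ (l.le j.1), π1 p j.1, mul_one, cπ _ i]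
    have fi : Function.Injective φ := by
      rintro ⟨y, p⟩ ⟨y', p'⟩ e
      have e : c y * p = c y' * p' := e
      obtain rfl : y = y' := Subtype.ext ((pπ _ y.2.1 _ p.2).symm.trans (e ▸ pπ _ y'.2.1 _ p'.2))
      obtain rfl : p = p' := Subtype.ext (mul_left_cancel e)
      rfl
    have fr : {a | a ∈ A ∧ π a ≠ 1 ∧ N a ∈ W (T (π a))} = Set.range φ := Set.ext fun a =>
      ⟨fun ⟨i, n, w⟩ => ⟨⟨⟨π a, x.AY a i, n⟩, ⟨c (π a) * a, cQ a i, hN a ▸ w⟩⟩, by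
        show c (π a) * (c (π a) * a) = a
        rw [← mul_assoc, x.A2 _ (cA _ (x.AY a i)), one_mul]⟩, by
        rintro ⟨⟨⟨y, i, n⟩, ⟨p, j⟩⟩, rfl⟩
        have e : π (c y * p) = y := pπ y i p j
        refine ⟨mul_mem (cA y i) (pA y i p j), show π (c y * p) ≠ 1 from e.symm ▸ n, ?_⟩
        show N (c y * p) ∈ W (T (π (c y * p)))
        rw [hN, e, ← mul_assoc, x.A2 _ (cA _ i), one_mul]
        exact j.2⟩
    rw [fr, Set.ncard_range_of_injective fi, Nat.card_sigma, Finset.sum_congr rfl fun y _ =>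
      (s.md.card_pull _).trans (congrArg (2 * ·) (cW s.gm.toQF (hc _ y.2.1 y.2.2))), Finset.sum_const, Finset.card_univ,
      ← Nat.card_eq_fintype_card]
    have : Nat.card {y // y ∈ Y ∧ y ≠ 1} = 15 := by
      have a := Set.ncard_diff_singleton_of_mem (s := (Y : Set Γ)) (one_mem Y)
      rw [show (Y : Set Γ).ncard = 16 from (Nat.card_coe_set_eq _).symm.trans hx.cY] at a
      exact (Nat.card_coe_set_eq ((Y : Set Γ) \ {1})).trans a
    rw [this]; rfl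
  refine ⟨{a | a ∈ A ∧ π a ≠ 1 ∧ N a ∈ W (T (π a))}, {a | a ∈ A ∧ π a ≠ 1 ∧ N a ∉ W (T (π a))}, fun a =>
    ⟨fun ⟨i, n⟩ => (em _).imp (fun w => ⟨i, (nB a i).1 n, w⟩) fun w => ⟨i, (nB a i).1 n, w⟩,
      fun o => o.elim (fun i => ⟨i.1, (nB a i.1).2 i.2.1⟩) fun i => ⟨i.1, (nB a i.1).2 i.2.1⟩⟩, cE, ?_, ?_, ?_, ?_, ?_⟩
  · have e : {a | a ∈ A ∧ π a ≠ 1 ∧ N a ∉ W (T (π a))} =
        ((A : Set G) \ (s.md.pull B : Set G)) \ {a | a ∈ A ∧ π a ≠ 1 ∧ N a ∈ W (T (π a))} := Set.ext fun a =>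
      ⟨fun ⟨i, n, w⟩ => ⟨⟨i, (nB a i).2 n⟩, fun o => w o.2.2⟩,
        fun ⟨⟨i, n⟩, o⟩ => ⟨i, (nB a i).1 n, fun w => o ⟨i, (nB a i).1 n, w⟩⟩⟩
    have sb : {a | a ∈ A ∧ π a ≠ 1 ∧ N a ∈ W (T (π a))} ⊆ (A : Set G) \ (s.md.pull B : Set G) :=
      fun a i => ⟨i.1, (nB a i.1).2 i.2.1⟩
    have sb' : (s.md.pull B : Set G) ⊆ (A : Set G) := BA
    rw [e, Set.ncard_sdiff sb, Set.ncard_sdiff sb', cE,
      show (A : Set G).ncard = 2048 from (Nat.card_coe_set_eq _).symm.trans x.cA,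
      show (s.md.pull B : Set G).ncard = 128 from (Nat.card_coe_set_eq _).symm.trans
        ((s.md.card_pull B).trans (by rw [x.pj.cB]))]
  · rintro a ⟨i, n, w⟩
    have e : π (a * z) = π a := by rw [mul _ (x.Az i) _ (l.le zQ), π1 z zQ, mul_one]
    refine ⟨mul_mem i zA, e.symm ▸ n, ?_⟩
    rwa [hN, e, ← mul_assoc, s.md.mul _ (cQ a i) _ zQ, s.md.zz, add_zero, ← hN]
  · rintro a ⟨i, n, w⟩ b ⟨j, n', w'⟩
    obtain ⟨k, kK, ek⟩ := hx.tr _ (x.AY a i) _ (x.AY b j) n n'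
    obtain ⟨g, gz, gN, hg⟩ := mvK k kK
    obtain ⟨e1, e2⟩ := hg a i
    obtain ⟨r, rQ, er⟩ := mvQ _ (conj_mem_of_norm gN i) b j (e1.trans ek) (add_mem w' (by rw [e2, ← ek]; exact TW _ _ _ w))
    refine ⟨r * g, mul_mem (QN r rQ) gN, cz' _ (mul_mem (l.le rQ) gz), ?_⟩
    rwa [show r * g * a * (r * g)⁻¹ = r * (g * a * g⁻¹) * r⁻¹ by group]
  · rintro a ⟨i, n, w⟩ b ⟨j, n', w'⟩
    have y := x.AY b j
    obtain ⟨k0, k0K, ek0⟩ := hx.tr _ (x.AY a i) _ y n n'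
    have w1 : T k0 (N a) ∉ W (T (π b)) := fun o => w (TW' k0 _ _ (ek0.symm ▸ o))
    have b1 : T k0 (N a) ∈ B := x.pj.KB _ k0K _ (NB a i)
    have Wd : ∀ n, n ∉ W (T (π b)) → T d n ∉ W (T (π b)) := fun n o o' => o (TW' d _ _ ((dy _ y).symm ▸ o'))
    obtain ⟨k, kK, ek, hw⟩ : ∃ k ∈ K, k * π a * k⁻¹ = π b ∧ N b + T k (N a) ∈ W (T (π b)) := by
      have w2 : T d (T k0 (N a)) ∉ ex (W (T (π b))) (T k0 (N a)) := by
        rintro (o | o)
        · exact Wd _ w1 o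
        · exact Wd _ (Wd _ w1) (by rw [H26.JE.ω2 s]; exact o)
      have le : ex (ex (W (T (π b))) (T k0 (N a))) (T d (T k0 (N a))) ≤ B := by
        have l1 : ex (W (T (π b))) (T k0 (N a)) ≤ B := by
          rintro v (o | o)
          · exact WB _ y o
          · exact (add_mem_cancel_right b1).1 (WB _ y o)
        rintro v (o | o)
        · exact l1 o
        · exact (add_mem_cancel_right (x.pj.Bω _ b1)).1 (l1 o)
      have eq := AddSubgroup.eq_of_le_of_card_ge le (by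
        have a1 := card_ex w2
        have a2 := card_ex w1
        rw [cW s.gm.toQF (hc _ y n')] at a2
        rw [x.pj.cB]; omega)
      have e1 : d * k0 * π a * (d * k0)⁻¹ = π b := by
        rw [show d * k0 * π a * (d * k0)⁻¹ = d * (k0 * π a * k0⁻¹) * d⁻¹ by group, ek0, dy _ y]
      have e2 : d * (d * k0) * π a * (d * (d * k0))⁻¹ = π b := by
        rw [show d * (d * k0) * π a * (d * (d * k0))⁻¹ = d * (d * k0 * π a * (d * k0)⁻¹) * d⁻¹ by group, e1, dy _ y]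
      have m : N b ∈ ex (ex (W (T (π b))) (T k0 (N a))) (T d (T k0 (N a))) := eq.symm ▸ NB b j
      rcases m with (o | o) | (o | o)
      · exact (w' o).elim
      · exact ⟨k0, k0K, ek0, o⟩
      · exact ⟨d * k0, mul_mem hx.dK k0K, e1, by rw [s.gm.mul]; exact o⟩
      · exact ⟨d * (d * k0), mul_mem hx.dK (mul_mem hx.dK k0K), e2, by
          rw [s.gm.mul, s.gm.mul, H26.JE.ω2 s, ← add_assoc]; exact o⟩
    obtain ⟨g, gz, gN, hg⟩ := mvK k kK
    obtain ⟨e1, e2⟩ := hg a i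
    obtain ⟨r, rQ, er⟩ := mvQ _ (conj_mem_of_norm gN i) b j (e1.trans ek) (by rw [e2]; exact hw)
    rcases er with er | er
    · refine ⟨r * g, mul_mem (QN r rQ) gN, cz' _ (mul_mem (l.le rQ) gz), ?_⟩
      rwa [show r * g * a * (r * g)⁻¹ = r * (g * a * g⁻¹) * r⁻¹ by group]
    · obtain ⟨r', rQ', er'⟩ := flip b j n' w'
      refine ⟨r' * (r * g), mul_mem (QN r' rQ') (mul_mem (QN r rQ) gN), cz' _ (mul_mem (l.le rQ') (mul_mem (l.le rQ) gz)), ?_⟩
      rwa [show r' * (r * g) * a * (r' * (r * g))⁻¹ = r' * (r * (g * a * g⁻¹) * r⁻¹) * r'⁻¹ by group, er]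
  · intro a i j n
    refine ⟨i, (nB a i).1 n, ?_⟩
    rw [uq a i a i j rfl, x.A2 a i, s.md.one]
    exact zero_mem _

end H12.KC
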