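import Mathlib
import Cfsg.Agent.H12.RootSub2
import Cfsg.Agent.H12.Special

/-!
# Triangles of abstract transvection groups : rank one pairs are special
* `key`, `special_of_tri`, `special_deg`
-/

namespace H12.Tri

open Cfsg Subgroup

variable {G : Type*} [Group G] {A B C : Subgroup G} {n a b : G}

theorem cj {x y : G} (h : Commute x y) (g : G) : Commute (g⁻¹ * x * g) (g⁻¹ * y * g) := by
  simpa using h.map (MulAut.conj g⁻¹)

theorem fx {x y : G} (h : Commute x y) : x⁻¹ * y * x = y := by rw [mul_assoc, ← h.eq, inv_mul_cancel_left]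

theorem xf {x y : G} (h : x⁻¹ * y * x = y) : Commute x y := by
  rw [Commute, SemiconjBy]; nth_rw 1 [← h]; group

theorem cen (n1 : ∀ x ∈ A, Commute n x) (e : conjBy A b⁻¹ = conjBy B a⁻¹) : ∀ x ∈ B, Commute (a * b⁻¹ * n * b * a⁻¹) x :=
  fun x hx => by
  have := cj (n1 _ (mem_conjBy_inv.1 (e ▸ conj_mem_conjBy_inv hx a))) (b * a⁻¹)
  convert this using 1 <;> group

variable (h : IsRankOnePair A B) (hA : ∀ x ∈ A, ∀ y ∈ A, Commute x y) (hB : ∀ x ∈ B, ∀ y ∈ B, Commute x y)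
  (n1 : ∀ x ∈ A, Commute n x) (n2 : ∀ x ∈ B, ∀ y ∈ B, Commute x (n⁻¹ * y * n))
include h hA hB n1 n2

theorem key (ha : a ∈ A) (hb : b ∈ B) (b1 : b ≠ 1) (e : conjBy A b⁻¹ = conjBy B a⁻¹) {m : G} (hm : m = n⁻¹ * b⁻¹ * n * b) :
    (∀ x ∈ A, ∀ y ∈ A, Commute x (m⁻¹ * y * m)) ∧ (conjBy B n⁻¹ ≠ B → conjBy A m⁻¹ ≠ A) ∧ (∀ x ∈ B, Commute m x) ∧
      (∀ x ∈ A, Commute (n * (m⁻¹ * a * m) * a⁻¹) x) ∧ ∀ x ∈ B, Commute (n * (m⁻¹ * a * m) * a⁻¹) x := by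
  obtain ⟨a', ha', -, e'⟩ := h.cond_right b⁻¹ (inv_mem hb) (inv_ne_one.2 b1)
  rw [inv_inv] at e'
  have M : ∀ x ∈ A, a' * (b * x * b⁻¹) * a'⁻¹ ∈ B := fun x hx => mem_conjBy_inv.1 (e' ▸ conj_mem_conjBy hx b)
  have k1 : ∀ x ∈ A, ∀ y ∈ A, Commute x (m⁻¹ * y * m) := fun x hx y hy => by
    have := cj (n2 _ (M x hx) _ (M y hy)) (a' * b)
    convert this using 1
    · group
    calc m⁻¹ * y * m = b⁻¹ * n⁻¹ * b * (n⁻¹⁻¹ * y * n⁻¹) * b⁻¹ * n * b := by rw [hm]; group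
      _ = b⁻¹ * (a'⁻¹ * n * a')⁻¹ * b * y * b⁻¹ * (a'⁻¹ * n * a') * b := by rw [fx (n1 y hy).inv_left, fx (n1 a' ha').symm]
      _ = _ := by group
  have k2 : ∀ x ∈ B, Commute m x := fun x hx => hm ▸ (n2 x hx _ (inv_mem hb)).symm.mul_left (hB b hb x hx)
  have k3 : ∀ x ∈ B, Commute m (n⁻¹ * x * n) := fun x hx => hm ▸ (cj (hB _ (inv_mem hb) x hx) n).mul_left (n2 b hb x hx)
  refine ⟨k1, fun r s => r ?_, k2, fun x hx => ((n1 x hx).mul_left (k1 x hx a ha).symm).mul_left (hA a ha x hx).inv_left,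
    fun x hx => ?_⟩
  · rw [show m⁻¹ = b⁻¹ * (n⁻¹ * (b * n)) by rw [hm]; group, conjBy_mul, conjBy_mul, conjBy_mul,
      conjBy_of_commute (g := n) fun x hx => (n1 x hx).symm.eq, conjBy_eq_iff, inv_inv, ← e', conjBy_conjBy,
      (n1 a' ha').inv_inv.eq, conjBy_mul, conjBy_inj] at s
    exact s
  have u := fx (cen n1 e x hx)
  rw [show a * b⁻¹ * n * b * a⁻¹ = n * m * (m⁻¹ * a * m * a⁻¹) from calc
    _ = a * n * a⁻¹ * (a * m * a⁻¹) := by rw [hm]; group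
    _ = _ := by rw [(n1 a ha).symm.eq]; group] at u
  refine xf (Eq.trans ?_ u)
  calc _ = (m⁻¹ * a * m * a⁻¹)⁻¹ * (n⁻¹ * x * n) * (m⁻¹ * a * m * a⁻¹) := by group
    _ = (m⁻¹ * a * m * a⁻¹)⁻¹ * (m⁻¹ * (n⁻¹ * x * n) * m) * (m⁻¹ * a * m * a⁻¹) := by rw [fx (k3 x hx)]
    _ = _ := by group

theorem special (n3 : conjBy B n⁻¹ ≠ B) : IsSpecialRankOnePair A B := ⟨h, fun a ha _ b hb b1 e => by
  obtain ⟨a', ha', -, e'⟩ := h.cond_right b⁻¹ (inv_mem hb) (inv_ne_one.2 b1)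
  obtain ⟨-, -, k2, k4, k5⟩ := key h hA hB n1 n2 ha hb b1 e rfl
  have g1 := cen n1 e'.symm
  rw [inv_inv] at e' g1
  refine RO.special_of_inv h ha hb e (e'.symm.trans (congrArg _ (inv_eq_of_mul_eq_one_right (by_contra fun r => n3 ?_))))
  have g2 : ∀ x ∈ B, Commute (a⁻¹ * b * n * b⁻¹ * a) x := fun x hx => by
    have u0 := (k5 x hx).mul_left (k2 x hx).inv_left
    have u1 := fx (k4 a ha).symm
    have u2 := fx (k2 b⁻¹ (inv_mem hb)).symm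
    have u3 := fx (n1 a ha).symm
    have u4 : b⁻¹ * n * b = n * (n⁻¹ * b⁻¹ * n * b) := by group
    generalize n⁻¹ * b⁻¹ * n * b = m at *
    have u5 : b * n * b⁻¹ = n * m⁻¹ := by
      rw [eq_mul_inv_iff_mul_eq, ← u2]
      calc _ = b * (n * m) * b⁻¹ := by group
        _ = _ := by rw [← u4]; group
    rwa [← u1, show a⁻¹ * (n * (m⁻¹ * a * m) * a⁻¹) * a * m⁻¹ = a⁻¹ * (n * m⁻¹) * a by group, ← u5,
      show a⁻¹ * (b * n * b⁻¹) * a = a⁻¹ * b * n * b⁻¹ * a by group] at u0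
  have g3 : ∀ x ∈ A ⊔ B, Commute (a' * b * n * b⁻¹ * a'⁻¹) x := fun x hx => by
    rw [← (RO.pair_conj h (mul_mem ha' ha) r).2] at hx
    refine commute_of_sup g1 (fun y hy => ?_) hx
    have := cj (g2 _ (mem_conjBy.1 hy)) (a' * a)⁻¹
    convert this.eq using 1 <;> group
  have g4 := fx (g3 _ (mul_mem (mem_sup_left ha') (mem_sup_right hb))).symm
  rw [show (a' * b)⁻¹ * (a' * b * n * b⁻¹ * a'⁻¹) * (a' * b) = n by group] at g4
  rw [← g4] at g1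
  exact conjBy_of_commute fun x hx => (g1 x hx).inv_left.symm.eq⟩

omit hA hB n1 n2 in
theorem tri (h' : IsRankOnePair C B) (ne : C ≠ A) (hc : ⁅A, C⁆ = ⊥) (ha : a ∈ A) (a1 : a ≠ 1) :
    ∃ c ∈ C, (∀ x ∈ B, ∀ y ∈ B, Commute x ((c * a⁻¹)⁻¹ * y * (c * a⁻¹))) ∧ conjBy B (c * a⁻¹)⁻¹ ≠ B := by
  obtain ⟨b, hb, b1, e⟩ := h.cond_left a ha a1
  obtain ⟨c, hc', -, e'⟩ := h'.cond_right b hb b1
  have := commutator_conjBy_eq_bot hc b⁻¹
  rw [e, ← e', commutator_eq_bot_iff] at this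
  refine ⟨c, hc', fun x hx y hy => ?_, fun r => ne ?_⟩
  · have := cj (this _ (conj_mem_conjBy_inv hx a) _ (conj_mem_conjBy_inv hy c)) a⁻¹
    convert this using 1 <;> group
  rw [mul_inv_rev, inv_inv, conjBy_mul, conjBy_eq_iff, e', ← e, conjBy_inj] at r
  exact r

omit hB n1 n2 hA in
theorem small (H : ∀ x ∈ A, ∀ y ∈ A, x ≠ 1 → y ≠ 1 → y = x ∨ y = x⁻¹) : IsSpecialRankOnePair A B := ⟨h, fun a ha a1 b hb b1 e => by
  obtain ⟨a', ha', a2, e'⟩ := h.cond_right b⁻¹ (inv_mem hb) (inv_ne_one.2 b1)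
  rw [inv_inv] at e'
  refine RO.special_of_inv h ha hb e (e'.symm.trans (congrArg _ ?_))
  obtain rfl | rfl := H a ha a' ha' a1 a2
  · have u := RO.conj_left_inj (RO.symm h) (inv_mem hb) hb (e.trans e')
    obtain ⟨w, -, -, hw⟩ := RO.exists_swap h
    have v : (w * b * w⁻¹)⁻¹ = w * b * w⁻¹ := by rw [conj_inv, u]
    obtain r | r := H a' ha _ (hw ▸ conj_mem_conjBy hb w) a1 (by simpa using b1)
    · rwa [r] at v
    · rw [r, inv_inv] at v; exact v.symm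
  · exact inv_inv a⟩

omit h hA hB n1 n2 in
theorem special_deg {S : Set (Subgroup G)} (hS : IsRootSubgroupClass S) (hd : IsDegenerateRootSet S)
    (hcomm : ∃ A ∈ S, ∃ C ∈ S, A ≠ C ∧ ⁅A, C⁆ = ⊥) (hA : A ∈ S) (hB : B ∈ S) (h : IsRankOnePair A B) :
    IsSpecialRankOnePair A B := by
  have ab : ∀ {A}, A ∈ S → ∀ x ∈ A, ∀ y ∈ A, Commute x y := fun hA => RS.comm hS.1 hA
  have di : ∀ {A B}, A ∈ S → B ∈ S → ¬ IsRankOnePair A B → ⁅A, B⁆ = ⊥ := fun hA hB r =>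
    ((hS.1.pair _ hA _ hB).resolve_right fun s => s.elim r (hd _ hA _ hB))
  have cc : ∀ {C : Subgroup G} {c a : G}, ⁅A, C⁆ = ⊥ → c ∈ C → a ∈ A → ∀ x ∈ A, Commute (c * a⁻¹) x := fun hc c1 a1 x hx =>
    Commute.mul_left (commutator_eq_bot_iff.1 hc x hx _ c1).symm (ab hA _ a1 x hx).inv_left
  have sp : ∀ {B C}, B ∈ S → IsRankOnePair A B → IsRankOnePair C B → C ≠ A → ⁅A, C⁆ = ⊥ → IsSpecialRankOnePair A B :=
    fun hB h h' ne hc => by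
      obtain ⟨a, ha, a1⟩ := RO.exists_ne_one h
      obtain ⟨c, c1, c2, c3⟩ := tri h h' ne hc ha a1
      exact special h (ab hA) (ab hB) (cc hc c1 ha) c2 c3
  by_contra ns
  have P : ∀ C ∈ S, C ≠ A → ⁅A, C⁆ = ⊥ → ⁅C, B⁆ = ⊥ := fun C hC ne hc => di hC hB fun r => ns (sp hB h r ne hc)
  have nj : ∀ {C : Subgroup G} {g : G}, conjBy A g = A → C ≠ A → ⁅A, C⁆ = ⊥ → conjBy C g ≠ A ∧ ⁅A, conjBy C g⁆ = ⊥ :=
    fun r ne hc => ⟨fun s => ne (conjBy_inj.1 (s.trans r.symm)), by nth_rw 1 [← r]; exact commutator_conjBy_eq_bot hc _⟩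
  obtain ⟨E, hE, hAE, C, hC, ne, hc, hCE⟩ : ∃ E ∈ S, IsRankOnePair A E ∧ ∃ C ∈ S, C ≠ A ∧ ⁅A, C⁆ = ⊥ ∧ IsRankOnePair C E := by
    by_contra! H
    have T : ∀ g, ∀ C ∈ S, C ≠ A → ⁅A, C⁆ = ⊥ → conjBy C g ≠ A ∧ ⁅A, conjBy C g⁆ = ⊥ := fun g => by
      have : g ∈ ⨆ D : S, D.1 := (iSup_subtype'' S fun D => D).ge (hS.1.generates.ge (mem_top g))
      induction this using iSup_induction' with
      | hp D g hg =>
        intro C hC ne hc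
        by_cases r : IsRankOnePair A D
        · rw [conjBy_of_commutator_eq_bot (di hC D.2 (H _ D.2 r C hC ne hc)) hg]; exact ⟨ne, hc⟩
        · exact nj (conjBy_of_commutator_eq_bot (di hA D.2 r) hg) ne hc
      | h1 => intro C _ ne hc; simpa using ⟨ne, hc⟩
      | hmul x y _ _ hx hy =>
        intro C hC ne hc
        rw [conjBy_mul]
        exact hx _ (hS.1.conj_mem C hC y) (hy C hC ne hc).1 (hy C hC ne hc).2
    obtain ⟨A0, h0, C0, h1, h2, h3⟩ := hcomm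
    obtain ⟨g, rfl⟩ := hS.2.2 A0 h0 A hA
    obtain ⟨g', e⟩ := hS.2.2 _ (hS.1.conj_mem C0 h1 g) _ hA
    exact (T g' _ (hS.1.conj_mem C0 h1 g) (fun r => h2 (conjBy_inj.1 r).symm) (commutator_conjBy_eq_bot h3 g)).1 e.symm
  have hs := sp hE hAE hCE ne hc
  have := mt (small h) ns
  push Not at this
  obtain ⟨u, hu, v, hv, u1, v1, uv, uv'⟩ := this
  have c3 : 3 < ENat.card A := by
    have : ({1, u, v, u * v} : Set G).encard = 4 := by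
      have : 1 ≠ u * v := fun r => uv' (eq_inv_of_mul_eq_one_right r.symm)
      rw [Set.encard_insert_of_notMem (by simp [u1.symm, v1.symm, this]), Set.encard_insert_of_notMem (by simp [uv.symm, v1]),
        Set.encard_pair (by simp [u1])]; rfl
    refine lt_of_lt_of_le (by rw [this]; decide) (Set.encard_le_encard (t := (A : Set G)) ?_)
    simp [Set.insert_subset_iff, hu, hv, mul_mem hu hv]
  refine u1 ((SP.le_commutator_diagonal hs (hS.1.commutative A hA) c3).trans (commutator_eq_bot_iff.2 fun x hx g hg => ?_).le hu)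
  by_cases x1 : x = 1
  · simp [x1]
  obtain ⟨a, ha, a1, a2⟩ : ∃ a ∈ A, a ≠ 1 ∧ a ≠ x := by
    by_cases r : u = x; exacts [⟨v, hv, v1, r ▸ uv⟩, ⟨u, hu, u1, r⟩]
  obtain ⟨c, c1, c2, c4⟩ := tri hAE hCE ne hc ha a1
  have ha' := mul_mem hx (inv_mem ha)
  obtain ⟨b, hb, b1, e⟩ := hAE.cond_left _ ha' (by simpa [mul_inv_eq_one] using a2.symm)
  obtain ⟨k1, k2, -, k4, k5⟩ := key hAE (ab hA) (ab hE) (cc hc c1 ha) c2 ha' hb b1 e rfl
  generalize (c * a⁻¹)⁻¹ * b⁻¹ * (c * a⁻¹) * b = m at *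
  have k6 : ⁅A, conjBy A m⁻¹⁆ = ⊥ := commutator_eq_bot_iff.2 fun y hy y' hy' => by
    have := (k1 y hy _ (mem_conjBy_inv.1 hy')).eq
    rwa [show m⁻¹ * (m * y' * m⁻¹) * m = y' by group] at this
  have k7 := fx (x := g⁻¹) (Commute.inv_left (commute_of_sup k4 k5 hg.1.1).symm)
  have Z : ∀ B' : Subgroup G, (∀ C ∈ S, C ≠ A → ⁅A, C⁆ = ⊥ → ⁅C, B'⁆ = ⊥) → ∀ y ∈ B',
      (c * a⁻¹ * (m⁻¹ * (x * a⁻¹) * m) * (x * a⁻¹)⁻¹)⁻¹ * y * (c * a⁻¹ * (m⁻¹ * (x * a⁻¹) * m) * (x * a⁻¹)⁻¹) = x * y * x⁻¹ :=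
    fun B' P y hy => by
    have w1 := fx (commutator_eq_bot_iff.1 (P C hC ne hc) c c1 y hy)
    have w2 := fx (commutator_eq_bot_iff.1 (P _ (hS.1.conj_mem A hA m⁻¹) (k2 c4) k6) _ (conj_mem_conjBy_inv ha' m) y hy)
    have w3 := fx (k1 a ha _ ha').symm
    generalize m⁻¹ * (x * a⁻¹) * m = γ at *
    calc _ = x * a⁻¹ * (γ⁻¹ * a * γ) * (γ⁻¹ * (c⁻¹ * y * c) * γ) * (γ⁻¹ * a * γ)⁻¹ * (x * a⁻¹)⁻¹ := by group
      _ = _ := by rw [w1, w2, w3]; group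
  have gA := conjBy_eq_self_iff.2 (inv_mem hg.1.2)
  have y1 := RO.eq_one_of_commute h (mul_mem (inv_mem hx) (gA ▸ conj_mem_conjBy_inv hx g)) fun y hy => by
    have z1 := Z B P y hy
    have z2 := Z (conjBy B g) (fun C hC ne hc => by
      simpa using commutator_conjBy_eq_bot (P _ (hS.1.conj_mem C hC g⁻¹) (nj gA ne hc).1 (nj gA ne hc).2) g) _ (conj_mem_conjBy hy g)
    generalize c * a⁻¹ * (m⁻¹ * (x * a⁻¹) * m) * (x * a⁻¹)⁻¹ = z at *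
    have z3 : x * (g * y * g⁻¹) * x⁻¹ = g * (x * y * x⁻¹) * g⁻¹ := by
      rw [← z1, ← z2]; nth_rw 1 2 [← k7]; group
    calc _ = x⁻¹ * g⁻¹ * (g * (x * y * x⁻¹) * g⁻¹) * x * g := by group
      _ = _ := by rw [← z3]; group
  calc x * g = g * x * (x⁻¹ * (g⁻¹ * x * g)) := by group
    _ = _ := by rw [y1, mul_one]

end H12.Tri
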