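import Mathlib
import Cfsg.Agent.L.Jf0

/-! Part F of S5572. -/

set_option autoImplicit false
open Cfsg BG Subgroup L.Jf

namespace H12.S5F
universe u

theorem es {G H : Type*} [Group G] [Finite G] [Group H] (h : IsExtraspecial 2 G) (e : G ≃* H) : IsExtraspecial 2 H := by
  have : Fact (Nat.Prime 2) := ⟨Nat.prime_two⟩
  have := Finite.of_equiv _ e.toEquiv
  obtain ⟨z, h1, h2, h3⟩ := H04.exists_aes_of_isExtraspecial h
  have h4 := h1.map e.toMonoidHom e.injective
  rw [map_top_of_surjective _ e.surjective] at h4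
  refine H04.isExtraspecial_of_aes_top h4 (fun x hx => ?_) fun hc => h3 ⟨⟨fun x y => e.injective (by
    rw [map_mul, map_mul, hc.is_comm.comm])⟩⟩
  obtain ⟨i, hi⟩ := h2.le (mem_center_iff.2 fun g => e.injective (by
    rw [map_mul, map_mul, e.apply_symm_apply, mem_center_iff.1 hx]) : e.symm x ∈ center G)
  exact ⟨i, by simpa using congrArg e hi⟩

theorem f : FStmt.{u} := by
  intro G _ _ σ z XS WS hb o5 o2 σz hw h3
  have zσ : z ∈ C_[σ] := mem_cent1_comm.1 σz
  obtain ⟨c960, c3840, Q, δ, lo⟩ := hb.2 σ σz o5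
  have p5 : Nat.Prime 5 := by norm_num
  have Sσ : zpowers σ ≤ C_[σ] := zpowers_le.2 (mem_cent1_self σ)
  have cS : Nat.card (zpowers σ) = 5 := (Nat.card_zpowers σ).trans o5
  let S := (zpowers σ).subgroupOf C_[σ]
  have Sc : ∀ s ∈ S, ∀ h : C_[σ], h * s = s * h := fun s i h => Subtype.ext (by
    obtain ⟨k, e⟩ := mem_zpowers_iff.1 (mem_subgroupOf.1 i)
    show (h : G) * s = s * h
    rw [← e]
    exact ((show Commute (h : G) σ from mem_cent1.1 h.2).zpow_right k).eq)
  have nS : S.Normal := ⟨fun s i h => by rwa [Sc s i h, mul_inv_cancel_right]⟩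
  have cS' : Nat.card S = 5 := (Nat.card_congr (subgroupOfEquivOfLe Sσ).toEquiv).trans cS
  have s5 : ∀ s ∈ S, s ^ 5 = 1 := fun s i => by
    have := congrArg Subtype.val (pow_card_eq_one' (x := (⟨s, i⟩ : S)))
    rwa [cS'] at this
  let p := QuotientGroup.mk' S
  have ps : Function.Surjective p := QuotientGroup.mk'_surjective S
  have pk : ∀ h, p h = 1 ↔ h ∈ S := fun h => QuotientGroup.eq_one_iff h
  have cH : Nat.card C_[σ] = Nat.card (C_[σ] ⧸ S) * 5 := by rw [card_eq_card_quotient_mul_card_subgroup S, cS']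
  have inj : ∀ a b : C_[σ], a * a = 1 → b * b = 1 → p a = p b → a = b := fun a b i j e => by
    have m : b⁻¹ * a ∈ S := (pk _).1 (by rw [map_mul, map_inv, e, inv_mul_cancel])
    obtain ⟨s, hs⟩ : ∃ s, s = b⁻¹ * a := ⟨_, rfl⟩
    rw [← hs] at m
    have e1 : a = b * s := by rw [hs, mul_inv_cancel_left]
    rw [e1, mul_assoc, ← mul_assoc s, ← Sc s m b, mul_assoc b s, ← mul_assoc, j, one_mul] at i
    have e2 := s5 s m
    rw [show s ^ 5 = (s * s) ^ 2 * s by simp only [pow_succ, pow_zero, one_mul, mul_assoc], i, one_pow, one_mul] at e2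
    rw [e1, e2, mul_one]
  have ce : ∀ w : C_[σ], w * w = 1 → C_[p w].comap p = (C_[(w : G)] ⊓ C_[σ]).subgroupOf C_[σ] := fun w i => Subgroup.ext fun h =>
      ⟨fun j => ⟨mem_cent1.2 (congrArg Subtype.val (mul_inv_eq_iff_eq_mul.1 (inj (h * w * h⁻¹) w
        (by rw [conj_mul, i, mul_one, mul_inv_cancel]) i
        (by rw [map_mul, map_mul, map_inv, mem_cent1.1 (mem_comap.1 j), mul_inv_cancel_right])))), h.2⟩,
      fun j => mem_comap.2 (mem_cent1.2 (by
        rw [← map_mul, ← map_mul, show h * w = w * h from Subtype.ext (mem_cent1.1 j.1)]))⟩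
  have cc : ∀ w : C_[σ], w * w = 1 → Nat.card ↥(C_[(w : G)] ⊓ C_[σ]) = Nat.card C_[p w] * 5 := fun w i => by
    have e := ce w i
    have a1 := (C_[p w].comap p).card_mul_index
    have a2 := C_[p w].card_mul_index
    rw [index_comap_of_surjective _ ps, e, Nat.card_congr (subgroupOfEquivOfLe inf_le_right).toEquiv, cH, ← a2,
      mul_right_comm] at a1
    exact Nat.eq_of_mul_eq_mul_right (Nat.pos_of_ne_zero index_ne_zero_of_finite) a1
  have : Fact (Nat.Prime 2) := ⟨Nat.prime_two⟩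
  have sq : ∀ w : C_[σ], orderOf (w : G) = 2 → w * w = 1 := fun w i =>
    Subtype.ext ((pow_two _).symm.trans (i ▸ pow_orderOf_eq_one (w : G)))
  have op : ∀ w : C_[σ], orderOf (w : G) = 2 → orderOf (p w) = 2 := fun w i =>
    orderOf_eq_prime (by rw [pow_two, ← map_mul, sq w i, map_one]) fun e => by
      rw [inj w 1 (sq w i) (one_mul 1) (e.trans (map_one p).symm)] at i
      simp at i
  have NC : N_(zpowers σ) ≤ N_(C_[σ]) := cent_zpowers σ ▸ norm_le_norm_cent _
  have CN : C_[σ] ≤ N_(zpowers σ) := cent_zpowers σ ▸ cent_le_norm _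
  have r4 : C_[σ].relIndex (C_[σ] ⊔ (C_[z] ⊓ N_(zpowers σ))) = 4 := by
    have a1 := card_inf_mul_relIndex C_[σ] (C_[z] ⊓ N_(zpowers σ))
    rw [← inf_assoc, inf_eq_left.2 (inf_le_left.trans CN), inf_comm, c960, c3840] at a1
    rw [relIndex_sup (inf_le_right.trans NC)]; omega
  have eN : C_[σ] ⊔ (C_[z] ⊓ N_(zpowers σ)) = N_(zpowers σ) := eq_of_le_of_card_ge (sup_le CN inf_le_right) (by
    have : Fact (Nat.Prime 5) := ⟨p5⟩
    have b1 : (zpowers σ).normalizerMonoidHom.ker.index ∣ 4 := by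
      rw [Subgroup.index_ker]
      have := Subgroup.card_subgroup_dvd_card (zpowers σ).normalizerMonoidHom.range
      rwa [IsCyclic.card_mulAut, cS, Nat.totient_prime p5] at this
    rw [Subgroup.normalizerMonoidHom_ker, cent_zpowers] at b1
    rw [← card_mul_relIndex CN, ← card_mul_relIndex (le_sup_left : C_[σ] ≤ _), r4]
    exact Nat.mul_le_mul_left _ (Nat.le_of_dvd (by norm_num) b1))
  have Qσ : Q ≤ C_[σ] := lo.QL.trans inf_le_right
  have q1 : ∀ s ∈ S, (s : G) ∈ Q → s = 1 := fun s i j => Subtype.ext (orderOf_eq_one_iff.1 (Nat.eq_one_of_dvd_coprimes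
    (by norm_num : Nat.Coprime 32 5) (lo.cQ ▸ Subgroup.orderOf_dvd_natCard _ j)
    (orderOf_dvd_iff_pow_eq_one.2 (congrArg Subtype.val (s5 s i)))))
  have iq : ∀ a b : C_[σ], (a : G) ∈ Q → (b : G) ∈ Q → p a = p b → a = b := fun a b i j e =>
    (inv_mul_eq_one.1 (q1 (b⁻¹ * a) ((pk _).1 (by rw [map_mul, map_inv, e, inv_mul_cancel])) (mul_mem (inv_mem j) i))).symm
  let eQ : Q ≃* (Q.subgroupOf C_[σ]).map p := (subgroupOfEquivOfLe Qσ).symm.trans (MulEquiv.ofBijective (p.subgroupMap _)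
    ⟨fun a b e => Subtype.ext (iq _ _ a.2 b.2 (congrArg Subtype.val e)), p.subgroupMap_surjective _⟩)
  have mL : ∀ h : C_[σ], p h ∈ C_[p ⟨z, zσ⟩] ↔ (h : G) ∈ C_[z] ⊓ C_[σ] := fun h =>
    (mem_comap (f := p)).symm.trans (by rw [ce ⟨z, zσ⟩ (sq _ o2)]; rfl)
  have : Fact (Nat.Prime 3) := ⟨Nat.prime_three⟩
  have d3 : δ ^ 3 = 1 := lo.δ3 ▸ pow_orderOf_eq_one δ
  obtain ⟨E, nE, e1, e2, ⟨ψ⟩, e4⟩ := XS ((Q.subgroupOf C_[σ]).map p) (p ⟨z, zσ⟩) (p ⟨δ, lo.δL.2⟩) (op _ o2)
    (by have := cc ⟨z, zσ⟩ (sq _ o2); rw [c960] at this; omega)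
    ⟨by rintro _ ⟨a, i, rfl⟩; exact (mL a).2 (lo.QL i),
      le_norm_iff.2 (by
        rintro h i _ ⟨a, j, rfl⟩
        obtain ⟨h, rfl⟩ := ps h
        exact ⟨h * a * h⁻¹, show (h : G) * a * (h : G)⁻¹ ∈ Q from conj_mem_of_norm (lo.nQ ((mL h).1 i)) j, by rw [map_mul, map_mul, map_inv]⟩),
      es lo.ex eQ, (Nat.card_congr eQ.toEquiv).symm.trans lo.cQ, ⟨⟨z, zσ⟩, lo.zQ, rfl⟩,
      (mL _).2 lo.δL,
      orderOf_eq_prime (by rw [← map_pow, show (⟨δ, lo.δL.2⟩ : C_[σ]) ^ 3 = 1 from Subtype.ext d3, map_one]) (fun e => by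
        have := orderOf_dvd_iff_pow_eq_one.2 (show δ ^ 5 = 1 from congrArg Subtype.val (s5 _ ((pk _).1 e)))
        rw [lo.δ3] at this
        norm_num at this),
      by
        rintro _ ⟨a, i, rfl⟩ j
        have e := iq (⟨δ, lo.δL.2⟩ * a * ⟨δ, lo.δL.2⟩⁻¹) a (conj_mem_of_norm (lo.nQ lo.δL) i) i
          (by rw [map_mul, map_mul, map_inv, ← mem_cent1.1 j, mul_inv_cancel_right])
        exact (lo.fp a i (mem_cent1.2 (congrArg Subtype.val (mul_inv_eq_iff_eq_mul.1 e)).symm)).imp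
          (fun o => by rw [show a = 1 from Subtype.ext o, map_one]) fun o => congrArg p (Subtype.ext o),
      by
        obtain ⟨w, i, e⟩ := lo.iv
        exact ⟨p ⟨w, i.2⟩, (mL _).2 i, by rw [← map_inv, ← map_inv, ← map_mul, ← map_mul]; exact congrArg p (Subtype.ext e)⟩⟩
    (fun w i => by
      obtain ⟨w0, rfl⟩ := ps w
      have e2 : p w0 * p w0 = 1 := (pow_two _).symm.trans (i ▸ pow_orderOf_eq_one _)
      have e3 : w0 ^ 5 * w0 ^ 5 = 1 := by
        rw [← (Commute.refl w0).mul_pow]; exact s5 _ ((pk _).1 ((map_mul p _ _).trans e2))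
      have e4 : p (w0 ^ 5) = p w0 := by
        rw [map_pow, show p w0 ^ 5 = (p w0 * p w0) ^ 2 * p w0 by simp only [pow_succ, pow_zero, one_mul, mul_assoc], e2,
          one_pow, one_mul]
      have e5 : orderOf ((w0 ^ 5 : C_[σ]) : G) = 2 := orderOf_eq_prime ((pow_two _).trans (congrArg Subtype.val e3)) fun e => by
        rw [← e4, show w0 ^ 5 = 1 from Subtype.ext e, map_one, orderOf_one] at i
        omega
      have e6 := hw _ (w0 ^ 5).2 e5
      rw [cc _ e3, e4] at e6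
      refine e6.imp (fun j => Nat.dvd_of_mul_dvd_mul_right (by norm_num : 0 < 5) j) fun j => ?_
      rw [← e4]
      generalize w0 ^ 5 = w at j
      obtain ⟨g, eg⟩ := isConj_iff.1 j
      have sy : IsSylowIn 5 (zpowers σ) C_[z] := isSylowIn_mk p5 (zpowers_le.2 σz) (pg_of_card_eq cS) fun k => hb.1 (by
        rw [← card_mul_relIndex (zpowers_le.2 σz), cS]; exact Nat.mul_dvd_mul_left 5 k)
      obtain ⟨c, cz, l⟩ := sylow_subJ p5 sy (X := cj g⁻¹ (zpowers σ)) (pg_of_card_eq ((BG.card_cj _ _).trans cS)) (by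
        rw [show C_[z] = cj g⁻¹ C_[(w : G)] by rw [cj_cent1, ← eg]; group]
        exact cj_mono _ (zpowers_le.2 (mem_cent1_comm.1 w.2)))
      have e7 : cj g⁻¹ (zpowers σ) = cj c (zpowers σ) := eq_of_le_of_card_ge l (by rw [BG.card_cj, BG.card_cj])
      have nN : g * c ∈ N_(zpowers σ) := cj_eq_self_iff.1 (by rw [← cj_cj, ← e7, cj_cj, mul_inv_cancel, cj_one])
      rw [← eN] at nN
      obtain ⟨h, hσ, k, kz, e8⟩ := (mem_sup_norm (inf_le_right.trans NC)).1 nN
      refine isConj_iff.2 ⟨p ⟨h, hσ⟩, ?_⟩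
      rw [← map_inv, ← map_mul, ← map_mul]
      refine congrArg p (Subtype.ext ?_)
      show h * z * h⁻¹ = w
      rw [← eg, show h = g * (c * k⁻¹) by rw [← mul_assoc, ← e8]; group, mul_assoc g, mem_cent1.1 (mul_mem cz (inv_mem kz.1))]
      group)
    (fun k => by
      obtain ⟨P, hP⟩ := sylow_exists Nat.prime_three C_[σ]
      have pP := hP.pg Nat.prime_three
      have a1 := hP.pow_dvd Nat.prime_three (n := 2) (cH ▸ k.mul_right 5)
      have nt : Nontrivial P := Finite.one_lt_card_iff_nontrivial.1 (by have := Nat.le_of_dvd Nat.card_pos a1; omega)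
      have nc := pP.center_nontrivial
      obtain ⟨t, ot⟩ := exists_prime_orderOf_dvd_card' (G := center P) 3
        ((pP.to_subgroup (center P)).card_eq_or_dvd.resolve_left Finite.one_lt_card.ne')
      have Pt : P ≤ C_[((t : P) : G)] := fun a i => mem_cent1.2 (congrArg Subtype.val (mem_center_iff.1 t.2 ⟨a, i⟩))
      exact absurd (a1.trans ((card_dvd_of_le (le_inf Pt hP.le)).trans
        (h3 _ (hP.le (t : P).2) ((orderOf_coe _).trans ((orderOf_coe _).trans ot))))) (by norm_num)) WS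
  have cX : Nat.card (C_[σ] ⧸ S) = 1344 := by
    have c : Nat.card (Matrix.SpecialLinearGroup (Fin 3) (ZMod 2)) = 168 := by
      rw [Nat.card_eq_fintype_card]; decide +kernel
    rw [card_eq_card_quotient_mul_card_subgroup E, Nat.card_congr ψ.toEquiv, c, e2]
  rw [cX] at cH
  have cN : Nat.card N_(zpowers σ) = 26880 := by rw [← card_mul_relIndex CN, ← eN, r4, cH]
  refine ⟨fun k => ?_, ?_, cN⟩
  · obtain ⟨P, hP, l⟩ := sylow_superset p5 (pg_of_card_eq cS) le_top
    have a1 := hP.pow_dvd p5 (n := 2) (by rw [card_top]; exact k)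
    obtain ⟨n, hn⟩ := pg_card p5 (pg_le (hP.pg p5) (inf_le_left (b := N_(zpowers σ))))
    have a2 : 5 ^ n ∣ 26880 := hn ▸ cN ▸ card_dvd_of_le inf_le_right
    have a3 : n ≤ 1 := by
      by_contra o
      exact absurd ((pow_dvd_pow 5 (show 2 ≤ n by omega)).trans a2) (by norm_num)
    have a4 := nil_eq_of_norm_le (pg_nil p5 (hP.pg p5)) l (eq_of_le_of_card_ge (le_inf l (le_norm _)) (by
      rw [hn, cS]; exact Nat.pow_le_pow_right (i := n) (j := 1) (by norm_num) a3)).ge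
    rw [← a4, cS] at a1
    norm_num at a1
  · obtain ⟨I, hI⟩ := exists_right_complement'_of_coprime (N := S) (by
      rw [cS', index_eq_card, cX]; norm_num)
    rw [cent_zpowers]
    let φ : I.map C_[σ].subtype ≃* C_[σ] ⧸ S :=
      (I.equivMapOfInjective _ C_[σ].subtype_injective).symm.trans hI.symm.QuotientMulEquiv.symm
    have me : (E.comap (φ : I.map C_[σ].subtype →* C_[σ] ⧸ S)).map (φ : I.map C_[σ].subtype →* C_[σ] ⧸ S) = E := 
      map_comap_eq_self_of_surjective (f := (φ : I.map C_[σ].subtype →* C_[σ] ⧸ S)) φ.surjective E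
    have ce' : Nat.card (E.comap (φ : I.map C_[σ].subtype →* C_[σ] ⧸ S)) = Nat.card E := by
      rw [← card_map_of_injective (f := (φ : I.map C_[σ].subtype →* C_[σ] ⧸ S)) φ.injective, me]
    refine ⟨I.map C_[σ].subtype, ⟨Sσ, map_subtype_le _, ?_, ?_, ?_⟩, E.comap (φ : I.map C_[σ].subtype →* C_[σ] ⧸ S), inferInstance,
      ⟨⟨⟨fun a b => Subtype.ext (φ.injective ?_)⟩⟩, fun a i => φ.injective ?_⟩, ce'.trans e2,
      ⟨(QuotientGroup.congr _ _ φ me).trans ψ⟩, fun K hK => e4 (K.map (φ : I.map C_[σ].subtype →* C_[σ] ⧸ S)) ?_⟩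
    · rintro a i _ ⟨b, -, rfl⟩
      exact (congrArg Subtype.val (Sc ⟨a, Sσ i⟩ i b)).symm
    · rw [← map_subgroupOf_eq_of_le Sσ, ← map_inf _ _ _ C_[σ].subtype_injective, hI.disjoint.eq_bot, Subgroup.map_bot]
    · rw [← map_subgroupOf_eq_of_le Sσ, ← Subgroup.map_sup, hI.sup_eq_top, ← MonoidHom.range_eq_map, range_subtype]
    · show φ (a * b) = φ (b * a)
      rw [map_mul, map_mul]
      exact congrArg Subtype.val (e1.1.1.1 ⟨φ a, a.2⟩ ⟨φ b, b.2⟩)
    · rw [map_pow, map_one]; exact e1.2 _ i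
    · refine isComplement'_of_card_mul_and_disjoint ?_ ?_
      · rw [card_map_of_injective φ.injective, ← ce', hK.card_mul, Nat.card_congr φ.toEquiv]
      · rw [disjoint_iff, ← me, ← map_inf _ _ _ φ.injective, hK.disjoint.eq_bot, Subgroup.map_bot]

end H12.S5F
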