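import Mathlib
import Cfsg.Agent.L.Js0

/-! Part F of S5573. -/

set_option autoImplicit false
open Cfsg BG Subgroup L.Js

namespace H12.S7F
universe u

theorem f : FStmt.{u} := by
  intro G _ _ σ z U XS o7 o2 zσ hw Uσ cU hU z3 c252
  have Sσ : zpowers σ ≤ C_[σ] := zpowers_le.2 (mem_cent1_self σ)
  have cS : Nat.card (zpowers σ) = 7 := (Nat.card_zpowers σ).trans o7
  let S := (zpowers σ).subgroupOf C_[σ]
  have Sc : ∀ s ∈ S, ∀ h : C_[σ], h * s = s * h := fun s i h => Subtype.ext (by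
    obtain ⟨k, e⟩ := mem_zpowers_iff.1 (mem_subgroupOf.1 i)
    show (h : G) * s = s * h
    rw [← e]
    exact ((show Commute (h : G) σ from mem_cent1.1 h.2).zpow_right k).eq)
  have nS : S.Normal := ⟨fun s i h => by rwa [Sc s i h, mul_inv_cancel_right]⟩
  have cS' : Nat.card S = 7 := (Nat.card_congr (subgroupOfEquivOfLe Sσ).toEquiv).trans cS
  have s7 : ∀ s ∈ S, s ^ 7 = 1 := fun s i => by
    have := congrArg Subtype.val (pow_card_eq_one' (x := (⟨s, i⟩ : S)))
    rwa [cS'] at this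
  let p := QuotientGroup.mk' S
  have ps : Function.Surjective p := QuotientGroup.mk'_surjective S
  have pk : ∀ h, p h = 1 ↔ h ∈ S := fun h => QuotientGroup.eq_one_iff h
  have cH : Nat.card C_[σ] = Nat.card (C_[σ] ⧸ S) * 7 := by rw [card_eq_card_quotient_mul_card_subgroup S, cS']
  have inj : ∀ a b : C_[σ], a * a = 1 → b * b = 1 → p a = p b → a = b := fun a b i j e => by
    have m : b⁻¹ * a ∈ S := (pk _).1 (by rw [map_mul, map_inv, e, inv_mul_cancel])
    obtain ⟨s, hs⟩ : ∃ s, s = b⁻¹ * a := ⟨_, rfl⟩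
    rw [← hs] at m
    have e1 : a = b * s := by rw [hs, mul_inv_cancel_left]
    rw [e1, mul_assoc, ← mul_assoc s, ← Sc s m b, mul_assoc b s, ← mul_assoc, j, one_mul] at i
    have e2 := s7 s m
    rw [show s ^ 7 = (s * s) ^ 3 * s by simp only [pow_succ, pow_zero, one_mul, mul_assoc], i, one_pow, one_mul] at e2
    rw [e1, e2, mul_one]
  have cc : ∀ w : C_[σ], w * w = 1 → Nat.card ↥(C_[(w : G)] ⊓ C_[σ]) = Nat.card C_[p w] * 7 := fun w i => by
    have e : C_[p w].comap p = (C_[(w : G)] ⊓ C_[σ]).subgroupOf C_[σ] := Subgroup.ext fun h =>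
      ⟨fun j => ⟨mem_cent1.2 (congrArg Subtype.val (mul_inv_eq_iff_eq_mul.1 (inj (h * w * h⁻¹) w
        (by rw [conj_mul, i, mul_one, mul_inv_cancel]) i
        (by rw [map_mul, map_mul, map_inv, mem_cent1.1 (mem_comap.1 j), mul_inv_cancel_right])))), h.2⟩,
      fun j => mem_comap.2 (mem_cent1.2 (by
        rw [← map_mul, ← map_mul, show h * w = w * h from Subtype.ext (mem_cent1.1 j.1)]))⟩
    have a1 := (C_[p w].comap p).card_mul_index
    have a2 := C_[p w].card_mul_index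
    rw [index_comap_of_surjective _ ps, e, Nat.card_congr (subgroupOfEquivOfLe inf_le_right).toEquiv, cH, ← a2,
      mul_right_comm] at a1
    exact Nat.eq_of_mul_eq_mul_right (Nat.pos_of_ne_zero index_ne_zero_of_finite) a1
  have : Fact (Nat.Prime 2) := ⟨Nat.prime_two⟩
  have sq : ∀ w : C_[σ], orderOf (w : G) = 2 → w * w = 1 := fun w i =>
    Subtype.ext ((pow_two _).symm.trans (i ▸ pow_orderOf_eq_one (w : G)))
  have op : ∀ w : C_[σ], orderOf (w : G) = 2 → orderOf (p w) = 2 := fun w i =>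
    orderOf_eq_prime (by rw [pow_two, ← map_mul, sq w i, map_one]) fun e => by
      rw [inj w 1 (sq w i) (one_mul 1) (e.trans (map_one p).symm)] at i
      simp at i
  obtain ⟨⟨φ⟩, c12, fu⟩ := XS ((U.subgroupOf C_[σ]).map p) (p ⟨z, zσ⟩) (fun w i => by
      obtain ⟨w0, rfl⟩ := ps w
      have e2 : p w0 * p w0 = 1 := (pow_two _).symm.trans (i ▸ pow_orderOf_eq_one _)
      have e3 : w0 ^ 7 * w0 ^ 7 = 1 := by
        rw [← (Commute.refl w0).mul_pow]; exact s7 _ ((pk _).1 ((map_mul p _ _).trans e2))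
      have e4 : p (w0 ^ 7) = p w0 := by
        rw [map_pow, show p w0 ^ 7 = (p w0 * p w0) ^ 3 * p w0 by simp only [pow_succ, pow_zero, one_mul, mul_assoc], e2,
          one_pow, one_mul]
      have e5 : orderOf ((w0 ^ 7 : C_[σ]) : G) = 2 := orderOf_eq_prime ((pow_two _).trans (congrArg Subtype.val e3)) fun e => by
        rw [← e4, show w0 ^ 7 = 1 from Subtype.ext e, map_one, orderOf_one] at i
        omega
      have e6 := hw _ (w0 ^ 7).2 e5
      rw [cc _ e3, e4] at e6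
      exact e6.imp (fun j => Nat.dvd_of_mul_dvd_mul_right (by norm_num : 0 < 7) j) fun j =>
        ⟨Nat.Coprime.dvd_of_dvd_mul_right (by norm_num) j.1, Nat.dvd_of_mul_dvd_mul_right (by norm_num : 0 < 7) j.2⟩)
    (by
      have u2 : ∀ a : U.subgroupOf C_[σ], (a : C_[σ]) * a = 1 := fun a => by
        by_cases e : ((a : C_[σ]) : G) = 1
        · rw [show (a : C_[σ]) = 1 from Subtype.ext e, one_mul]
        · exact sq _ (hU _ a.2 e).1
      rw [← cU, ← Nat.card_congr (subgroupOfEquivOfLe Uσ).toEquiv]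
      exact (Nat.card_congr (Equiv.ofBijective (p.subgroupMap _) ⟨fun a b e =>
        Subtype.ext (inj _ _ (u2 a) (u2 b) (congrArg Subtype.val e)), p.subgroupMap_surjective _⟩)).symm)
    (by
      rintro _ ⟨w, i, rfl⟩ n
      obtain ⟨a1, a2⟩ := hU (w : G) i fun e => n (by rw [show w = 1 from Subtype.ext e, map_one])
      rw [cc _ (sq w a1)] at a2
      exact ⟨op w a1, Nat.dvd_of_mul_dvd_mul_right (by norm_num : 0 < 7) a2⟩)
    (op _ o2) (by
      have := cc ⟨z, zσ⟩ (sq _ o2)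
      exact Nat.Coprime.dvd_of_dvd_mul_right (by norm_num) (this ▸ z3))
  have cX : Nat.card (C_[σ] ⧸ S) = 120 := by rw [Nat.card_congr φ.toEquiv, Nat.card_perm, Nat.card_fin]; rfl
  rw [cX] at cH
  have c84 : Nat.card ↥(C_[z] ⊓ C_[σ]) = 84 := (cc ⟨z, zσ⟩ (sq _ o2)).trans (by rw [c12])
  have NC : N_(zpowers σ) ≤ N_(C_[σ]) := cent_zpowers σ ▸ norm_le_norm_cent _
  have CN : C_[σ] ≤ N_(zpowers σ) := cent_zpowers σ ▸ cent_le_norm _
  have eN : N_(zpowers σ) = C_[σ] ⊔ (C_[z] ⊓ N_(zpowers σ)) := le_antisymm (fun n i => by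
    have m : n * z * n⁻¹ ∈ C_[σ] := conj_mem_of_norm (NC i) zσ
    have o : orderOf (n * z * n⁻¹) = 2 := by rw [← o2]; exact (SemiconjBy.orderOf_eq n (by rw [SemiconjBy]; group)).symm
    have e : Nat.card ↥(C_[n * z * n⁻¹] ⊓ C_[σ]) = 84 := by
      rw [← c84, ← BG.card_cj n (C_[z] ⊓ C_[σ]), cj_inf, cj_cent1, cj_of_mem_norm (NC i)]
    rw [cc ⟨_, m⟩ (sq _ o)] at e
    obtain ⟨h, eh⟩ := isConj_iff.1 (fu _ (op ⟨_, m⟩ o) (by omega))
    obtain ⟨h, rfl⟩ := ps h
    have e2 := congrArg Subtype.val (inj (h * ⟨z, zσ⟩ * h⁻¹) ⟨_, m⟩ (by rw [conj_mul, sq _ o2, mul_one, mul_inv_cancel])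
      (sq _ o) (by rw [map_mul, map_mul, map_inv, eh]))
    have e3 : (h : G) * z * (h : G)⁻¹ = n * z * n⁻¹ := e2
    rw [show n = h * ((h : G)⁻¹ * n) by group]
    refine mul_mem_sup h.2 (mem_inf.2 ⟨mem_cent1.2 ?_, mul_mem (inv_mem (CN h.2)) i⟩)
    rw [show (h : G)⁻¹ * n * z = (h : G)⁻¹ * (n * z * n⁻¹) * n by group, ← e3]; group) (sup_le CN inf_le_right)
  have cN : Nat.card N_(zpowers σ) = 2520 := by
    have a1 := card_inf_mul_relIndex C_[σ] (C_[z] ⊓ N_(zpowers σ))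
    rw [← inf_assoc, inf_eq_left.2 (inf_le_left.trans CN), inf_comm, c84, c252] at a1
    have a2 := card_mul_relIndex CN
    have a3 := relIndex_sup (K := C_[σ]) (H := C_[z] ⊓ N_(zpowers σ)) (inf_le_right.trans NC)
    rw [← eN] at a3
    rw [a3, cH, show C_[σ].relIndex (C_[z] ⊓ N_(zpowers σ)) = 3 by omega] at a2
    exact a2.symm
  refine ⟨fun k => ?_, ?_, by rw [cN, cent_zpowers, cH], cN⟩
  · have p7 : Nat.Prime 7 := by norm_num
    obtain ⟨P, hP, l⟩ := sylow_superset p7 (pg_of_card_eq cS) le_top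
    have a1 := hP.pow_dvd p7 (n := 2) (by rw [card_top]; exact k)
    obtain ⟨n, hn⟩ := pg_card p7 (pg_le (hP.pg p7) (inf_le_left (b := N_(zpowers σ))))
    have a2 : 7 ^ n ∣ 2520 := hn ▸ cN ▸ card_dvd_of_le inf_le_right
    have a3 : n ≤ 1 := by
      by_contra o
      exact absurd ((pow_dvd_pow 7 (show 2 ≤ n by omega)).trans a2) (by norm_num)
    have a4 := nil_eq_of_norm_le (pg_nil p7 (hP.pg p7)) l (eq_of_le_of_card_ge (le_inf l (le_norm _)) (by
      rw [hn, cS]; exact Nat.pow_le_pow_right (i := n) (j := 1) (by norm_num) a3)).ge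
    rw [← a4, cS] at a1
    norm_num at a1
  · obtain ⟨I, hI⟩ := exists_right_complement'_of_coprime (N := S) (by
      rw [cS', index_eq_card, cX]; norm_num)
    rw [cent_zpowers]
    refine ⟨I.map C_[σ].subtype, ⟨Sσ, map_subtype_le _, ?_, ?_, ?_⟩,
      ⟨((I.equivMapOfInjective _ C_[σ].subtype_injective).symm.trans hI.symm.QuotientMulEquiv.symm).trans φ⟩⟩
    · rintro a i _ ⟨b, -, rfl⟩
      exact (congrArg Subtype.val (Sc ⟨a, Sσ i⟩ i b)).symm
    · rw [← map_subgroupOf_eq_of_le Sσ, ← map_inf _ _ _ C_[σ].subtype_injective, hI.disjoint.eq_bot, Subgroup.map_bot]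
    · rw [← map_subgroupOf_eq_of_le Sσ, ← Subgroup.map_sup, hI.sup_eq_top, ← MonoidHom.range_eq_map, range_subtype]

end H12.S7F
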