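import Cfsg.Agent.H10.AsOdd
import Cfsg.Agent.H10.AsBigE
import Cfsg.Agent.H10.AsT2

/-!
# Tensor powers of small symplectic spaces in characteristic two lie in a spin group
* `Loc f X` : the space `X` of Clifford generators for one factor; `loc_two`, `loc_four`; `not_max`
-/

namespace H12.Spin
open Matrix Module Cfsg Cfsg.Geo H10 H10.As
open scoped commutatorElement

variable {ι κ τ : Type} [Fintype ι] [DecidableEq ι] [Fintype κ] [DecidableEq κ] [Fintype τ] [DecidableEq τ]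
  {F : Type*} [Field F] [CharP F 2]

theorem two (a : Matrix ι ι F) : a + a = 0 := by ext; exact CharTwo.add_self_eq_zero _

/-- anticommutator -/
def ac (a b : Matrix ι ι F) : Matrix ι ι F := a * b + b * a

omit [CharP F 2] in
theorem ac_add_left (a b c : Matrix ι ι F) : ac (a + b) c = ac a c + ac b c := by simp only [ac]; noncomm_ring
omit [CharP F 2] in
theorem ac_add_right (a b c : Matrix ι ι F) : ac a (b + c) = ac a b + ac a c := by simp only [ac]; noncomm_ring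
theorem ac_comm {a b : Matrix ι ι F} (h : a * b = b * a) : ac a b = 0 := by rw [ac, h, two]
theorem ac_sc {a : Matrix ι ι F} (h : Sc a) (b : Matrix ι ι F) : ac a b = 0 := ac_comm (h.comm b)
theorem ac_sc' {a : Matrix ι ι F} (h : Sc a) (b : Matrix ι ι F) : ac b a = 0 := ac_comm (h.comm b).symm
omit [CharP F 2] in
theorem sq_add (a b : Matrix ι ι F) : (a + b) * (a + b) = a * a + ac a b + b * b := by simp only [ac]; noncomm_ring
theorem refl {x : Matrix ι ι F} (h : x * x = 1) (y : Matrix ι ι F) : x * y * x = y + ac x y * x := by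
  rw [ac, add_mul, mul_assoc y, h, mul_one, add_comm (x * y * x), ← add_assoc, two, zero_add]
omit [CharP F 2] in
theorem Sc.add {a b : Matrix ι ι F} : Sc a → Sc b → Sc (a + b) := by
  rintro ⟨c, rfl⟩ ⟨d, rfl⟩; exact ⟨c + d, (add_smul ..).symm⟩
omit [CharP F 2] in
theorem Sc.map {a : Matrix κ κ F} (φ : Matrix κ κ F →ₐ[F] Matrix ι ι F) : Sc a → Sc (φ a) := by
  rintro ⟨c, rfl⟩; exact ⟨c, by simp⟩

omit [CharP F 2] in
theorem rk_add (a b : Matrix ι ι F) : (a + b).rank ≤ a.rank + b.rank := by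
  refine le_trans (Submodule.finrank_mono ?_) (Submodule.finrank_add_le_finrank_add_finrank _ _)
  rintro _ ⟨v, rfl⟩
  rw [mulVecLin_add]
  exact Submodule.add_mem_sup (LinearMap.mem_range_self _ v) (LinearMap.mem_range_self _ v)

/-- Clifford generators for one tensor factor -/
structure Loc (f : (κ → F) → (κ → F) → F) (X : Submodule F (Matrix κ κ F)) : Prop where
  inv : ∀ u : GL κ F, (∀ a, adj f (cj u a) = cj u (adj f a)) → ∀ a ∈ X, cj u a ∈ X
  one : 1 ∈ X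
  sq : ∀ a ∈ X, Sc (a * a)
  nd : ∀ a ∈ X, Sc a ∨ ∃ c ∈ X, ac a c = 1
  ex : ∃ a ∈ X, ¬ Sc a
  sa : ∀ a ∈ X, Adj f a a

variable {f : (κ → F) → (κ → F) → F} {X : Submodule F (Matrix κ κ F)}

theorem Loc.pol (h : Loc f X) {a b : Matrix κ κ F} (ha : a ∈ X) (hb : b ∈ X) : Sc (ac a b) := by
  have : ac a b = (a + b) * (a + b) + a * a + b * b := by
    rw [sq_add, show a * a + ac a b + b * b + a * a + b * b = ac a b + (a * a + a * a) + (b * b + b * b) by abel, two, two]; simp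
  exact this ▸ Sc.add (Sc.add (h.sq _ (add_mem ha hb)) (h.sq _ ha)) (h.sq _ hb)

theorem Loc.pr [Finite F] (h : Loc f X) : ∃ p ∈ X, ∃ r ∈ X, p * p = 0 ∧ r * r = 0 ∧ ac p r = 1 := by
  have : ∀ a ∈ X, ∃ c : F, (a + c • 1) * (a + c • 1) = 0 := fun a ha => by
    obtain ⟨c, hc⟩ := h.sq a ha
    obtain ⟨d, rfl⟩ := (frobeniusEquiv F 2).surjective c
    exact ⟨d, by rw [sq_add, ac_sc' ⟨d, rfl⟩, hc]; simp [smul_smul, pow_two, two, frobenius_def]⟩
  obtain ⟨a, ha, n⟩ := h.ex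
  obtain ⟨b, hb, e⟩ := (h.nd a ha).resolve_left n
  obtain ⟨c, hc⟩ := this a ha
  obtain ⟨d, hd⟩ := this b hb
  exact ⟨_, add_mem ha (X.smul_mem c h.one), _, add_mem hb (X.smul_mem d h.one), hc, hd, by
    rw [ac_add_left, ac_add_right, e, ac_sc ⟨c, rfl⟩, ac_sc' ⟨d, rfl⟩, add_zero, add_zero]⟩

theorem loc_two {f : (Fin 2 → F) → (Fin 2 → F) → F} (hf : IsSymplecticForm f) : ∃ X, Loc f X := by
  have tr : ∀ {a : Matrix (Fin 2) (Fin 2) F}, a ∈ LinearMap.ker (traceLinearMap (Fin 2) F F) ↔ a 1 1 = a 0 0 := by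
    intro a; simp [trace_fin_two, CharTwo.add_eq_zero, eq_comm (a := a 1 1)]
  refine ⟨LinearMap.ker (traceLinearMap (Fin 2) F F), fun u _ a ha => ?_, by simp [tr], fun a ha => ⟨a 0 0 * a 0 0 + a 0 1 * a 1 0, ?_⟩,
    fun a ha => ?_, ⟨!![0, 1; 0, 0], by simp [tr], fun ⟨c, hc⟩ => by simpa using congrFun₂ hc 0 1⟩, fun a ha => ?_⟩
  · simpa [cj_apply, trace_mul_cycle] using ha
  · rw [tr] at ha; ext i j; fin_cases i <;> fin_cases j <;> simp [mul_apply, ha] <;> grind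
  · rw [tr] at ha
    by_cases h1 : a 0 1 = 0
    · by_cases h2 : a 1 0 = 0
      · exact .inl ⟨a 0 0, by ext i j; fin_cases i <;> fin_cases j <;> simp [*]⟩
      · exact .inr ⟨!![0, (a 1 0)⁻¹; 0, 0], by simp [tr], by
          ext i j; fin_cases i <;> fin_cases j <;> simp [ac, mul_apply, vecMul, dotProduct, *] <;> grind⟩
    · exact .inr ⟨!![0, 0; (a 0 1)⁻¹, 0], by simp [tr], by
        ext i j; fin_cases i <;> fin_cases j <;> simp [ac, mul_apply, vecMul, dotProduct, *] <;> grind⟩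
  · rw [tr] at ha
    rw [(sf_of_symp hf).eq_gram, adj_gram_iff]
    have := hf.skew (Pi.single 1 1) (Pi.single 0 1)
    ext i j; fin_cases i <;> fin_cases j <;> simp [mul_apply, gramMatrix, hf.alternating, *] <;> grind

/-- alternating matrices -/
def Al : (Fin 6 → F) →ₗ[F] Matrix (Fin 4) (Fin 4) F where
  toFun x := !![0, x 0, x 1, x 2; x 0, 0, x 3, x 4; x 1, x 3, 0, x 5; x 2, x 4, x 5, 0]
  map_add' x y := by ext i j; fin_cases i <;> fin_cases j <;> simp
  map_smul' c x := by ext i j; fin_cases i <;> fin_cases j <;> simp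

omit [CharP F 2] in
theorem Al_inj : Function.Injective (Al (F := F)) := fun x y h => by
  ext i; fin_cases i
  exacts [congrFun₂ h 0 1, congrFun₂ h 0 2, congrFun₂ h 0 3, congrFun₂ h 1 2, congrFun₂ h 1 3, congrFun₂ h 2 3]
theorem Al_mul (x y : Fin 6 → F) : Al x * Al (y ∘ Fin.rev) = (x ⬝ᵥ y ∘ Fin.rev) • 1 + Al y * Al (x ∘ Fin.rev) := by
  ext i j; fin_cases i <;> fin_cases j <;> simp [Al, mul_apply, Fin.sum_univ_succ, dotProduct, Fin.rev] <;> grind
theorem Al_self (x : Fin 6 → F) : Al (x ∘ Fin.rev) * Al x = (x 0 * x 5 + x 1 * x 4 + x 2 * x 3) • 1 := by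
  ext i j; fin_cases i <;> fin_cases j <;> simp [Al, mul_apply, Fin.sum_univ_succ, Fin.rev] <;> grind
theorem Al_polar (x y : Fin 6 → F) : Al (x ∘ Fin.rev) * Al y + Al (y ∘ Fin.rev) * Al x = (x ⬝ᵥ y ∘ Fin.rev) • 1 := by
  ext i j; fin_cases i <;> fin_cases j <;> simp [Al, mul_apply, Fin.sum_univ_succ, dotProduct, Fin.rev] <;> grind
theorem alt_iff {A : Matrix (Fin 4) (Fin 4) F} : (∀ v, v ⬝ᵥ A *ᵥ v = 0) ↔ ∃ x, Al x = A := by
  refine ⟨fun h => ⟨![A 0 1, A 0 2, A 0 3, A 1 2, A 1 3, A 2 3], ?_⟩, ?_⟩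
  · have h1 : ∀ i, A i i = 0 := fun i => by simpa using h (Pi.single i 1)
    have h2 : ∀ i j, A i j = A j i := fun i j => by
      have := h (Pi.single i 1 + Pi.single j 1)
      rw [mulVec_add, add_dotProduct, dotProduct_add, dotProduct_add] at this
      simpa [h1, CharTwo.add_eq_zero] using this
    ext i j; fin_cases i <;> fin_cases j <;> simp [Al, h1] <;> exact h2 _ _
  · rintro ⟨x, rfl⟩ v
    simp [Al, mulVec, Fin.sum_univ_succ, dotProduct]; grind

theorem loc_four {f : (Fin 4 → F) → (Fin 4 → F) → F} (hf : IsSymplecticForm f) :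
    ∃ X, Loc f X ∧ ∀ a ∈ X, ∀ v, f (a *ᵥ v) v = 0 := by
  have sf := sf_of_symp hf
  have fe : ∀ u v, f u v = u ⬝ᵥ gramMatrix f *ᵥ v := fun u v => by rw [sf.eq_gram, formOfGram_eq, gram_formOfGram]; rfl
  obtain ⟨g, hg⟩ := alt_iff.1 fun v => (fe v v).symm.trans (hf.alternating v)
  obtain ⟨c, e⟩ : ∃ c : F, Al (g ∘ Fin.rev) * Al g = c • 1 := ⟨_, Al_self g⟩
  have e' : Al g * Al (g ∘ Fin.rev) = c • 1 := by
    rw [e.symm.trans (Al_self g)]; exact (Al_self (g ∘ Fin.rev)).trans (by simp [Fin.rev, mul_comm])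
  have gg : g ⬝ᵥ g ∘ Fin.rev = 0 := by simp [dotProduct, Fin.sum_univ_succ, Fin.rev]; grind
  have c0 : c ≠ 0 := by
    rintro rfl
    rw [zero_smul, hg, sf.isUnit_gram.mul_right_eq_zero] at e'
    have : g = 0 := funext fun i => by simpa using congrFun (Al_inj (e'.trans (map_zero _).symm)) i.rev
    exact not_isUnit_zero (map_zero (Al (F := F)) ▸ this ▸ hg ▸ sf.isUnit_gram)
  let X : Submodule F (Matrix (Fin 4) (Fin 4) F) :=
    ((LinearMap.ker ((dotProductBilin F F).flip (g ∘ Fin.rev))).map Al).map (LinearMap.mulLeft F (Al (g ∘ Fin.rev)))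
  have mem : ∀ {a}, a ∈ X ↔ ∃ x, x ⬝ᵥ g ∘ Fin.rev = 0 ∧ Al (g ∘ Fin.rev) * Al x = a := by simp [X]
  have mul : ∀ x y, Al (g ∘ Fin.rev) * Al x * (Al (g ∘ Fin.rev) * Al y) =
      (x ⬝ᵥ g ∘ Fin.rev) • (Al (g ∘ Fin.rev) * Al y) + c • (Al (x ∘ Fin.rev) * Al y) := fun x y => by
    rw [mul_assoc, ← mul_assoc (Al x), Al_mul, add_mul, mul_add, mul_assoc (Al g), ← mul_assoc _ (Al g), e]; simp
  have alt : ∀ {a}, (∀ v, f (a *ᵥ v) v = 0) ↔ ∃ x, Al (g ∘ Fin.rev) * Al x = a := by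
    intro a
    have : ∀ v, f (a *ᵥ v) v = 0 ↔ v ⬝ᵥ (Al g * a) *ᵥ v = 0 := fun v => by rw [hf.skew, neg_eq_zero, fe, mulVec_mulVec, hg]
    simp only [this]
    refine ⟨fun h => (alt_iff.1 h).elim fun x hx => ⟨c⁻¹ • x, ?_⟩, ?_⟩
    · rw [map_smul, hx, mul_smul_comm, ← mul_assoc, e]; simp [smul_smul, c0]
    · rintro ⟨x, rfl⟩
      exact alt_iff.2 ⟨c • x, by rw [← mul_assoc, e']; simp⟩
  have al : ∀ a ∈ X, ∀ v, f (a *ᵥ v) v = 0 := fun a ha => alt.2 ((mem.1 ha).imp fun _ h => h.2)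
  have sq : ∀ a ∈ X, Sc (a * a) := fun a ha => by
    obtain ⟨x, h, rfl⟩ := mem.1 ha
    exact ⟨_, by rw [mul, h, Al_self, zero_smul, zero_add, smul_smul]⟩
  have one : 1 ∈ X := mem.2 ⟨c⁻¹ • g, by simp [gg], by simp [e, smul_smul, c0]⟩
  obtain ⟨j, hj⟩ : ∃ j, g j ≠ 0 := by
    by_contra! h; rw [show g = 0 from funext h] at e; exact c0 (by simpa using (congrFun₂ e 0 0).symm)
  have sc : ∀ x (d : F), Al (g ∘ Fin.rev) * Al x = d • 1 → c • x = d • g := fun x d h => by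
    have := congrArg (Al g * ·) h
    simp only [← mul_assoc, e', smul_mul_assoc, one_mul, mul_smul_comm, mul_one, ← map_smul] at this
    exact Al_inj (this.trans (by simp))
  have k : ∀ (i : Fin 6) (z : Fin 6 → F), (Pi.single i.rev (g j) + Pi.single j.rev (g i)) ⬝ᵥ z ∘ Fin.rev = z i * g j + z j * g i := by
    simp [mul_comm]
  refine ⟨X, ⟨fun u hu a ha => ?_, one, sq, fun a ha => ?_, ?_, fun a ha u v => ?_⟩, al⟩
  · obtain ⟨d, hd⟩ : Sc (adj f u.1 * u.1) := sc_of_comm fun b => by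
      have := congrArg (adj f) (cj_mul_self u (adj f b))
      rw [sf.adj_mul, sf.adj_mul, hu, sf.adj_adj] at this
      rw [mul_assoc, ← cj_mul_self, ← mul_assoc, this, mul_assoc]
    obtain ⟨x, hx⟩ := (alt (a := cj u a)).1 fun v => by
      rw [← mulVec_inv_mulVec u v, cj_mulVec, sf.adj_spec, mulVec_mulVec _ (adj f _), hd, smul_mulVec, one_mulVec, sf.smul_right, al a ha, mul_zero]
    refine by_contra fun n => n ?_
    obtain ⟨s, hs⟩ := sc_cj.2 (sq a ha)
    rw [map_mul, ← hx, mul, Al_self, hx, smul_smul, ← eq_sub_iff_add_eq, ← sub_smul] at hs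
    rw [← inv_smul_smul₀ (fun h => n (mem.2 ⟨x, h, hx⟩)) (cj u a), hs]
    exact X.smul_mem _ (X.smul_mem _ one)
  · obtain ⟨x, h, rfl⟩ := mem.1 ha
    by_cases hx : ∀ i, x i * g j = x j * g i
    · refine .inl ⟨x j / g j * c, ?_⟩
      rw [show x = (x j / g j) • g from funext fun i => by simp [div_mul_eq_mul_div, ← hx, hj]]
      simp [e, smul_smul, hj]
    · push Not at hx
      obtain ⟨i, hi⟩ := hx
      have hi' : x i * g j + x j * g i ≠ 0 := mt CharTwo.add_eq_zero.1 hi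
      refine .inr ⟨_, X.smul_mem (c * (x i * g j + x j * g i))⁻¹ (mem.2 ⟨_, (k i g).trans (by grind), rfl⟩), ?_⟩
      rw [ac, mul_smul_comm, smul_mul_assoc, mul, mul, h, k, ← smul_add, show g i * g j + g j * g i = 0 by grind]
      simp only [zero_smul, zero_add]
      rw [← smul_add, add_comm (_ * Al _), Al_polar, k, smul_smul, smul_smul, mul_assoc, inv_mul_cancel₀ (mul_ne_zero c0 hi'), one_smul]
  · obtain ⟨i, a, b, d⟩ := (by decide : ∀ j : Fin 6, ∃ i : Fin 6, j ≠ i.rev ∧ j ≠ j.rev ∧ i ≠ j) j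
    refine ⟨_, mem.2 ⟨_, (k i g).trans (by grind), rfl⟩, fun ⟨s, hs⟩ => ?_⟩
    have := sc _ _ hs
    obtain rfl : s = 0 := by simpa [a, b, hj] using congrFun this j
    simpa [c0, hj, d] using congrFun this i.rev
  · have := al a ha (u + v)
    rw [mulVec_add, sf.add_left, sf.add_right, sf.add_right, al a ha, al a ha, hf.skew (a *ᵥ v)] at this
    linear_combination this

/-- pure tensors -/
def pv (xs : τ → κ → F) : (τ → κ) → F := fun a => ∏ i, xs i (a i)

omit [CharP F 2] in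
theorem pt_pv (a : τ → Matrix κ κ F) (xs : τ → κ → F) : pt a *ᵥ pv xs = pv fun i => a i *ᵥ xs i := by
  ext x; simp [mulVec, dotProduct, pv, pt_apply, Finset.prod_univ_sum, Finset.prod_mul_distrib]

omit [CharP F 2] in
theorem form_pv (hf : Sq (.id F) f) (xs ys : τ → κ → F) :
    formOfGram (RingHom.id F) (pt fun _ => gramMatrix f) (pv xs) (pv ys) = ∏ i, f (xs i) (ys i) := by
  have : ∀ u v, f u v = u ⬝ᵥ gramMatrix f *ᵥ v := fun u v => by rw [hf.eq_gram, formOfGram_eq, gram_formOfGram]; rfl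
  rw [formOfGram_eq, RingHom.coe_id, Function.id_comp, pt_pv]
  simp [this, dotProduct, pv, Finset.prod_univ_sum, Finset.prod_mul_distrib]

theorem core [Finite F] {Q : (ι → F) → F} (hQ : IsNondegenerateQuadraticForm Q) (hn : 9 ≤ Fintype.card ι) (sf : SF (.id F) (-1) f)
    (hX : Loc f X) (A : τ → Matrix κ κ F →ₐ[F] Matrix ι ι F) (Ac : ∀ {i j}, i ≠ j → ∀ a b, ac (A i a) (A j b) = 0)
    (Ad : ∀ i a, adj (QuadraticMap.polar Q) (A i a) = A i (adj f a)) {H : Subgroup (GL ι F)}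
    (Hc : ∀ g ∈ H, ∃ (π : τ → τ) (u : τ → GL κ F), ∀ i a, cj g (A i a) = A (π i) (cj (u i) a)) {i j : τ} (n : i ≠ j)
    (i1 : ∀ p ∈ X, (1 + A i p + A j p) * (1 + A i p + A j p) = 1 → ∀ v, Q ((1 + A i p + A j p) *ᵥ v) = Q v)
    (i2 : ∀ p ∈ X, A j p * A j p = 1 → ∀ v, Q (A j p *ᵥ v) = Q v) : ∃ K, H ⊓ omegaGL Q < K ∧ K < omegaGL Q := by
  have : Nonempty ι := Fintype.card_pos_iff.1 (by omega)
  have sQ := sf_of_quad hQ
  have Aa : ∀ i a b, ac (A i a) (A i b) = A i (ac a b) := by simp [ac]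
  obtain ⟨Y, mY⟩ : ∃ Y : Submodule F (Matrix ι ι F), ∀ {y}, y ∈ Y ↔ ∃ a : τ → _, (∀ i, a i ∈ X) ∧ ∑ i, A i (a i) = y :=
    ⟨(Submodule.pi Set.univ fun _ => X).map (∑ i, (A i).toLinearMap ∘ₗ LinearMap.proj i), by simp [Submodule.mem_pi]⟩
  have AY : ∀ i, ∀ a ∈ X, A i a ∈ Y := fun i a h => mY.2 ⟨Pi.single i a, fun j => by by_cases j = i <;> simp [*],
    by rw [Finset.sum_eq_single i] <;> simp +contextual⟩
  have acY : ∀ a : τ → _, ∀ i b, ac (∑ j, A j (a j)) (A i b) = A i (ac (a i) b) := fun a i b => by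
    rw [← Finset.add_sum_erase _ _ (Finset.mem_univ i), ac_add_left, Aa, add_eq_left]
    exact Finset.sum_induction _ (fun z => ac z (A i b) = 0) (fun _ _ h h' => by rw [ac_add_left, h, h', add_zero]) (by simp [ac])
      fun j hj => Ac (Finset.ne_of_mem_erase hj) _ _
  have pol : ∀ x ∈ Y, ∀ y ∈ Y, Sc (ac x y) := fun x hx y hy => by
    obtain ⟨a, ha, rfl⟩ := mY.1 hx
    obtain ⟨b, hb, rfl⟩ := mY.1 hy
    exact Finset.sum_induction _ (fun z => Sc (ac _ z)) (fun _ _ h h' => by rw [ac_add_right]; exact Sc.add h h') ⟨0, by simp [ac]⟩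
      fun j _ => by rw [acY]; exact Sc.map _ (hX.pol (ha j) (hb j))
  let S : Subgroup (GL ι F) :=
    { carrier := {g | (∀ y ∈ Y, cj g y ∈ Y) ∧ ∀ y ∈ Y, cj g⁻¹ y ∈ Y}
      one_mem' := by simp
      mul_mem' := fun a b => ⟨fun y h => by rw [cj_mul]; exact a.1 _ (b.1 y h),
        fun y h => by rw [_root_.mul_inv_rev, cj_mul]; exact b.2 _ (a.2 y h)⟩
      inv_mem' := fun a => ⟨a.2, a.1⟩ }
  have rS : ∀ x ∈ Y, ∀ h : x * x = 1, (⟨x, x, h, h⟩ : GL ι F) ∈ S := fun x hx h => by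
    have : ∀ y ∈ Y, x * y * x ∈ Y := fun y hy => by
      obtain ⟨c, hc⟩ := pol x hx y hy
      rw [refl h, hc, smul_mul_assoc, one_mul]; exact add_mem hy (Y.smul_mem c hx)
    exact ⟨this, this⟩
  have HS : ∀ g ∈ H ⊓ omegaGL Q, ∀ y ∈ Y, cj g y ∈ Y := fun g hg y hy => by
    obtain ⟨π, u, h⟩ := Hc g hg.1
    obtain ⟨a, ha, rfl⟩ := mY.1 hy
    rw [map_sum]
    refine Y.sum_mem fun i _ => h i _ ▸ AY _ _ (hX.inv _ (fun b => hom_injective (A (π i)) ?_) _ (ha i))
    rw [← Ad, ← h, ← h, ← Ad, sQ.adj_cj ⟨1, sim_polar (om_fix le_rfl g hg.2)⟩]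
  obtain ⟨p, pX, r, rX, pp, rr, pr⟩ := hX.pr
  have o : Sc (1 : Matrix ι ι F) := ⟨1, by simp⟩
  have Y1 : 1 ∈ Y := map_one (A i) ▸ AY i 1 hX.one
  have rp : ac r p = 1 := by rw [ac, add_comm]; exact pr
  have sq : ∀ b, b * b = 0 → (1 + A i p + A j b) * (1 + A i p + A j b) = 1 := fun b h => by
    simp only [sq_add, ac_add_left, ac_sc o, Ac n, ← map_mul, pp, h]; simp
  have hh : A j (p + r) * A j (p + r) = 1 := by rw [← map_mul, sq_add, pp, rr, pr]; simp
  have hx : A j (p + r) * (1 + A i p + A j p) * A j (p + r) = 1 + A i p + A j r := by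
    rw [refl hh, ac_add_right, ac_add_right, ac_sc' o, Ac n.symm, Aa, ac_add_left, ac_comm rfl, rp]
    simp [add_assoc, ← add_assoc (A j p), two]
  refine ⟨S ⊓ omegaGL Q, lt_of_le_not_ge (le_inf (fun g hg => ⟨HS g hg, HS _ (inv_mem hg)⟩) inf_le_right) fun h => ?_,
    inf_lt_right.2 fun h => ?_⟩
  · have om : ∀ {x y z : Matrix ι ι F} (hx : x * x = 1) (hy : y * y = 1) (hz : z * z = 1), y * x * y = z → (∀ v, Q (x *ᵥ v) = Q v) →
        (∀ v, Q (y *ᵥ v) = Q v) → (⟨x, x, hx, hx⟩ * ⟨z, z, hz, hz⟩ : GL ι F) ∈ omegaGL Q := fun hx hy hz e a b =>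
      ⟨⁅⟨⟨_, _, hx, hx⟩, fun v _ => a v⟩, ⟨⟨_, _, hy, hy⟩, fun v _ => b v⟩⁆, Subgroup.commutator_mem_commutator trivial trivial,
        Units.ext (by subst e; rw [Units.val_mul, ← mul_assoc, ← mul_assoc]; rfl)⟩
    obtain ⟨π, u, c⟩ := Hc _ (h ⟨mul_mem (rS _ (add_mem (add_mem Y1 (AY _ _ pX)) (AY _ _ pX)) _)
      (rS _ (add_mem (add_mem Y1 (AY _ _ pX)) (AY _ _ rX)) _),
      om (sq p pp) hh (sq r rr) hx (i1 p pX (sq p pp)) (i2 _ (add_mem pX rX) hh)⟩).1
    replace c := c i r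
    rw [cj_mul] at c
    change _ * (_ * _ * (1 + A i p + A j r)) * (1 + A i p + A j p) = _ at c
    simp only [refl (sq r rr), refl (sq p pp), ac_add_left, ac_add_right, ac_sc o, ac_sc' o, Ac n, Ac n.symm, Aa, pr, ac_comm rfl,
      map_one, map_zero, zero_add, add_zero, one_mul, two, zero_mul] at c
    by_cases e : π i = i
    · have := Ac (n.symm.trans_eq e.symm) p (cj (u i) r)
      simp [← c, ac_add_right, ac_sc' o, Ac n.symm, Aa, pr] at this
    · have := Ac (Ne.symm e) p (cj (u i) r)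
      simp [← c, ac_add_right, ac_sc' o, Ac n, Aa, pr, ac_comm rfl] at this
  · have hb := big_om hQ (by omega)
    let M : Subgroup (GL ι F) :=
      { carrier := {g | cj g (A i p) = A i p}
        one_mem' := cj_one _
        mul_mem' := fun a b => by rw [Set.mem_setOf, cj_mul, b, a]
        inv_mem' := fun a => by rw [Set.mem_setOf]; conv_lhs => rw [← a, cj_inv_cj] }
    have := ac_sc (hb.cent (A i p) fun g hg => (cj_eq_iff.1 (hb.gen M (fun g hg rk => ?_) hg)).symm) (A i r)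
    · simp [Aa, pr] at this
    have k : (cj g (A i p) - A i p).rank ≤ 4 := by
      have : cj g (A i p) - A i p = ((g.1 - 1) * A i p + -A i p * (g.1 - 1)) * (g⁻¹).1 := by
        rw [show (g.1 - 1) * A i p + -A i p * (g.1 - 1) = g.1 * A i p - A i p * g.1 by noncomm_ring, sub_mul, mul_assoc (A i p),
          Units.mul_inv, mul_one, cj_apply]
      have rk : (g.1 - 1).rank ≤ 2 := rk
      rw [this]
      exact (rank_mul_le_left _ _).trans ((rk_add _ _).trans
        (add_le_add ((rank_mul_le_left _ _).trans rk) ((rank_mul_le_right _ _).trans rk)))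
    obtain ⟨a, ha, e⟩ := mY.1 (sub_mem ((h hg).1 _ (AY i p pX)) (AY i p pX))
    rw [← e] at k
    refine sub_eq_zero.1 (e.symm.trans ?_)
    by_cases hs : ∀ i, Sc (a i)
    · obtain ⟨c, hc⟩ : Sc (∑ i, A i (a i)) :=
        Finset.sum_induction _ Sc (fun _ _ => Sc.add) ⟨0, by simp⟩ fun i _ => Sc.map _ (hs i)
      rw [hc] at k ⊢
      by_contra c0
      rw [rank_smul_of_mem_nonZeroDivisors _ (mem_nonZeroDivisors_of_ne_zero (by rintro rfl; simp at c0)), rank_one] at k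
      omega
    · obtain ⟨l, hl⟩ := not_forall.1 hs
      obtain ⟨c, -, hc⟩ := (hX.nd _ (ha l)).resolve_left hl
      have m := acY a l c
      rw [hc, map_one, ac] at m
      have := (rk_add _ _).trans (add_le_add ((rank_mul_le_left _ (A l c)).trans k) ((rank_mul_le_right (A l c) _).trans k))
      rw [m, rank_one] at this
      omega

theorem not_max [Finite F] {Q : (ι → F) → F} (hQ : IsNondegenerateQuadraticForm Q) (hn : 9 ≤ Fintype.card ι) {k t : ℕ} [NeZero k]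
    {f : (Fin k → F) → (Fin k → F) → F} (hf : IsSymplecticForm f) {X} (hX : Loc f X) {e : ι ≃ (Fin (t + 2) → Fin k)} {P : GL ι F}
    (hT : TF (.id F) (QuadraticMap.polar Q) e P (pt fun _ => gramMatrix f)) (hp : ∀ xs, Q (lq e P (pv xs)) = 0)
    (ha : t ≠ 0 ∨ ∀ a ∈ X, ∀ v, f (a *ᵥ v) v = 0) :
    ∃ K, tensorWreathSubgroup k (t + 2) e P ⊓ omegaGL Q < K ∧ K < omegaGL Q := by
  have sf := sf_of_symp hf
  have sQ := sf_of_quad hQ
  obtain ⟨A, hA⟩ : ∃ A : Fin (t + 2) → Matrix (Fin k) (Fin k) F →ₐ[F] Matrix ι ι F, ∀ i a, A i a = (pm e P).symm (pi1 i a) :=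
    ⟨fun i => (pm e P).symm.toAlgHom.comp (pi1 i), fun _ _ => rfl⟩
  have Ad : ∀ i a, adj (QuadraticMap.polar Q) (A i a) = A i (adj f a) := fun i a => by
    rw [hA, hA]; exact hT.adj sQ (adj_pi1 sf i a)
  have Av : ∀ i a xs, A i a *ᵥ lq e P (pv xs) = lq e P (pv (Function.update xs i (a *ᵥ xs i))) := fun i a xs => by
    rw [mulVec_lq, hA, AlgEquiv.apply_symm_apply, pi1_apply, pt_pv]
    congr 2; ext1 j; by_cases h : j = i <;> simp [h]
  have Bv : ∀ xs ys i, f (xs i) (ys i) = 0 → QuadraticMap.polar Q (lq e P (pv xs)) (lq e P (pv ys)) = 0 := fun xs ys i h => by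
    obtain ⟨c, -, hc⟩ := hT
    rw [← pf_eq e P (f := QuadraticMap.polar Q), hc, form_pv sf.toSq, Finset.prod_eq_zero (Finset.mem_univ i) h, mul_zero]
  have Qa : ∀ u v, Q (u + v) = Q u + Q v + QuadraticMap.polar Q u v := fun u v => by simp [QuadraticMap.polar]
  have iso : ∀ x : Matrix ι ι F, x * x = 1 → adj (QuadraticMap.polar Q) x = x → (∀ xs, Q (x *ᵥ lq e P (pv xs)) = 0) →
      ∀ v, Q (x *ᵥ v) = Q v := fun x h h1 h2 v => by
    obtain ⟨v, rfl⟩ := (lq e P).surjective v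
    induction v using Pi.single_induction with
    | zero => simp
    | add u v a b => rw [map_add, mulVec_add, Qa, Qa, a, b, sQ.adj_spec, h1, mulVec_mulVec, h, one_mulVec]
    | single a c =>
      have : Pi.single a c = c • pv fun i => (Pi.single (a i) 1 : Fin k → F) := by
        ext b; simp [pv, Pi.single_apply, Finset.prod_ite_zero, funext_iff]
      rw [this, map_smul, mulVec_smul, hQ.smul, hQ.smul, h2, hp]
  refine core hQ hn sf hX A (fun n a b => ac_comm ?_) Ad (fun g hg => ?_) Fin.zero_ne_one (fun p pX h => iso _ h ?_ fun xs => ?_)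
    fun p pX h => iso _ h (by rw [Ad, sf.adj_eq (hX.sa _ pX)]) fun xs => by rw [Av, hp]
  · simp only [hA, ← map_mul, pi1_apply]
    exact congrArg _ (congrArg _ (Pi.mulSingle_commute (f := fun _ => Matrix (Fin k) (Fin k) F) n a b).eq)
  · obtain ⟨π, u, h⟩ := wl_wreath g hg
    exact ⟨π, u, fun i a => (pm e P).injective (by simp [← cj_pl, hA, h, cj_mul, cj_ptU, cj_fp_pi1])⟩
  · simp only [sQ.adj_add, sQ.adj_one, Ad, sf.adj_eq (hX.sa p pX)]
  · rw [add_mulVec, add_mulVec, one_mulVec, Av, Av, Qa, Qa, hp, hp, hp, sQ.add_left, Bv _ _ 1 (by simp [hf.alternating]),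
      Bv _ _ 0 (by simp [hf.alternating])]
    rcases ha with ha | ha
    · obtain ⟨t, rfl⟩ := Nat.exists_eq_succ_of_ne_zero ha
      rw [Bv _ _ (Fin.last _) (by rw [Function.update_of_ne (by simp [Fin.ext_iff]), Function.update_of_ne (by simp [Fin.ext_iff]),
        hf.alternating])]; simp
    · rw [Bv _ _ 0 (by simp [ha p pX])]; simp

end H12.Spin
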