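import Mathlib
import Cfsg.Agent.H12.FsB

/-!
# Frames in dimension four, I : two frames of a proper overgroup of the monomial group (`q ≠ 3`)
* `Ft`, `Ft.star`, `Ft.z2`, `Ft.z1`, `Ft.even`
-/

namespace H12.Fr

open Module H10 H10.Form H12.Xf

variable {F V : Type*} [Field F] [AddCommGroup V] [Module F V] {φ : Form F V} {q : ℕ} {ι : Type*} [Fintype ι] [DecidableEq ι]
  {e f : ι → V} {a b i j k l m n : ι} {u v w x p : V} {c : F} {M : Subgroup φ.Isom} {g z t : φ.Isom}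

variable [φ.Nondeg] [FiniteDimensional F V]

variable (φ) in
structure Ft (q : ℕ) (M : Subgroup φ.Isom) (e : ι → V) : Prop where
  hq : φ.IsUnitary q
  on : ON φ e
  n : Fintype.card ι = 4
  ha : ∃ a : F, φ.σ a * a = 1 ∧ a ^ 4 ≠ 1
  mem : ∀ g : φ.Isom, (φ.det g : F) = 1 → g ∈ on.Mn → g ∈ M
  le : ∀ g ∈ M, (φ.det g : F) = 1
  ne : ¬ φ.E ≤ M

namespace Ft
variable (h : Ft φ q M e)
include h

theorem ex (l : List ι) (hl : l.length < 4) : ∃ i, i ∉ l :=
  (nmem l.toFinset (List.toFinset_card_le l) (hl.trans_eq h.n.symm)).imp fun _ r => by simpa using r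

theorem map (hg : g ∈ M) : Ft φ q M fun i => g.1 (e i) :=
  ⟨h.hq, h.on.map g, h.n, h.ha, fun k a b => by
    simpa [mul_assoc] using mul_mem (mul_mem hg (h.mem (g⁻¹ * k * g) (by simp [a]) fun i => (b i).imp fun j r l s => by
      rw [← Isom.B_map g]; simpa [Isom.mul_apply] using r l s)) (inv_mem hg), h.le, h.ne⟩

theorem rr (hc : φ.σ c * c = 1) : rf φ e i c * rf φ e j (φ.σ c) ∈ M :=
  have : φ.σ (φ.σ c) * φ.σ c = 1 := by rw [σ_σ, mul_comm, hc]
  h.mem _ (by rw [map_mul, Units.val_mul, h.on.det_rf hc, h.on.det_rf this, mul_comm, hc])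
    (mul_mem (h.on.rf_mem hc) (h.on.rf_mem this))

theorem sr (r : i ≠ j) : sw φ e i j * rf φ e k (-1) ∈ M :=
  h.mem _ (by simp [h.on.det_sw r, h.on.det_rf (c := -1)]) (mul_mem (h.on.sw_mem r) (h.on.rf_mem (by simp)))

theorem finish (r : a ≠ b) (hp : φ.Q p = 0) (ha : φ.B (e a) p ≠ 0) (hb : φ.B (e b) p ≠ 0)
    (h0 : ∀ l, l ≠ a → l ≠ b → φ.B (e l) p = 0) (hj : φ.B (e j) p = 0) (h1 : TF M p) (h2 : ∀ c : F, InA M p (c • e j)) : False := by
  have hφ := h.hq.herm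
  obtain ⟨c, c1, c2⟩ := exists_c h.hq
  have c3 : φ.σ (φ.σ c) * φ.σ c = 1 := by rw [σ_σ, mul_comm, c1]
  have m : e j ∈ sgSub M hp h1 := mem_sg.2 h2
  refine h.ne ((full_of_le_sgSub (hp := hp) (hX := h1) fun v hv => ?_).E_le hp (h.rr (i := a) (j := j) c1) ?_)
  · rw [φ.mem_perp_singleton] at hv
    rw [← sub_add_cancel v ((φ.B (e a) v / φ.B (e a) p) • p)]
    refine add_mem (h.on.mem fun l s => ?_) (Submodule.smul_mem _ _ self_mem_sgSub)
    have la : l ≠ a := by rintro rfl; simp [ha] at s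
    have lb : l ≠ b := by
      rintro rfl
      have : φ.B p (v - (φ.B (e a) v / φ.B (e a) p) • p) = 0 := by simp [hv, φ.B_self_eq_zero hp]
      nth_rw 1 [h.on.eq2 r h0] at this
      rw [map_add, LinearMap.add_apply, φ.B_smul_left, φ.B_smul_left, show φ.B (e a) (_ - _) = 0 by simp [ha]] at this
      exact s (by simpa [hb, -map_sub] using this)
    by_cases t : j = l
    · rwa [← t]
    have := map_mem_sgSub (h.sr (k := j) t) (by
      rw [Isom.mul_apply, h.on.rf_apply (by simp), hj, mul_zero, zero_smul, add_zero, h.on.sw_apply t, hj, h0 l la lb]; simp) m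
    simpa [Isom.mul_apply, h.on.rf_e, h.on.sw_e t] using this
  · rw [Isom.mul_apply, h.on.rf_apply c3, hj, mul_zero, zero_smul, add_zero, h.on.rf_apply c1]
    simp [φ.B_self_eq_zero hp, ha, sub_eq_zero, mt φ.B_symm_zero ha]
    rintro rfl; simp at c2

theorem loc (H : Hx φ e x) {g k : φ.Isom} (hg : g ∈ h.on.Mn) (h1 : g.1 x = x) (h2 : k.1 x = x)
    (h3 : ∀ z, φ.B x z = 0 → g.1 z - k.1 z ∈ F ∙ x) : k ∈ Loc M x := by
  obtain ⟨t, t1, t2, t3⟩ := H _ (φ.σ_det_mul_det g)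
  have s : ∀ y ∈ F ∙ x, g.1 y = y := φ.mem_fix_span.2 (by simpa)
  refine ⟨h2, g * t, ⟨h.mem _ (by rw [map_mul, Units.val_mul, t2, mul_comm, φ.σ_det_mul_det]) (mul_mem hg t1),
    φ.mem_stab_of_le fun y hy => ?_⟩, fun z hz => ?_⟩
  · obtain ⟨a, rfl⟩ := Submodule.mem_span_singleton.1 hy
    have := add_mem (t3 x (.inr rfl)) (Submodule.mem_span_singleton_self x)
    rw [map_smul, Isom.mul_apply, s _ (by simpa using this)]
    exact Submodule.smul_mem _ _ (by simpa using this)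
  · have := add_mem (t3 z (.inl hz)) (h3 z hz)
    rw [← s _ (t3 z (.inl hz))] at this
    simpa using this

theorem loc_qf (H : Hx φ e x) (h1 : φ.B x (e i) = 0) (h2 : φ.B x u = 0) (h3 : φ.Q u = 1) (h4 : u = e i + c • x) :
    QF (Loc M x) u := fun k hk => by
  have : φ.σ (k + 1) * (k + 1) = 1 := by
    rw [cd_iff h.hq.herm, h3] at hk; rw [map_add, map_one]; linear_combination hk
  refine h.loc H (h.on.rf_mem (i := i) this) (by simp [h.on.rf_apply this, φ.B_symm_zero h1])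
    (by simp [φ.quasi_apply hk, φ.B_symm_zero h2]) fun z hz => ?_
  rw [h.on.rf_apply this, φ.quasi_apply hk, h4]
  exact Submodule.mem_span_singleton.2 ⟨-(k * φ.B (e i) z * c), by simp [φ.B_smul_left, hz]; module⟩

theorem loc_sw (H : Hx φ e x) (r : i ≠ j) (h1 : φ.B (e i) x = 0) (h2 : φ.B (e j) x = 0) : sw φ e i j ∈ Loc M x :=
  have : (sw φ e i j).1 x = x := by simp [h.on.sw_apply r, h1, h2]
  h.loc H (h.on.sw_mem r) this this (by simp)

theorem hx1 (c0 : c ≠ 0) : Hx φ e (c • e j) := fun d hd =>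
  have : φ.σ (φ.σ d) * φ.σ d = 1 := by rw [σ_σ, mul_comm, hd]
  ⟨_, h.on.rf_mem (i := j) this, h.on.det_rf this, fun z _ => by
    simpa [h.on.rf_apply this, Submodule.span_singleton_smul_eq c0.isUnit] using
      Submodule.smul_mem _ _ (Submodule.mem_span_singleton_self _)⟩

theorem star (h' : Ft φ q M f) (H : Meet F e f) (i : ι) : Pt φ e (f i) := by
  obtain ⟨o, j, c, r⟩ := H
  by_cases io : i = o
  · rw [io, r]; exact h.on.pt _ _
  have c0 : c ≠ 0 := by rintro rfl; exact h'.on.ne o (by simpa using r)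
  have H := h.hx1 (j := j) c0
  have H' := h'.hx1 (j := o) one_ne_zero
  rw [one_smul] at H'
  rw [← r] at H
  have z : ∀ l, l ≠ j → φ.B (e l) (f o) = 0 := fun l s => by simp [r, h.on.B, s]
  by_contra t
  obtain ⟨p, l, a, b, d, s1, s2, s3, s4⟩ := thmR h.hq h.on (K := Loc M (f o)) (I := (· ≠ j))
    (fun l s => h.loc_qf H (c := 0) (φ.B_symm_zero (z l s)) (φ.B_symm_zero (z l s)) (h.on.Q l) (by simp))
    (fun a b s t u => h.loc_sw H u (z a s) (z b t)) (fun a b => by simpa using h.ex [j, a, b] (by simp))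
    (h'.loc_qf H' (c := 0) (i := i) (by simp [h'.on.B, Ne.symm io]) (by simp [h'.on.B, Ne.symm io]) (h'.on.Q i) (by simp))
    (by simp [h'.on.Q]) (fun l s u => s (by simpa [u, r, φ.B_smul_left, c0, Ne.symm io] using h'.on.B o i)) t
  have L : ∀ k ∈ φ.E, k ∈ Loc M (f o) → k ∈ M := fun k k1 ⟨k2, g, g1, g2⟩ => by
    obtain ⟨μ, m1, m2⟩ := h.hq.eq_qrefl_of_mem_fix (u := f o) (g := g⁻¹ * k) (by simp [h'.on.Q]) fun y hy => by
      rw [φ.mem_perp_singleton] at hy
      obtain ⟨s, t⟩ := Submodule.mem_span_singleton.1 (g2 y hy)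
      obtain ⟨s', t'⟩ := Submodule.mem_span_singleton.1 (((φ.stab _).inv_mem g1.2 _).1 (Submodule.mem_span_singleton_self (f o)))
      have := congrArg (φ.B (f o)) t
      rw [map_sub, ← k2, Isom.B_map, k2, hy, ← Isom.B_map g⁻¹ _ (g.1 y), Isom.inv_apply_apply, ← t', φ.B_smul_left, hy] at this
      rw [show s = 0 by simpa [h'.on.B] using this, zero_smul, eq_comm, sub_eq_zero] at t
      rw [Isom.mul_apply, ← t, Isom.inv_apply_apply]
    have := h'.on.det_rf (i := o) m1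
    rw [rf, show φ.quasi (f o) (μ - 1) = g⁻¹ * k by simp [m2, qrefl, h'.on.B]] at this
    obtain rfl : μ = 1 := by simpa [h.le g g1.1, det_E k1] using this.symm
    rw [show k = g from Isom.ext fun z => by
      simpa [qrefl, φ.quasi_apply (p := f o) (k := 0) (by simp), Isom.mul_apply] using congrArg (g.1 <| ·.1 z) m2]
    exact g1.1
  exact h.finish s1 d.Q s2 s3 s4 d.zero (fun t ht => L _ (φ.siegel_mem_E d.Q (by simp) (by simpa)) (d.tf t ht))
    fun c => (d.inA c).imp_right fun ⟨s, u, v⟩ => ⟨s, u, L _ (φ.siegel_mem_E d.Q (d.inA c).1 u) v⟩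

theorem mn (hg : g ∈ M) (H : Meet F e fun i => g.1 (e i)) : g ∈ h.on.Mn := h.star (h.map hg) H

theorem mn_fix (hg : g ∈ M) (H : g.1 (e i) = e i) : g ∈ h.on.Mn := h.mn hg ⟨i, i, 1, by simpa⟩

theorem all (h1 : k ≠ l) (h2 : k ≠ m) (h3 : k ≠ n) (h4 : l ≠ m) (h5 : l ≠ n) (h6 : m ≠ n) (d : ι) :
    d = k ∨ d = l ∨ d = m ∨ d = n := by
  by_contra! H
  have := Finset.card_le_univ ({d, k, l, m, n} : Finset ι)
  rw [h.n] at this
  simp [Finset.card_insert_of_notMem, *] at this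

theorem det_sc (hc : φ.σ c * c = 1) : (φ.det (φ.scalar c) : F) = c ^ 4 := by
  rw [coe_det, φ.det_of_scalar (φ.scalar_apply hc), h.on.fr, h.n]

theorem sc_mem (hc : φ.σ c * c = 1) : φ.scalar c ∈ h.on.Mn := fun i => by rw [φ.scalar_apply hc]; exact h.on.pt _ _

theorem hom (hc : φ.σ c * c = 1) : φ.σ (φ.σ c ^ 4) * φ.σ c ^ 4 = 1 ∧ φ.scalar c * rf φ e k (φ.σ c ^ 4) ∈ M := by
  have n : φ.σ (φ.σ c ^ 4) * φ.σ c ^ 4 = 1 := by rw [map_pow, σ_σ, ← mul_pow, mul_comm, hc, one_pow]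
  exact ⟨n, h.mem _ (by rw [map_mul, Units.val_mul, h.det_sc hc, h.on.det_rf n, ← mul_pow, mul_comm, hc, one_pow])
    (mul_mem (h.sc_mem hc) (h.on.rf_mem n))⟩

theorem nz (h' : Ft φ q M f) (a : ι) : ∃ j, φ.B (e a) (f j) ≠ 0 := by
  by_contra! H
  exact h.on.ne a (h'.on.sep _ fun j => φ.B_symm_zero (H j))

theorem z2 (h' : Ft φ q M f) (h2 : (2 : F) ≠ 0) (r : k ≠ l) (h1 : φ.B (e k) (f i) = 0) (h3 : φ.B (e l) (f i) = 0) :
    Meet F e f := by
  by_contra H
  obtain ⟨j, a0⟩ := h.nz h' k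
  have hφ := h.hq.herm
  have G : ∀ c, φ.σ c * c = 1 → c * c ≠ 1 → 1 + (c - 1) * (φ.σ (φ.B (e k) (f j)) * φ.B (e k) (f j)) +
      (φ.σ c - 1) * (φ.σ (φ.B (e l) (f j)) * φ.B (e l) (f j)) = 0 := fun c c1 c2 => by
    have c3 : φ.σ (φ.σ c) * φ.σ c = 1 := by rw [σ_σ, mul_comm, c1]
    have ap : ∀ z, (rf φ e k c * rf φ e l (φ.σ c)).1 z = z + ((c - 1) * φ.B (e k) z) • e k + ((φ.σ c - 1) * φ.B (e l) z) • e l :=
      fun z => by rw [Isom.mul_apply, h.on.rf_apply c1, h.on.rf_apply c3]; simp [h.on.B, r]; module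
    have m := h'.mn_fix (i := i) (h.rr (i := k) (j := l) c1) (by rw [ap]; simp [h1, h3])
    obtain ⟨s, d, u⟩ := h'.on.pt_iff.1 (m j)
    rw [ap] at u
    by_cases v : s = j
    · have u1 := congrArg (φ.B (e k)) u
      simp only [map_add, map_smul, h.on.B, r, v, if_true, if_false, smul_eq_mul] at u1
      obtain rfl : d = c := mul_right_cancel₀ a0 (by linear_combination -u1)
      refine (H ⟨j, k, _, h.on.eq1 fun a a1 => by_contra fun a3 => c2 ?_⟩).elim
      have u2 := congrArg (φ.B (e a)) u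
      by_cases a2 : a = l
      · simp only [map_add, map_smul, h.on.B, r.symm, a2, v, if_true, if_false, smul_eq_mul] at u2 a3
        rw [← c1, show φ.σ d = d from mul_right_cancel₀ a3 (by linear_combination u2)]
      simp only [map_add, map_smul, h.on.B, a1, a2, v, if_true, if_false, smul_eq_mul] at u2
      rw [show d = 1 from mul_right_cancel₀ a3 (by linear_combination -u2), mul_one]
    have := congrArg (φ.B (f j)) u
    simp only [map_add, map_smul, h'.on.B, if_true, Ne.symm v, if_false, smul_eq_mul, hφ.B_comm (e l) (f j),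
      hφ.B_comm (e k) (f j)] at this
    linear_combination this
  obtain ⟨x, x1, x2⟩ := h.ha
  have x3 : x * x ≠ 1 := fun s => x2 (by linear_combination (x * x + 1) * s)
  have gx := G x x1 x3
  have gy := G (φ.σ x) (by rw [σ_σ, mul_comm, x1]) fun s => x3 (by simpa using congrArg φ.σ s)
  have gz := G (-x) (by simpa) (by simpa)
  rw [σ_σ] at gy
  rw [map_neg] at gz
  generalize φ.σ (φ.B (e k) (f j)) * φ.B (e k) (f j) = A at *
  generalize φ.σ (φ.B (e l) (f j)) * φ.B (e l) (f j) = B at *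
  have e1 : 1 - A - B = 0 := mul_left_cancel₀ h2 (by linear_combination gx + gz)
  have e2 : x + φ.σ x = 0 := by linear_combination gx + gy + (x + φ.σ x - 2) * e1
  exact x2 (by linear_combination (1 - x ^ 2) * x1 + (x ^ 3 - x) * e2)

theorem z1 (h' : Ft φ q M f) (h2 : (2 : F) ≠ 0) (h1 : φ.B (e k) (f i) = 0) : Meet F e f := by
  obtain ⟨x, x1, x2⟩ := h.ha
  obtain ⟨c1, c2⟩ := h.hom (k := k) x1
  have x0 : x ≠ 0 := by rintro rfl; simp at x1
  have c3 : φ.σ x ^ 4 - 1 ≠ 0 := fun s => x2 (by simpa using congrArg φ.σ (sub_eq_zero.1 s))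
  generalize φ.σ x ^ 4 = c at *
  have ap : ∀ z, (φ.scalar x * rf φ e k c).1 z = x • (z + ((c - 1) * φ.B (e k) z) • e k) := fun z => by
    rw [Isom.mul_apply, φ.scalar_apply x1, h.on.rf_apply c1]
  obtain ⟨j, a0⟩ := h.nz h' k
  obtain ⟨s, u⟩ := h'.mn c2 ⟨i, i, x, by simp only [ap]; simp [h1]⟩ j
  have G : ∀ t, t ≠ j → t ≠ s → φ.B (f t) (e k) = 0 := fun t a b => by
    have := u t b
    rw [ap] at this
    simpa [h'.on.B, a, x0, c3, a0] using this
  obtain ⟨m, hm⟩ := h.ex [j, s] (by simp)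
  obtain ⟨n, hn⟩ := h.ex [j, s, m] (by simp)
  simp only [List.mem_cons, List.not_mem_nil, or_false, not_or] at hm hn
  exact h.on.meet (h'.z2 h h2 hn.2.2 (G n hn.1 hn.2.1) (G m hm.1 hm.2))

omit h in
variable (M) in
/-- `M` extended by scalars -/
def Kz : Subgroup φ.Isom where
  carrier := {g | ∃ a : F, a ≠ 0 ∧ ∃ k ∈ M, ∀ v, k.1 v = a • g.1 v}
  one_mem' := ⟨1, one_ne_zero, 1, one_mem _, by simp⟩
  mul_mem' := fun {g g'} ⟨a, a0, k, hk, s⟩ ⟨b, b0, k', hk', t⟩ => ⟨b * a, mul_ne_zero b0 a0, k * k', mul_mem hk hk', fun v => by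
    rw [Isom.mul_apply, t, map_smul, s, smul_smul, Isom.mul_apply]⟩
  inv_mem' := fun {g} ⟨a, a0, k, hk, s⟩ => ⟨a⁻¹, inv_ne_zero a0, k⁻¹, inv_mem hk, fun v => by
    rw [eq_inv_smul_iff₀ a0, ← map_smul, ← Isom.apply_inv_apply g v, ← s]; simp⟩

section even
variable (h2 : (2 : F) = 0)
include h2

theorem sq {d : F} (hd : φ.σ d * d = 1) : ∃ m, φ.σ m * m = 1 ∧ m * m = d := by
  have := h.hq.finite
  obtain ⟨m, hm⟩ := (Finite.injective_iff_surjective (f := fun m : F => m * m)).1 (fun a b r => by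
    rw [← sub_eq_zero, ← mul_self_eq_zero]; linear_combination r + (b * b - a * b) * h2) d
  refine ⟨m, ?_, hm⟩
  have := congrArg φ.σ hm
  simp only [map_mul] at this hm
  rw [← sub_eq_zero, ← mul_self_eq_zero]
  linear_combination (m * m) * this + φ.σ d * hm + hd + (1 - φ.σ m * m) * h2

theorem qf (i : ι) : QF (Kz M) (e i) := fun k hk => by
  have : φ.σ (k + 1) * (k + 1) = 1 := by
    rw [cd_iff h.hq.herm, h.on.Q] at hk; rw [map_add, map_one]; linear_combination hk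
  obtain ⟨m, m1, m2⟩ := h.sq h2 this
  obtain ⟨n, n1, n2⟩ := h.sq h2 m1
  have n3 : φ.σ (φ.σ n) * φ.σ n = 1 := by rw [σ_σ, mul_comm, n1]
  have := (h.hom (k := i) n3).2
  rw [σ_σ, show n ^ 4 = k + 1 by rw [← m2, ← n2]; ring, rf, add_sub_cancel_right] at this
  exact ⟨φ.σ n, by rintro s; simp [s] at n1, _, this, fun v => by rw [Isom.mul_apply, φ.scalar_apply n3]⟩

theorem even (hg : g ∈ M) : g ∈ h.on.Mn := fun i => by
  by_contra t
  obtain ⟨p, l, a, b, d, s1, s2, s3, s4⟩ := thmR h.hq h.on (K := Kz M) (I := fun _ => True) (fun l _ => h.qf h2 l)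
    (fun a b _ _ u => ⟨1, one_ne_zero, _, h.mem _ (by rw [h.on.det_sw u, Units.val_neg, Units.val_one]; linear_combination -h2)
      (h.on.sw_mem u), by simp⟩) (fun a b => by simpa using h.ex [a, b] (by simp))
    ((h.map hg).qf h2 i) (by simp [h.on.Q]) (fun _ _ => trivial) t
  have L : ∀ k ∈ φ.E, k ∈ Kz M → k ∈ M := fun k k1 ⟨a, a0, g, g1, g2⟩ => by
    have := φ.det_of_scalar (g := g * k⁻¹) (c := a) fun v => by rw [Isom.mul_apply, g2]; simp
    rw [← coe_det, map_mul, map_inv, Units.val_mul, Units.val_inv_eq_inv_val, h.le g g1, det_E k1, h.on.fr, h.n] at this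
    obtain rfl : a = 1 := sub_eq_zero.1 (pow_eq_zero_iff (n := 4) (by simp)|>.1 (by
      linear_combination -this + (-2 * a ^ 3 + 3 * a ^ 2 - 2 * a + 1) * h2))
    rwa [show k = g from Isom.ext fun v => by simp [g2]]
  exact h.finish s1 d.Q s2 s3 s4 d.zero (fun t ht => L _ (φ.siegel_mem_E d.Q (by simp) (by simpa)) (d.tf t ht))
    fun c => (d.inA c).imp_right fun ⟨s, u, v⟩ => ⟨s, u, L _ (φ.siegel_mem_E d.Q (d.inA c).1 u) v⟩

end even
end Ft
end H12.Fr
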