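import Mathlib
import Cfsg.Agent.H12.Su43A

/-!
# Frames in dimension four, II : maximality of the monomial group of `SU_4(q)`, `q ≠ 3`
* `Ft.le_mn`, `H12.Su43.su4_3`
-/

namespace H12.Fr

open Module H10 H10.Form H12.Xf

variable {F V : Type*} [Field F] [AddCommGroup V] [Module F V] {φ : Form F V} {q : ℕ} {ι : Type*} [Fintype ι] [DecidableEq ι]
  {e f : ι → V} {a b i j k l m n : ι} {M : Subgroup φ.Isom} {g t z : φ.Isom} {c : F}

/-- equality up to sign -/
def PM (a b : φ.Isom) : Prop := ∃ ε : F, ε * ε = 1 ∧ ∀ v, a.1 v = ε • b.1 v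

theorem dihz [Finite φ.Isom] {x y : φ.Isom} (hx : x * x = 1) (hy : y * y = 1) :
    (∃ n : ℕ, PM y ((x * y) ^ n * x * ((x * y) ^ n)⁻¹)) ∨ ∃ n : ℕ, ¬ PM ((x * y) ^ n) 1 ∧ PM ((x * y) ^ n * (x * y) ^ n) 1 ∧
      PM ((x * y) ^ n * x) (x * (x * y) ^ n) ∧ PM ((x * y) ^ n * y) (y * (x * y) ^ n) ∧ ∃ m : ℕ,
        PM (x * (x * y) ^ n) ((x * y) ^ m * x * ((x * y) ^ m)⁻¹) ∨ PM (y * (x * y) ^ n) ((x * y) ^ m * x * ((x * y) ^ m)⁻¹) := by
  let Z : Subgroup φ.Isom :=
    { carrier := {g | PM g 1}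
      one_mem' := ⟨1, by simp⟩
      mul_mem' := fun {a b} ⟨s, s1, s2⟩ ⟨t, t1, t2⟩ => ⟨s * t, by linear_combination (t * t) * s1 + t1, fun v => by
        rw [Isom.mul_apply, s2, t2]; simp [smul_smul]⟩
      inv_mem' := fun {a} ⟨s, s1, s2⟩ => ⟨s, s1, fun v => by
        have := congrArg (s • ·) (s2 ((a⁻¹).1 v))
        simpa [smul_smul, s1] using this.symm⟩ }
  have : Z.Normal := ⟨fun a ⟨s, s1, s2⟩ g => ⟨s, s1, fun v => by simp [Isom.mul_apply, s2]⟩⟩
  have key : ∀ a b, QuotientGroup.mk' Z a = QuotientGroup.mk' Z b ↔ PM a b := fun a b => by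
    rw [QuotientGroup.mk'_apply, QuotientGroup.mk'_apply, eq_comm, QuotientGroup.eq]
    refine exists_congr fun s => and_congr_right fun _ => forall_congr' fun v => ?_
    rw [Isom.mul_apply, Isom.one_apply, ← map_smul, ← (b.1).injective.eq_iff, Isom.apply_inv_apply]
  have := dih (x := QuotientGroup.mk' Z x) (y := QuotientGroup.mk' Z y) (by rw [← map_mul, hx, map_one]) (by rw [← map_mul, hy, map_one])
  rw [← map_one (QuotientGroup.mk' Z)] at this
  simpa only [← map_mul, ← map_pow, ← map_inv, ne_eq, key] using this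

variable [φ.Nondeg] [FiniteDimensional F V]

namespace Ft
variable (h : Ft φ q M e) (h2 : (2 : F) ≠ 0)
include h h2

theorem cen (hz : z ∈ M) (c : PM (z * t) (t * z)) (h1 : t.1 (e m) = -e m) (h3 : t.1 (e n) = e n) : z ∈ h.on.Mn := by
  obtain ⟨s, s1, s2⟩ := c
  have u := s2 (e n)
  rw [Isom.mul_apply, Isom.mul_apply, h3] at u
  obtain rfl | rfl := mul_self_eq_one_iff.1 s1
  · refine h.mn hz (h.z1 (h.map hz) h2 (k := m) (i := n) (mul_left_cancel₀ h2 ?_))
    have := Isom.B_map t (e m) (z.1 (e n))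
    rw [one_smul] at u
    rw [← u, h1, map_neg, LinearMap.neg_apply] at this
    linear_combination -this
  · refine h.mn hz (h.z1 (h.map hz) h2 (k := n) (i := n) (mul_left_cancel₀ h2 ?_))
    have := Isom.B_map t (e n) (z.1 (e n))
    rw [h3] at this
    have u' := congrArg (φ.B (e n)) u
    rw [map_smul, this, smul_eq_mul] at u'
    linear_combination u'

theorem lc (h' : Ft φ q M f) (z2 : ∀ v, z.1 (z.1 v) = v) (h1 : z.1 (f m) = -f m) (h3 : z.1 (f n) = f n) (hz : z ∈ h.on.Mn) :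
    Meet F e f := by
  by_contra H
  have N : ∀ i j, φ.B (e i) (f j) ≠ 0 := fun i j s => H (h.z1 h' h2 s)
  choose π c r using fun i => h.on.pt_iff.1 (hz i)
  have p1 : ∀ a, π a ≠ a := fun a s => by
    have u1 := Isom.B_map z (e a) (f n)
    have u2 := Isom.B_map z (e a) (f m)
    rw [r, s, h3, φ.B_smul_left] at u1
    rw [r, s, h1, φ.B_smul_left, map_neg] at u2
    have v1 : φ.σ (c a) = 1 := mul_right_cancel₀ (N a n) (by linear_combination u1)
    exact N a m (mul_left_cancel₀ h2 (by rw [v1] at u2; linear_combination -u2))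
  have p2 : ∀ a, π (π a) = a := fun a => by_contra fun s => by
    have := congrArg (φ.B (e a)) (z2 (e a))
    simp [r, h.on.B, Ne.symm s] at this
  obtain ⟨x, x1, x2⟩ := h.ha
  have x3 : φ.σ (φ.σ x) * φ.σ x = 1 := by rw [σ_σ, mul_comm, x1]
  have x4 : φ.σ (x * x) * (x * x) = 1 := by rw [map_mul]; linear_combination (φ.σ x * x + 1) * x1
  have tM : φ.scalar (φ.σ x) * (rf φ e m (x * x) * rf φ e (π m) (x * x)) ∈ M := h.mem _ (by
    simp only [map_mul, Units.val_mul, h.det_sc x3, h.on.det_rf x4]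
    linear_combination (φ.σ x * x + 1) * ((φ.σ x * x) ^ 2 + 1) * x1)
    (mul_mem (h.sc_mem x3) (mul_mem (h.on.rf_mem x4) (h.on.rf_mem x4)))
  have ap : ∀ i, (φ.scalar (φ.σ x) * (rf φ e m (x * x) * rf φ e (π m) (x * x))).1 (e i) =
      (if i = m ∨ i = π m then x else φ.σ x) • e i := fun i => by
    rw [Isom.mul_apply, Isom.mul_apply, φ.scalar_apply x3, h.on.rf_e x4, map_smul, h.on.rf_e x4, smul_smul, smul_smul]
    congr 1
    have := p1 m
    by_cases s : i = m
    · simp only [s, this, if_true, if_false, true_or]; linear_combination x * x1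
    by_cases u : i = π m
    · simp only [u, this.symm, if_true, if_false, or_true]; linear_combination x * x1
    simp [s, u, Ne.symm s, Ne.symm u]
  generalize φ.scalar (φ.σ x) * (rf φ e m (x * x) * rf φ e (π m) (x * x)) = t at *
  have cm : t * z = z * t := h.on.ext' fun i => by
    rw [Isom.mul_apply, Isom.mul_apply, ap, map_smul, r, map_smul, ap, smul_comm]
    have : (π i = m ∨ π i = π m) ↔ (i = m ∨ i = π m) := by
      have := p2 i
      have := p2 m
      grind
    simp only [this]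
  choose ρ d s using fun i => h'.on.pt_iff.1 (h'.cen h2 tM ⟨1, by simp [cm]⟩ h1 h3 i)
  have d0 : ∀ i, d i ≠ 0 := fun i u => h'.on.ne i (by simpa [u] using s i)
  have sg : ∀ i (η : F), z.1 (f i) = η • f i → z.1 (f (ρ i)) = η • f (ρ i) := fun i η u => by
    have := congrArg (fun g : φ.Isom => g.1 (f i)) cm
    simp only [Isom.mul_apply, u, map_smul, s] at this
    exact smul_right_injective V (d0 i) (by simp only [← this]; rw [smul_comm])
  have inj : ∀ i j, ρ i = ρ j → i = j := fun i j u => by_contra fun w => by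
    simpa [s, u, φ.B_smul_left, h'.on.B, w, d0] using Isom.B_map t (f i) (f j)
  have ne : ∀ i j, z.1 (f i) = (1 : F) • f i → z.1 (f j) = (-1 : F) • f j → i ≠ j := by
    rintro i _ u w rfl
    have := congrArg (φ.B (f i)) (u.symm.trans w)
    simp only [map_smul, h'.on.B, if_true, smul_eq_mul] at this
    exact h2 (by linear_combination this)
  obtain ⟨i, hi⟩ : ∃ i, ρ (ρ i) = i := by
    by_contra! w
    have a1 : z.1 (f n) = (1 : F) • f n := by simpa
    have b1 : z.1 (f m) = (-1 : F) • f m := by simpa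
    have a2 := sg _ _ a1
    have a3 := sg _ _ a2
    have b2 := sg _ _ b1
    have w' : ∀ i, ρ i ≠ i := fun i u => w i (by rw [u, u])
    obtain u | u | u | u := h.all (w' n).symm (w n).symm (ne _ _ a1 b1) (w' _).symm (ne _ _ a2 b1) (ne _ _ a3 b1) (ρ m)
    exacts [ne _ _ a1 b2 u.symm, ne _ _ a2 b2 u.symm, ne _ _ a3 b2 u.symm, w' _ u]
  have G : ∀ j (τ : F), t.1 (e j) = τ • e j → φ.σ τ * φ.σ τ * (d i * d (ρ i)) = 1 := fun j τ u => by
    have u1 := Isom.B_map t (e j) (f i)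
    have u2 := Isom.B_map t (e j) (f (ρ i))
    rw [u, s, φ.B_smul_left, map_smul, smul_eq_mul] at u1 u2
    rw [hi] at u2
    exact mul_right_cancel₀ (N j i) (by linear_combination u1 + φ.σ τ * d i * u2)
  obtain ⟨o, ho⟩ := h.ex [m, π m] (by simp)
  have g1 := G m x (by simp [ap])
  have g2 := G o (φ.σ x) (by rw [ap, if_neg (by simpa using ho)])
  rw [σ_σ] at g2
  have g3 : φ.σ x * φ.σ x = x * x := mul_right_cancel₀ (mul_ne_zero (d0 i) (d0 (ρ i))) (g1.trans g2.symm)
  exact x2 (by linear_combination (φ.σ x * x + 1) * x1 - x * x * g3)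

theorem lc' (h' : Ft φ q M f) (z2 : ∀ v, z.1 (z.1 v) = v) (c2 : c * c = 1) (h1 : z.1 (f m) = -c • f m) (h3 : z.1 (f n) = c • f n)
    (hz : z ∈ h.on.Mn) : Meet F e f := by
  obtain rfl | rfl := mul_self_eq_one_iff.1 c2
  · exact h.lc h2 h' z2 (by simpa using h1) (by simpa using h3) hz
  · exact h.lc h2 h' z2 (by simpa using h3) (by simpa using h1) hz

theorem odd (h' : Ft φ q M f) : Meet F e f := by
  have := h.hq.finite
  have : Finite V := Module.finite_of_finite F
  obtain ⟨k, -⟩ := h.ex [] (by simp)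
  obtain ⟨l, hl⟩ := h.ex [k] (by simp)
  obtain ⟨m, hm⟩ := h.ex [k, l] (by simp)
  obtain ⟨n, hn⟩ := h.ex [k, l, m] (by simp)
  simp only [List.mem_cons, List.not_mem_nil, or_false, not_or] at hl hm hn
  have kl : k ≠ l := Ne.symm hl
  have n1 : φ.σ (-1) * -1 = 1 := by simp
  have xM := h.rr (i := k) (j := l) n1
  have yM := h'.sr (k := m) kl
  rw [map_neg, map_one] at xM
  have xN := mul_mem (h.on.rf_mem (i := k) n1) (h.on.rf_mem (i := l) n1)
  have yN := mul_mem (h'.on.sw_mem kl) (h'.on.rf_mem (i := m) n1)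
  have X : ∀ d, (rf φ e k (-1) * rf φ e l (-1)).1 (e d) = (if d = k ∨ d = l then -1 else 1 : F) • e d := fun d => by
    rw [Isom.mul_apply, h.on.rf_e n1, map_smul, h.on.rf_e n1, smul_smul]
    congr 1
    by_cases s : d = k
    · simp [s, hl]
    by_cases u : d = l
    · simp [u, kl]
    simp [s, u, Ne.symm s, Ne.symm u]
  have Y : ∀ d, (sw φ f k l * rf φ f m (-1)).1 (f d) = (if m = d then -1 else 1 : F) • f (Equiv.swap k l d) := fun d => by
    rw [Isom.mul_apply, h'.on.rf_e n1, map_smul, h'.on.sw_e kl]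
  generalize rf φ e k (-1) * rf φ e l (-1) = x at *
  generalize sw φ f k l * rf φ f m (-1) = y at *
  have x2 : x * x = 1 := h.on.ext' fun d => by
    rw [Isom.mul_apply, X, map_smul, X, smul_smul]; split_ifs <;> simp
  have y2 : y * y = 1 := h'.on.ext' fun d => by
    rw [Isom.mul_apply, Y, map_smul, Y, Equiv.swap_apply_self, smul_smul]
    by_cases s : m = d
    · simp [← s, Equiv.swap_apply_of_ne_of_ne hm.1 hm.2]
    · simp [s, Equiv.eq_symm_apply, ← (Equiv.swap k l).symm_apply_eq, Equiv.swap_apply_of_ne_of_ne hm.1 hm.2]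
  have Y1 : y.1 (f k) = f l := by simp [Y, hm]
  have Y2 : y.1 (f l) = f k := by simp [Y, hm]
  have Y3 : y.1 (f m) = -f m := by simp [Y, Equiv.swap_apply_of_ne_of_ne, hm]
  have Y4 : y.1 (f n) = f n := by simp [Y, Equiv.swap_apply_of_ne_of_ne, hn, Ne.symm hn.2.2]
  have D : ∀ {g : ι → V} (h' : Ft φ q M g) {w : φ.Isom} (s : ℕ), PM w ((x * y) ^ s * x * ((x * y) ^ s)⁻¹) → w ∈ h'.on.Mn →
      ∀ i, ∃ c : F, c * c = 1 ∧ w.1 (g i) = c • g i := fun {g} h' w s ⟨ε, ε1, ε2⟩ hw i => by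
    have hr := h.map (pow_mem (mul_mem xM yM) s)
    generalize (x * y) ^ s = r at *
    have W : ∀ d, w.1 (r.1 (e d)) = (ε * if d = k ∨ d = l then -1 else 1) • r.1 (e d) := fun d => by
      rw [ε2, Isom.mul_apply, Isom.mul_apply, Isom.inv_apply_apply, X, map_smul, smul_smul]
    have w2 : w * w = 1 := hr.on.ext' fun d => by
      rw [Isom.mul_apply, W, map_smul, W, smul_smul]; split_ifs <;> simp [ε1]
    obtain ⟨j, c, u⟩ := hr.on.pt_iff.1 (hr.star h' (hr.on.meet (h'.lc' h2 hr (z := w) (m := k) (n := m)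
      (fun v => by rw [← Isom.mul_apply, w2, Isom.one_apply]) ε1 (by simp [W]) (by simp [W, hm]) hw)) i)
    refine ⟨ε * if j = k ∨ j = l then -1 else 1, by split_ifs <;> simp [ε1], ?_⟩
    rw [u, map_smul, W, smul_comm]
  obtain ⟨s, r⟩ | ⟨s, z1, z2, z3, z4, s', r⟩ := dihz x2 y2
  · obtain ⟨c, -, u⟩ := D h' s r yN k
    simpa [h'.on.B, hl, Y1] using congrArg (φ.B (f l)) u
  have zM := pow_mem (mul_mem xM yM) s
  specialize @D
  generalize (x * y) ^ s = z at *
  have ze := h.cen h2 zM z3 (m := k) (n := m) (by simp [X]) (by simp [X, hm])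
  have zf := h'.cen h2 zM z4 Y3 Y4
  obtain r | r := r
  · have Z : ∀ i, ∃ c : F, c * c = 1 ∧ z.1 (e i) = c • e i := fun i => by
      obtain ⟨c, c1, u⟩ := D h s' r (mul_mem xN ze) i
      refine ⟨c * if i = k ∨ i = l then -1 else 1, by split_ifs <;> simp [c1], ?_⟩
      rw [mul_smul, ← X, ← map_smul, ← u, ← Isom.mul_apply, ← mul_assoc, x2, one_mul]
    choose c c1 Z using Z
    obtain ⟨i, hi⟩ : ∃ i, c i ≠ c k := by
      by_contra! w
      refine z1 ⟨c k, c1 k, fun v => ?_⟩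
      rw [h.on.sum v]; simp [Z, w, Finset.smul_sum, smul_comm (c k)]
    have w2 : z * z = 1 := h.on.ext' fun d => by simp [Isom.mul_apply, Z, smul_smul, c1]
    refine h.on.meet (h'.lc' h2 h (m := i) (n := k) (fun v => by rw [← Isom.mul_apply, w2, Isom.one_apply]) (c1 k) ?_ (Z k) zf)
    rw [Z, (mul_self_eq_mul_self_iff.1 ((c1 i).trans (c1 k).symm)).resolve_left hi]
  choose c c1 Z using D h' s' r (mul_mem yN zf)
  replace Z : ∀ d, z.1 (f d) = c d • y.1 (f d) := fun d => by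
    rw [← map_smul, ← Z, ← Isom.mul_apply, ← mul_assoc, y2, one_mul]
  obtain ⟨ε, -, z2⟩ := z2
  obtain rfl : ε = 1 := by simpa [Isom.mul_apply, Z, Y4, h'.on.B, c1, eq_comm] using congrArg (φ.B (f n)) (z2 (f n))
  have c3 : c k * c l = 1 := by simpa [Isom.mul_apply, Z, Y1, Y2, h'.on.B] using congrArg (φ.B (f k)) (z2 (f k))
  have c2 : ∀ i, φ.σ (c i) * c i = 1 := fun i => by obtain u | u := mul_self_eq_one_iff.1 (c1 i) <;> simp [u]
  have c4 := congrArg (fun g : φ.Isom => (φ.det g : F)) (h'.on.ext' (g := y * z)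
    (g' := rf φ f k (c k) * (rf φ f l (c l) * (rf φ f m (c m) * rf φ f n (c n)))) fun d => by
      rw [Isom.mul_apply, Z, map_smul, ← Isom.mul_apply, y2]
      simp only [Isom.mul_apply, h'.on.rf_e (c2 _), map_smul, smul_smul, Isom.one_apply]
      congr 1
      obtain rfl | rfl | rfl | rfl := h.all kl (Ne.symm hm.1) (Ne.symm hn.1) (Ne.symm hm.2) (Ne.symm hn.2.1) (Ne.symm hn.2.2) d <;>
        simp [*, Ne.symm hm.1, Ne.symm hn.1, Ne.symm hm.2, Ne.symm hn.2.1, Ne.symm hn.2.2])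
  simp only [map_mul, Units.val_mul, h.le z zM, h.le y yM, h'.on.det_rf (c2 _)] at c4
  refine h.lc' h2 h' (m := m) (n := n) (by simpa using z2) (c1 n) ?_ (by rw [Z, Y4]) ze
  rw [Z, Y3, show c m = c n by linear_combination (-c n) * c4 - c m * c n * c n * c3 - c m * c1 n]; simp

omit h2 in
theorem le_mn : M ≤ h.on.Mn := fun _ hg => (em _).elim (h.even · hg) fun h2 => h.mn hg (h.odd h2 (h.map hg))

end Ft

omit [φ.Nondeg] [FiniteDimensional F V] in
theorem ex_a (hq : φ.IsUnitary q) (q3 : q ≠ 3) : ∃ a : F, φ.σ a * a = 1 ∧ a ^ 4 ≠ 1 := by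
  classical
  by_contra! H
  have := hq.finite
  have := Fintype.ofFinite F
  have q2 := hq.two_le
  by_cases r : q = 2
  · obtain ⟨c, c1, c2⟩ := exists_c hq
    have := H c c1
    rw [hq.σ_eq, r] at c1
    obtain rfl : c = 1 := by linear_combination this - c * c1
    simp at c2
  set C := Finset.univ.filter fun d : F => φ.σ d * d = 1
  have h1 : C.card = q + 1 := by rw [← hq.card_norm one_ne_zero (map_one _), Nat.card_eq_fintype_card, Fintype.card_subtype]
  have h3 := Finset.card_le_card (show C ⊆ (Polynomial.nthRoots 4 (1 : F)).toFinset from fun d hd => by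
    simpa [Polynomial.mem_nthRoots] using H d (Finset.mem_filter.1 hd).2)
  have := Multiset.toFinset_card_le (Polynomial.nthRoots 4 (1 : F))
  have := Polynomial.card_nthRoots 4 (1 : F)
  omega

theorem dec_le4 {κ : Type*} {D : κ → Submodule F V} (hq : φ.IsUnitary q) (q3 : q ≠ 3) [Fintype κ] (hn : Fintype.card κ = 4)
    (h3 : 3 ≤ finrank F V) (od : φ.ODec D) (rk : ∀ i, finrank F (D i) = 1)
    (hM : φ.E ⊓ φ.dstab D ≤ M) (hg : g ∈ M) (hE : g ∈ φ.E) (hg' : g ∉ φ.dstab D) : φ.E ≤ M := by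
  classical
  have eq := hq.E_eq_SIsom h3
  choose e e1 e2 using fun i => hq.exists_Q_eq (od.nondeg i) (fun r => by have := rk i; rw [r, finrank_bot] at this; omega) (c := 1) (map_one _)
  have e3 : ∀ i, F ∙ e i = D i := fun i => Submodule.eq_of_le_of_finrank_eq (by simpa using e1 i)
    (by rw [rk, finrank_span_singleton (by rintro r; simpa [r] using e2 i)])
  have on : ON φ e := ⟨hq.herm, fun i j => by
    split_ifs with r; exacts [by rw [r, ← hq.herm.Q_eq, e2], od.orth i j r (e1 j) _ (e1 i)],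
    fun v H => od.eq_zero fun i => e3 i ▸ φ.mem_perp_singleton.2 (H i)⟩
  have e4 : on.Mn ≤ φ.dstab D := fun g r => od.mem_dstab_of_le rk one_pos fun i => by
    obtain ⟨j, c, s⟩ := on.pt_iff.1 (r i)
    exact ⟨j, by rw [← e3, Submodule.map_span]; simpa [s] using (D j).smul_mem c (e1 j)⟩
  by_contra hE'
  refine hg' (e4 (Ft.le_mn (M := M ⊓ φ.E) ⟨hq, on, hn, ex_a hq q3, fun g a b => ?_, fun g a => det_E a.2,
    fun r => hE' (r.trans inf_le_left)⟩ ⟨hg, hE⟩))
  have : g ∈ φ.E := eq ▸ φ.mem_SIsom.2 (φ.coe_det g ▸ a)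
  exact ⟨hM ⟨this, e4 b⟩, this⟩

theorem dec_ne4 {κ : Type*} {D : κ → Submodule F V} {a : κ} (hq : φ.IsUnitary q) (hn : 3 ≤ finrank F V) (od : φ.ODec D)
    (rk : ∀ i, finrank F (D i) = 1) : ¬ φ.E ≤ φ.dstab D := fun H => by
  obtain ⟨u, hu, u1⟩ := hq.exists_Q_eq (od.nondeg a) (fun r => by have := rk a; rw [r, finrank_bot] at this; omega) (c := 1) (map_one _)
  have u0 : u ≠ 0 := by rintro rfl; simp at u1
  obtain ⟨p, hp, p0, p1⟩ := hq.exists_singular (W := φ.perp (D a)) (by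
    have := φ.finrank_perp (D a)
    rw [rk] at *; omega)
  have G : ∀ i, u + p ∉ D i := fun i hi => by
    by_cases s : a = i
    · exact p0 (od.nondeg a p ((add_mem_cancel_left hu).1 (s ▸ hi)) fun y hy => φ.B_symm_zero (hp y hy))
    · exact u0 (od.nondeg a u hu fun y hy => φ.B_symm_zero ((add_mem_cancel_right hp).1 (od.orth a i s hi) y hy))
  obtain ⟨s, hs⟩ := hq.exists_T_eq (map_one _)
  have pu := φ.B_symm_zero (hp u hu)
  obtain ⟨σ, hσ⟩ := H (φ.siegel_mem_E p1 pu (hs.trans u1.symm))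
  have := (hσ a).le (Submodule.mem_map_of_mem hu)
  exact G _ (by simpa [φ.siegel_apply p1 pu (hs.trans u1.symm), pu, ← hq.herm.Q_eq, u1] using this)

end H12.Fr

namespace H12.Su43
open H10 H10.Form H12.Fr Cfsg Cfsg.Geo

theorem su4_3 {F : Type*} [Field F] [Fintype F] {q : ℕ} (hF : Fintype.card F = q ^ 2) :
    (q ≠ 3 → ∀ D : Fin 4 → Submodule F (Fin 4 → F), Cfsg.Geo.IsNondegenerateMDecomposition (Cfsg.hermForm 4 F q) 1 D → Cfsg.Geo.IsMaximalIn (Cfsg.GU 4 F q ⊓ Cfsg.Geo.specialLinear (Fin 4) F) (Cfsg.Geo.decompositionStabilizer D ⊓ (Cfsg.GU 4 F q ⊓ Cfsg.Geo.specialLinear (Fin 4) F))) := by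
  intro q3 D hD
  have hF' : Nat.card F = q ^ 2 := by rw [Nat.card_eq_fintype_card, hF]
  have h0 := stdU_isUnitary hF' 4
  have od : (stdU hF' 4).ODec D := oDec_of (fun _ _ => .inr rfl) (fun x y => (stdU hF' 4).B_eq_zero_comm) hD
  rw [SU_eq_E hF' (by omega)]
  refine isMaximalIn_map _ ?_ fun M hM g hg hg1 hg2 => ?_ <;> rw [comap_decompositionStabilizer] at *
  · exact dec_ne4 (a := 0) h0 (by simp) od hD.decomp.finrank_eq
  · exact dec_le4 h0 q3 (by simp) (by simp) od hD.decomp.finrank_eq hM hg hg1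
      fun r => hg2 ((comap_decompositionStabilizer D).ge r)

end H12.Su43
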