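import Mathlib
import Cfsg.Agent.H05.Tu0

/-! Part `S` of the interface `H05.Tu`: a block of size three in `End V`. -/

set_option autoImplicit false

open Polynomial Finset

namespace H12.Tu
universe u
open H05.Tu hiding X

section R
variable {F A : Type} [Field F] [Ring A] [Algebra F A] (y P : A)

def s : ℕ → A
  | 0 => P
  | n + 1 => y * s n + P * y ^ (n + 1)
def v : ℕ → A
  | 0 => P
  | n + 1 => y * v n + ((n : A) + 2) * (P * y ^ (n + 1))
def T : ℕ → A
  | 0 => P
  | n + 1 => y * T n + v y P (n + 1)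
def D (z : A) : A := y * z - z * y

theorem D_add (a b : A) : D y (a + b) = D y a + D y b := by simp only [D]; noncomm_ring
theorem D_sub (a b : A) : D y (a - b) = D y a - D y b := by simp only [D]; noncomm_ring
theorem D_y (a : A) : D y (y * a) = y * D y a := by simp only [D]; noncomm_ring
theorem D_c {c : A} (h : Commute c y) (a : A) : D y (c * a) = c * D y a := by
  simp only [D, mul_sub, ← mul_assoc, h.eq]
theorem D_r {c : A} (h : Commute c y) (a : A) : D y (a * c) = D y a * c := by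
  simp only [D, sub_mul, mul_assoc, h.eq]
theorem D_p (n : ℕ) : D y (P * y ^ n) = y * (P * y ^ n) - P * y ^ (n + 1) := by simp only [D, pow_succ, mul_assoc]
theorem cn (n : ℕ) (a : A) : Commute (n : A) a := Nat.cast_commute n a

theorem D_s (n : ℕ) : D y (s y P n) = y ^ (n + 1) * P - P * y ^ (n + 1) := by
  induction n with
  | zero => simp [s, D]
  | succ n ih => rw [s, D_add, D_y, ih, D_p, pow_succ' y (n + 1)]; noncomm_ring

theorem D_v (n : ℕ) : D y (v y P n) = s y P (n + 1) - ((n + 2 : ℕ) : A) * (P * y ^ (n + 1)) := by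
  induction n with
  | zero => simp only [v, s, D]; push_cast; noncomm_ring
  | succ n ih =>
    have e : ((n : A) + 2) = ((n + 2 : ℕ) : A) := by push_cast; rfl
    rw [v, D_add, D_y, ih, e, D_c _ (cn _ _), D_p, s.eq_2 y P (n + 1), mul_sub, ← mul_assoc y, ← (cn (n + 2) y).eq,
      show n + 1 + 2 = n + 2 + 1 from rfl, Nat.cast_succ (n + 2)]
    noncomm_ring

theorem D_T (n : ℕ) : D y (D y (T y P n)) =
    ((n + 3 : ℕ) : A) * (y ^ (n + 2) * P) + ((n + 3 : ℕ) : A) * (P * y ^ (n + 2)) - 2 * s y P (n + 2) := by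
  induction n with
  | zero => simp only [T, s, D]; push_cast; noncomm_ring
  | succ n ih =>
    rw [T, D_add, D_add, D_y, D_y, ih, D_v, D_sub, D_s, D_c _ (cn _ _), D_p, s.eq_2 y P (n + 1 + 1), mul_sub, mul_add,
      ← mul_assoc y, ← mul_assoc y, ← (cn (n + 3) y).eq, show n + 1 + 2 = n + 3 from rfl, show n + 1 + 3 = n + 3 + 1 from rfl,
      Nat.cast_succ (n + 3), show n + 1 + 1 + 1 = n + 2 + 1 from rfl, show n + 3 = n + 2 + 1 from rfl, pow_succ' y (n + 2)]
    noncomm_ring

theorem nilp (t : A) (cx : Commute t y) {k j : ℕ} (hy : y ^ k = 0) (hj : k + k ≤ j + 1) (E : Module.End F A)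
    (hE : ∀ w, E w = D y w * t) : E ^ j = 0 := by
  let L : A → Module.End F A := LinearMap.mulLeft F
  let R : A → Module.End F A := LinearMap.mulRight F
  have c1 : ∀ a b, Commute (L a) (R b) := LinearMap.commute_mulLeft_right
  have e1 : E = (L y + -R y) * R t := LinearMap.ext fun w => by
    rw [hE, ← D_r _ cx]; simp [L, R, D, sub_eq_add_neg]
  have c2 : Commute (L y + -R y) (R t) := (c1 _ _).add_left (Commute.neg_left (a := R _) (LinearMap.ext fun a => by
    simp [R, mul_assoc, cx.eq]))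
  have l0 : L y ^ k = 0 := by simp only [L]; rw [LinearMap.pow_mulLeft, hy, LinearMap.mulLeft_zero_eq_zero]
  have r0 : R y ^ k = 0 := by simp only [R]; rw [LinearMap.pow_mulRight, hy, LinearMap.mulRight_zero_eq_zero]
  rw [e1, c2.mul_pow, (c1 y y).neg_right.add_pow_eq_zero_of_add_le_succ_of_pow_eq_zero l0 (by rw [neg_pow, r0, mul_zero]) hj, zero_mul]

variable {tr : A →ₗ[F] F} (htr : ∀ a b, tr (a * b) = tr (b * a))
include htr

theorem tr_p (j n : ℕ) : tr (y ^ j * (P * y ^ n)) = tr (y ^ (n + j) * P) := by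
  rw [← mul_assoc, htr, ← mul_assoc, ← pow_add]

theorem tr_s (n : ℕ) : ∀ j, tr (y ^ j * s y P n) = (n + 1) * tr (y ^ (n + j) * P) := by
  induction n with
  | zero => simp [s]
  | succ n ih =>
    intro j
    rw [s, mul_add, map_add, ← mul_assoc, ← pow_succ, ih, tr_p y P htr, show n + (j + 1) = n + 1 + j by omega]
    push_cast; ring

theorem tr_v (n : ℕ) : ∀ j, 2 * tr (y ^ j * v y P n) = (n + 1) * (n + 2) * tr (y ^ (n + j) * P) := by
  induction n with
  | zero => simp [v]
  | succ n ih =>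
    intro j
    have e : ((n : A) + 2) = ((n + 2 : ℕ) : A) := by push_cast; rfl
    rw [v, mul_add, map_add, ← mul_assoc, ← pow_succ, mul_add, ih, e, ← nsmul_eq_mul, mul_smul_comm, map_nsmul, tr_p y P htr, show n + (j + 1) = n + 1 + j by omega, nsmul_eq_mul]
    push_cast; ring

theorem tr_T (n : ℕ) : ∀ j, 6 * tr (y ^ j * T y P n) = (n + 1) * (n + 2) * (n + 3) * tr (y ^ (n + j) * P) := by
  induction n with
  | zero => intro j; simp only [T]; push_cast; ring_nf
  | succ n ih =>
    intro j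
    have := tr_v y P htr (n + 1) j
    rw [T, mul_add, map_add, ← mul_assoc, ← pow_succ, mul_add, ih, show n + (j + 1) = n + 1 + j by omega]
    push_cast at this ⊢
    linear_combination 3 * this

/-- the element `a₀` -/
theorem a0 {n : ℕ} (hy : y ^ (n + 2) = 0) (hP : tr (y ^ (n + 1) * P) ≠ 0) (h6 : (6 : F) ≠ 0)
    (hn : ((n : F) + 1) * (n + 2) * (n + 3) ≠ 0) (Q : F[X]) (hQ : Q.eval 0 = -1) :
    ∃ e a : A, Commute y e ∧ tr e ≠ 0 ∧ D y (D y a) = y * aeval y Q * e * (y + 1) ^ 2 ∧ tr (y * aeval y Q * a) ≠ 0 := by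
  have h2 : (2 : F) ≠ 0 := fun e => h6 (by linear_combination 3 * e)
  have cq : ∀ q : F[X], Commute (aeval y q) y := fun q => by
    simpa using (Commute.all q X).map (aeval y)
  have ce : Commute y (s y P (n + 1)) := by
    have := D_s y P (n + 1)
    rw [hy, zero_mul, mul_zero, sub_zero, D, sub_eq_zero] at this
    exact this
  have ceq : ∀ q : F[X], Commute (aeval y q) (s y P (n + 1)) := fun q => by
    induction q using Polynomial.induction_on' with
    | add a b ha hb => rw [map_add]; exact ha.add_left hb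
    | monomial j c => rw [aeval_monomial]; exact Commute.mul_left (Algebra.commutes c _) (ce.pow_left j)
  have z : ∀ q : F[X], tr (y ^ 2 * aeval y q * T y P n) = 0 := fun q => by
    induction q using Polynomial.induction_on' with
    | add a b ha hb => rw [map_add, mul_add, add_mul, map_add, ha, hb, add_zero]
    | monomial j c =>
      have := tr_T y P htr n (2 + j)
      rw [← add_assoc, pow_add y (n + 2), hy, zero_mul, zero_mul, map_zero, mul_zero, mul_eq_zero, or_iff_right h6] at this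
      rw [aeval_monomial, ← Algebra.smul_def, mul_smul_comm, smul_mul_assoc, map_smul, ← pow_add, this, smul_zero]
  refine ⟨s y P (n + 1), T y P n * aeval y (C (-2⁻¹ : F) * Q * (X + 1) ^ 2), ce, ?_, ?_, ?_⟩
  · have := tr_s y P htr (n + 1) 0
    rw [pow_zero, one_mul] at this
    rw [this]
    refine mul_ne_zero (fun e => hn ?_) hP
    push_cast at e
    linear_combination (n + 1) * (n + 3) * e
  · rw [D_r _ (cq _), D_r _ (cq _), D_T, s.eq_2 y P (n + 1), hy]
    simp only [zero_mul, mul_zero, add_zero, zero_sub, map_mul, aeval_C, map_pow, map_add, aeval_X, map_one]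
    rw [mul_assoc y, (ceq Q).eq, ← Algebra.smul_def, show (2 : A) = algebraMap F A 2 from (map_ofNat _ 2).symm, ← Algebra.smul_def]
    simp only [neg_mul, smul_mul_assoc, mul_smul_comm, smul_smul, mul_assoc, neg_smul, mul_neg, neg_neg, smul_neg, inv_mul_cancel₀ h2,
      mul_inv_cancel₀ h2, one_smul]
  · obtain ⟨R, hR⟩ : X ∣ C (-2⁻¹ : F) * Q * (X + 1) ^ 2 * Q - C (-2⁻¹ : F) := by
      rw [X_dvd_iff, coeff_zero_eq_eval_zero]; simp [hQ]
    have e : aeval y (C (-2⁻¹ : F) * Q * (X + 1) ^ 2) * (y * aeval y Q) = (-2⁻¹ : F) • y ^ 1 + y ^ 2 * aeval y R := by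
      have := congrArg (aeval y) (show C (-2⁻¹ : F) * Q * (X + 1) ^ 2 * (X * Q) = C (-2⁻¹ : F) * X ^ 1 + X ^ 2 * R by
        linear_combination X * hR)
      simpa only [map_mul (aeval y) _ (X * Q), map_mul (aeval y) X Q, aeval_X, map_add (aeval y) (C _ * _), map_mul (aeval y) (C _) (X ^ 1),
        aeval_C, ← Algebra.smul_def, map_mul (aeval y) (X ^ 2), map_pow (aeval y) X] using this
    rw [← mul_assoc, htr, ← mul_assoc, e, add_mul, map_add, z, add_zero, smul_mul_assoc, map_smul, smul_eq_mul]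
    refine mul_ne_zero (neg_ne_zero.2 (inv_ne_zero h2)) fun e => ?_
    have := tr_T y P htr n 1
    rw [e, mul_zero] at this
    exact mul_ne_zero hn hP this.symm

end R

section G
variable {G : Type u} [Group G] {F V : Type} [Field F] [AddCommGroup V] [Module F V] (τ : Representation F G V)

/-- conjugation on `End V` -/
noncomputable def cj : Representation F G (Module.End F V) where
  toFun g := LinearMap.mulLeftRight F (τ g, τ g⁻¹)
  map_one' := LinearMap.ext fun w => by simp
  map_mul' g h := LinearMap.ext fun w => by simp [mul_assoc]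

theorem cj_ap (g : G) (w : Module.End F V) : cj τ g w = τ g * w * τ g⁻¹ := rfl
theorem ti (g : G) : τ g⁻¹ * τ g = 1 := by rw [← map_mul, inv_mul_cancel, map_one]
theorem it (g : G) : τ g * τ g⁻¹ = 1 := by rw [← map_mul, mul_inv_cancel, map_one]
theorem cj_mul (g : G) (a b : Module.End F V) : cj τ g (a * b) = cj τ g a * cj τ g b := by
  simp only [cj_ap, mul_assoc]; rw [← mul_assoc (τ g⁻¹), ti, one_mul]
theorem cj_t (g h : G) : cj τ g (τ h) = τ (g * h * g⁻¹) := by rw [cj_ap, map_mul, map_mul]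
theorem X_ap (x : G) (w : Module.End F V) : H05.Tu.X (cj τ) x w = D (τ x - 1) w * τ x⁻¹ := by
  simp only [D, LinearMap.sub_apply, cj_ap, Module.End.one_apply, sub_mul, mul_sub, mul_assoc, it, one_mul, mul_one]
  abel

theorem schur [IsAlgClosed F] [FiniteDimensional F V] [Nontrivial V]
    (hi : ∀ U : Submodule F V, (∀ g, ∀ v ∈ U, τ g v ∈ U) → U = ⊥ ∨ U = ⊤) {E : Module.End F V} (h : ∀ g, cj τ g E = E) :
    ∃ c : F, E = c • 1 := by
  obtain ⟨c, hc⟩ := E.exists_eigenvalue
  refine ⟨c, LinearMap.ext fun w => ?_⟩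
  have := (hi (E.eigenspace c) fun g w hw => ?_).resolve_left hc
  · exact Module.End.mem_eigenspace_iff.1 (this ▸ Submodule.mem_top)
  · rw [Module.End.mem_eigenspace_iff] at hw ⊢
    have e : E * τ g = τ g * E := by
      conv_lhs => rw [← h g, cj_ap, mul_assoc, ti, mul_one]
    rw [← map_smul, ← hw, ← Module.End.mul_apply, e, Module.End.mul_apply]

theorem step {W : Type} [AddCommGroup W] [Module F W] (ρ : Representation F G W) (f : W →ₗ[F] F) {x n : G} {a : ℕ}
    (hf : ∀ w, f (ρ x w) = f w) (h : n * x * n⁻¹ = x ^ a) (w : W) :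
    ∃ w', H05.Tu.X ρ x (H05.Tu.X ρ x w') = ρ n (H05.Tu.X ρ x (H05.Tu.X ρ x w)) ∧ f w' = a * (a * f (ρ n w)) := by
  let U := ∑ i ∈ range a, ρ x ^ i
  have e : ρ n * H05.Tu.X ρ x = H05.Tu.X ρ x * U * ρ n := by
    rw [mul_geom_sum, ← map_pow, ← h, mul_sub, sub_mul, ← map_mul, ← map_mul]; simp
  have c : U * H05.Tu.X ρ x = H05.Tu.X ρ x * U := by rw [mul_geom_sum, geom_sum_mul]
  have fU : ∀ w, f (U w) = a * f w := fun w => by
    have : ∀ i, f ((ρ x ^ i) w) = f w := fun i => by
      induction i with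
      | zero => rfl
      | succ i ih => rw [pow_succ', Module.End.mul_apply, hf, ih]
    simp only [U, LinearMap.sum_apply, map_sum, this, sum_const, card_range, nsmul_eq_mul]
  refine ⟨U (U (ρ n w)), ?_, by rw [fU, fU]⟩
  have : ρ n * H05.Tu.X ρ x * H05.Tu.X ρ x = H05.Tu.X ρ x * H05.Tu.X ρ x * U * U * ρ n := by
    rw [e, mul_assoc, e, ← mul_assoc, ← mul_assoc, mul_assoc _ U (H05.Tu.X ρ x), c, ← mul_assoc]
  exact (LinearMap.congr_fun this w).symm

end G

theorem geom {F : Type} [Field F] (p : ℕ) [Fact p.Prime] [CharP F p] : ∑ i ∈ range p, (X : F[X]) ^ i = (X - 1) ^ (p - 1) :=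
  mul_right_cancel₀ (X_sub_C_ne_zero (1 : F)) (by
    rw [C_1, geom_sum_mul, ← pow_succ, Nat.sub_add_cancel (Fact.out : p.Prime).pos, sub_pow_char, one_pow])

theorem exQ (p : ℕ) [Fact p.Prime] (h : 3 ≤ p) : ∃ Q : (K p)[X], Q.eval 0 = -1 ∧
    ∑ b : ZMod p, C (algebraMap (ZMod p) (K p) b⁻¹) * (X + 1) ^ b.val = X * Q := by
  obtain ⟨Q, hQ⟩ : X ∣ ∑ b : ZMod p, C (algebraMap (ZMod p) (K p) b⁻¹) * (X + 1) ^ b.val := by
    rw [X_dvd_iff, coeff_zero_eq_eval_zero]
    have : ∑ b : ZMod p, b⁻¹ = 0 := by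
      rw [show ∑ b : ZMod p, b⁻¹ = ∑ b : ZMod p, b from Equiv.sum_comp (Equiv.inv (ZMod p)) fun b => b]
      simpa using FiniteField.sum_pow_lt_card_sub_one (ZMod p) 1 (by rw [ZMod.card]; omega)
    simp only [eval_finset_sum, eval_mul, eval_C, eval_pow, eval_add, eval_X, eval_one, zero_add, one_pow, mul_one]
    rw [← map_sum, this, map_zero]
  refine ⟨Q, ?_, hQ⟩
  have := congrArg (fun q => eval 0 (derivative q)) hQ
  simp only [derivative_sum, derivative_mul, derivative_C, zero_mul, zero_add, derivative_pow, derivative_add, derivative_X,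
    derivative_one, add_zero, mul_one, eval_finset_sum, eval_mul, eval_C, eval_pow, eval_add, eval_X, eval_one, one_pow, one_mul] at this
  rw [← this]
  have e : ∀ b : ZMod p, algebraMap (ZMod p) (K p) b⁻¹ * (b.val : K p) = 1 - if b = 0 then 1 else 0 := fun b => by
    rw [← map_natCast (algebraMap (ZMod p) (K p)), ZMod.natCast_zmod_val, ← map_mul]
    split_ifs with h
    · simp [h]
    · simp [inv_mul_cancel₀ h]
  rw [sum_congr rfl fun b _ => e b]
  simp [ZMod.card]

theorem sS (hM : MStmt.{u}) : SStmt.{u} := by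
  intro G _ _ p _ x sy m τ hm hx hi
  have pp : p.Prime := Fact.out
  haveI : Nontrivial (Fin m → K p) := by
    by_contra h
    rw [not_nontrivial_iff_subsingleton] at h
    exact hx (Subsingleton.elim _ _)
  set y := τ x - 1 with hy
  have xp : x ^ p = 1 := by rw [← sy.o, pow_orderOf_eq_one]
  haveI : CharP (Module.End (K p) (Fin m → K p)) p := charP_of_injective_algebraMap (algebraMap (K p) _).injective p
  have yn : IsNilpotent y := ⟨p, by rw [hy, sub_pow_char_of_commute _ (Commute.one_right _), ← map_pow, xp, map_one, one_pow, sub_self]⟩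
  have ym : y ^ m = 0 := by
    have := LinearMap.aeval_self_charpoly y
    rwa [yn.charpoly_eq_X_pow_finrank, Module.finrank_fin_fun, map_pow, aeval_X] at this
  classical
  obtain ⟨n, hn, y1, y2⟩ : ∃ n, n + 2 ≤ m ∧ y ^ (n + 1) ≠ 0 ∧ y ^ (n + 2) = 0 := by
    have h1 := Nat.find_spec yn
    have h2 := Nat.find_min' yn ym
    have h3 := @Nat.find_min _ _ yn
    generalize Nat.find yn = k at h1 h2 h3
    match k with
    | 0 => simp at h1
    | 1 => exact absurd (sub_eq_zero.1 (by simpa using h1)) hx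
    | n + 2 => exact ⟨n, h2, h3 (by omega), h1⟩
  let tr := LinearMap.trace (K p) (Fin m → K p)
  have htr : ∀ a b, tr (a * b) = tr (b * a) := LinearMap.trace_mul_comm (K p)
  have nd : ∀ u, (∀ w, tr (u * w) = 0) → u = 0 := fun u h => LinearMap.ext fun w => funext fun i => by
    have := h ((LinearMap.proj i).smulRight w)
    rwa [show u * (LinearMap.proj i).smulRight w = (LinearMap.proj i).smulRight (u w) from LinearMap.ext fun z => by simp,
      LinearMap.trace_smulRight] at this
  obtain ⟨P, hP⟩ : ∃ P, tr (y ^ (n + 1) * P) ≠ 0 := by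
    by_contra! h
    exact y1 (nd _ h)
  have nz : ∀ j : ℕ, 0 < j → j < p → (j : K p) ≠ 0 := fun j a b e => Nat.not_dvd_of_pos_of_lt a b ((CharP.cast_eq_zero_iff (K p) p j).1 e)
  obtain ⟨Q, hQ, eQ⟩ := exQ p (by omega)
  obtain ⟨e, a, ce, te, da, ta⟩ := a0 y P htr y2 hP (by
      have := mul_ne_zero (nz 2 (by omega) (by omega)) (nz 3 (by omega) (by omega)); push_cast at this; intro e; exact this (by rw [← e]; norm_num))
    (by have := mul_ne_zero (mul_ne_zero (nz (n + 1) (by omega) (by omega)) (nz (n + 2) (by omega) (by omega))) (nz (n + 3) (by omega) (by omega))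
        push_cast at this; exact this) Q hQ
  have y1' : y + 1 = τ x := sub_add_cancel _ _
  set l := y * aeval y Q with hl
  have el : l = ∑ b : ZMod p, algebraMap (ZMod p) (K p) b⁻¹ • τ (x ^ b.val) := by
    have := congrArg (aeval y) eQ
    simpa only [map_sum, map_mul, aeval_C, map_pow, map_add, aeval_X, map_one, y1', ← Algebra.smul_def] using this.symm
  have cx : Commute (τ x⁻¹) y := (((Commute.refl x).inv_left).map τ).sub_right (Commute.one_right _)
  have xa : H05.Tu.X (cj τ) x (H05.Tu.X (cj τ) x a) = l * e := by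
    rw [X_ap, X_ap, D_r _ cx, da, y1', sq, ← mul_assoc, mul_assoc _ (τ x) (τ x⁻¹), it, mul_one, mul_assoc _ (τ x) (τ x⁻¹), it, mul_one]
  have tc : ∀ g w, tr (cj τ g w) = tr w := fun g w => by rw [cj_ap, htr, ← mul_assoc, ti, one_mul]
  have ev : ∀ g ∈ Subgroup.normalizer (Subgroup.zpowers x : Set G), ∃ c : ℕ, (c : K p) ≠ 0 ∧ g * x * g⁻¹ = x ^ c ∧
      cj τ g l = (c : K p) • l := fun g hg => by
    obtain ⟨c, -, hc⟩ := mem_image.1 (mem_zpowers_iff_mem_range_orderOf.1 ((Subgroup.mem_normalizer_iff.1 hg x).1 (Subgroup.mem_zpowers x)))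
    have c0 : (c : ZMod p) ≠ 0 := fun e => by
      obtain ⟨d, rfl⟩ := (ZMod.natCast_eq_zero_iff c p).1 e
      rw [pow_mul, xp, one_pow, eq_comm, mul_inv_eq_one, mul_eq_left] at hc
      exact hx (by rw [hc, map_one])
    refine ⟨c, fun e => c0 ((ZMod.natCast_eq_zero_iff c p).2 ((CharP.cast_eq_zero_iff (K p) p c).1 e)), hc.symm, ?_⟩
    rw [el, map_sum, smul_sum, ← Equiv.sum_comp (Equiv.mulLeft₀ _ c0) fun b => (c : K p) • algebraMap (ZMod p) (K p) b⁻¹ • τ (x ^ b.val)]
    refine sum_congr rfl fun b _ => ?_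
    rw [map_smul, cj_t, ← conj_pow, ← hc, smul_smul, ← map_natCast (algebraMap (ZMod p) (K p)), ← map_mul, Equiv.mulLeft₀_apply,
      mul_inv, mul_inv_cancel_left₀ c0, ← pow_mul, ZMod.val_mul, ZMod.val_natCast, Nat.mod_mul_mod, ← pow_eq_pow_mod _ xp]
  have lx : cj τ x l = l := by
    rw [el, map_sum]
    exact sum_congr rfl fun b _ => by rw [map_smul, cj_t, ← conj_pow, mul_inv_cancel_right]
  have nil : H05.Tu.X (cj τ) x ^ (p - 1) = 0 := by
    exact nilp (F := K p) y (τ x⁻¹) cx y2 (by omega) _ fun w => X_ap τ x w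
  let ρ' : G →* AddMonoid.End (Module.End (K p) (Fin m → K p)) :=
    { toFun := fun g => (cj τ g).toAddMonoidHom
      map_one' := AddMonoidHom.ext fun w => show cj τ 1 w = w by rw [map_one]; rfl
      map_mul' := fun g h => AddMonoidHom.ext fun w => show cj τ (g * h) w = cj τ g (cj τ h w) by rw [map_mul]; rfl }
  obtain ⟨S, r, u, sN, sp, inv, sum⟩ := hM G p x sy _ ρ' e (by
    show cj τ x e = e
    rw [cj_ap, ← y1', (ce.add_left (Commute.one_left e)).eq, y1', mul_assoc, it, mul_one])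
  have z : ∑ i ∈ range p, ρ' (x ^ i) u = 0 := by
    have := congrArg (aeval (cj τ x)) (geom (F := K p) p)
    simp only [map_sum, map_pow, map_sub, aeval_X, map_one] at this
    have := LinearMap.congr_fun (this.trans nil) u
    simp only [LinearMap.sum_apply, ← map_pow] at this
    exact this
  rw [z, add_zero] at sum
  obtain ⟨c, hc⟩ := schur τ hi inv
  have hc' : ∑ g ∈ S, cj τ g e = c • 1 := sum.symm.trans hc
  have s0 : (S.card : K p) ≠ 0 := fun e => sp ((CharP.cast_eq_zero_iff (K p) p _).1 e)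
  have c0 : c ≠ 0 := by
    rintro rfl
    have := congrArg tr hc'
    rw [map_sum, zero_smul, map_zero, sum_congr rfl fun g _ => tc g e, sum_const, nsmul_eq_mul] at this
    exact mul_ne_zero s0 te this
  let B : LinearMap.BilinForm (K p) (Module.End (K p) (Fin m → K p)) := (LinearMap.mul (K p) _).compr₂ tr
  have hB : ∀ u w, B u w = tr (u * w) := fun _ _ => rfl
  have binv : ∀ g u w, B (cj τ g u) (cj τ g w) = B u w := fun g u w => by rw [hB, hB, ← cj_mul, tc]
  have st : ∀ g ∈ S, ∃ w, H05.Tu.X (cj τ) x (H05.Tu.X (cj τ) x w) = l * cj τ g e ∧ B l w = B l a := fun g hg => by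
    obtain ⟨d, d0, d1, d2⟩ := ev g (sN g hg)
    obtain ⟨w, w1, w2⟩ := step (cj τ) (B l) (fun w => by rw [← binv x l w, lx]) d1 a
    refine ⟨(d : K p)⁻¹ • w, ?_, ?_⟩
    · rw [map_smul, map_smul, w1, xa, cj_mul, d2, smul_mul_assoc, inv_smul_smul₀ d0]
    · rw [map_smul, w2, smul_eq_mul, inv_mul_cancel_left₀ d0, ← binv g l a, d2, map_smul, LinearMap.smul_apply, smul_eq_mul]
  choose! w w1 w2 using st
  have fin : H05.Tu.X (cj τ) x (H05.Tu.X (cj τ) x (c⁻¹ • ∑ g ∈ S, w g)) = l := by
    rw [map_smul, map_smul, map_sum, map_sum, sum_congr rfl w1, ← mul_sum, hc', mul_smul_comm, mul_one, inv_smul_smul₀ c0]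
  refine ⟨_, _, _, inferInstance, cj τ, B, c⁻¹ • ∑ g ∈ S, w g, htr, nd, binv, nil, ?_, fun g hg => ?_, ?_, fun g hg => ?_⟩
  · rw [fin, LinearMap.sub_apply, lx, Module.End.one_apply, sub_self]
  · obtain ⟨d, -, -, d2⟩ := ev g hg
    exact ⟨d, by rw [fin, d2]⟩
  · rw [fin, map_smul, map_sum, sum_congr rfl w2, sum_const, nsmul_eq_mul, smul_eq_mul]
    exact mul_ne_zero (inv_ne_zero c0) (mul_ne_zero s0 ta)
  · obtain ⟨d, hd⟩ := schur τ hi (E := τ g) fun h => by rw [cj_t, Subgroup.mem_center_iff.1 hg h, mul_inv_cancel_right]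
    refine LinearMap.ext fun w => ?_
    rw [cj_ap, Module.End.one_apply, show τ g * w = w * τ g by rw [hd, smul_mul_assoc, mul_smul_comm, one_mul, mul_one], mul_assoc, it, mul_one]

end H12.Tu
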