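import Mathlib
import Cfsg.Agent.H12.XfC

/-!
# Extension field subgroups of unitary groups, IV : `GU₂(q^r)` in `GU_{2r}(q)`, `r ≥ 5`
* `cwdet` (Chevalley-Warning for a determinant), `FU.cd`, `FU.su_two`, `su_fld2`
-/

namespace H12.Xf

open Module H10 H10.Form H10.Mx

open MvPolynomial in
theorem cwdet {E F W ι : Type*} [Field E] [Finite E] [Field F] [Algebra E F] [AddCommGroup W] [Module E W] [FiniteDimensional E W]
    [Fintype ι] [DecidableEq ι] [Nonempty ι] (N : W →ₗ[E] Matrix ι ι F) (hN : ∀ w, ∃ c, (N w).det = algebraMap E F c)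
    (h : Fintype.card ι < finrank E W) : ∃ w, w ≠ 0 ∧ (N w).det = 0 := by
  obtain ⟨p, hp⟩ := CharP.exists E
  have hpp := CharP.char_is_prime E p
  let b := finBasis E W
  let P : MvPolynomial (Fin (finrank E W)) F := (Matrix.of fun i j => ∑ s, C (N (b s) i j) * X s).det
  have hP : P.totalDegree ≤ Fintype.card ι := by
    simp only [P, Matrix.det_apply', Matrix.of_apply]
    refine totalDegree_finsetSum_le fun s _ => (totalDegree_mul _ _).trans ?_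
    rw [← map_intCast (C : F →+* _), totalDegree_C, zero_add]
    refine (totalDegree_finsetProd _ _).trans ((Finset.sum_le_card_nsmul _ _ 1 fun i _ => ?_).trans (by simp))
    exact totalDegree_finsetSum_le fun j _ => ((isHomogeneous_X F j).C_mul _).totalDegree_le
  have ev : ∀ x, eval (fun s => algebraMap E F (x s)) P = (N (b.equivFun.symm x)).det := fun x => by
    rw [RingHom.map_det]; congr 1; ext i j
    simp [Matrix.sum_apply, ← Algebra.smul_def, mul_comm (N _ _ _)]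
  obtain ⟨π, hπ⟩ := exists_tau (F := E) (K := F)
  let Q : MvPolynomial (Fin (finrank E W)) E := ∑ d ∈ P.support, monomial d (π (P.coeff d))
  have hQ : Q.totalDegree ≤ P.totalDegree := totalDegree_finsetSum_le fun d hd =>
    (totalDegree_monomial_le _ _).trans (le_totalDegree hd)
  have eQ : ∀ x, eval x Q = π (N (b.equivFun.symm x)).det := fun x => by
    rw [← ev, eval_eq' _ P, map_sum, map_sum]
    refine Finset.sum_congr rfl fun d _ => ?_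
    rw [eval_monomial, Finsupp.prod_fintype _ _ (by simp), mul_comm, ← smul_eq_mul, ← map_smul, Algebra.smul_def, mul_comm]
    simp
  have h2 := cw0 p (fun _ : Unit => Q) (by simp; omega)
  by_contra! H
  refine hpp.one_lt.ne' (Nat.dvd_one.1 (h2.trans (dvd_of_eq (Nat.card_eq_one_iff_exists.2
    ⟨⟨0, fun _ => by rw [eQ]; simp⟩, fun x => Subtype.ext (b.equivFun.symm.injective (by_contra fun hx =>
      H (b.equivFun.symm x) (fun e => hx (e.trans (map_zero _).symm)) ?_))⟩))))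
  obtain ⟨c, e⟩ := hN (b.equivFun.symm x)
  have := x.2 ()
  rw [eQ, e, hπ] at this
  rw [e, this, map_zero]

variable {F K V : Type*} [Field F] [Field K] [Algebra F K] [AddCommGroup V] [Module F V] [Module K V]
  [IsScalarTower F K V]

namespace FU
variable {φ : Form F V} {ψ : Form K V} {l : Dual F K} {M : Subgroup (V ≃ₗ[F] V)} (h : FU φ ψ l M)
  {A B : Submodule F V} {u v w y s f t : V}
  [φ.Nondeg] [ψ.Nondeg] [FiniteDimensional F V] [FiniteDimensional K V] [FiniteDimensional F K]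
include h

omit [φ.Nondeg] [ψ.Nondeg] [FiniteDimensional F V] [FiniteDimensional K V] in
theorem hdeg {S : Submodule F K} (h0 : S ≠ ⊥) {C : Submodule (Fx φ.σ) K} (hC : C ≤ K0 h.σK)
    (hd : finrank F S < finrank (Fx φ.σ) C) : ∃ a ∈ C, a ≠ 0 ∧ ∃ s ∈ S, s ≠ 0 ∧ ∀ b ∈ S, l (ψ.σ b * (a * s)) = 0 := by
  have := h.fin
  have := Module.finite_of_finite F (M := K)
  let b := finBasis F S
  have : Nonempty (Fin (finrank F S)) := ⟨⟨0, Nat.pos_of_ne_zero (mt Submodule.finrank_eq_zero.1 h0)⟩⟩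
  let N : C →ₗ[Fx φ.σ] Matrix (Fin (finrank F S)) (Fin (finrank F S)) F :=
    ⟨⟨fun a => .of fun i j => l (ψ.σ (b i) * (a * b j)), fun a a' => by ext; simp [add_mul, mul_add]⟩, fun c a => by
      ext; simp [Subfield.smul_def]⟩
  obtain ⟨a, a0, e⟩ := cwdet N (fun a => ⟨⟨(N a).det, show φ.σ (N a).det = (N a).det by
    rw [RingHom.map_det, ← Matrix.det_transpose]; congr 1; ext i j
    simp [N, ← h.lσ, show ψ.σ a = a from hC a.2, mul_comm, mul_left_comm]⟩, rfl⟩) (by simpa)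
  obtain ⟨x, x0, hx⟩ := Matrix.exists_mulVec_eq_zero_iff.2 e
  refine ⟨a, a.2, fun e => a0 (Subtype.ext e), b.equivFun.symm x, Subtype.prop _,
    fun e => x0 (b.equivFun.symm.injective (by rw [map_zero]; exact Subtype.ext e)), fun y hy => ?_⟩
  rw [show y = (∑ i, b.repr ⟨y, hy⟩ i • b i : S) by rw [b.sum_repr]]
  simp only [Submodule.coe_sum, map_sum, Finset.sum_mul, Submodule.coe_smul, tau_smul h.σK, smul_mul_assoc, map_smul]
  refine Finset.sum_eq_zero fun i _ => smul_eq_zero_of_right _ ?_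
  simpa [N, Matrix.mulVec, dotProduct, Finset.mul_sum, mul_comm] using congrFun hx i

variable (hk : finrank K V = 2)
include hk

omit [φ.Nondeg] [FiniteDimensional F V] [FiniteDimensional F K] h in
theorem mem_of_perp (hv : ψ.Q v = 0) (v0 : v ≠ 0) (hy : ψ.B v y = 0) : y ∈ pt F K v :=
  ((show ψ.TS (K ∙ v) from ⟨fun x hx => by obtain ⟨k, rfl⟩ := Submodule.mem_span_singleton.1 hx; exact ψ.Q_smul_of_sing hv k,
    fun x hx y hy => by
      obtain ⟨k, rfl⟩ := Submodule.mem_span_singleton.1 hx; obtain ⟨k, rfl⟩ := Submodule.mem_span_singleton.1 hy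
      simp [ψ.B_smul_left, ψ.B_self_eq_zero hv]⟩).perp_eq (by rw [finrank_span_singleton v0, hk])).le (ψ.mem_perp_singleton.2 hy)

omit [ψ.Nondeg] [FiniteDimensional K V] [FiniteDimensional F K] in
theorem perp_le (hA : A ∈ Fam M (StQ F ψ)) (hy : ∀ a ∈ A, φ.B a y = 0) : y ∈ A :=
  ((h.ts hA).perp_eq (by rw [rk hA, ← finrank_mul_finrank F K V, hk, mul_comm])).le hy

theorem cd0 (hv : ψ.Q v = 0) (v0 : v ≠ 0) (hm : MP M (StQ F ψ) (pt F K v) B) (h1 : t ∈ B) (h2 : t ∉ pt F K v) (hy : y ∈ B) :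
    ∃ c : F, y - c • t ∈ pt F K v := by
  have := h.fin
  have := Module.finite_of_finite F (M := K)
  obtain ⟨δ, δ0, hδ⟩ := h.del
  obtain ⟨ω, hω⟩ := h.om
  have b0 : ∀ t, t ∉ pt F K v → ψ.B v t ≠ 0 := fun t a => mt (mem_of_perp hk hv v0) a
  let β := (ψ.B v).restrictScalars F
  let j := (LinearMap.toSpanSingleton K V v).restrictScalars F
  let S := B.comap j
  let P : Submodule F K := ⨅ y : B, S.comap ((LinearMap.mulRight K (β y)).restrictScalars F)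
  have mP : ∀ k, k ∈ P ↔ ∀ y ∈ B, (k * ψ.B v y) • v ∈ B := fun k => by simp [P, S, j, β]
  have d1 : finrank F (B.map β) + finrank F S ≤ finrank F K := by
    rw [← rk hm.r, ← (β.domRestrict B).finrank_range_add_finrank_ker, LinearMap.range_domRestrict]
    exact Nat.add_le_add_left (LinearMap.finrank_le_finrank_of_injective (f := ((j.restrict (p := S) fun _ a => a).codRestrict _ fun k => by
      simp [β, j, ψ.B_self_eq_zero hv])) ((injective_iff_map_eq_zero _).2 fun k e => by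
        exact Subtype.ext ((smul_eq_zero_iff_left v0).1 (congrArg (fun x => x.1.1) e)))) _
  have d2 : finrank F S ≤ finrank (Fx φ.σ) ↥(K0 h.σK ⊓ P.restrictScalars _) := by
    by_contra! H
    obtain ⟨C, hC⟩ := (K0 h.σK ⊓ P.restrictScalars _).exists_isCompl
    obtain ⟨a, a1, a0, _, ⟨t, t1, rfl⟩, t0, e⟩ := h.hdeg (S := B.map β) (C := K0 h.σK ⊓ C)
      (fun e => b0 t h2 (e.le (Submodule.mem_map_of_mem h1))) inf_le_left (by
        have := finrank_add_le_inf (K0 h.σK) C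
        have := Submodule.finrank_add_eq_of_isCompl hC
        rw [h.rk0] at *; omega)
    obtain ⟨x, hx, e'⟩ := h.sg (w := 0) (s := -(δ • a)) hv (by simp) (by simp [h.hm'.T_eq, tau_smul h.σK, hδ, show ψ.σ a = a from a1.1])
    replace e' : ∀ z, x z = z + δ • (a * ψ.B v z) • v := fun z => by simp [e', h.hm'.ε_eq]
    have := hm.stab hx (fun z p q => by
      obtain ⟨k, rfl⟩ := mem_pt.1 p
      simpa [e', ψ.B_self_eq_zero hv] using q) t1 (fun p => t0 (by obtain ⟨k, rfl⟩ := mem_pt.1 p; simp [β, ψ.B_self_eq_zero hv]))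
      (e' t ▸ add_mem t1 (B.smul_mem δ (h.perp_le hk hm.r fun b hb => by
        simpa [β, h.B, h.hm'.B_comm v b, mul_comm] using e _ (Submodule.mem_map_of_mem hb))))
    exact a0 (hC.disjoint.le_bot ⟨⟨a1.1, (mP a).2 fun y hy => (B.smul_mem_iff δ0).1
      ((add_mem_cancel_left hy).1 (e' y ▸ this y hy))⟩, a1.2⟩)
  set L := K0 h.σK ⊓ P.restrictScalars (Fx φ.σ)
  let T : (L × L) →ₗ[Fx φ.σ] K := (LinearMap.mulRight K (β t)).restrictScalars _ ∘ₗ L.subtype.coprod (ω • L.subtype)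
  have hT : LinearMap.range T = S.restrictScalars _ := Submodule.eq_of_le_of_finrank_le (by
    rintro _ ⟨x, rfl⟩; exact (mP _).1 (add_mem x.1.2.2 (P.smul_mem ω x.2.2.2)) t h1) (by
    rw [LinearMap.finrank_range_of_inj ((injective_iff_map_eq_zero T).2 fun x hx => by
      obtain ⟨a, b⟩ := K0_inj h.σK hω x.1.2.1 x.2.2.1 ((mul_eq_zero.1 hx).resolve_right (b0 t h2))
      exact Prod.ext (Subtype.ext a) (Subtype.ext b)), finrank_prod]
    have e := finrank_mul_finrank (Fx φ.σ) F S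
    rw [h.fx2] at e
    exact e.ge.trans (by omega))
  obtain ⟨u, hu, hu'⟩ := exists_not hm.symm
  obtain ⟨c, hc⟩ := mem_bot_of_pres h.pr (S := S) (e := β y / β t) (fun h0 => hm.nb (eq_bot_iff.2 fun z hz => by
      obtain ⟨k, rfl⟩ := mem_pt.1 hz.1
      simp [show k = 0 from h0.le hz.2]))
    (fun h0 => by
      obtain ⟨k, rfl⟩ := mem_pt.1 hu
      exact hu' (h0.ge (Submodule.mem_top (x := k)))) fun s hs => by
    obtain ⟨x, e⟩ := hT.ge hs
    have := (mP _).1 (add_mem x.1.2.2 (P.smul_mem ω x.2.2.2)) y hy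
    rwa [← show (x.1.1 + ω • x.2.1) * β t = s from e, mul_comm, mul_assoc, mul_div_cancel₀ _ (show β t ≠ 0 from b0 t h2)]
  exact ⟨c, mem_of_perp hk hv v0 (by
    rw [map_sub, LinearMap.map_smul_of_tower, Algebra.smul_def, ← hc]
    exact sub_eq_zero.2 (div_mul_cancel₀ _ (b0 t h2)).symm)⟩

theorem cd (hm : MP M (StQ F ψ) A B) (h1 : t ∈ B) (h2 : t ∉ A) (hy : y ∈ B) : ∃ c : F, y - c • t ∈ A := by
  obtain ⟨g, hg, _, ⟨v, v0, hv, rfl⟩, rfl, hm'⟩ := hm.std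
  exact (h.cd0 hk hv v0 hm' (Submodule.mem_map_of_mem h1) (fun e => h2 (mem_map_iff.2 e)) (Submodule.mem_map_of_mem hy)).imp
    fun c hc => mem_map_iff.2 (by rw [map_sub, map_smul]; exact hc)

omit [φ.Nondeg] [FiniteDimensional F V] [FiniteDimensional F K] in
theorem nrm2 (H : ∀ A ∈ Fam M (StQ F ψ), A ∈ StQ F ψ) : ∀ g ∈ M, ∀ k : K, ∃ k' : K, ∀ y, g (k • y) = k' • g y := fun g hg k => by
  set θ := cn g ((LinearMap.lsmul K V k).restrictScalars F) with eθ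
  choose! a ha using fun v (hv : ψ.Q v = 0) => mem_pt.1 (pres H hg k hv)
  obtain ⟨δ, δ0, hδ⟩ := h.del
  obtain ⟨ω, hω⟩ := h.om
  have h1 : ∀ v w, ψ.Q v = 0 → ψ.Q w = 0 → ψ.B v w ≠ 0 → ψ.T (ψ.B v w) = 0 → a v = a w := fun v w hv hw b c =>
    coef_eq (θ := θ) (fun e => b (by obtain ⟨k, rfl⟩ := Submodule.mem_span_singleton.1 e; simp [ψ.B_self_eq_zero hv]))
      (by rintro rfl; simp at b) (ha v hv).symm (ha w hw).symm (ha _ (by rw [ψ.Q_add, hv, hw, c]; simp)).symm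
  have h2 : ∀ v w, ψ.Q v = 0 → ψ.Q w = 0 → ψ.B v w ≠ 0 → ψ.T (ψ.B v w) = 0 → ∀ x : K, θ (x • v) = a v • x • v :=
    fun v w hv hw b c x => by
      have G : ∀ x : K, ψ.σ x = x → θ (x • v) = a v • x • v := fun x e => by
        by_cases x0 : x = 0
        · simp [x0]
        rw [h1 v w hv hw b c, ← h1 _ w (ψ.Q_smul_of_sing hv x) hw (by simp [ψ.B_smul_left, x0, b]) (by
          rw [h.hm'.T_eq] at c ⊢; rw [ψ.B_smul_left, e, map_mul, e, ← mul_add, c, mul_zero]), ha _ (ψ.Q_smul_of_sing hv x)]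
      obtain ⟨x, y, i, j, rfl⟩ := K0_dec h.σK hω φ.σσ ψ.σσ x
      rw [add_smul, smul_assoc, map_add, θ.map_smul ω, G x i, G y j, smul_add, smul_comm ω]
  obtain ⟨e, -, e0, he⟩ := h.sing ⊤ (by simp; omega)
  obtain ⟨f, hyp⟩ := ψ.exists_hyp he e0
  have f1 : ψ.Q ((δ • (1 : K)) • f) = 0 := ψ.Q_smul_of_sing hyp.Qf _
  have f2 : ψ.B e ((δ • (1 : K)) • f) ≠ 0 := by simp [hyp.Bef, δ0]
  have f3 : ψ.T (ψ.B e ((δ • (1 : K)) • f)) = 0 := by
    rw [ψ.B_smul_right, hyp.Bef, h.hm'.T_eq]; simp [tau_smul h.σK, hδ]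
  refine ⟨a e, fun y => ?_⟩
  obtain ⟨x, z, r⟩ := span2 hk e0 (t := (δ • (1 : K)) • f) (fun e => f2 (by
    obtain ⟨k, e⟩ := Submodule.mem_span_singleton.1 e; simp [← e, hyp.Bee])) (g y)
  rw [show g (k • y) = θ (g y) by simp [eθ], r, map_add, smul_add, h2 e _ he f1 f2 f3 x,
    h2 _ e f1 he (mt ψ.B_symm_zero f2) (ψ.T_B_comm _ _ ▸ f3) z, h1 e _ he f1 f2 f3]

omit hk [φ.Nondeg] [ψ.Nondeg] [FiniteDimensional F V] [FiniteDimensional K V] [FiniteDimensional F K] in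
theorem rk1 {W : Type*} [AddCommGroup W] [Module (Fx φ.σ) W] [FiniteDimensional (Fx φ.σ) W] (L : W →ₗ[Fx φ.σ] F)
    (H : LinearMap.range L ≠ ⊤) : finrank (Fx φ.σ) W ≤ finrank (Fx φ.σ) (LinearMap.ker L) + 1 := by
  have := h.fin
  have := Submodule.finrank_lt H
  have := L.finrank_range_add_finrank_ker
  have := h.fx2
  omega

omit hk [φ.Nondeg] [ψ.Nondeg] [FiniteDimensional F V] [FiniteDimensional K V] in
theorem exR {J : K →ₗ[F] V} (hJ : Function.Injective J) (hs : ∀ a, ψ.σ a = a → φ.σ (φ.B f (J a)) = -φ.B f (J a)) {ω : F}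
    (hω : φ.σ ω ≠ ω) : ∃ R : Submodule (Fx φ.σ) V, finrank F K ≤ finrank (Fx φ.σ) R + 1 ∧
      (∀ y, y ∈ R ↔ ∃ a, ψ.σ a = a ∧ φ.B f (J a) = 0 ∧ J a = y) ∧ ∀ k, φ.B f (J k) = 0 → ∃ s ∈ R, ∃ s' ∈ R, J k = s + ω • s' := by
  have := h.fin
  have := Module.finite_of_finite F (M := K)
  obtain ⟨δ, δ0, hδ⟩ := h.del
  let j := J.restrictScalars (Fx φ.σ) ∘ₗ (K0 h.σK).subtype
  let L := (φ.B f).restrictScalars (Fx φ.σ) ∘ₗ j
  have m : ∀ y, y ∈ (LinearMap.ker L).map j ↔ ∃ a, ψ.σ a = a ∧ φ.B f (J a) = 0 ∧ J a = y := fun y =>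
    ⟨fun ⟨a, b, c⟩ => ⟨a, a.2, b, c⟩, fun ⟨a, b, c, d⟩ => ⟨⟨a, b⟩, c, d⟩⟩
  refine ⟨_, ?_, m, fun k e => ?_⟩
  · rw [← (Submodule.equivMapOfInjective j (hJ.comp Subtype.val_injective) _).finrank_eq, ← h.rk0]
    refine h.rk1 L fun e => hω ?_
    obtain ⟨a, i⟩ := e.ge (Submodule.mem_top (x := 1))
    obtain ⟨b, j⟩ := e.ge (Submodule.mem_top (x := ω))
    have c := hs a a.2
    have d := hs b b.2
    rw [show φ.B f (J a) = 1 from i, map_one] at c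
    rw [show φ.B f (J b) = ω from j] at d
    linear_combination d - ω * c
  obtain ⟨a, b, i, j, rfl⟩ := K0_dec h.σK hω φ.σσ ψ.σσ k
  obtain ⟨c, d⟩ := K0_inj (K := F) (τ := φ.σ) (fun _ => rfl) hω (a := δ * φ.B f (J a)) (b := δ * φ.B f (J b))
    (by simp [hδ, hs a i]) (by simp [hδ, hs b j]) (by simp at e; simp only [smul_eq_mul]; linear_combination δ * e)
  exact ⟨_, (m _).2 ⟨a, i, by simpa [δ0] using c, rfl⟩, _, (m _).2 ⟨b, j, by simpa [δ0] using d, rfl⟩, by simp⟩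

omit hk [φ.Nondeg] [FiniteDimensional F V] [FiniteDimensional F K] in
theorem rt0 (hv : ψ.Q v = 0) (hf : ψ.B v f ≠ 0) : ∃ m : K, m ≠ 0 ∧
    ∀ a, ψ.σ a = a → ∃ Y, Zs M (pt F K v) Y ∧ Y f = a • m • v := by
  obtain ⟨δ, δ0, hδ⟩ := h.del
  refine ⟨δ • ψ.B v f, smul_ne_zero δ0 hf, fun a ha => ?_⟩
  obtain ⟨x, hx, e⟩ := h.sg (w := 0) (s := -(δ • a)) hv (by simp) (by simp [h.hm'.T_eq, tau_smul h.σK, hδ, ha])
  exact ⟨Mx.rk F v ((δ • a) • ψ.B v), ⟨fun z => smul_mem_pt _ _, x, hx, fun z => by simp [e, h.hm'.ε_eq]⟩, by simp [mul_smul, smul_comm a δ]⟩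

omit hk [φ.Nondeg] [FiniteDimensional F V] [FiniteDimensional F K] in
theorem tor0 (hv : ψ.Q v = 0) (v0 : v ≠ 0) {μ : K} (μ0 : μ ≠ 0) (hμ : ψ.σ μ = μ) :
    ∃ g ∈ M, (∀ (k : K) y, g (k • y) = k • g y) ∧ g v = μ • v := by
  obtain ⟨δ, δ0, hδ⟩ := h.del
  obtain ⟨f, hyp⟩ := ψ.exists_hyp hv v0
  have f1 : ψ.Q ((δ • (1 : K)) • f) = 0 := ψ.Q_smul_of_sing hyp.Qf _
  obtain ⟨g, a, b, -, c⟩ := h.orb hv f1 (by simp [hyp.Bef, δ0]) (by rw [ψ.B_smul_right, hyp.Bef]; simp [tau_smul h.σK, hδ])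
  obtain ⟨g', a', b', -, c'⟩ := h.orb f1 (ψ.Q_smul_of_sing hv μ) (by rw [ψ.B_smul_left]; simp [hyp.Bfe, δ0, μ0, ψ.ε_ne_zero])
    (by rw [ψ.B_smul_left, ψ.B_smul_right, hyp.Bfe]; simp [tau_smul h.σK, hδ, hμ])
  exact ⟨g' * g, mul_mem a' a, by simp [LinearEquiv.mul_apply, b, b'], by rw [LinearEquiv.mul_apply, c, c']⟩

variable {q : ℕ} (hq : φ.IsUnitary q) (hr : 4 ≤ finrank F K) (hD : ∀ g : ψ.Isom, ∃ x ∈ M, ∀ z, x z = (g ^ (q + 1)).1 z)
include hq hr hD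

omit hk [φ.Nondeg] [FiniteDimensional F V] in
theorem tor : ∃ μ : K, μ ≠ 0 ∧ (∀ (c : F) a, ψ.σ a = a → μ ≠ c • a) ∧ ∀ v, ψ.Q v = 0 → v ≠ 0 →
    ∃ g ∈ M, (∀ (k : K) y, g (k • y) = k • g y) ∧ g v = μ • v := by
  obtain ⟨q', hq'⟩ := h.hψ
  have := h.fin
  have := hq'.finite
  have := Fintype.ofFinite K
  have q2 := hq.two_le
  obtain ⟨κ, hκ⟩ : ∃ κ : Kˣ, ∀ (c : F) a, ψ.σ a = a → κ.1 ^ (q + 1) ≠ c • a := by
    by_contra! H
    have e := natCard_eq_pow_finrank (K := F) (V := K)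
    rw [hq.card, hq'.card, ← pow_mul, mul_comm, pow_mul] at e
    obtain rfl := Nat.pow_left_injective two_ne_zero e
    set Q := q ^ finrank F K
    have h4 : q ^ 4 ≤ Q := Nat.pow_le_pow_right (by omega) hr
    have h5 : (q + 1) * (q + 1) ≤ q ^ 4 := by nlinarith [Nat.mul_le_mul q2 q2, Nat.mul_le_mul_left (q * q) (Nat.mul_le_mul q2 q2)]
    have h6 : 1 < Q := by nlinarith
    have := (FiniteField.forall_pow_eq_one_iff K ((Q - 1) * ((q + 1) * (q + 1)))).1 fun x => by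
      obtain ⟨c, a, i, j⟩ := H x
      have : ψ.σ (x.1 ^ ((q + 1) * (q + 1))) = x.1 ^ ((q + 1) * (q + 1)) := by
        rw [pow_mul, j, smul_pow, tau_smul h.σK, map_pow ψ.σ, i, pow_succ c, ← hq.σ_eq]; simp [mul_comm]
      rw [hq'.σ_eq, show Q = Q - 1 + 1 by omega, pow_succ, mul_eq_right₀ (pow_ne_zero _ x.ne_zero), ← pow_mul] at this
      exact Units.ext (by simpa [mul_comm] using this)
    rw [← Nat.card_eq_fintype_card, hq'.card, show Q ^ 2 - 1 = (Q - 1) * (Q + 1) by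
      rw [mul_comm, ← Nat.sq_sub_sq, one_pow], Nat.mul_dvd_mul_iff_left (by omega)] at this
    have := Nat.le_of_dvd (by positivity) this
    omega
  refine ⟨_, pow_ne_zero _ κ.ne_zero, hκ, fun v hv v0 => ?_⟩
  obtain ⟨f, hyp⟩ := ψ.exists_hyp hv v0
  obtain ⟨x, hx, e⟩ := hD (ψ.rot v f κ)
  refine ⟨x, hx, by simp [e], ?_⟩
  rw [e]
  induction q + 1 with
  | zero => simp
  | succ n ih => rw [pow_succ', Isom.mul_apply, ih, map_smul, ψ.rot_apply_e hyp κ.ne_zero, smul_smul, pow_succ]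

omit hk in
theorem spread (hv : ψ.Q v = 0) (v0 : v ≠ 0) (hX : TF (M.subgroupOf φ.Isom) v) : φ.E ≤ M.subgroupOf φ.Isom := by
  have := h.fin
  have := Module.finite_of_finite F (M := K)
  obtain ⟨δ, δ0, hδ⟩ := h.del
  obtain ⟨ω, hω⟩ := h.om
  obtain ⟨t, t0, ht⟩ := hq.exists_skew
  obtain ⟨μ, μ0, μ1, μ2⟩ := h.tor hq hr hD
  obtain ⟨f, hyp⟩ := ψ.exists_hyp hv v0
  have T0 : ∀ a, ψ.σ a = a → TF (M.subgroupOf φ.Isom) (a • v) := fun a ha => by
    by_cases a0 : a = 0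
    · simpa [a0] using hX.smul (h.Q v hv) 0
    obtain ⟨g, hg, -, e⟩ := h.tor0 hv v0 a0 ha
    exact e ▸ hX.map (h.Q v hv) (g := ⟨g, h.le hg⟩) hg
  have Q0 : ∀ a : K, φ.Q (a • v) = 0 := fun a => h.Q _ (ψ.Q_smul_of_sing hv a)
  have B0 : ∀ a : K, φ.B v (a • v) = 0 := fun a => by simp [h.B, ψ.B_self_eq_zero hv]
  obtain ⟨a, a1, a0⟩ := (Submodule.ne_bot_iff _).1 (LinearMap.ker_ne_bot_of_finrank_lt
    (f := (l ∘ₗ (LinearMap.mulLeft K μ).restrictScalars F).restrictScalars (Fx φ.σ) ∘ₗ (K0 h.σK).subtype) (by rw [h.rk0, h.fx2]; omega))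
  obtain ⟨a, a2⟩ := a
  replace a1 : l (μ * a) = 0 := a1
  replace a0 : a ≠ 0 := fun e => a0 (Subtype.ext e)
  replace a2 : ψ.σ a = a := a2
  have f1 := ψ.Q_smul_of_sing hyp.Qf (δ • a)
  have f2 := h.tf_orb hv f1 (by simp [hyp.Bef, δ0, a0]) (by rw [ψ.B_smul_right, hyp.Bef]; simp [tau_smul h.σK, hδ, a2]) hX
  obtain ⟨g, hg, -, e⟩ := μ2 _ f1 (smul_ne_zero (smul_ne_zero δ0 a0) hyp.f_ne_zero)
  have f3 : TF _ (μ • (δ • a) • f) := e ▸ f2.map (h.Q _ f1) (g := ⟨g, h.le hg⟩) hg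
  have f4 := h.Q _ (ψ.Q_smul_of_sing f1 μ)
  have f5 : ∀ b : K, φ.B (b • v) (μ • (δ • a) • f) = δ * l (ψ.σ b * (μ * a)) := fun b => by
    rw [h.B, ψ.B_smul_left, ψ.B_smul_right, ψ.B_smul_right, hyp.Bef]; simp
  generalize μ • (δ • a) • f = u at f3 f4 f5
  have f6 : φ.B u v = 0 := φ.B_symm_zero (by simpa [a1] using f5 1)
  have sj : ∀ c, ∃ b, ψ.σ b = b ∧ l (b * (μ * a)) = c := by
    by_contra! H
    obtain ⟨c, H⟩ := H
    let L := (l ∘ₗ (LinearMap.mulRight K (μ * a)).restrictScalars F).restrictScalars (Fx φ.σ) ∘ₗ (K0 h.σK).subtype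
    obtain ⟨d, d0, hd⟩ : ∃ d : F, d ≠ 0 ∧ ∀ b : K0 h.σK, φ.σ (L b / d) = L b / d := by
      have := Submodule.finrank_lt (s := LinearMap.range L) fun e => by
        obtain ⟨b, i⟩ := e.ge (Submodule.mem_top (x := c)); exact H b b.2 i
      rw [h.fx2] at this
      obtain ⟨d, hd⟩ := finrank_le_one_iff.1 (Nat.le_of_lt_succ this)
      by_cases d0 : d.1 = 0
      · exact ⟨1, one_ne_zero, fun b => by
          obtain ⟨c, e⟩ := hd ⟨_, b, rfl⟩; simp [← show c • d.1 = L b from congrArg Subtype.val e, d0]⟩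
      · exact ⟨d, d0, fun b => by
          obtain ⟨c, e⟩ := hd ⟨_, b, rfl⟩
          simpa [← show c • d.1 = L b from congrArg Subtype.val e, d0, Subfield.smul_def] using (show φ.σ c = c from c.2)⟩
    have G : ∀ b, ψ.σ b = b → l (b * (ψ.σ (d⁻¹ • (μ * a)) - d⁻¹ • (μ * a))) = 0 := fun b hb => by
      have := hd ⟨b, hb⟩
      rw [mul_sub, map_sub, sub_eq_zero, ← hb, ← map_mul, h.lσ, hb]
      simpa [L, div_eq_inv_mul, mul_assoc] using this
    have := sub_eq_zero.1 (eq_zero_of_mul h.l0 fun k => show l (k * (ψ.σ (d⁻¹ • (μ * a)) - d⁻¹ • (μ * a))) = 0 by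
      obtain ⟨x, y, i, j, rfl⟩ := K0_dec h.σK hω φ.σσ ψ.σσ k
      rw [add_mul, smul_mul_assoc, map_add, l.map_smul, G x i, G y j]; simp)
    exact μ1 d (d⁻¹ • (μ * a) / a) (by rw [map_div₀, this, a2]) (by simp [← smul_div_assoc, d0, a0])
  set L := sgSub (M.subgroupOf φ.Isom) (h.Q v hv) hX
  have m1 : u ∈ L := mem_sg.2 fun c => by
    obtain ⟨b, i, j⟩ := sj (φ.σ (c / (t * t * φ.σ δ)))
    convert inA_tv hq.herm (h.Q v hv) f4 f6 f3 (inA_add hq.herm (h.Q v hv) (Q0 b) (B0 b) hX (T0 b i)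
      (by simpa [add_smul] using T0 (1 + b) (by simp [i])) ht) ht using 2
    have : φ.σ δ ≠ 0 := by simpa
    rw [map_smul, hq.herm.B_comm, f5, i, j, map_mul, σ_σ, smul_eq_mul]; field_simp
  have m2 : ∀ b, ψ.σ b = b → l (b * (μ * a)) ≠ 0 → b • v ∈ L := fun b i j =>
    mem_sg_tv hq (Q0 b) (φ.B_symm_zero (B0 b)) (T0 b i) m1 (by simp [f5, i, j, δ0])
  have m3 : ∀ b, ψ.σ b = b → b • v ∈ L := fun b i => by
    by_cases j : l (b * (μ * a)) = 0
    · obtain ⟨b', i', j'⟩ := sj 1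
      simpa [add_smul] using sub_mem (m2 (b + b') (by simp [i, i']) (by simp [add_mul, j, j'])) (m2 b' i' (by simp [j']))
    · exact m2 b i j
  refine h.fin' hv v0 hX fun k => ?_
  obtain ⟨x, y, i, j, rfl⟩ := K0_dec h.σK hω φ.σσ ψ.σσ k
  simpa [add_smul] using mem_sg.1 (add_mem (m3 x i) (L.smul_mem ω (m3 y j))) 1

theorem su_two : φ.E ≤ M.subgroupOf φ.Isom ∨ ∀ g ∈ M, ∀ k : K, ∃ k' : K, ∀ y, g (k • y) = k' • g y := by
  by_cases H : ∀ A ∈ Fam M (StQ F ψ), A ∈ StQ F ψ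
  · exact Or.inr (h.nrm2 hk H)
  push Not at H
  obtain ⟨A, hA, hA'⟩ := H
  obtain ⟨A, B, hm⟩ := h.exists_mp hA hA'
  obtain ⟨_, -, _, ⟨v, v0, hv, rfl⟩, -, hm'⟩ := hm.std
  obtain ⟨B, hm⟩ : ∃ B, MP M (StQ F ψ) (pt F K v) B := ⟨_, hm'⟩
  clear hm' hA hA'
  have := h.fin
  have := Module.finite_of_finite F (M := K)
  have := Module.finite_of_finite F (M := V)
  obtain ⟨δ, δ0, hδ⟩ := h.del
  obtain ⟨ω, hω⟩ := h.om
  obtain ⟨a, a1, a2⟩ := exists_not hm.symm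
  have c1 := fun y => h.cd hk hm.symm a1 a2 (y := y)
  obtain ⟨f, f1, f2, f3⟩ := h.exists_f a2 c1
  obtain ⟨m, m0, hm0⟩ := h.rt0 (f := f) hv fun e => by simpa [φ.B_symm_zero, f2] using φ.B_symm_zero (h.perp_iff.2 e a a1)
  rw [← pt_eq (smul_mem_pt m v) (smul_ne_zero m0 v0)] at hm hm0 a1 c1 f3
  replace hv := ψ.Q_smul_of_sing hv m
  replace v0 := smul_ne_zero m0 v0
  generalize m • v = v at *
  have tA := h.ts hm.l
  have tB := h.ts hm.r
  have sk : ∀ {A Y f}, φ.TS A → Zs M A Y → φ.σ (φ.B f (Y f)) = -φ.B f (Y f) := fun a b => by rw [h.hm.σ_B, h.skew a b]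
  obtain ⟨R, r1, r2, -⟩ := h.exR (f := f) (J := (LinearMap.toSpanSingleton K V v).restrictScalars F)
    (smul_left_injective K v0) (fun a ha => by obtain ⟨Y, i, j⟩ := hm0 a ha; simpa [← j] using sk (f := f) tA i) hω
  obtain ⟨S, s1, s2, s3⟩ : ∃ S : Submodule (Fx φ.σ) V, finrank F K ≤ finrank (Fx φ.σ) S + 1 ∧ (∀ s ∈ S, (s ∈ pt F K v ∧ φ.B f s = 0) ∧
      ∃ x ∈ M, ∀ a ∈ pt F K v, x a = a + φ.B f a • s) ∧ ∀ y ∈ pt F K v, φ.B f y = 0 → ∃ s ∈ S, ∃ s' ∈ S, y = s + ω • s' := by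
    obtain ⟨g, hg, _, ⟨w, w0, hw, rfl⟩, eB⟩ := hm.r
    obtain ⟨m, m0, hm0⟩ := h.rt0 (f := g.symm a) hw fun e => a2 (eB ▸ mem_map_iff.2 (mem_of_perp hk hw w0 e))
    have Z : ∀ b, ψ.σ b = b → ∃ Y, Zs M B Y ∧ Y a = g (b • m • w) := fun b hb => by
      obtain ⟨Y, i, j⟩ := hm0 b hb
      exact ⟨_, eB ▸ i.cn hg, by rw [cn_apply, j]⟩
    obtain ⟨S, s1, s2, s3⟩ := h.exR (f := a) (J := (g : V →ₗ[F] V) ∘ₗ (LinearMap.toSpanSingleton K V (m • w)).restrictScalars F)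
      (g.injective.comp (smul_left_injective K (smul_ne_zero m0 w0)))
      (fun b hb => by obtain ⟨Y, i, j⟩ := Z b hb; exact j ▸ sk tB i) hω
    refine ⟨S, s1, fun s hs => ?_, fun y hy e => ?_⟩
    · obtain ⟨b, i, j, rfl⟩ := (s2 s).1 hs
      obtain ⟨Y, y1, y2⟩ := Z b i
      change φ.B a (g (b • m • w)) = 0 at j
      change (g (b • m • w) ∈ _ ∧ φ.B f (g (b • m • w)) = 0) ∧ ∃ x ∈ M, ∀ a ∈ _, _ = a + φ.B f a • g (b • m • w)
      rw [← y2] at j ⊢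
      obtain ⟨x, x1, x2⟩ := y1.2
      refine ⟨⟨h.perp_le hk hm.l fun z hz => ?_, f1 _ (y1.1 a)⟩, x, x1,
        f3 x (fun y hy => by rw [x2, h.Zker tB y1 (tB.B y hy), add_zero]) _ (x2 a)⟩
      obtain ⟨c, e⟩ := c1 z hz
      simpa [φ.B_smul_left, j] using tB.B _ e _ (y1.1 a)
    · obtain ⟨c, i⟩ := c1 y hy
      have j := f1 _ i
      rw [map_sub, e, map_smul, f2, smul_eq_mul, mul_one, zero_sub, neg_eq_zero] at j
      rw [j, zero_smul, sub_zero, eB, ← pt_eq (smul_mem_pt m w) (smul_ne_zero m0 w0)] at i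
      obtain ⟨_, i, rfl⟩ := i
      obtain ⟨k, rfl⟩ := mem_pt.1 i
      exact s3 k (tA.B a a1 _ hy)
  let Z : AddSubgroup V := AddSubgroup.ofSub {y | ∃ Y, Zs M (pt F K v) Y ∧ Y f = y} ⟨0, 0, ⟨by simp, 1, one_mem _, by simp⟩, rfl⟩
    (by rintro _ ⟨X, a, rfl⟩ _ ⟨Y, b, rfl⟩; exact ⟨_, h.Zsub tA a b, sub_eq_add_neg _ _⟩)
  let W : Submodule (Fx φ.σ) V :=
    { carrier := {y | (y ∈ pt F K v ∧ φ.B f y = 0) ∧ ∀ c : Fx φ.σ, c • y ∈ Z}
      zero_mem' := ⟨by simp, by simp⟩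
      add_mem' := fun a b => ⟨⟨add_mem a.1.1 b.1.1, by simp [a.1.2, b.1.2]⟩, fun c => by rw [smul_add]; exact add_mem (a.2 c) (b.2 c)⟩
      smul_mem' := fun c y a => ⟨⟨Submodule.smul_mem _ c.1 a.1.1, by simp [Subfield.smul_def, a.1.2]⟩,
        fun d => smul_smul d c y ▸ a.2 _⟩ }
  by_cases H : ∃ s ∈ S, s ≠ 0 ∧ ω • s ∈ W
  · obtain ⟨s, hs, s0, e⟩ := H
    obtain ⟨⟨i, j⟩, x, x1, x2⟩ := s2 s hs
    have s3 : ψ.Q s = 0 := by obtain ⟨k, rfl⟩ := mem_pt.1 i; exact ψ.Q_smul_of_sing hv k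
    refine .inl (h.spread hq hr hD s3 s0 (h.tf_of (h.Q s s3) fun t ht => ?_))
    have w0 := sub_ne_zero.2 hω.symm
    have σt : φ.σ t = -t := by rw [h.hm.T_eq] at ht; linear_combination ht
    have c0 : φ.σ (t / (ω - φ.σ ω)) = t / (ω - φ.σ ω) := by rw [map_div₀, σt, map_sub, σ_σ, ← neg_sub ω, neg_div_neg_eq]
    obtain ⟨Y, y1, y2⟩ := e.2 ⟨_, c0⟩
    obtain ⟨D, d1, d2⟩ := h.dl tA le_rfl y1 x1 x2 i
    refine ⟨D, d1.2, fun z => ?_⟩
    rw [d2, y2, Subfield.smul_def, φ.B_smul_left, φ.B_smul_left, map_smul, map_smul, j, c0]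
    match_scalars; field_simp; ring
  push Not at H
  have WR : W ≤ R := by
    refine (Submodule.eq_of_le_of_finrank_le (fun y hy => ?_) ?_).ge
    · obtain ⟨b, i, j, rfl⟩ := (r2 y).1 hy
      exact ⟨⟨smul_mem_pt b v, j⟩, fun c => (hm0 (c.1 • b) (by rw [tau_smul h.σK, i, show φ.σ c = c from c.2])).imp
        fun Y a => ⟨a.1, a.2.trans (smul_assoc _ _ _)⟩⟩
    let U := pt F K v ⊓ LinearMap.ker (φ.B f)
    let j : V ≃ₗ[Fx φ.σ] V := (LinearEquiv.smulOfNeZero F V ω (by rintro rfl; simp at hω)).restrictScalars _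
    have u1 : finrank F U < finrank F K := rk hm.l ▸ Submodule.finrank_lt_finrank_of_lt (inf_lt_left.2 fun e => by
      simpa [f2] using e a1)
    have u2 := finrank_mul_finrank (Fx φ.σ) F U
    have u3 := Submodule.finrank_mono (show W ⊔ S.map j.toLinearMap ≤ U.restrictScalars _ from sup_le (fun y a => a.1)
      (by rintro _ ⟨s, hs, rfl⟩; exact U.smul_mem ω (s2 s hs).1))
    have u4 := Submodule.finrank_sup_add_finrank_inf_eq W (S.map j.toLinearMap)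
    rw [show W ⊓ S.map j.toLinearMap = ⊥ from eq_bot_iff.2 (by
      rintro _ ⟨a, s, hs, rfl⟩; by_contra e; exact H s hs (by rintro rfl; simp at e) a), finrank_bot,
      LinearEquiv.finrank_map_eq] at u4
    rw [h.fx2] at u2
    change _ ≤ finrank (Fx φ.σ) U at u3
    omega
  have key : ∀ μ : K, (∀ c, μ ≠ algebraMap F K c) → (∃ g ∈ M, (∀ (k : K) y, g (k • y) = k • g y) ∧ g v = μ • v) →
      ∃ N : Submodule (Fx φ.σ) S, finrank (Fx φ.σ) S ≤ finrank (Fx φ.σ) N + 1 ∧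
        ∀ s ∈ N, ∃ c : F, c ≠ 0 ∧ ∃ b, ψ.σ b = b ∧ b • v = c • μ • s.1 := fun μ hμ ⟨g, hg, g1, g2⟩ => by
    have g3 : ∀ s ∈ pt F K v, g s = μ • s := fun s hs => by
      obtain ⟨k, rfl⟩ := mem_pt.1 hs; rw [g1, g2, smul_comm]
    have g4 : (pt F K v).map (g : V →ₗ[F] V) = pt F K v := map_eq_of_le fun y hy => by
      rw [g3 y hy]; exact (K ∙ v).smul_mem μ hy
    let L := ((φ.B f) ∘ₗ (LinearMap.lsmul K V μ).restrictScalars F).restrictScalars (Fx φ.σ) ∘ₗ S.subtype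
    have G : ∀ s s' : S, L s' = 0 → ∃ b, ψ.σ b = b ∧ b • v = (δ * φ.σ (L s)) • μ • s'.1 := fun s s' e => by
      replace e : φ.B f (μ • s'.1) = 0 := e
      obtain ⟨b, i, -, j⟩ := (r2 _).1 (WR (x := (δ * φ.σ (L s)) • μ • s'.1) ⟨⟨Submodule.smul_mem _ _ ((K ∙ v).smul_mem μ (s2 _ s'.2).1.1),
        by simp [e]⟩, fun c => by
          obtain ⟨D, d1, d2⟩ := h.dd hm.l a1 (f2 ▸ one_ne_zero) (t := c.1 * δ) (by
            rw [h.hm.T_eq, map_mul, hδ, show φ.σ c = c from c.2]; ring) (s2 _ s.2).1.1 (s2 _ s'.2).1.1 (s2 _ s.2).2 (s2 _ s'.2).2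
            (s2 _ (add_mem s.2 s'.2)).2
          refine ⟨_, g4 ▸ d1.cn hg, ?_⟩
          rw [cn_apply, d2, ← h.Bm hg, ← h.Bm hg s'.1, g.apply_symm_apply, map_smul, map_add, map_smul, map_smul, g3 _ (s2 _ s.2).1.1,
            g3 _ (s2 _ s'.2).1.1, φ.B_symm_zero e, h.hm.B_comm, Subfield.smul_def]
          change _ = c.1 • (δ * φ.σ (φ.B f (μ • s.1))) • _
          module⟩)
      exact ⟨b, i, j⟩
    obtain ⟨s, hs⟩ : ∃ s, L s ≠ 0 := by
      by_contra! e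
      obtain ⟨c, e⟩ := mem_bot_of_pres h.pr (e := μ)
        (S := LinearMap.ker ((φ.B f) ∘ₗ (LinearMap.toSpanSingleton K V v).restrictScalars F)) (fun e => by
          have := LinearMap.finrank_le_finrank_of_injective (LinearMap.ker_eq_bot.1 e); simp at this; omega)
        (fun e => by obtain ⟨k, rfl⟩ := mem_pt.1 a1; exact one_ne_zero (f2.symm.trans (e.ge (Submodule.mem_top (x := k))))) fun k j => by
          obtain ⟨s, i, s', i', r⟩ := s3 _ (smul_mem_pt k v) j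
          change φ.B f ((μ * k) • v) = 0
          rw [mul_smul, r, smul_add, smul_comm μ ω, map_add, (φ.B f).map_smul, show φ.B f (μ • s) = 0 from e ⟨s, i⟩,
            show φ.B f (μ • s') = 0 from e ⟨s', i'⟩]; simp
      exact hμ c e
    refine ⟨_, h.rk1 L fun e => ?_, fun s' e => ⟨_, by simpa [δ0] using hs, G s s' e⟩⟩
    obtain ⟨s', i, s0⟩ := (Submodule.ne_bot_iff _).1 (LinearMap.ker_ne_bot_of_finrank_lt (f := L) (by rw [h.fx2]; omega))
    obtain ⟨x, x1⟩ := e.ge (Submodule.mem_top (x := 1))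
    obtain ⟨y, y1⟩ := e.ge (Submodule.mem_top (x := φ.σ ω))
    obtain ⟨b, b1, b2⟩ := G x s' i
    obtain ⟨c, c1, c2⟩ := G y s' i
    rw [x1, map_one, mul_one] at b2
    rw [y1, σ_σ, mul_comm, mul_smul, ← b2, ← smul_assoc] at c2
    have := (K0_inj h.σK hω (a := -c) (by simp [c1]) b1 (by rw [smul_left_injective K v0 c2]; simp)).2
    exact smul_ne_zero δ0 (smul_ne_zero (fun e : μ = 0 => hμ 0 (by rw [e, map_zero])) fun e => s0 (Subtype.ext e)) (by rw [← b2, this, zero_smul])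
  obtain ⟨μ, μ0, μ1, μ2⟩ := h.tor hq hr hD
  obtain ⟨ν, ν1, ν2⟩ : ∃ ν, ψ.σ ν = ν ∧ ∀ c, ν ≠ algebraMap F K c := by
    by_contra! e
    have := finrank_le_one (R := F) (1 : K) fun k => by
      obtain ⟨x, y, i, j, rfl⟩ := K0_dec h.σK hω φ.σσ ψ.σσ k
      obtain ⟨c, rfl⟩ := e x i
      obtain ⟨d, rfl⟩ := e y j
      exact ⟨c + ω * d, by simp [Algebra.smul_def]⟩
    omega
  have ν0 : ν ≠ 0 := fun e => ν2 0 (by simp [e])
  obtain ⟨N, n1, n2⟩ := key μ (fun c e => μ1 c 1 (map_one _) (by simp [e, Algebra.smul_def])) (μ2 v hv v0)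
  obtain ⟨N', n3, n4⟩ := key ν ν2 (h.tor0 hv v0 ν0 ν1)
  obtain ⟨s, ⟨i, j⟩, s0⟩ := (Submodule.ne_bot_iff (N ⊓ N')).1 fun e => by
    have := finrank_add_le_inf N N'
    rw [e, finrank_bot] at this; omega
  obtain ⟨c, c0, b, b1, b2⟩ := n2 s i
  obtain ⟨d, d0, e, e1, e2⟩ := n4 s j
  obtain ⟨k, hk⟩ := mem_pt.1 (s2 _ s.2).1.1
  have k0 : k ≠ 0 := by rintro rfl; exact s0 (Subtype.ext (by simpa using hk.symm))
  rw [← hk, smul_smul, ← smul_assoc] at b2 e2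
  refine (μ1 (d / c) (b * ν / e) (by simp [b1, ν1, e1]) ?_).elim
  have := (map_ne_zero (algebraMap F K)).2 c0
  have := (map_ne_zero (algebraMap F K)).2 d0
  simp only [smul_left_injective K v0 b2, smul_left_injective K v0 e2, Algebra.smul_def, map_div₀]
  field_simp

end FU

open Cfsg Cfsg.Geo in
theorem su_fld2 {F : Type*} [Field F] [Fintype F] {n q r : ℕ} (hF : Fintype.card F = q ^ 2)
    {K : Subalgebra F (Matrix (Fin n) (Fin n) F)} (hr : r.Prime) (h4 : 4 ≤ r) (hn : r * 2 = n) (hK : IsFieldSubalgebra r K)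
    (hac : IsAdjointClosedFor (hermForm n F q) K) :
    IsMaximalIn (GU n F q ⊓ specialLinear (Fin n) F) (subalgebraNormalizer K ⊓ (GU n F q ⊓ specialLinear (Fin n) F)) :=
  su_fld_of hF (by omega) hr hK hac fun _ _ _ _ _ _ _ _ _ _ _ _ _ h hq a e hD =>
    h.su_two (Nat.eq_of_mul_eq_mul_left hr.pos (e.trans hn.symm)) hq (a ▸ h4) hD

end H12.Xf
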