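import Mathlib
import Cfsg.Agent.H12.XfD

/-!
# Extension field subgroups of unitary groups, V : `GU₂(q³)` in `GU₆(q)`, `q ≥ 3`
* `sub_top` (power-closed additive subgroups), `skew_all` (Singer module), `FU.su_two3`, `su6_7`
-/

namespace H12.Xf

open Module H10 H10.Form H10.Mx

theorem sub_top {K : Type*} [Field K] [Finite K] {Q N : ℕ} (hK : Nat.card K = Q ^ 2) (N0 : 0 < N) (hN : N ≤ Q) (S : AddSubgroup K)
    (h : ∀ κ : K, κ ≠ 0 → ∀ s ∈ S, κ ^ N * s ∈ S) {s : K} (hs : s ∈ S) (s0 : s ≠ 0) (a : K) : a ∈ S := by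
  have := Fintype.ofFinite K
  let R : Subfield K :=
    { carrier := {r | ∀ s ∈ S, r * s ∈ S}
      mul_mem' := fun ha hb s hs => by rw [mul_assoc]; exact ha _ (hb s hs)
      one_mem' := fun s hs => by rwa [one_mul]
      add_mem' := fun ha hb s hs => by rw [add_mul]; exact S.add_mem (ha s hs) (hb s hs)
      zero_mem' := fun s _ => by simp
      neg_mem' := fun ha s hs => by rw [neg_mul]; exact S.neg_mem (ha s hs)
      inv_mem' := fun x hx s hs => by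
        by_cases x0 : x = 0
        · simp [x0]
        obtain ⟨t, e⟩ := (Finite.injective_iff_surjective (f := fun t : S => (⟨x * t, hx t t.2⟩ : S))).1
          (fun a b e => Subtype.ext (mul_left_cancel₀ x0 (congrArg Subtype.val e))) ⟨s, hs⟩
        simpa [← show x * t = s from congrArg Subtype.val e, x0] using t.2 }
  have := Fintype.ofFinite R
  have h2 := natCard_eq_pow_finrank (K := R) (V := K)
  have r2 : 2 ≤ Nat.card R := Finite.one_lt_card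
  have h3 : finrank R K = 1 := by
    by_contra h3
    have := finrank_pos (R := R) (M := K)
    have h4 := Nat.pow_le_pow_right (n := Nat.card R) (by omega) (show 2 ≤ finrank R K by omega)
    rw [← h2, hK] at h4
    replace h4 := (Nat.pow_le_pow_iff_left two_ne_zero).1 h4
    have := (FiniteField.forall_pow_eq_one_iff K (N * (Nat.card R - 1))).1 fun x => by
      have := congrArg Subtype.val (FiniteField.pow_card_sub_one_eq_one (⟨x.1 ^ N, h _ x.ne_zero⟩ : R)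
        fun e => pow_ne_zero N x.ne_zero (congrArg Subtype.val e))
      rw [← Nat.card_eq_fintype_card] at this
      exact Units.ext (by simpa [pow_mul] using this)
    rw [← Nat.card_eq_fintype_card, hK] at this
    have h5 := Nat.le_of_dvd (Nat.mul_pos N0 (by omega)) this
    have h6 := Nat.mul_le_mul hN (Nat.sub_le_sub_right h4 1)
    obtain ⟨Q, rfl⟩ : ∃ P, Q = P + 1 := ⟨Q - 1, by omega⟩
    rw [Nat.add_sub_cancel] at h6
    have : (Q + 1) ^ 2 - 1 = (Q + 1) * Q + Q := by rw [Nat.sub_eq_iff_eq_add (Nat.one_le_pow _ _ (by omega))]; ring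
    omega
  obtain ⟨r, e⟩ := (finrank_eq_one_iff_of_nonzero' (1 : K) one_ne_zero).1 h3 (a / s)
  simpa [show (r : K) = a / s by simpa [Subfield.smul_def] using e, s0] using r.2 s hs

theorem skew_all {F K : Type*} [Field F] [Field K] [Algebra F K] [Finite K] {q : ℕ} (hF : Nat.card F = q ^ 2) (q3 : 3 ≤ q)
    (hr : finrank F K = 3) {τ : K →+* K} (hτ : ∀ a, τ a = a ^ q ^ 3) {l : Dual F K} (l0 : l ≠ 0) (Z : AddSubgroup (K →ₗ[F] K))
    (hs : ∀ d ∈ Z, ∀ x y, l (τ (d x) * y) + l (τ x * d y) = 0) (h0 : ∀ c, τ c = -c → LinearMap.mulLeft F c ∈ Z)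
    (hT : ∀ κ : K, κ ≠ 0 → ∀ d ∈ Z, ∃ d' ∈ Z, ∀ x, d' x = κ ^ (q + 1) * d (τ (κ ^ (q + 1)) * x))
    {d₀ : K →ₗ[F] K} (h1 : d₀ ∈ Z) (h2 : d₀ ≠ 0) (h3 : ¬ Function.Surjective d₀) {d : K →ₗ[F] K}
    (hd : ∀ x y, l (τ (d x) * y) + l (τ x * d y) = 0) : d ∈ Z := by
  have := Finite.of_injective _ (algebraMap F K).injective
  have := Fintype.ofFinite F
  have := Fintype.ofFinite K
  have cK : Nat.card K = (q ^ 3) ^ 2 := by rw [natCard_eq_pow_finrank (K := F) (V := K), hF, hr]; ring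
  have p6 : ∀ x : K, x ^ q ^ 6 = x := fun x => by
    have := FiniteField.pow_card x
    rwa [← Nat.card_eq_fintype_card, cK, ← pow_mul] at this
  let ρ := FiniteField.frobeniusAlgHom F K
  have ρe : ∀ x, ρ x = x ^ q ^ 2 := fun x => by simp [ρ, ← Nat.card_eq_fintype_card, hF]
  have ρ3 : ∀ x, ρ (ρ (ρ x)) = x := fun x => by rw [ρe, ρe, ρe, ← pow_mul, ← pow_mul, ← pow_add, ← pow_add, p6]
  have τ2 : ∀ x, τ (τ x) = x := fun x => by rw [hτ, hτ, ← pow_mul, ← pow_add, p6]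
  have τρ : ∀ x, τ (ρ x) = ρ (τ x) := fun x => by rw [hτ, hτ, map_pow]
  have li := (linearIndependent_algHom_toLinearMap F K K).comp _ (FiniteField.bijective_frobeniusAlgHom_pow F K).1
  rw [hr] at li
  have uq : ∀ a b c : K, (∀ x, a * x + b * ρ x + c * ρ (ρ x) = 0) → a = 0 ∧ b = 0 ∧ c = 0 := fun a b c H => by
    have := Fintype.linearIndependent_iff.1 li ![a, b, c] (LinearMap.ext fun x => by
      simpa [Fin.sum_univ_three, pow_succ, ρ] using H x)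
    exact ⟨this 0, this 1, this 2⟩
  have dec : ∀ d : K →ₗ[F] K, ∃ a b c : K, ∀ x, d x = a * x + b * ρ x + c * ρ (ρ x) := fun d => by
    have := (li.span_eq_top_of_card_eq_finrank' (by rw [finrank_linearMap_self, hr]; simp)).ge (Submodule.mem_top (x := d))
    obtain ⟨c, e⟩ := (Submodule.mem_span_range_iff_exists_fun K).1 this
    exact ⟨c 0, c 1, c 2, fun x => by simp [← e, Fin.sum_univ_three, pow_succ, ρ]⟩
  obtain ⟨m, m1, m2, hl⟩ := dec (Algebra.linearMap F K ∘ₗ l)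
  simp only [LinearMap.comp_apply, Algebra.linearMap_apply] at hl
  obtain ⟨-, u1, u2⟩ := uq (ρ m2 - m) (ρ m - m1) (ρ m1 - m2) fun x => by
    have := congrArg ρ (hl x)
    rw [AlgHom.commutes, hl] at this
    simp only [map_add, map_mul, ρ3] at this
    linear_combination -this
  obtain rfl := sub_eq_zero.1 u1
  obtain rfl := sub_eq_zero.1 u2
  have m0 : m ≠ 0 := by
    rintro rfl
    exact l0 (LinearMap.ext fun x => (algebraMap F K).injective (by simpa using hl x))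
  have key : ∀ (d : K →ₗ[F] K) a b, (∀ x y, l (τ (d x) * y) + l (τ x * d y) = 0) → (∀ x, d x = a * x + b * ρ x) →
      τ a = -a ∧ d = LinearMap.mulLeft F a := fun d a b H e => by
    obtain ⟨v1, v2, -⟩ := uq (τ a + a) (τ b) (m⁻¹ * ρ (ρ (m * b))) fun u => eq_zero_of_mul l0 fun y => (algebraMap F K).injective (by
      have := congrArg (algebraMap F K) (H (τ u) y)
      have i := mul_inv_cancel₀ m0
      have i1 := congrArg ρ i
      have i2 := congrArg ρ i1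
      simp only [map_add, map_mul, hl, e, τρ, τ2, ρ3, map_zero, map_one] at this i1 i2 ⊢
      linear_combination this + (y * ρ (ρ m) * ρ (ρ b) * ρ (ρ u)) * i + (ρ y * m * b * u) * i1 + (ρ (ρ y) * ρ m * ρ b * ρ u) * i2)
    obtain rfl : b = 0 := by simpa using v2
    exact ⟨eq_neg_of_add_eq_zero_left v1, LinearMap.ext fun x => by simpa using e x⟩
  let S : AddSubgroup K := AddSubgroup.ofSub {c | ∃ d ∈ Z, ∃ a b, ∀ x, d x = a * x + b * ρ x + c * ρ (ρ x)}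
    ⟨0, 0, zero_mem _, 0, 0, by simp⟩ (by
      rintro c ⟨d, i, a, b, e⟩ c' ⟨d', i', a', b', e'⟩
      exact ⟨d - d', sub_mem i i', a - a', b - b', fun x => by rw [LinearMap.sub_apply, e, e']; ring⟩)
  obtain ⟨a, b, c, e⟩ := dec d₀
  obtain ⟨a', b', c', e'⟩ := dec d
  obtain ⟨d', i, a'', b'', e''⟩ := sub_top cK (N := (q + 1) * (q + 1)) (by positivity) (by nlinarith [Nat.mul_le_mul q3 q3]) S (by
      rintro κ κ0 c ⟨d, i, a, b, e⟩
      obtain ⟨d', j, e'⟩ := hT κ κ0 d i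
      refine ⟨d', j, κ ^ (q + 1) * a * τ (κ ^ (q + 1)), κ ^ (q + 1) * b * ρ (τ (κ ^ (q + 1))), fun x => ?_⟩
      have : ρ (ρ (τ (κ ^ (q + 1)))) = (κ ^ (q + 1)) ^ q := by
        rw [ρe, ρe, hτ, ← pow_mul, ← pow_mul, ← pow_add, ← pow_add, show 3 + (2 + 2) = 6 + 1 from rfl, pow_succ q, pow_mul, p6]
      rw [e', e, map_mul, map_mul, this, pow_mul]; ring) (s := c) ⟨d₀, h1, a, b, e⟩ (by
      rintro rfl
      obtain ⟨-, rfl⟩ := key d₀ a b (hs _ h1) (by simpa using e)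
      have : a ≠ 0 := by rintro rfl; simp at h2
      exact h3 fun y => ⟨y / a, by simp [mul_div_cancel₀ _ this]⟩) c'
  obtain ⟨v1, v2⟩ := key (d - d') (a' - a'') (b' - b'') (fun x y => by
    simp only [LinearMap.sub_apply, map_sub, sub_mul, mul_sub]; linear_combination hd x y - hs d' i x y)
    fun x => by rw [LinearMap.sub_apply, e', e'']; ring
  rw [← sub_add_cancel d d', v2]; exact add_mem (h0 _ v1) i

variable {F K V : Type*} [Field F] [Field K] [Algebra F K] [AddCommGroup V] [Module F V] [Module K V]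
  [IsScalarTower F K V]

namespace FU
variable {φ : Form F V} {ψ : Form K V} {l : Dual F K} {M : Subgroup (V ≃ₗ[F] V)} (h : FU φ ψ l M)
  {A B : Submodule F V} {u v w y s f t : V}
  [φ.Nondeg] [ψ.Nondeg] [FiniteDimensional F V] [FiniteDimensional K V] [FiniteDimensional F K]
include h

variable (hk : finrank K V = 2)
include hk

variable {q : ℕ} (hq : φ.IsUnitary q) (hr : finrank F K = 3) (q3 : 3 ≤ q)
  (hD : ∀ g : ψ.Isom, ∃ x ∈ M, ∀ z, x z = (g ^ (q + 1)).1 z)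
include hq hr q3 hD

omit hk [φ.Nondeg] [FiniteDimensional F V] in
theorem tor3 : ∃ μ : K, μ ≠ 0 ∧ (∀ (c : F) a, ψ.σ a = a → μ ≠ c • a) ∧ ∀ v, ψ.Q v = 0 → v ≠ 0 →
    ∃ g ∈ M, (∀ (k : K) y, g (k • y) = k • g y) ∧ g v = μ • v := by
  obtain ⟨q', hq'⟩ := h.hψ
  have := h.fin
  have := hq'.finite
  have := Fintype.ofFinite K
  have q2 := hq.two_le
  obtain ⟨κ, hκ⟩ : ∃ κ : Kˣ, ∀ (c : F) a, ψ.σ a = a → κ.1 ^ (q + 1) ≠ c • a := by
    by_contra! H
    have e := natCard_eq_pow_finrank (K := F) (V := K)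
    rw [hq.card, hq'.card, ← pow_mul, mul_comm, pow_mul] at e
    obtain rfl := Nat.pow_left_injective two_ne_zero e
    set Q := q ^ finrank F K
    have h4 : q ^ 3 ≤ Q := Nat.pow_le_pow_right (by omega) hr.ge
    have h5 : (q + 1) * (q + 1) ≤ q ^ 3 := by nlinarith [Nat.mul_le_mul q3 q3]
    have h6 : 1 < Q := by nlinarith
    have := (FiniteField.forall_pow_eq_one_iff K ((Q - 1) * ((q + 1) * (q + 1)))).1 fun x => by
      obtain ⟨c, a, i, j⟩ := H x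
      have : ψ.σ (x.1 ^ ((q + 1) * (q + 1))) = x.1 ^ ((q + 1) * (q + 1)) := by
        rw [pow_mul, j, smul_pow, tau_smul h.σK, map_pow ψ.σ, i, pow_succ c, ← hq.σ_eq]; simp [mul_comm]
      rw [hq'.σ_eq, show Q = Q - 1 + 1 by omega, pow_succ, mul_eq_right₀ (pow_ne_zero _ x.ne_zero), ← pow_mul] at this
      exact Units.ext (by simpa [mul_comm] using this)
    rw [← Nat.card_eq_fintype_card, hq'.card, show Q ^ 2 - 1 = (Q - 1) * (Q + 1) by
      rw [mul_comm, ← Nat.sq_sub_sq, one_pow], Nat.mul_dvd_mul_iff_left (by omega)] at this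
    have := Nat.le_of_dvd (by positivity) this
    omega
  refine ⟨_, pow_ne_zero _ κ.ne_zero, hκ, fun v hv v0 => ?_⟩
  obtain ⟨f, hyp⟩ := ψ.exists_hyp hv v0
  obtain ⟨x, hx, e⟩ := hD (ψ.rot v f κ)
  refine ⟨x, hx, by simp [e], ?_⟩
  rw [e]
  induction q + 1 with
  | zero => simp
  | succ n ih => rw [pow_succ', Isom.mul_apply, ih, map_smul, ψ.rot_apply_e hyp κ.ne_zero, smul_smul, pow_succ]

omit hk in
theorem spread3 (hv : ψ.Q v = 0) (v0 : v ≠ 0) (hX : TF (M.subgroupOf φ.Isom) v) : φ.E ≤ M.subgroupOf φ.Isom := by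
  have := h.fin
  have := Module.finite_of_finite F (M := K)
  obtain ⟨δ, δ0, hδ⟩ := h.del
  obtain ⟨ω, hω⟩ := h.om
  obtain ⟨t, t0, ht⟩ := hq.exists_skew
  obtain ⟨μ, μ0, μ1, μ2⟩ := h.tor3 hq hr q3 hD
  obtain ⟨f, hyp⟩ := ψ.exists_hyp hv v0
  have T0 : ∀ a, ψ.σ a = a → TF (M.subgroupOf φ.Isom) (a • v) := fun a ha => by
    by_cases a0 : a = 0
    · simpa [a0] using hX.smul (h.Q v hv) 0
    obtain ⟨g, hg, -, e⟩ := h.tor0 hv v0 a0 ha
    exact e ▸ hX.map (h.Q v hv) (g := ⟨g, h.le hg⟩) hg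
  have Q0 : ∀ a : K, φ.Q (a • v) = 0 := fun a => h.Q _ (ψ.Q_smul_of_sing hv a)
  have B0 : ∀ a : K, φ.B v (a • v) = 0 := fun a => by simp [h.B, ψ.B_self_eq_zero hv]
  obtain ⟨a, a1, a0⟩ := (Submodule.ne_bot_iff _).1 (LinearMap.ker_ne_bot_of_finrank_lt
    (f := (l ∘ₗ (LinearMap.mulLeft K μ).restrictScalars F).restrictScalars (Fx φ.σ) ∘ₗ (K0 h.σK).subtype) (by rw [h.rk0, h.fx2]; omega))
  obtain ⟨a, a2⟩ := a
  replace a1 : l (μ * a) = 0 := a1
  replace a0 : a ≠ 0 := fun e => a0 (Subtype.ext e)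
  replace a2 : ψ.σ a = a := a2
  have f1 := ψ.Q_smul_of_sing hyp.Qf (δ • a)
  have f2 := h.tf_orb hv f1 (by simp [hyp.Bef, δ0, a0]) (by rw [ψ.B_smul_right, hyp.Bef]; simp [tau_smul h.σK, hδ, a2]) hX
  obtain ⟨g, hg, -, e⟩ := μ2 _ f1 (smul_ne_zero (smul_ne_zero δ0 a0) hyp.f_ne_zero)
  have f3 : TF _ (μ • (δ • a) • f) := e ▸ f2.map (h.Q _ f1) (g := ⟨g, h.le hg⟩) hg
  have f4 := h.Q _ (ψ.Q_smul_of_sing f1 μ)
  have f5 : ∀ b : K, φ.B (b • v) (μ • (δ • a) • f) = δ * l (ψ.σ b * (μ * a)) := fun b => by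
    rw [h.B, ψ.B_smul_left, ψ.B_smul_right, ψ.B_smul_right, hyp.Bef]; simp
  generalize μ • (δ • a) • f = u at f3 f4 f5
  have f6 : φ.B u v = 0 := φ.B_symm_zero (by simpa [a1] using f5 1)
  have sj : ∀ c, ∃ b, ψ.σ b = b ∧ l (b * (μ * a)) = c := by
    by_contra! H
    obtain ⟨c, H⟩ := H
    let L := (l ∘ₗ (LinearMap.mulRight K (μ * a)).restrictScalars F).restrictScalars (Fx φ.σ) ∘ₗ (K0 h.σK).subtype
    obtain ⟨d, d0, hd⟩ : ∃ d : F, d ≠ 0 ∧ ∀ b : K0 h.σK, φ.σ (L b / d) = L b / d := by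
      have := Submodule.finrank_lt (s := LinearMap.range L) fun e => by
        obtain ⟨b, i⟩ := e.ge (Submodule.mem_top (x := c)); exact H b b.2 i
      rw [h.fx2] at this
      obtain ⟨d, hd⟩ := finrank_le_one_iff.1 (Nat.le_of_lt_succ this)
      by_cases d0 : d.1 = 0
      · exact ⟨1, one_ne_zero, fun b => by
          obtain ⟨c, e⟩ := hd ⟨_, b, rfl⟩; simp [← show c • d.1 = L b from congrArg Subtype.val e, d0]⟩
      · exact ⟨d, d0, fun b => by
          obtain ⟨c, e⟩ := hd ⟨_, b, rfl⟩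
          simpa [← show c • d.1 = L b from congrArg Subtype.val e, d0, Subfield.smul_def] using (show φ.σ c = c from c.2)⟩
    have G : ∀ b, ψ.σ b = b → l (b * (ψ.σ (d⁻¹ • (μ * a)) - d⁻¹ • (μ * a))) = 0 := fun b hb => by
      have := hd ⟨b, hb⟩
      rw [mul_sub, map_sub, sub_eq_zero, ← hb, ← map_mul, h.lσ, hb]
      simpa [L, div_eq_inv_mul, mul_assoc] using this
    have := sub_eq_zero.1 (eq_zero_of_mul h.l0 fun k => show l (k * (ψ.σ (d⁻¹ • (μ * a)) - d⁻¹ • (μ * a))) = 0 by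
      obtain ⟨x, y, i, j, rfl⟩ := K0_dec h.σK hω φ.σσ ψ.σσ k
      rw [add_mul, smul_mul_assoc, map_add, l.map_smul, G x i, G y j]; simp)
    exact μ1 d (d⁻¹ • (μ * a) / a) (by rw [map_div₀, this, a2]) (by simp [← smul_div_assoc, d0, a0])
  set L := sgSub (M.subgroupOf φ.Isom) (h.Q v hv) hX
  have m1 : u ∈ L := mem_sg.2 fun c => by
    obtain ⟨b, i, j⟩ := sj (φ.σ (c / (t * t * φ.σ δ)))
    convert inA_tv hq.herm (h.Q v hv) f4 f6 f3 (inA_add hq.herm (h.Q v hv) (Q0 b) (B0 b) hX (T0 b i)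
      (by simpa [add_smul] using T0 (1 + b) (by simp [i])) ht) ht using 2
    have : φ.σ δ ≠ 0 := by simpa
    rw [map_smul, hq.herm.B_comm, f5, i, j, map_mul, σ_σ, smul_eq_mul]; field_simp
  have m2 : ∀ b, ψ.σ b = b → l (b * (μ * a)) ≠ 0 → b • v ∈ L := fun b i j =>
    mem_sg_tv hq (Q0 b) (φ.B_symm_zero (B0 b)) (T0 b i) m1 (by simp [f5, i, j, δ0])
  have m3 : ∀ b, ψ.σ b = b → b • v ∈ L := fun b i => by
    by_cases j : l (b * (μ * a)) = 0
    · obtain ⟨b', i', j'⟩ := sj 1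
      simpa [add_smul] using sub_mem (m2 (b + b') (by simp [i, i']) (by simp [add_mul, j, j'])) (m2 b' i' (by simp [j']))
    · exact m2 b i j
  refine h.fin' hv v0 hX fun k => ?_
  obtain ⟨x, y, i, j, rfl⟩ := K0_dec h.σK hω φ.σσ ψ.σσ k
  simpa [add_smul] using mem_sg.1 (add_mem (m3 x i) (L.smul_mem ω (m3 y j))) 1

theorem tf3 (hv : ψ.Q v = 0) (v0 : v ≠ 0) {Y : V →ₗ[F] V} (hY : Zs M (pt F K v) Y) (Y0 : Y ≠ 0) {W : Submodule F V}
    (hW : ∀ z, Y z ∈ W) (W2 : finrank F W ≤ 2) : TF (M.subgroupOf φ.Isom) v := by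
  obtain ⟨q', hq'⟩ := h.hψ
  have := hq'.finite
  have e := natCard_eq_pow_finrank (K := F) (V := K)
  rw [hq.card, hq'.card, ← pow_mul, mul_comm, pow_mul, hr] at e
  obtain rfl := Nat.pow_left_injective two_ne_zero e
  obtain ⟨f, hyp⟩ := ψ.exists_hyp hv v0
  have tA := h.ts (mem_fam (M := M) ⟨v, v0, hv, rfl⟩)
  have fv : ψ.B f v = 1 := by rw [hyp.Bfe, h.hm'.ε_eq]
  let D : (K →ₗ[F] K) → V →ₗ[F] V := fun d => (LinearMap.toSpanSingleton K V v).restrictScalars F ∘ₗ d ∘ₗ (ψ.B v).restrictScalars F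
  have De : ∀ d z, D d z = d (ψ.B v z) • v := fun _ _ => rfl
  let Z : AddSubgroup (K →ₗ[F] K) := AddSubgroup.ofSub {d | Zs M (pt F K v) (D d)}
    ⟨0, fun z => smul_mem_pt _ _, 1, one_mem _, by simp [De]⟩ fun a i b j => by
      convert h.Zsub tA i j using 1
      change Zs M _ _ ↔ _
      rw [show D (a + -b) = D a - D b from LinearMap.ext fun z => by simp [De, sub_smul, add_smul, sub_eq_add_neg]]
  let d₀ : K →ₗ[F] K := (ψ.B f).restrictScalars F ∘ₗ Y ∘ₗ (LinearMap.toSpanSingleton K V f).restrictScalars F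
  have e0 : D d₀ = Y := LinearMap.ext fun z => by
    have a := h.Zker tA hY (tA.B _ (mem_of_perp hk hv v0 (y := z - ψ.B v z • f) (by simp [hyp.Bef])))
    rw [map_sub, sub_eq_zero] at a
    obtain ⟨k, b⟩ := mem_pt.1 (hY.1 z)
    rw [De, show d₀ (ψ.B v z) = ψ.B f (Y (ψ.B v z • f)) from rfl, ← a, ← b]; simp [fv]
  refine h.tf_of (h.Q v hv) fun t ht => ⟨_, (skew_all hq.card q3 hr hq'.σ_eq h.l0 Z (fun d hd x y => ?_) (fun c hc => ?_)
    (fun κ κ0 d hd => ?_) (d₀ := d₀) (show Zs M _ (D d₀) from e0 ▸ hY) (fun r => Y0 (by rw [← e0, r]; ext; simp [De])) (fun r => ?_)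
    (d := (t • l).smulRight 1) fun x y => ?_).2, fun z => by simp [De, h.B]⟩
  · have := h.skew tA hd (x • f) (y • f)
    simp only [De, h.B, map_smul, ψ.B_smul_left, hyp.Bef, fv, smul_eq_mul, mul_one] at this
    linear_combination this
  · obtain ⟨x, hx, e⟩ := h.sg (w := 0) (s := -c) hv (by simp) (by simp [h.hm'.T_eq, hc])
    exact ⟨fun z => smul_mem_pt _ _, x, hx, fun z => by simp [e, De, h.hm'.ε_eq]⟩
  · obtain ⟨x, hx, e⟩ := hD (ψ.rot v f κ)
    have xv : x v = κ ^ (q + 1) • v := by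
      rw [e]
      induction q + 1 with
      | zero => simp
      | succ n ih => rw [pow_succ', Isom.mul_apply, ih, map_smul, ψ.rot_apply_e hyp κ0, smul_smul, pow_succ]
    refine ⟨LinearMap.mulLeft F (κ ^ (q + 1)) ∘ₗ d ∘ₗ LinearMap.mulLeft F (ψ.σ (κ ^ (q + 1))), ⟨fun z => smul_mem_pt _ _, ?_⟩, fun _ => rfl⟩
    convert hd.2.cn hx using 1
    refine LinearMap.ext fun z => ?_
    have : ψ.B v (x.symm z) = ψ.σ (κ ^ (q + 1)) * ψ.B v z := by
      rw [← ψ.B_smul_left, ← xv, ← Isom.B_map (ψ.rot v f κ ^ (q + 1)), ← e, ← e, x.apply_symm_apply]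
    rw [cn_apply, De, De, this, e, map_smul, ← e, xv, smul_smul, mul_comm]; rfl
  · have := Submodule.finrank_mono (show pt F K v ≤ W from fun y hy => by
      obtain ⟨k, rfl⟩ := mem_pt.1 hy
      obtain ⟨k, rfl⟩ := r k
      simpa [← e0, De, hyp.Bef] using hW (k • f))
    rw [finrank_pt v0] at this; omega
  · have σt : φ.σ t = -t := by rw [h.hm.T_eq] at ht; linear_combination ht
    simp only [LinearMap.smulRight_apply, LinearMap.smul_apply, tau_smul h.σK, smul_mul_assoc, mul_smul_comm, map_smul, map_one,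
      one_mul, mul_one, smul_eq_mul, map_mul, σt, h.lσ]
    ring

theorem su_two3 : φ.E ≤ M.subgroupOf φ.Isom ∨ ∀ g ∈ M, ∀ k : K, ∃ k' : K, ∀ y, g (k • y) = k' • g y := by
  by_cases H : ∀ A ∈ Fam M (StQ F ψ), A ∈ StQ F ψ
  · exact Or.inr (h.nrm2 hk H)
  push Not at H
  obtain ⟨A, hA, hA'⟩ := H
  obtain ⟨A, B, hm⟩ := h.exists_mp hA hA'
  obtain ⟨_, -, _, ⟨v, v0, hv, rfl⟩, -, hm'⟩ := hm.std
  obtain ⟨B, hm⟩ : ∃ B, MP M (StQ F ψ) (pt F K v) B := ⟨_, hm'⟩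
  clear hm' hA hA'
  have := h.fin
  have := Module.finite_of_finite F (M := K)
  have := Module.finite_of_finite F (M := V)
  obtain ⟨δ, δ0, hδ⟩ := h.del
  obtain ⟨ω, hω⟩ := h.om
  obtain ⟨a, a1, a2⟩ := exists_not hm.symm
  have c1 := fun y => h.cd hk hm.symm a1 a2 (y := y)
  obtain ⟨f, f1, f2, f3⟩ := h.exists_f a2 c1
  obtain ⟨m, m0, hm0⟩ := h.rt0 (f := f) hv fun e => by simpa [φ.B_symm_zero, f2] using φ.B_symm_zero (h.perp_iff.2 e a a1)
  rw [← pt_eq (smul_mem_pt m v) (smul_ne_zero m0 v0)] at hm hm0 a1 c1 f3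
  replace hv := ψ.Q_smul_of_sing hv m
  replace v0 := smul_ne_zero m0 v0
  generalize m • v = v at *
  have tA := h.ts hm.l
  have tB := h.ts hm.r
  have sk : ∀ {A Y f}, φ.TS A → Zs M A Y → φ.σ (φ.B f (Y f)) = -φ.B f (Y f) := fun a b => by rw [h.hm.σ_B, h.skew a b]
  obtain ⟨S, s1, s2, s3⟩ : ∃ S : Submodule (Fx φ.σ) V, finrank F K ≤ finrank (Fx φ.σ) S + 1 ∧ (∀ s ∈ S, (s ∈ pt F K v ∧ φ.B f s = 0) ∧
      ∃ x ∈ M, ∀ a ∈ pt F K v, x a = a + φ.B f a • s) ∧ ∀ y ∈ pt F K v, φ.B f y = 0 → ∃ s ∈ S, ∃ s' ∈ S, y = s + ω • s' := by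
    obtain ⟨g, hg, _, ⟨w, w0, hw, rfl⟩, eB⟩ := hm.r
    obtain ⟨m, m0, hm0⟩ := h.rt0 (f := g.symm a) hw fun e => a2 (eB ▸ mem_map_iff.2 (mem_of_perp hk hw w0 e))
    have Z : ∀ b, ψ.σ b = b → ∃ Y, Zs M B Y ∧ Y a = g (b • m • w) := fun b hb => by
      obtain ⟨Y, i, j⟩ := hm0 b hb
      exact ⟨_, eB ▸ i.cn hg, by rw [cn_apply, j]⟩
    obtain ⟨S, s1, s2, s3⟩ := h.exR (f := a) (J := (g : V →ₗ[F] V) ∘ₗ (LinearMap.toSpanSingleton K V (m • w)).restrictScalars F)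
      (g.injective.comp (smul_left_injective K (smul_ne_zero m0 w0)))
      (fun b hb => by obtain ⟨Y, i, j⟩ := Z b hb; exact j ▸ sk tB i) hω
    refine ⟨S, s1, fun s hs => ?_, fun y hy e => ?_⟩
    · obtain ⟨b, i, j, rfl⟩ := (s2 s).1 hs
      obtain ⟨Y, y1, y2⟩ := Z b i
      change φ.B a (g (b • m • w)) = 0 at j
      change (g (b • m • w) ∈ _ ∧ φ.B f (g (b • m • w)) = 0) ∧ ∃ x ∈ M, ∀ a ∈ _, _ = a + φ.B f a • g (b • m • w)
      rw [← y2] at j ⊢
      obtain ⟨x, x1, x2⟩ := y1.2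
      refine ⟨⟨h.perp_le hk hm.l fun z hz => ?_, f1 _ (y1.1 a)⟩, x, x1,
        f3 x (fun y hy => by rw [x2, h.Zker tB y1 (tB.B y hy), add_zero]) _ (x2 a)⟩
      obtain ⟨c, e⟩ := c1 z hz
      simpa [φ.B_smul_left, j] using tB.B _ e _ (y1.1 a)
    · obtain ⟨c, i⟩ := c1 y hy
      have j := f1 _ i
      rw [map_sub, e, map_smul, f2, smul_eq_mul, mul_one, zero_sub, neg_eq_zero] at j
      rw [j, zero_smul, sub_zero, eB, ← pt_eq (smul_mem_pt m w) (smul_ne_zero m0 w0)] at i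
      obtain ⟨_, i, rfl⟩ := i
      obtain ⟨k, rfl⟩ := mem_pt.1 i
      exact s3 k (tA.B a a1 _ hy)
  obtain ⟨s, hs, s0⟩ := (Submodule.ne_bot_iff S).1 fun e => by rw [e, finrank_bot] at s1; omega
  obtain ⟨⟨i, j⟩, x, x1, x2⟩ := s2 s hs
  obtain ⟨b, b1, b2⟩ : ∃ b : K, ψ.σ b = b ∧ b • v ∉ F ∙ s := by
    by_contra! H
    have := Submodule.finrank_mono (show pt F K v ≤ F ∙ s from fun y hy => by
      obtain ⟨k, rfl⟩ := mem_pt.1 hy
      obtain ⟨x, y, i, j, rfl⟩ := K0_dec h.σK hω φ.σσ ψ.σσ k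
      simpa [add_smul] using add_mem (H x i) (Submodule.smul_mem _ ω (H y j)))
    have := finrank_span_singleton_le (F := F) s
    rw [finrank_pt v0] at *; omega
  obtain ⟨Y, y1, y2⟩ := hm0 b b1
  obtain ⟨D, d1, d2⟩ := h.dl tA le_rfl y1 x1 x2 i
  refine .inl (h.spread3 hq hr q3 hD hv v0 (h.tf3 hk hq hr q3 hD hv v0 d1 (fun e => b2 ?_) (W := Submodule.span F {Y f, s})
    (fun z => Submodule.mem_span_pair.2 ⟨_, _, by rw [d2, sub_add, ← sub_smul, sub_eq_add_neg, ← neg_smul]⟩) (finrank_span_pair_le _ _)))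
  obtain ⟨z, hz⟩ := φ.exists_B_eq_one s0
  have := d2 z
  rw [e, hz, y2] at this
  exact Submodule.mem_span_singleton.2 ⟨φ.B (b • v) z - φ.B f (b • v), by
    rw [LinearMap.zero_apply] at this; linear_combination (norm := module) this⟩

end FU

open Cfsg Cfsg.Geo in
theorem su6_7 {F : Type*} [Field F] [Fintype F] {q : ℕ} (hF : Fintype.card F = q ^ 2) :
    (3 ≤ q → ∀ K : Subalgebra F (Matrix (Fin 6) (Fin 6) F), Cfsg.Geo.IsFieldSubalgebra 3 K → Cfsg.Geo.IsAdjointClosedFor (Cfsg.hermForm 6 F q) K → Cfsg.Geo.IsMaximalIn (Cfsg.GU 6 F q ⊓ Cfsg.Geo.specialLinear (Fin 6) F) (Cfsg.Geo.subalgebraNormalizer K ⊓ (Cfsg.GU 6 F q ⊓ Cfsg.Geo.specialLinear (Fin 6) F))) :=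
  fun q3 _ hK hac => su_fld_of hF (by omega) Nat.prime_three hK hac fun _ _ _ _ _ _ _ _ _ _ _ _ _ h hq a e hD =>
    h.su_two3 (by omega) hq a q3 hD

end H12.Xf
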