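import Mathlib
import Cfsg.Agent.H23.Y0

/-! Part M of S5569: every singular vector is conjugate into `B`. -/

set_option autoImplicit false
set_option linter.unusedSectionVars false
open Cfsg BG Subgroup H01.XS H01.XF Cfsg.Agent.H06.J Cfsg.Agent.H23.K Cfsg.Agent.H23.Y
open H01.XT hiding Hy QS

namespace H12.YM
universe u

theorem md {Γ X : Type*} [Group Γ] [MulAction Γ X] [Finite X] {y : Γ} {r : ℕ} [Fact r.Prime] (hy : y ^ r = 1) (s : Set X)
    (h : ∀ x ∈ s, y • x ∈ s) : s.ncard ≡ {x | x ∈ s ∧ y • x = x}.ncard [MOD r] := by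
  classical
  have := Fintype.ofFinite s
  let f : Function.End s := fun a => ⟨y • a, h _ a.2⟩
  have e : ∀ n : ℕ, ∀ a : s, ((f ^ n) a : X) = y ^ n • (a : X) := fun n => by
    induction n with
    | zero => intro a; rw [pow_zero, pow_zero, one_smul]; rfl
    | succ n ih => intro a; rw [pow_succ, pow_succ, mul_smul]; exact ih (f a)
  have k := Equiv.Perm.card_fixedPoints_modEq (f := f) (p := r) (n := 1) (by
    funext a; exact Subtype.ext (by rw [pow_one, e, hy, one_smul]; rfl))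
  rw [← Nat.card_eq_fintype_card, ← Nat.card_eq_fintype_card] at k
  rw [← Nat.card_coe_set_eq, ← Nat.card_coe_set_eq]
  exact k.trans (by
    rw [Nat.card_congr (β := {x | x ∈ s ∧ y • x = x}) ⟨fun a => ⟨a.1.1, a.1.2, congrArg Subtype.val a.2⟩,
      fun a => ⟨⟨a.1, a.2.1⟩, Subtype.ext a.2.2⟩, fun _ => rfl, fun _ => rfl⟩])

theorem m : MStmt.{u} := by
  intro V _ _ _ Γ _ _ T d M K Y β q B g x KM iK pj pi ⟨a, aB, b, bB, a0, b0, ab⟩ v qv
  letI : MulAction Γ V := { smul := fun k v => T k v, one_smul := g.one, mul_smul := g.mul }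
  have sm : ∀ (k : Γ) (v : V), k • v = T k v := fun _ _ => rfl
  have d3 : ∀ v, T d (T d (T d v)) = v := fun v => by rw [← g.mul, ← g.mul, mul_assoc, g.d3, g.one]
  have n0 := g.toQF.n0 d3 (g.qT d) g.hf
  have T0 : ∀ k v, v ≠ 0 → T k v ≠ 0 := fun k v n e => n (by
    have := congrArg (T k⁻¹) e
    rwa [← g.mul, inv_mul_cancel, g.one, map_zero] at this)
  have dv : ∀ v, T d v = v → v = 0 := fun v e => by have := g.hf v; rw [e, e] at this; exact lc this
  have cau : ∀ (v : V) (p : ℕ), p.Prime → p ∣ 2661120 → ¬ p ∣ (MulAction.stabilizer Γ v).index →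
      ∃ y : Γ, orderOf y = p ∧ T y v = v := fun v p hp h1 h2 => by
    have := Fact.mk hp
    have c := (MulAction.stabilizer Γ v).card_mul_index
    rw [g.cΓ] at c
    obtain ⟨y, hy⟩ := exists_prime_orderOf_dvd_card' (G := MulAction.stabilizer Γ v) p
      (((Nat.Prime.dvd_mul hp).1 (c ▸ h1)).resolve_right h2)
    exact ⟨y, (orderOf_coe y).trans hy, y.2⟩
  have key : ∀ v, v ≠ 0 → q v = 0 → 231 ∣ (MulAction.stabilizer Γ v).index := fun v n qv => by
    have h3 : 3 ∣ (MulAction.stabilizer Γ v).index := by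
      have : Fact (Nat.Prime 3) := ⟨Nat.prime_three⟩
      have := md (y := d) (r := 3) (by rw [pow_three, g.d3]) (MulAction.orbit Γ v) fun w i => MulAction.mem_orbit_of_mem_orbit d i
      rw [show {w | w ∈ MulAction.orbit Γ v ∧ d • w = w} = ∅ from Set.eq_empty_of_forall_notMem (by
        rintro _ ⟨⟨k, rfl⟩, e⟩; exact T0 k v n (dv _ e)), Set.ncard_empty] at this
      rw [MulAction.index_stabilizer]
      exact (Nat.modEq_zero_iff_dvd).1 this
    have h7 : 7 ∣ (MulAction.stabilizer Γ v).index := by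
      by_contra o
      obtain ⟨y, oy, e⟩ := cau v 7 (by norm_num) (by norm_num) o
      have y7 : y ^ 7 = 1 := oy ▸ pow_orderOf_eq_one y
      have yM : y ∈ M := by
        have := M.sq_mem_of_index_two g.Mi (y ^ 4)
        rwa [← pow_mul, show 4 * 2 = 7 + 1 from rfl, pow_succ, y7, one_mul] at this
      obtain ⟨u, hu⟩ : ∃ u, T y u ≠ u := by
        by_contra w
        push Not at w
        rw [g.fai y w, orderOf_one] at oy
        omega
      refine n ((g.toQF.fpf (ω := T d) (Y := T y) d3 (fun w => ?_) (fun w => ?_) (g.qT d) (g.qT y) (g.hf u) hu v).2 e)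
      · simp only [← g.mul]
        rw [show y * (y * (y * (y * (y * (y * y))))) = y ^ 7 by simp only [pow_succ, pow_zero, one_mul, mul_assoc], y7, g.one]
      · rw [← g.mul, ← g.mul, g.Md y yM]
    have h11 : 11 ∣ (MulAction.stabilizer Γ v).index := by
      by_contra o
      have : Fact (Nat.Prime 11) := ⟨by norm_num⟩
      obtain ⟨y, oy, e⟩ := cau v 11 (by norm_num) (by norm_num) o
      have y11 : y ^ 11 = 1 := oy ▸ pow_orderOf_eq_one y
      let U : AddSubgroup V := (AddMonoidHom.id V + T y).ker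
      have mU : ∀ w, w ∈ U ↔ T y w = w := fun w =>
        ⟨fun i => lc (show w + T y w = 0 from i), fun i => show w + T y w = 0 from lc i⟩
      have a1 := md y11 (Set.univ : Set V) fun _ _ => trivial
      have a2 := md y11 {v : V | v ≠ 0 ∧ q v = 0} fun w i => ⟨T0 y w i.1, (g.qT y w).trans i.2⟩
      rw [Set.ncard_univ, g.card, show {w : V | w ∈ Set.univ ∧ y • w = w} = (U : Set V) from
        Set.ext fun w => ⟨fun i => (mU w).2 i.2, fun i => ⟨trivial, (mU w).1 i⟩⟩] at a1
      rw [n0] at a2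
      have a3 : {w | w ∈ {v : V | v ≠ 0 ∧ q v = 0} ∧ y • w = w}.ncard ≤ (U : Set V).ncard :=
        Set.ncard_le_ncard (fun w i => (mU w).2 i.2) (Set.toFinite _)
      have a4 : 0 < {w | w ∈ {v : V | v ≠ 0 ∧ q v = 0} ∧ y • w = w}.ncard :=
        (Set.ncard_pos (Set.toFinite _)).2 ⟨v, ⟨n, qv⟩, e⟩
      have a5 : Nat.card U ∣ 2 ^ 12 := (AddSubgroup.card_addSubgroup_dvd_card U).trans (by rw [g.card]; norm_num)
      have a6 : Nat.card U ≠ 4096 := fun c => by
        rw [g.fai y fun w => (mU w).1 ((AddSubgroup.eq_top_of_card_eq U (c.trans g.card.symm)).symm ▸ AddSubgroup.mem_top w),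
          orderOf_one] at oy
        omega
      rw [← Nat.card_coe_set_eq (U : Set V)] at a1 a3
      obtain ⟨k, hk, ek⟩ := (Nat.dvd_prime_pow Nat.prime_two).1 a5
      change 4096 ≡ Nat.card U [MOD 11] at a1
      change _ ≤ Nat.card U at a3
      rw [ek] at a1 a3 a6
      unfold Nat.ModEq at a1 a2
      interval_cases k <;> omega
    exact Nat.Coprime.mul_dvd_of_dvd_of_dvd (m := 21) (n := 11) (by norm_num)
      (Nat.Coprime.mul_dvd_of_dvd_of_dvd (m := 3) (n := 7) (by norm_num) h3 h7) h11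
  by_cases v0 : v = 0
  · exact ⟨1, by rw [v0, map_zero]; exact zero_mem B⟩
  by_contra o
  push Not at o
  have h8 : 8 ∣ (MulAction.stabilizer Γ v).index := by
    by_contra w
    have c := (MulAction.stabilizer Γ v).card_mul_index
    rw [g.cΓ] at c
    have c64 : 2 ^ 6 ∣ Nat.card (MulAction.stabilizer Γ v) := by
      obtain ⟨k1, k2, e1, e2, e3⟩ := Nat.dvd_mul.1 (c ▸ (by norm_num : 2 ^ 8 ∣ 2661120))
      obtain ⟨j, hj, rfl⟩ := (Nat.dvd_prime_pow Nat.prime_two).1 (Dvd.intro_left k1 e3)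
      have j2 : j ≤ 2 := by
        by_contra j3
        exact w ((pow_dvd_pow 2 (show 3 ≤ j by omega)).trans e2)
      refine Dvd.dvd.trans ?_ e1
      interval_cases j <;> omega
    obtain ⟨P, hP⟩ := sylow_exists Nat.prime_two (MulAction.stabilizer Γ v)
    obtain ⟨S, hS, YS⟩ := sylow_superset Nat.prime_two (pg_of_card (n := 4) x.cY) le_top
    obtain ⟨k, -, l⟩ := sylow_subJ Nat.prime_two hS (hP.pg Nat.prime_two) le_top
    have cP := Nat.le_of_dvd Nat.card_pos (hP.pow_dvd Nat.prime_two c64)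
    have cS : Nat.card (cj k S) ≤ 256 := by
      obtain ⟨n, hn⟩ := pg_card Nat.prime_two (hS.pg Nat.prime_two)
      have dS := card_subgroup_dvd_card S
      rw [g.cΓ, hn] at dS
      rw [BG.card_cj, hn]
      refine Nat.pow_le_pow_right (i := n) (j := 8) two_pos ?_
      by_contra n9
      exact absurd ((pow_dvd_pow 2 (show 9 ≤ n by omega)).trans dS) (by norm_num)
    have r1 := card_mul_relIndex l
    have r2 := relIndex_le_of_le_right (H := P) (cj_mono k YS) (fun e => by
      rw [e, mul_zero] at r1; exact Nat.card_pos.ne r1)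
    have r3 := card_inf_mul_relIndex P (cj k Y)
    rw [BG.card_cj, x.cY] at r3
    have r4 : P.relIndex (cj k S) ≤ 4 := by nlinarith
    have r5 : 2 < Nat.card ↥(P ⊓ cj k Y) := by nlinarith
    have three : ∀ w : Γ, ∃ r ∈ P ⊓ cj k Y, r ≠ 1 ∧ r ≠ w := fun w => by
      by_contra o
      push Not at o
      have h1 : ((P ⊓ cj k Y : Subgroup Γ) : Set Γ) ⊆ {1, w} := fun y hy => (em' (y = 1)).elim (fun e => .inr (o y hy e)) .inl
      have h2 := Set.ncard_le_ncard h1 (Set.toFinite _)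
      have h3 := Set.ncard_insert_le (1 : Γ) {w}
      rw [Set.ncard_singleton] at h3
      rw [← Nat.card_coe_set_eq] at h2
      exact absurd (h2.trans h3) (not_le.2 r5)
    obtain ⟨y, ⟨yP, yY⟩, y1, -⟩ := three 1
    obtain ⟨y', ⟨yP', yY'⟩, y1', yy⟩ := three y
    obtain ⟨u, uY, rfl⟩ := mem_cj'.1 yY
    obtain ⟨u', uY', rfl⟩ := mem_cj'.1 yY'
    have fx : ∀ u, k * u * k⁻¹ ∈ P → T u (T k⁻¹ v) = T k⁻¹ v := fun u i => by
      have e : T (k * u * k⁻¹) v = v := hP.le i
      conv_rhs => rw [← e]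
      rw [← g.mul, ← g.mul, show k⁻¹ * (k * u * k⁻¹) = u * k⁻¹ by group]
    exact o k⁻¹ (pi.two u uY u' uY' (fun e => y1 (by rw [e]; group)) (fun e => y1' (by rw [e]; group))
      (fun e => yy (by rw [e])) _ (fx u yP) (fx u' yP'))
  have pos : ∀ w : V, (MulAction.stabilizer Γ w).index ≠ 0 := fun w => index_ne_zero_of_finite
  have l1 := Nat.le_of_dvd (Nat.pos_of_ne_zero (pos v))
    (Nat.Coprime.mul_dvd_of_dvd_of_dvd (m := 8) (n := 231) (by norm_num) h8 (key v v0 qv))
  have l2 := Nat.le_of_dvd (Nat.pos_of_ne_zero (pos a)) (key a a0 (pj.qB a aB))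
  have l3 := Nat.le_of_dvd (Nat.pos_of_ne_zero (pos b)) (key b b0 (pj.qB b bB))
  rw [MulAction.index_stabilizer] at l1 l2 l3
  have sub : ∀ w, w ≠ 0 → q w = 0 → MulAction.orbit Γ w ⊆ {v : V | v ≠ 0 ∧ q v = 0} := by
    rintro w n e _ ⟨k, rfl⟩
    exact ⟨T0 k w n, (g.qT k w).trans e⟩
  have dj : ∀ w w' : V, (∀ k, T k w ≠ w') → Disjoint (MulAction.orbit Γ w) (MulAction.orbit Γ w') := fun w w' n =>
    Set.disjoint_left.2 (by
      rintro _ ⟨k, rfl⟩ ⟨k', e⟩
      exact n (k'⁻¹ * k) (by rw [g.mul, show T k w = T k' w' from e.symm, ← g.mul, inv_mul_cancel, g.one]))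
  have l4 := Set.ncard_le_ncard (Set.union_subset (sub v v0 qv) (Set.union_subset (sub a a0 (pj.qB a aB))
    (sub b b0 (pj.qB b bB)))) (Set.toFinite _)
  rw [n0, Set.ncard_union_eq (Set.disjoint_union_right.2 ⟨dj v a fun k e => o k (e ▸ aB), dj v b fun k e => o k (e ▸ bB)⟩),
    Set.ncard_union_eq (dj a b ab)] at l4
  omega

end H12.YM
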