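import Mathlib
import Cfsg.Agent.H23.Y0
import Cfsg.Agent.H12.KC
import Cfsg.Agent.H28.YC

/-! Part Pa of S5569, from the linear lemma `Key`. -/

set_option autoImplicit false
set_option linter.unusedSectionVars false
open Cfsg BG Subgroup H01.XS H01.XF Cfsg.Agent.H06.J Cfsg.Agent.H23.K Cfsg.Agent.H23.Y H12.KC
open H01.XT hiding Hy QS

namespace H12.YPa
universe u

def Key : Prop := ∀ {V : Type u} [AddCommGroup V] [Module (ZMod 2) V] [Finite V] {Γ : Type u} [Group Γ] [Finite Γ]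
  {T : Γ → V →+ V} {d : Γ} {M K Y : Subgroup Γ} {β : V →+ V →+ ZMod 2} {q : V → ZMod 2} {B : AddSubgroup V} {y : Γ} {v0 : V},
  Gj T d M β q → Hx d K Y → K ≤ M → Pj T d K Y q B → Pi T Y B → y ∈ Y → y ≠ 1 →
  (∀ y ∈ Y, y ≠ 1 → {v | T y v = v}.ncard = 256) → T y v0 = v0 → v0 ∉ B →
  ∀ b ∈ B, β v0 b = 0 → ∃ y1 ∈ Y, ∃ v, b = (v0 + T y1 v0) + (v + T y v)

theorem pa (key : Key.{u}) : PaStmt.{u} := by
  intro G _ _ z Q V _ _ _ Γ _ _ f π ν T d M β q s K Y B A δ x h hc t tz t2 tY tQ tA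
  have l := s.md.lx
  have hx := x.hk.hx
  have zQ : z ∈ Q := l.aes.mem
  have mul := H26.JE.mul s
  have inv := H26.JE.inv s
  have π1 : ∀ r ∈ Q, π r = 1 := fun r i => (s.ker r (l.le i)).2 i
  have BA : s.md.pull B ≤ A := h.e3 ▸ inf_le_left
  have zA : z ∈ A := BA ⟨zQ, s.md.zz ▸ zero_mem B⟩
  have Ac : ∀ a ∈ A, ∀ b ∈ A, a * b = b * a := fun a i b j => by
    rw [← mul_eq_one_iff_inv_eq.1 (x.A2 _ (mul_mem i j)), mul_inv_rev, mul_eq_one_iff_inv_eq.1 (x.A2 _ i),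
      mul_eq_one_iff_inv_eq.1 (x.A2 _ j)]
  have y1 : π t ≠ 1 := fun e => tQ ((s.ker t tz).1 e)
  obtain ⟨c, cA, cδ, cπ⟩ := h.YA _ tY
  have cz := x.Az cA
  obtain ⟨r, hr⟩ : ∃ r, r = c * t := ⟨_, rfl⟩
  have et : t = c * r := by rw [hr, ← mul_assoc, x.A2 c cA, one_mul]
  have rQ : r ∈ Q := hr ▸ (s.ker _ (mul_mem cz tz)).1 (by rw [mul _ cz _ tz, cπ, hx.Y2 _ tY])
  have ci : c⁻¹ = c := mul_eq_one_iff_inv_eq.1 (x.A2 c cA)
  have fx : T (π t) (ν r) = ν r := by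
    have e : c * r * c⁻¹ = r⁻¹ := by rw [ci, eq_inv_iff_mul_eq_one, mul_assoc, ← et, t2]
    rw [← cπ, s.act c cz r rQ, e, s.md.inv rQ]
  have cr : c * r = r * c := mul_inv_eq_iff_eq_mul.1 (h.cz c cz cδ r rQ (cπ ▸ fx))
  have rB : ν r ∉ B := fun o => tA (et ▸ mul_mem cA (BA ⟨rQ, o⟩))
  have ct : c ∈ C_[t] := mem_cent1.2 (by rw [et, mul_assoc, ← cr])
  have cB : c ∉ s.md.pull B := fun o => y1 (cπ ▸ π1 c o.1)
  have ar : ∀ a ∈ A, a ∈ C_[t] ↔ a * r = r * a := fun a i => mem_cent1.trans (by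
    rw [et, ← mul_assoc, Ac a i c cA, mul_assoc, mul_assoc, mul_right_inj])
  have βB : ∀ u ∈ B, ∀ v ∈ B, β u v = 0 := fun u i v j => by
    have := s.gm.pol u v
    rw [x.pj.qB _ (add_mem i j), x.pj.qB u i, x.pj.qB v j, zero_add, zero_add] at this
    exact this.symm
  have mP : ∀ w ∈ s.md.pull B, w ∈ C_[t] ↔ β (ν r) (ν w) = 0 := fun w i =>
    (ar w (BA i)).trans ⟨fun e => (s.b r rQ w i.1).2 e.symm, fun e => ((s.b r rQ w i.1).1 e).eq.symm⟩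
  have two : ∀ a ∈ A ⊓ C_[t], a ∉ s.md.pull B → π a = π t := fun a i n => by
    by_contra o
    refine rB (x.pi.two _ (x.AY a i.1) _ tY (fun e => n (h.e3 ▸ ⟨i.1, (s.ker a (x.Az i.1)).1 e⟩)) y1 o _ ?_ fx)
    rw [s.act a (x.Az i.1) r rQ, (ar a i.1).1 i.2, mul_inv_cancel_right]
  have c64 : Nat.card ↥(s.md.pull B ⊓ C_[t]) = 64 := by
    obtain ⟨b, bB, nb⟩ : ∃ b ∈ B, β (ν r) b ≠ 0 := by
      by_contra o
      push Not at o
      exact rB (s.gm.toQF.perp βB (by rw [x.pj.cB]; norm_num) o)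
    obtain ⟨p, pQ, rfl⟩ := s.md.sur b
    have a1 := card_inf_mul_relIndex C_[t] (s.md.pull B)
    have a2 : C_[t].relIndex (s.md.pull B) = 2 := relIndex_eq_two_iff.2 ⟨p, ⟨pQ, bB⟩, fun w i => by
      rw [mP w i, mP _ (mul_mem i ⟨pQ, bB⟩), s.md.mul _ i.1 _ pQ, map_add, (z2 _).resolve_left nb]
      rcases z2 (β (ν r) (ν w)) with e | e <;> rw [e] <;> simp [Xor'] <;> decide⟩
    rw [a2, s.md.card_pull, x.pj.cB, inf_comm] at a1
    omega
  have QN : ∀ r ∈ Q, r ∈ N_(A) := fun r i => (h.mN r (l.le i)).2 fun v j => by rw [π1 r i, s.gm.one]; exact j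
  have cq : ∀ p ∈ Q, ∀ e ∈ Q, ν (c * (p * (c * e) * p⁻¹)) = ν e + (ν p + T (π t) (ν p)) := fun p i e j => by
    rw [show c * (p * (c * e) * p⁻¹) = c * p * c⁻¹ * (c * c) * e * p⁻¹ by group, x.A2 c cA, mul_one,
      s.md.mul _ (mul_mem (l.cE cz i) j) _ (inv_mem i), s.md.mul _ (l.cE cz i) _ j, ← s.act _ cz p i, s.md.inv i, cπ]
    exact lc0
  have cqQ : ∀ p ∈ Q, ∀ e ∈ Q, c * (p * (c * e) * p⁻¹) ∈ Q := fun p i e j => by
    rw [show c * (p * (c * e) * p⁻¹) = c * p * c⁻¹ * (c * c) * e * p⁻¹ by group, x.A2 c cA, mul_one]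
    exact mul_mem (mul_mem (l.cE cz i) j) (inv_mem i)
  refine ⟨?_, c64, fun w i => ?_, fun a i n => ?_, c, cA, cδ, cB, fun c' hc' => ?_⟩
  · have a1 := card_inf_mul_relIndex (s.md.pull B) (A ⊓ C_[t])
    have a2 : (s.md.pull B).relIndex (A ⊓ C_[t]) = 2 := relIndex_eq_two_iff.2 ⟨c, ⟨cA, ct⟩, fun a i => by
      by_cases o : a ∈ s.md.pull B
      · exact .inr ⟨o, fun w => cB ((mul_mem_cancel_left o).1 w)⟩
      · refine .inl ⟨h.e3 ▸ ⟨mul_mem i.1 cA, (s.ker _ (x.Az (mul_mem i.1 cA))).1 ?_⟩, o⟩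
        rw [mul _ (x.Az i.1) _ cz, two a i o, cπ, hx.Y2 _ tY]⟩
    rw [a2, ← inf_assoc, inf_eq_left.2 BA, c64] at a1
    omega
  · obtain ⟨y, yY, v, e⟩ := key s.gm hx x.hk.KM x.pj x.pi tY y1 hc fx rB _ i.1.2 ((mP w i.1).1 i.2)
    obtain ⟨a, aA, -, rfl⟩ := h.YA y yY
    obtain ⟨p, pQ, rfl⟩ := s.md.sur v
    have az := x.Az aA
    have e1 : a * t * a⁻¹ = c * (a * r * a⁻¹) := by rw [et, ← mul_assoc a, Ac a aA c cA]; group
    have e2 : ν (c * (p * (c * (a * r * a⁻¹)) * p⁻¹)) = ν (r * w) := by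
      rw [cq p pQ _ (l.cE az rQ), ← s.act a az r rQ, s.md.mul _ rQ _ i.1.1, e]; exact lc0
    have e3 : p * a * t * (p * a)⁻¹ = p * (c * (a * r * a⁻¹)) * p⁻¹ := by rw [← e1]; group
    have e4 : t * w = c * (r * w) := by rw [et, mul_assoc]
    have aN : p * a ∈ N_(A) := mul_mem (QN p pQ) (le_norm A aA)
    have cc : ∀ g, g = c * (c * g) := fun g => by rw [← mul_assoc, x.A2 c cA, one_mul]
    rcases s.md.eq (cqQ p pQ _ (l.cE az rQ)) (mul_mem rQ i.1.1) e2 with o | o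
    · exact ⟨p * a, aN, by rw [e3, e4, ← o]; exact cc _⟩
    · obtain ⟨v, ev, nv⟩ : ∃ v, T (π t) v = v ∧ β v (ν r) ≠ 0 := by
        by_contra o
        push Not at o
        obtain ⟨v, ev⟩ := mW.1 (perpW s.gm.toQF (s.gm.qT _) (hc _ tY y1) o)
        exact rB (ev ▸ x.pj.cm _ tY v)
      obtain ⟨k, kQ, rfl⟩ := s.md.sur v
      have e5 := mul_inv_eq_iff_eq_mul.1 (h.cz _ cz cδ k kQ (cπ ▸ ev))
      have e6 := (l.cm kQ rQ).resolve_left fun o => nv ((s.b k kQ _ rQ).2 o)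
      have e7 : k * t * k⁻¹ = z * t := by
        rw [mul_inv_eq_iff_eq_mul, et, ← mul_assoc, ← e5, mul_assoc, e6, ← mul_assoc, ← mul_assoc, mem_cent1.1 cz]; group
      have pz := mem_cent1.1 (mul_mem (l.le pQ) az)
      refine ⟨p * a * k, mul_mem aN (QN k kQ), ?_⟩
      rw [show p * a * k * t * (p * a * k)⁻¹ = p * a * (k * t * k⁻¹) * (p * a)⁻¹ by group, e7, ← mul_assoc (p * a), pz,
        mul_assoc z, mul_assoc z, e3, e4, cc (p * _ * p⁻¹), o, ← mul_assoc c, mem_cent1.1 cz, mul_assoc z, ← mul_assoc z,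
        l.zz, one_mul]
  · exact (s.ker _ (mul_mem tz (x.Az i.1))).1 (by rw [mul _ tz _ (x.Az i.1), two a i n, hx.Y2 _ tY])
  · obtain ⟨e, eQ, e0, eA, rfl⟩ : ∃ e ∈ Q, ν e = 0 ∧ e ∈ A ∧ c' = c * e := by
      rcases hc' with o | o
      exacts [⟨1, one_mem _, s.md.one, one_mem _, by rw [o, mul_one]⟩, ⟨z, zQ, s.md.zz, zA, o⟩]
    rw [← cW s.gm.toQF (hc _ tY y1)]
    refine (Nat.card_coe_set_eq (W (T (π t)) : Set V)).le.trans
      ((Set.ncard_le_ncard (t := (fun g => ν (c * g)) '' _) ?_ (Set.toFinite _)).trans (Set.ncard_image_le (Set.toFinite _)))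
    rintro _ ⟨v, rfl⟩
    obtain ⟨p, pQ, rfl⟩ := s.md.sur v
    have e1 := cq p pQ e eQ
    rw [e0, zero_add] at e1
    refine ⟨p * (c * e) * p⁻¹, ⟨?_, p, pQ, rfl⟩, e1⟩
    have m : c * (p * (c * e) * p⁻¹) ∈ s.md.pull B := ⟨cqQ p pQ e eQ, e1 ▸ x.pj.cm _ tY _⟩
    have m2 : c * (p * (c * e) * p⁻¹) ∈ C_[t] := (mP _ m).2 (by
      have := s.gm.toQF.inv (s.gm.qT (π t)) (ν r) (ν p)
      rw [fx] at this
      rw [e1, map_add, this]
      exact CharTwo.add_self_eq_zero _)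
    exact (mem_cent1.1 ((mul_mem_cancel_left ct).1 m2)).symm

theorem key : Key.{u} := by
  intro V _ _ _ Γ _ _ T d M K Y β q B y u g hx KM pj pi yY y1 hc fx uB b bB ub
  obtain ⟨y2, y2Y, n⟩ := H28.YC.cx g hx KM pj pi hc yY y1 fx uB
  have βB : ∀ u ∈ B, ∀ v ∈ B, β u v = 0 := fun u i v j => by
    have := g.pol u v
    rw [pj.qB _ (add_mem i j), pj.qB u i, pj.qB v j, zero_add, zero_add] at this
    exact this.symm
  have l : ex (W (T y)) (u + T y2 u) ≤ B ⊓ (β u).ker := ex_le (by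
    rintro _ ⟨v, rfl⟩
    refine ⟨pj.cm y yY v, show β u (v + T y v) = 0 from ?_⟩
    have := g.toQF.inv (g.qT y) u v
    rw [fx] at this
    rw [map_add, this]
    exact CharTwo.add_self_eq_zero _) ⟨pj.cm y2 y2Y u, show β u (u + T y2 u) = 0 from by
      have := g.pol u (T y2 u)
      rw [pj.qB _ (pj.cm y2 y2Y u), g.qT, CharTwo.add_self_eq_zero, zero_add] at this
      rw [map_add, g.toQF.alt, zero_add, ← this]⟩
  have a1 := card_ex (U := W (T y)) (v := u + T y2 u) n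
  rw [cW g.toQF (hc y yY y1)] at a1
  have a2 : 2 * Nat.card ↥(B ⊓ (β u).ker) ≤ Nat.card B := by
    obtain ⟨w, wB, nw⟩ : ∃ w ∈ B, β u w ≠ 0 := by
      by_contra o
      push Not at o
      exact uB (g.toQF.perp βB (by rw [pj.cB]; norm_num) o)
    exact grow inf_le_left wB fun o => nw o.2
  rw [pj.cB] at a2
  have e := AddSubgroup.eq_of_le_of_card_ge l (by omega)
  have m : b ∈ ex (W (T y)) (u + T y2 u) := e.symm ▸ ⟨bB, ub⟩
  rcases m with ⟨v, ev⟩ | ⟨v, ev⟩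
  · exact ⟨1, one_mem _, v, by rw [g.one]; exact lc (show v + T y v = b from ev)⟩
  · exact ⟨y2, y2Y, v, lc (show v + T y v = b + (u + T y2 u) from ev)⟩

theorem pa' : PaStmt.{u} := pa key

end H12.YPa
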